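import Cfsg.Agent.Lib.Forms.TICount

/-!
Divisibility of the numbers of subspaces, complementary pairs and flags over a finite field.
-/

set_option autoImplicit false

namespace Cfsg.Agent.Lib.Elusive

open Module

variable (F : Type*) {V : Type*} [Field F] [Finite F] [AddCommGroup V] [Module F V] [FiniteDimensional F V]

theorem card_sub_mul (V : Type*) [AddCommGroup V] [Module F V] [FiniteDimensional F V] {k : ℕ}
    (hk : k ≤ finrank F V) :
    Nat.card {W : Submodule F V // finrank F W = k} *
        ∏ i : Fin k, (Nat.card F ^ k - Nat.card F ^ (i : ℕ)) =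
      ∏ i : Fin k, (Nat.card F ^ finrank F V - Nat.card F ^ (i : ℕ)) := by
  haveI : Finite V := Module.finite_of_finite F
  haveI := Fintype.ofFinite V
  haveI := Fintype.ofFinite F
  have h := Cfsg.Agent.Lib.Forms.card_ti_mul (F := F) (V := V) (h := fun _ _ => (0 : F))
    (fun _ _ _ _ _ _ => rfl) k
  rw [Nat.card_congr (α := {W : Submodule F V // finrank F W = k})
    (Equiv.subtypeEquivRight fun W => ⟨fun h => ⟨h, fun _ _ _ _ => rfl⟩, And.left⟩), h, Nat.card_eq_fintype_card (α := F),
    ← show Nat.card {s : Fin k → V // LinearIndependent F s} = _ from card_linearIndependent hk]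
  · exact Nat.card_congr (Equiv.subtypeEquivRight fun _ => ⟨And.left, fun h => ⟨h, fun _ _ => rfl⟩⟩)

theorem pow_sub_pow {q n : ℕ} {i : ℕ} (hi : i ≤ n) : q ^ n - q ^ i = q ^ i * (q ^ (n - i) - 1) := by
  rw [Nat.mul_sub, mul_one, ← pow_add, Nat.add_sub_cancel' hi]

variable {F} {r p : ℕ} [Fact r.Prime] [Fact p.Prime] [CharP F p]

theorem card_sub_not_dvd_char {k : ℕ} (hk : k ≤ finrank F V) :
    ¬ p ∣ Nat.card {W : Submodule F V // finrank F W = k} := by
  intro hd
  haveI := Fintype.ofFinite F
  obtain ⟨f, -, hf⟩ := FiniteField.card F p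
  have hq : 0 < Nat.card F := Nat.card_pos
  have h := card_sub_mul F V hk
  rw [Finset.prod_congr rfl fun (i : Fin k) _ => pow_sub_pow (q := Nat.card F) (n := k) i.2.le,
    Finset.prod_congr rfl fun (i : Fin k) _ => pow_sub_pow (q := Nat.card F) (i.2.le.trans hk),
    Finset.prod_mul_distrib, Finset.prod_mul_distrib, mul_left_comm] at h
  have h' := Nat.eq_of_mul_eq_mul_left (Finset.prod_pos fun (i : Fin k) _ => pow_pos hq (i : ℕ)) h
  have hp : p ∣ ∏ i : Fin k, (Nat.card F ^ (finrank F V - i) - 1) := h' ▸ hd.mul_right _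
  obtain ⟨i, -, hi⟩ := (Prime.dvd_finsetProd_iff (Nat.prime_iff.1 Fact.out) _).1 hp
  have hpp : p ∣ Nat.card F ^ (finrank F V - i) := by
    refine dvd_pow ?_ (by have := i.2; omega)
    rw [Nat.card_eq_fintype_card, hf]
    exact dvd_pow_self p f.ne_zero
  have h1 := Nat.dvd_sub hpp hi
  rw [Nat.sub_sub_self (Nat.one_le_pow _ _ hq)] at h1
  exact (Fact.out : p.Prime).not_dvd_one h1

theorem card_sub_dvd (hrp : r ≠ p) {k : ℕ} (hk : k ≤ finrank F V)
    (hd : r ∣ Nat.card {W : Submodule F V // finrank F W = k}) :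
    ∃ j < k, orderOf (Nat.card F : ZMod r) ∣ finrank F V - j := by
  haveI := Fintype.ofFinite F
  obtain ⟨f, -, hf⟩ := FiniteField.card F p
  have hd' := card_sub_mul F V hk ▸ hd.mul_right _
  obtain ⟨i, -, hi⟩ := (Prime.dvd_finsetProd_iff (Nat.prime_iff.1 Fact.out) _).1 hd'
  rw [pow_sub_pow (i.2.le.trans hk)] at hi
  rcases (Fact.out : r.Prime).dvd_mul.1 hi with h | h
  · rw [Nat.card_eq_fintype_card, hf] at h
    exact absurd ((Nat.prime_dvd_prime_iff_eq Fact.out Fact.out).1
      ((Fact.out : r.Prime).dvd_of_dvd_pow ((Fact.out : r.Prime).dvd_of_dvd_pow h))) hrp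
  · refine ⟨i, i.2, orderOf_dvd_of_pow_eq_one ?_⟩
    rw [← ZMod.natCast_eq_zero_iff, Nat.cast_sub (Nat.one_le_pow _ _ Nat.card_pos), sub_eq_zero,
      Nat.cast_pow, Nat.cast_one] at h
    exact h

theorem card_compl (U : Submodule F V) :
    Nat.card {W : Submodule F V // IsCompl U W} =
      Nat.card F ^ (finrank F U * (finrank F V - finrank F U)) := by
  obtain ⟨W₀, hW₀⟩ := Submodule.exists_isCompl U
  let e : {f : V →ₗ[F] U // ∀ x : U, f x = x} ≃ (W₀ →ₗ[F] U) :=
    { toFun := fun f => f.1.comp W₀.subtype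
      invFun := fun g => ⟨LinearMap.ofIsCompl hW₀ LinearMap.id g, fun x =>
        LinearMap.ofIsCompl_left_apply hW₀ x⟩
      left_inv := fun f => Subtype.ext (LinearMap.ofIsCompl_eq hW₀
        (fun u => (f.2 u).symm) (fun _ => rfl))
      right_inv := fun g => LinearMap.ext fun x => LinearMap.ofIsCompl_right_apply hW₀ x }
  haveI := Fintype.ofFinite F
  rw [Nat.card_congr ((Submodule.isComplEquivProj U).trans e), Module.natCard_eq_pow_finrank (K := F),
    Module.finrank_linearMap]
  have := Submodule.finrank_add_eq_of_isCompl hW₀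
  rw [mul_comm, show finrank F W₀ = finrank F V - finrank F U by omega]

theorem card_pairs (k : ℕ) :
    Nat.card {P : Submodule F V × Submodule F V // IsCompl P.1 P.2 ∧ finrank F P.1 = k} =
      Nat.card {W : Submodule F V // finrank F W = k} * Nat.card F ^ (k * (finrank F V - k)) := by
  haveI : Finite V := Module.finite_of_finite F
  haveI := Fintype.ofFinite {W : Submodule F V // finrank F W = k}
  rw [Nat.card_congr (β := Σ U : {W : Submodule F V // finrank F W = k},
      {W : Submodule F V // IsCompl U.1 W})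
    { toFun := fun P => ⟨⟨P.1.1, P.2.2⟩, P.1.2, P.2.1⟩
      invFun := fun s => ⟨(s.1.1, s.2.1), s.2.2, s.1.2⟩
      left_inv := fun _ => rfl
      right_inv := fun _ => rfl }, Nat.card_sigma,
    Finset.sum_congr rfl fun U _ => by rw [card_compl, U.2], Finset.sum_const, Finset.card_univ,
    ← Nat.card_eq_fintype_card, smul_eq_mul]

theorem card_sub_symm {k : ℕ} (hk : k ≤ finrank F V) :
    Nat.card {W : Submodule F V // finrank F W = finrank F V - k} =
      Nat.card {W : Submodule F V // finrank F W = k} := by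
  have h : Nat.card {P : Submodule F V × Submodule F V // IsCompl P.1 P.2 ∧ finrank F P.1 = k} =
      Nat.card {P : Submodule F V × Submodule F V //
        IsCompl P.1 P.2 ∧ finrank F P.1 = finrank F V - k} :=
    Nat.card_congr (Equiv.subtypeEquiv (Equiv.prodComm _ _) fun P => by
      constructor
      · rintro ⟨h, hd⟩
        have := Submodule.finrank_add_eq_of_isCompl h
        exact ⟨h.symm, show finrank F P.2 = _ by omega⟩
      · rintro ⟨h, hd⟩
        have : finrank F P.2 + finrank F P.1 = finrank F V := Submodule.finrank_add_eq_of_isCompl h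
        change finrank F P.2 = _ at hd
        exact ⟨h.symm, show finrank F P.1 = _ by omega⟩)
  rw [card_pairs, card_pairs, Nat.sub_sub_self hk, mul_comm (finrank F V - k) k] at h
  exact (Nat.eq_of_mul_eq_mul_right (pow_pos Nat.card_pos _) h).symm

theorem card_flags (m l : ℕ) :
    Nat.card {P : Submodule F V × Submodule F V //
      P.1 ≤ P.2 ∧ finrank F P.1 = m ∧ finrank F P.2 = l} =
      Nat.card {W : Submodule F V // finrank F W = l} *
        Nat.card {W : Submodule F (Fin l → F) // finrank F W = m} := by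
  haveI : Finite V := Module.finite_of_finite F
  haveI := Fintype.ofFinite {W : Submodule F V // finrank F W = l}
  rw [Nat.card_congr (β := Σ W : {W : Submodule F V // finrank F W = l},
      {U : {U : Submodule F V // U ≤ W.1} // finrank F U.1 = m})
    { toFun := fun P => ⟨⟨P.1.2, P.2.2.2⟩, ⟨P.1.1, P.2.1⟩, P.2.2.1⟩
      invFun := fun s => ⟨(s.2.1.1, s.1.1), s.2.1.2, s.2.2, s.1.2⟩
      left_inv := fun _ => rfl
      right_inv := fun _ => rfl }, Nat.card_sigma, Finset.sum_congr rfl fun W _ => ?_,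
    Finset.sum_const, Finset.card_univ, ← Nat.card_eq_fintype_card, smul_eq_mul]
  let e : (W.1 : Submodule F V) ≃ₗ[F] (Fin l → F) :=
    LinearEquiv.ofFinrankEq _ _ (by rw [W.2, finrank_fin_fun])
  refine (Nat.card_congr (Equiv.subtypeEquiv
    ((Submodule.MapSubtype.orderIso W.1).toEquiv.symm.trans (Submodule.orderIsoMapComap e).toEquiv)
    fun U => ?_)).trans rfl
  have h : finrank F ((Submodule.MapSubtype.orderIso W.1).symm U : Submodule F W.1) = finrank F U.1 := by
    conv_rhs => rw [← (Submodule.MapSubtype.orderIso W.1).apply_symm_apply U]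
    exact (Submodule.finrank_map_subtype_eq _ _).symm
  rw [← h]
  simp only [Equiv.trans_apply]
  exact Eq.congr_left (LinearEquiv.finrank_map_eq e _).symm

theorem card_flags_dvd (hrp : r ≠ p) {m : ℕ} (hm : 2 * m ≤ finrank F V)
    (hd : r ∣ Nat.card {P : Submodule F V × Submodule F V //
      P.1 ≤ P.2 ∧ finrank F P.1 = m ∧ finrank F P.2 = finrank F V - m}) :
    ∃ j < m + m, orderOf (Nat.card F : ZMod r) ∣ finrank F V - j := by
  rw [card_flags, card_sub_symm (by omega)] at hd
  rcases (Fact.out : r.Prime).dvd_mul.1 hd with h | h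
  · obtain ⟨j, hj, h⟩ := card_sub_dvd hrp (by omega) h
    exact ⟨j, by omega, h⟩
  · obtain ⟨j, hj, h⟩ := card_sub_dvd hrp (by rw [finrank_fin_fun]; omega) h
    rw [finrank_fin_fun, Nat.sub_sub] at h
    exact ⟨m + j, by omega, h⟩

theorem card_flags_not_dvd_char {m : ℕ} (hm : 2 * m ≤ finrank F V) :
    ¬ p ∣ Nat.card {P : Submodule F V × Submodule F V //
      P.1 ≤ P.2 ∧ finrank F P.1 = m ∧ finrank F P.2 = finrank F V - m} := by
  rw [card_flags, (Fact.out : p.Prime).dvd_mul]
  rintro (h | h)
  · exact card_sub_not_dvd_char (Nat.sub_le _ _) h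
  · exact card_sub_not_dvd_char (by rw [finrank_fin_fun]; omega) h

theorem card_pairs_dvd (hrp : r ≠ p) {m : ℕ} (hm : m ≤ finrank F V)
    (hd : r ∣ Nat.card {P : Submodule F V × Submodule F V // IsCompl P.1 P.2 ∧ finrank F P.1 = m}) :
    ∃ j < m, orderOf (Nat.card F : ZMod r) ∣ finrank F V - j := by
  haveI := Fintype.ofFinite F
  obtain ⟨f, -, hf⟩ := FiniteField.card F p
  rw [card_pairs] at hd
  rcases (Fact.out : r.Prime).dvd_mul.1 hd with h | h
  · exact card_sub_dvd hrp hm h
  · rw [Nat.card_eq_fintype_card, hf] at h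
    exact absurd ((Nat.prime_dvd_prime_iff_eq Fact.out Fact.out).1
      ((Fact.out : r.Prime).dvd_of_dvd_pow ((Fact.out : r.Prime).dvd_of_dvd_pow h))) hrp

end Cfsg.Agent.Lib.Elusive
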