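import Cfsg.Agent.Lib.Elusive.Models

/-!
When does every element of prime order `r ≠ p` fix subspaces of given dimensions?
-/

set_option autoImplicit false

namespace Cfsg.Agent.Lib.Elusive

open Module

variable {F : Type*} [Field F] [Fintype F] [DecidableEq F] {p : ℕ} [Fact p.Prime] [CharP F p]
  {n m m₂ r : ℕ} [Fact r.Prime]

theorem sl_pow_eq_smul_iff {A : Matrix.SpecialLinearGroup (Fin n) F} {c : F} :
    ((A ^ r : Matrix.SpecialLinearGroup (Fin n) F) : Matrix (Fin n) (Fin n) F) = c • (1 : Matrix (Fin n) (Fin n) F) ↔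
      ∀ v, ((Matrix.toLin' (A : Matrix (Fin n) (Fin n) F)) ^ r) v = c • v := by
  rw [← Matrix.toLin'.injective.eq_iff, Matrix.SpecialLinearGroup.coe_pow, Matrix.toLin'_pow,
    map_smul, Matrix.toLin'_one, LinearMap.ext_iff]
  rfl

theorem sl_eq_smul {A : Matrix.SpecialLinearGroup (Fin n) F} {d : F}
    (h : (A : Matrix (Fin n) (Fin n) F) = d • (1 : Matrix (Fin n) (Fin n) F)) :
    ∀ v, Matrix.toLin' (A : Matrix (Fin n) (Fin n) F) v = d • v := by
  intro v
  rw [h, map_smul, Matrix.toLin'_one]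
  rfl

/-- The numerical criterion. -/
def Cond (q n m m₂ r : ℕ) : Prop :=
  (orderOf (q : ZMod r) = 1 ∧
      (r ∣ m ∨ (padicValNat r n ≤ padicValNat r (q - 1) ∧ (r = 2 → Even n → q % 4 = 1)))) ∨
    (2 ≤ orderOf (q : ZMod r) ∧ orderOf (q : ZMod r) ≤ m ∧
      m % orderOf (q : ZMod r) + m₂ % orderOf (q : ZMod r) ≤ n % orderOf (q : ZMod r))

/-- Under the criterion there are invariant subspaces `X, Y, Z` with sum everything. -/
theorem exists_config (hrp : r ≠ p) (hn : n ≠ 0) (hm₂ : m₂ = 0 ∨ m₂ = m) (hmn : m + m₂ ≤ n)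
    (hcond : Cond (Fintype.card F) n m m₂ r) (A : Matrix.SpecialLinearGroup (Fin n) F)
    (hA : ∃ c : F, ((A ^ r : Matrix.SpecialLinearGroup (Fin n) F) : Matrix (Fin n) (Fin n) F) =
      c • (1 : Matrix (Fin n) (Fin n) F)) :
    ∃ X Y Z : Submodule F (Fin n → F),
      Inv (Matrix.toLin' (A : Matrix (Fin n) (Fin n) F)) X ∧
      Inv (Matrix.toLin' (A : Matrix (Fin n) (Fin n) F)) Y ∧
      Inv (Matrix.toLin' (A : Matrix (Fin n) (Fin n) F)) Z ∧ X ⊔ Y ⊔ Z = ⊤ ∧
        finrank F X = m ∧ finrank F Y = m₂ ∧ finrank F X + finrank F Y + finrank F Z = n := by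
  classical
  obtain ⟨c, hc⟩ := hA
  rw [sl_pow_eq_smul_iff] at hc
  set x := Matrix.toLin' (A : Matrix (Fin n) (Fin n) F) with hx
  have hr : r.Prime := Fact.out
  have hdetx : LinearMap.det x = 1 := by rw [hx, LinearMap.det_toLin', A.det_coe]
  have hc0 : c ≠ 0 := fun h => by
    have h' : LinearMap.det (x ^ r) = 1 := by rw [map_pow, hdetx, one_pow]
    rw [show x ^ r = 0 from LinearMap.ext fun v => by rw [hc, h, zero_smul]; rfl,
      LinearMap.det_zero, finrank_fin_fun, zero_pow hn] at h'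
    exact zero_ne_one h'
  by_cases hpow : ∃ l : F, l ^ r = c
  · obtain ⟨l, rfl⟩ := hpow
    have hl : l ≠ 0 := fun h => hc0 (by rw [h, zero_pow hr.ne_zero])
    obtain ⟨R, hS⟩ := step_pow hrp hl hc
    set C := LinearMap.ker (x - l • LinearMap.id)
    set i := orderOf (Nat.card F : ZMod r) with hi
    have hsum : finrank F C + finrank F R = n := by rw [hS.finrank_add, finrank_fin_fun]
    have hRC : R ⊓ C = ⊥ := by rw [inf_comm]; exact hS.isCompl.inf_eq_bot
    obtain ⟨t, ht⟩ := hS.dvd R hS.invR hRC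
    have hq : i = orderOf (Fintype.card F : ZMod r) := by rw [hi, Nat.card_eq_fintype_card]
    have key : ∃ u₁ u₂ : ℕ, u₁ * i ≤ m ∧ u₂ * i ≤ m₂ ∧ (u₁ + u₂) * i ≤ finrank F R ∧
        (m - u₁ * i) + (m₂ - u₂ * i) ≤ finrank F C := by
      unfold Cond at hcond
      rw [← hq] at hcond
      have hpos := hS.pos
      have hd1 := Nat.div_mul_le_self m i
      have hd2 := Nat.div_mul_le_self m₂ i
      refine ⟨min t (m / i), min (t - min t (m / i)) (m₂ / i),
        (Nat.mul_le_mul_right i (min_le_right _ _)).trans hd1,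
        (Nat.mul_le_mul_right i (min_le_right _ _)).trans hd2, ?_, ?_⟩
      · rw [ht, mul_comm i t]
        exact Nat.mul_le_mul_right i (by omega)
      have hm1 := Nat.mod_add_div m i
      have hm2 := Nat.mod_add_div m₂ i
      rw [mul_comm i (m / i)] at hm1
      rw [mul_comm i (m₂ / i)] at hm2
      rw [mul_comm i t] at ht
      rcases le_or_gt t (m / i) with h1 | h1
      · rw [min_eq_left h1, Nat.sub_self, Nat.zero_min, zero_mul]
        have := Nat.mul_le_mul_right i h1
        omega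
      rw [min_eq_right h1.le]
      rcases le_or_gt (t - m / i) (m₂ / i) with h2 | h2
      · rw [min_eq_left h2]
        have h3 := Nat.mul_le_mul_right i h2
        have : (t - m / i) * i + m / i * i = t * i := by rw [← Nat.add_mul, Nat.sub_add_cancel h1.le]
        omega
      rw [min_eq_right h2.le]
      rcases hcond with ⟨h1', -⟩ | ⟨-, -, h3⟩
      · rw [h1', Nat.div_one, Nat.mul_one, Nat.div_one, Nat.mul_one, Nat.sub_self, Nat.sub_self]
        exact Nat.zero_le _
      · have hle : n % i ≤ finrank F C := by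
          have h : n % i = (finrank F C + t * i) % i := by rw [← ht, hsum]
          rw [h, Nat.add_mul_mod_self_right]
          exact Nat.mod_le _ _
        omega
    obtain ⟨u₁, u₂, h1, h2, hu, hs⟩ := key
    obtain ⟨X, Y, Z, hX, hY, hZ, htop, dX, dY, dsum⟩ := hS.exists_three hs hu
    rw [finrank_fin_fun] at dsum
    exact ⟨X, Y, Z, hX, hY, hZ, htop, by omega, by omega, dsum⟩
  · have hcn : ∀ y : F, y ^ r ≠ c := fun y hy => hpow ⟨y, hy⟩
    have h1 : r ∣ Fintype.card F - 1 := by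
      by_contra h
      obtain ⟨y, -, hy⟩ := exists_root h hc0
      exact hcn y hy
    rcases hcond with ⟨-, hcond⟩ | ⟨h2, -⟩
    swap
    · rw [dvd_card_sub_one_iff.1 h1] at h2; omega
    obtain ⟨t, ht, hdet⟩ := det_nonpow hrp hcn _ x (finrank_fin_fun F) hc
    have hrm : r ∣ m := by
      rcases hcond with h | h
      · exact h
      · exact (nonpow_false h1 hn ht hcn (hdet.symm.trans hdetx) h).elim
    obtain ⟨u₁, hu₁⟩ := hrm
    obtain ⟨u₂, hu₂⟩ : r ∣ m₂ := by
      rcases hm₂ with rfl | rfl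
      · exact dvd_zero r
      · exact ⟨u₁, hu₁⟩
    obtain ⟨X, Y, Z, hX, hY, hZ, htop, dX, dY, dsum⟩ := (step_nonpow hrp hcn hc).exists_three
      (s₁ := 0) (u₁ := u₁) (s₂ := 0) (u₂ := u₂) (Nat.zero_le _) (by
        rw [finrank_top, finrank_fin_fun, Nat.add_mul, mul_comm u₁, mul_comm u₂, ← hu₁, ← hu₂]
        exact hmn)
    rw [finrank_fin_fun] at dsum
    refine ⟨X, Y, Z, hX, hY, hZ, htop, ?_, ?_, dsum⟩
    · rw [dX, hu₁, zero_add, mul_comm]
    · rw [dY, hu₂, zero_add, mul_comm]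

/-- Without the criterion some element fixes no such configuration. -/
theorem exists_counterexample (hrp : r ≠ p) (hn : n ≠ 0) (hm : 1 ≤ m) (hm₂ : m₂ = 0 ∨ m₂ = m)
    (hmn : m + m₂ ≤ n) (hcount : ∃ j < m + m₂, orderOf (Fintype.card F : ZMod r) ∣ n - j)
    (hcond : ¬ Cond (Fintype.card F) n m m₂ r) :
    ∃ A : Matrix.SpecialLinearGroup (Fin n) F,
      (∃ c : F, ((A ^ r : Matrix.SpecialLinearGroup (Fin n) F) : Matrix (Fin n) (Fin n) F) =
        c • (1 : Matrix (Fin n) (Fin n) F)) ∧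
      (∀ c : F, (A : Matrix (Fin n) (Fin n) F) ≠ c • (1 : Matrix (Fin n) (Fin n) F)) ∧
      ∀ U W : Submodule F (Fin n → F), Inv (Matrix.toLin' (A : Matrix (Fin n) (Fin n) F)) U →
        Inv (Matrix.toLin' (A : Matrix (Fin n) (Fin n) F)) W → U ≤ W → finrank F U = m →
          finrank F W = n - m₂ → False := by
  classical
  have hr : r.Prime := Fact.out
  by_cases h1 : r ∣ Fintype.card F - 1
  · have h1' := dvd_card_sub_one_iff.1 h1
    obtain ⟨hrm, hc⟩ : ¬ r ∣ m ∧ ¬(padicValNat r n ≤ padicValNat r (Fintype.card F - 1) ∧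
        (r = 2 → Even n → Fintype.card F % 4 = 1)) :=
      ⟨fun h => hcond (Or.inl ⟨h1', Or.inl h⟩), fun h => hcond (Or.inl ⟨h1', Or.inr h⟩)⟩
    obtain ⟨c, t, hcn, hnt, hdet⟩ := exists_nonpow h1 hn hc
    obtain ⟨A, hA⟩ := exists_nonpow_elt hrp hcn hnt hdet
    refine ⟨A, ⟨c, sl_pow_eq_smul_iff.2 hA⟩, fun d hd => ?_, fun U W hU _ _ dU _ => ?_⟩
    · refine hcn d ?_
      have h : ∀ (j : ℕ) v, ((Matrix.toLin' (A : Matrix (Fin n) (Fin n) F)) ^ j) v = d ^ j • v := by
        intro j
        induction j with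
        | zero => simp
        | succ j ih => intro v; rw [pow_succ', Module.End.mul_apply, ih, map_smul, sl_eq_smul hd,
            smul_smul, pow_succ]
      simpa using congrFun ((h r _).symm.trans (hA (fun _ => 1))) ⟨0, Nat.pos_of_ne_zero hn⟩
    · exact hrm (dU ▸ (step_nonpow hrp hcn hA).dvd U hU (inf_bot_eq _))
  have hi : 2 ≤ orderOf (Fintype.card F : ZMod r) := by
    have hne : orderOf (Fintype.card F : ZMod r) ≠ 1 := fun h => h1 (dvd_card_sub_one_iff.2 h)
    have hpos : 0 < orderOf (Fintype.card F : ZMod r) := by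
      refine IsOfFinOrder.orderOf_pos (isOfFinOrder_iff_pow_eq_one.2 ⟨r - 1, by
        have := hr.two_le; omega, ZMod.pow_card_sub_one_eq_one ?_⟩)
      obtain ⟨f, -, hf⟩ := FiniteField.card F p
      rw [hf, Nat.cast_pow]
      refine pow_ne_zero _ fun h => hrp ?_
      exact (Nat.prime_dvd_prime_iff_eq hr Fact.out).1 ((ZMod.natCast_eq_zero_iff p r).1 h)
    omega
  set i := orderOf (Fintype.card F : ZMod r) with hidef
  obtain ⟨j, hj, hij⟩ := hcount
  have hin : i ≤ n := by
    have := Nat.le_of_dvd (by omega) hij; omega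
  obtain ⟨A, hA, hk⟩ := exists_root_elt (n := n) hrp hi (t := n / i) (k := n % i)
    (by rw [mul_comm]; exact (Nat.div_add_mod n i).symm)
  have hA' : ∀ v, ((Matrix.toLin' (A : Matrix (Fin n) (Fin n) F)) ^ r) v = (1 : F) ^ r • v := by
    simpa using hA
  refine ⟨A, ⟨(1 : F) ^ r, sl_pow_eq_smul_iff.2 hA'⟩, fun d hd => ?_, fun U W hU hW hUW dU dW => ?_⟩
  · have hd' := sl_eq_smul hd
    have h : ∀ (j : ℕ) v, ((Matrix.toLin' (A : Matrix (Fin n) (Fin n) F)) ^ j) v = d ^ j • v := by
      intro j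
      induction j with
      | zero => simp
      | succ j ih => intro v; rw [pow_succ', Module.End.mul_apply, ih, map_smul, hd', smul_smul, pow_succ]
    have hdr : d ^ r = 1 := by
      have := congrFun ((h r _).symm.trans (hA (fun _ => 1))) ⟨0, Nat.pos_of_ne_zero hn⟩
      simpa using this
    have hd1 : d = 1 := by
      have h1c : d ^ (Fintype.card F - 1) = 1 :=
        FiniteField.pow_card_sub_one_eq_one _ fun h0 => by
          rw [h0, zero_pow hr.ne_zero] at hdr; exact zero_ne_one hdr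
      simpa [(hr.coprime_iff_not_dvd.2 h1).gcd_eq_one] using pow_gcd_eq_one.2 ⟨hdr, h1c⟩
    rw [show LinearMap.ker (Matrix.toLin' (A : Matrix (Fin n) (Fin n) F) - (1 : F) • LinearMap.id) = ⊤
      from eq_top_iff.2 fun v _ => by simp [hd', hd1], finrank_top, finrank_fin_fun] at hk
    have := Nat.mod_lt n (show 0 < i by omega)
    omega
  obtain ⟨R, hS⟩ := step_pow hrp one_ne_zero hA'
  rw [Nat.card_eq_fintype_card, ← hidef] at hS
  set C := LinearMap.ker (Matrix.toLin' (A : Matrix (Fin n) (Fin n) F) - (1 : F) • LinearMap.id)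
  obtain ⟨Z, hZ, hWZ⟩ := hS.compl W hW
  have hdZ : finrank F Z = m₂ := by
    have := Submodule.finrank_add_eq_of_isCompl hWZ
    rw [finrank_fin_fun] at this
    omega
  obtain ⟨u, hu⟩ := hS.exists_eq hU
  obtain ⟨u', hu'⟩ := hS.exists_eq hZ
  have hs : finrank F (U ⊓ C : Submodule F _) + finrank F (Z ⊓ C : Submodule F _) ≤ n % i := by
    rw [← hk, ← Submodule.finrank_sup_add_finrank_inf_eq,
      show (U ⊓ C) ⊓ (Z ⊓ C) = ⊥ from eq_bot_iff.2 (hWZ.inf_eq_bot ▸
        inf_le_inf (inf_le_left.trans hUW) inf_le_left), finrank_bot, add_zero]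
    exact Submodule.finrank_mono (sup_le inf_le_right inf_le_right)
  rw [dU] at hu
  rw [hdZ] at hu'
  by_cases him : i ≤ m
  · refine hcond (Or.inr ⟨hi, him, le_trans ?_ hs⟩)
    rw [← hidef]
    refine add_le_add ?_ ?_
    · rw [hu, Nat.add_mul_mod_self_right]; exact Nat.mod_le _ _
    · rw [hu', Nat.add_mul_mod_self_right]; exact Nat.mod_le _ _
  · have hu0 : u = 0 := by
      rcases Nat.eq_zero_or_pos u with h | h
      · exact h
      · have := Nat.le_mul_of_pos_left i h; omega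
    have hu0' : u' = 0 := by
      rcases Nat.eq_zero_or_pos u' with h | h
      · exact h
      · have := Nat.le_mul_of_pos_left i h; omega
    subst hu0 hu0'
    obtain ⟨w, hw⟩ := hij
    have hnj : n % i = j % i := by
      rw [show n = j + i * w by omega, Nat.add_mul_mod_self_left]
    have := Nat.mod_le j i
    omega

end Cfsg.Agent.Lib.Elusive
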