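import Mathlib

/-!
Invariant subspaces of linear maps with a scalar `r`-th power, `r` a prime different from the
characteristic.
-/

set_option autoImplicit false

namespace Cfsg.Agent.Lib.Elusive

open Module Polynomial

variable {F V : Type*} [Field F] [AddCommGroup V] [Module F V] [FiniteDimensional F V]

/-- `W` is invariant under `x`. -/
def Inv (x : V →ₗ[F] V) (W : Submodule F V) : Prop := ∀ v ∈ W, x v ∈ W

theorem inv_iff_map_le {x : V →ₗ[F] V} {W : Submodule F V} : Inv x W ↔ W.map x ≤ W :=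
  ⟨fun h => Submodule.map_le_iff_le_comap.2 h, fun h => Submodule.map_le_iff_le_comap.1 h⟩

theorem Inv.sup {x : V →ₗ[F] V} {U W : Submodule F V} (hU : Inv x U) (hW : Inv x W) :
    Inv x (U ⊔ W) := by
  rw [inv_iff_map_le] at *
  rw [Submodule.map_sup]
  exact sup_le_sup hU hW

theorem Inv.inf {x : V →ₗ[F] V} {U W : Submodule F V} (hU : Inv x U) (hW : Inv x W) :
    Inv x (U ⊓ W) := fun v hv => ⟨hU v hv.1, hW v hv.2⟩

theorem Inv.pow {x : V →ₗ[F] V} {W : Submodule F V} (hW : Inv x W) :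
    ∀ (l : ℕ), Inv (x ^ l) W := by
  intro l
  induction l with
  | zero => exact fun v hv => hv
  | succ l ih => intro v hv; rw [pow_succ', Module.End.mul_apply]; exact hW _ (ih v hv)

theorem Inv.aeval {x : V →ₗ[F] V} {W : Submodule F V} (hW : Inv x W) (g : F[X]) :
    Inv (Polynomial.aeval x g) W := by
  intro v hv
  induction g using Polynomial.induction_on' with
  | add p q hp hq => simpa using W.add_mem hp hq
  | monomial n a => simpa [Polynomial.aeval_monomial] using W.smul_mem a (hW.pow n v hv)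

/-- A cyclic subspace killed by a monic polynomial. -/
theorem exists_cyclic {x : V →ₗ[F] V} {W : Submodule F V} (hW : Inv x W) {g : F[X]} (hg : g.Monic)
    {w : V} (hw : w ∈ W) (hgw : Polynomial.aeval x g w = 0) :
    ∃ U : Submodule F V, Inv x U ∧ U ≤ W ∧ (g ≠ 1 → w ∈ U) ∧ finrank F U ≤ g.natDegree := by
  let b : Fin g.natDegree → V := fun l => (x ^ (l : ℕ)) w
  refine ⟨Submodule.span F (Set.range b), ?_, ?_, ?_, ?_⟩
  · rw [inv_iff_map_le, Submodule.map_span, Submodule.span_le]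
    rintro _ ⟨_, ⟨l, rfl⟩, rfl⟩
    rw [SetLike.mem_coe, show x (b l) = (x ^ ((l : ℕ) + 1)) w by
      rw [pow_succ', Module.End.mul_apply]]
    rcases Nat.lt_or_ge ((l : ℕ) + 1) g.natDegree with h | h
    · exact Submodule.subset_span ⟨⟨_, h⟩, rfl⟩
    · have he : (l : ℕ) + 1 = g.natDegree := le_antisymm l.2 h
      rw [hg.as_sum] at hgw
      simp only [map_add, map_pow, Polynomial.aeval_X, map_sum, map_mul, Polynomial.aeval_C,
        LinearMap.add_apply, LinearMap.sum_apply, Module.End.mul_apply,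
        Module.algebraMap_end_apply] at hgw
      rw [he, eq_neg_of_add_eq_zero_left hgw]
      refine Submodule.neg_mem _ (Submodule.sum_mem _ fun j hj => Submodule.smul_mem _ _ ?_)
      exact Submodule.subset_span ⟨⟨j, Finset.mem_range.1 hj⟩, rfl⟩
  · rw [Submodule.span_le]
    rintro _ ⟨l, rfl⟩
    exact hW.pow _ w hw
  · intro h1
    have : 0 < g.natDegree := Nat.pos_of_ne_zero fun h => h1 (hg.natDegree_eq_zero.1 h)
    exact Submodule.subset_span ⟨⟨0, this⟩, rfl⟩
  · exact (finrank_range_le_card b).trans_eq (Fintype.card_fin _)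

/-- Averaging gives invariant complements. -/
theorem exists_invariant_compl {x : V →ₗ[F] V} {r : ℕ} {c : F} (hc : c ≠ 0) (hr : (r : F) ≠ 0)
    (hx : ∀ v, (x ^ r) v = c • v) {W : Submodule F V} (hW : Inv x W) :
    ∃ W' : Submodule F V, Inv x W' ∧ IsCompl W W' := by
  obtain ⟨W₀, hW₀⟩ := Submodule.exists_isCompl W
  let P : Module.End F V := W.subtype.comp (Submodule.linearProjOfIsCompl W W₀ hW₀)
  have hP : ∀ v ∈ W, P v = v := fun v hv =>
    congrArg Subtype.val (Submodule.linearProjOfIsCompl_apply_left hW₀ ⟨v, hv⟩)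
  have hPW : ∀ v, P v ∈ W := fun v => (Submodule.linearProjOfIsCompl W W₀ hW₀ v).2
  let S : Module.End F V := ∑ j ∈ Finset.range r, x ^ j * P * x ^ (r - j)
  let P' : Module.End F V := ((r : F) * c)⁻¹ • S
  have hrc : (r : F) * c ≠ 0 := mul_ne_zero hr hc
  have hP' : ∀ v ∈ W, P' v = v := by
    intro v hv
    have : S v = ((r : F) * c) • v := by
      simp only [S, LinearMap.sum_apply, Module.End.mul_apply]
      rw [Finset.sum_congr rfl (g := fun _ => c • v)]
      · simp [mul_smul, Nat.cast_smul_eq_nsmul]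
      · intro j hj
        rw [hP _ (hW.pow _ v hv), ← Module.End.mul_apply, ← pow_add,
          Nat.add_sub_cancel' (Finset.mem_range.1 hj).le, hx]
    simp only [P', LinearMap.smul_apply, this, inv_smul_smul₀ hrc]
  have hP'W : ∀ v, P' v ∈ W := fun v => by
    simp only [P', S, LinearMap.smul_apply, LinearMap.sum_apply, Module.End.mul_apply]
    exact W.smul_mem _ (Submodule.sum_mem _ fun j _ => hW.pow _ _ (hPW _))
  have hcomm : ∀ v, x (P' v) = P' (x v) := by
    intro v
    simp only [P', LinearMap.smul_apply, map_smul]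
    congr 1
    simp only [S, LinearMap.sum_apply, Module.End.mul_apply, map_sum]
    let f : ℕ → V := fun j => (x ^ j) (P ((x ^ (r + 1 - j)) v))
    have h1 : ∀ j ∈ Finset.range r, x ((x ^ j) (P ((x ^ (r - j)) v))) = f (j + 1) := fun j _ => by
      simp only [f, show r + 1 - (j + 1) = r - j by omega]
      rw [pow_succ', Module.End.mul_apply]
    have h2 : ∀ j ∈ Finset.range r, (x ^ j) (P ((x ^ (r - j)) (x v))) = f j := fun j hj => by
      simp only [f, show r + 1 - j = r - j + 1 by have := Finset.mem_range.1 hj; omega]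
      rw [pow_succ, Module.End.mul_apply]
    rw [Finset.sum_congr rfl h1, Finset.sum_congr rfl h2]
    have h3 : f 0 = f r := by
      simp only [f, Nat.sub_zero, pow_zero, Module.End.one_apply, show r + 1 - r = 1 by omega,
        pow_one, hx]
      rw [pow_succ, Module.End.mul_apply, hx, map_smul]
    have h4 := Finset.sum_range_succ' f r
    rw [Finset.sum_range_succ, h3] at h4
    exact (add_right_cancel h4).symm
  refine ⟨LinearMap.ker P', fun v hv => ?_, ?_, ?_⟩
  · rw [LinearMap.mem_ker] at hv ⊢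
    rw [← hcomm, hv, map_zero]
  · rw [Submodule.disjoint_def]
    intro v hv hv'
    rw [← hP' v hv]
    exact hv'
  · rw [codisjoint_iff, eq_top_iff]
    intro v _
    refine Submodule.mem_sup.2 ⟨P' v, hP'W v, v - P' v, ?_, by abel⟩
    rw [LinearMap.mem_ker, map_sub, hP' _ (hP'W v), sub_self]

/-- An eigenspace part `C` and a part `R` made of invariant subspaces of dimension `i`. -/
structure Step (x : V →ₗ[F] V) (C R : Submodule F V) (i : ℕ) : Prop where
  pos : 0 < i
  isCompl : IsCompl C R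
  invR : Inv x R
  eig : ∀ W ≤ C, Inv x W
  compl : ∀ W, Inv x W → ∃ W', Inv x W' ∧ IsCompl W W'
  small : ∀ W, Inv x W → W ⊓ C = ⊥ → W ≠ ⊥ → ∃ U, Inv x U ∧ U ≤ W ∧ finrank F U = i

variable {x : V →ₗ[F] V} {C R : Submodule F V} {i : ℕ}

/-- Invariant complement inside an invariant subspace. -/
theorem Step.compl_in (h : Step x C R i) {U W : Submodule F V} (hU : Inv x U) (hW : Inv x W)
    (hUW : U ≤ W) : ∃ U', Inv x U' ∧ U' ≤ W ∧ U ⊔ U' = W ∧
      finrank F U + finrank F U' = finrank F W := by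
  obtain ⟨T, hT, hUT⟩ := h.compl U hU
  refine ⟨T ⊓ W, hT.inf hW, inf_le_right, ?_, ?_⟩
  · rw [← sup_inf_assoc_of_le T hUW, hUT.sup_eq_top, top_inf_eq]
  · have hsup : U ⊔ T ⊓ W = W := by rw [← sup_inf_assoc_of_le T hUW, hUT.sup_eq_top, top_inf_eq]
    have hinf : U ⊓ (T ⊓ W) = ⊥ := by rw [← inf_assoc, hUT.inf_eq_bot, bot_inf_eq]
    have := Submodule.finrank_sup_add_finrank_inf_eq U (T ⊓ W)
    rw [hsup, hinf, finrank_bot, add_zero] at this
    exact this.symm

theorem Step.dvd (h : Step x C R i) : ∀ (W : Submodule F V), Inv x W → W ⊓ C = ⊥ →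
    i ∣ finrank F W := by
  intro W
  induction hd : finrank F W using Nat.strong_induction_on generalizing W with
  | _ d ih =>
    intro hW hWC
    rcases eq_or_ne W ⊥ with rfl | hne
    · rw [finrank_bot] at hd; rw [← hd]; exact dvd_zero i
    obtain ⟨U, hU, hUW, hUd⟩ := h.small W hW hWC hne
    obtain ⟨U', hU', hU'W, -, hdim⟩ := h.compl_in hU hW hUW
    have hlt : finrank F U' < d := by rw [← hd, ← hdim, hUd]; have := h.pos; omega
    have := ih _ hlt U' rfl hU' (eq_bot_iff.2 (hWC ▸ inf_le_inf_right C hU'W))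
    rw [← hd, ← hdim, hUd]
    exact dvd_add dvd_rfl this

/-- The dimension of an invariant subspace is congruent to that of its eigen part. -/
theorem Step.exists_eq (h : Step x C R i) {W : Submodule F V} (hW : Inv x W) :
    ∃ u, finrank F W = finrank F (W ⊓ C : Submodule F V) + u * i := by
  obtain ⟨X, hX, -, hsup, hdim⟩ := h.compl_in (h.eig _ (inf_le_right : W ⊓ C ≤ C)) hW inf_le_left
  have hXC : X ⊓ C = ⊥ := by
    have h1 := Submodule.finrank_sup_add_finrank_inf_eq (W ⊓ C) X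
    rw [hsup] at h1
    have h2 : (W ⊓ C) ⊓ X = ⊥ := Submodule.finrank_eq_zero.1 (by omega)
    rw [eq_bot_iff, ← h2]
    refine le_inf (le_inf (inf_le_left.trans ?_) inf_le_right) inf_le_left
    exact hsup ▸ le_sup_right
  obtain ⟨u, hu⟩ := h.dvd X hX hXC
  exact ⟨u, by rw [← hdim, hu, Nat.mul_comm]⟩

theorem Step.take (h : Step x C R i) : ∀ (u : ℕ) (W : Submodule F V), Inv x W → W ⊓ C = ⊥ →
    u * i ≤ finrank F W → ∃ U, Inv x U ∧ U ≤ W ∧ finrank F U = u * i := by
  intro u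
  induction u with
  | zero => exact fun W _ _ _ => ⟨⊥, fun v hv => by
      rw [Submodule.mem_bot] at hv; simp [hv], bot_le, by simp⟩
  | succ u ih =>
    intro W hW hWC hle
    rw [Nat.succ_mul] at hle ⊢
    obtain ⟨U, hU, hUW, hUd⟩ := ih W hW hWC (by omega)
    obtain ⟨U', hU', hU'W, hsup, hdim⟩ := h.compl_in hU hW hUW
    have hne : U' ≠ ⊥ := fun hb => by
      rw [hb, finrank_bot] at hdim; have := h.pos; omega
    obtain ⟨L, hL, hLU, hLd⟩ := h.small U' hU' (eq_bot_iff.2 (hWC ▸ inf_le_inf_right C hU'W)) hne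
    refine ⟨U ⊔ L, hU.sup hL, sup_le hUW (hLU.trans hU'W), ?_⟩
    have h1 := Submodule.finrank_sup_add_finrank_inf_eq U U'
    rw [hsup] at h1
    have h2 : U ⊓ U' = ⊥ := Submodule.finrank_eq_zero.1 (by omega)
    have h3 : U ⊓ L = ⊥ := eq_bot_iff.2 (h2 ▸ inf_le_inf_left U hLU)
    have h4 := Submodule.finrank_sup_add_finrank_inf_eq U L
    rw [h3, finrank_bot, add_zero, hUd, hLd] at h4
    exact h4

theorem Step.finrank_add (h : Step x C R i) : finrank F C + finrank F R = finrank F V := by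
  have := Submodule.finrank_sup_add_finrank_inf_eq C R
  rw [h.isCompl.sup_eq_top, h.isCompl.inf_eq_bot, finrank_top, finrank_bot] at this
  omega

/-- Invariant subspaces of prescribed dimensions. -/
theorem Step.exists_three (h : Step x C R i) {s₁ u₁ s₂ u₂ : ℕ} (hs : s₁ + s₂ ≤ finrank F C)
    (hu : (u₁ + u₂) * i ≤ finrank F R) :
    ∃ X Y Z : Submodule F V, Inv x X ∧ Inv x Y ∧ Inv x Z ∧ X ⊔ Y ⊔ Z = ⊤ ∧
      finrank F X = s₁ + u₁ * i ∧ finrank F Y = s₂ + u₂ * i ∧
      finrank F X + finrank F Y + finrank F Z = finrank F V := by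
  have hRC : R ⊓ C = ⊥ := by rw [inf_comm]; exact h.isCompl.inf_eq_bot
  have sub : ∀ (W : Submodule F V) (s : ℕ), s ≤ finrank F W → ∃ U ≤ W, finrank F U = s := by
    intro W s hs
    have hli : LinearIndependent F
        (fun j : Fin s => (Module.finBasis F W (j.castLE hs) : V)) :=
      ((Module.finBasis F W).linearIndependent.comp _ (Fin.castLE_injective hs)).map'
        W.subtype (Submodule.ker_subtype W)
    refine ⟨Submodule.span F (Set.range fun j : Fin s => (Module.finBasis F W (j.castLE hs) : V)),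
      ?_, by rw [finrank_span_eq_card hli, Fintype.card_fin]⟩
    rw [Submodule.span_le]; rintro _ ⟨j, rfl⟩; exact (Module.finBasis F W _).2
  have part : ∀ (C₀ R₀ : Submodule F V) (s u : ℕ), C₀ ≤ C → R₀ ≤ R → Inv x R₀ →
      s ≤ finrank F C₀ → u * i ≤ finrank F R₀ →
      ∃ C₁ C₂ R₁ R₂ : Submodule F V, C₁ ≤ C ∧ C₂ ≤ C ∧ R₁ ≤ R ∧ R₂ ≤ R ∧ Inv x R₁ ∧ Inv x R₂ ∧
        C₁ ⊔ C₂ = C₀ ∧ R₁ ⊔ R₂ = R₀ ∧ finrank F C₁ = s ∧ finrank F C₁ + finrank F C₂ = finrank F C₀ ∧
        finrank F R₁ = u * i ∧ finrank F R₁ + finrank F R₂ = finrank F R₀ := by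
    intro C₀ R₀ s u hC₀ hR₀ hR₀i hs hu
    obtain ⟨C₁, hC₁, hC₁d⟩ := sub C₀ s hs
    obtain ⟨C₂, -, hC₂, hCs, hCd⟩ := h.compl_in (h.eig _ (hC₁.trans hC₀)) (h.eig _ hC₀) hC₁
    obtain ⟨R₁, hR₁i, hR₁, hR₁d⟩ := h.take u R₀ hR₀i (eq_bot_iff.2 (hRC ▸ inf_le_inf_right C hR₀)) hu
    obtain ⟨R₂, hR₂i, hR₂, hRs, hRd⟩ := h.compl_in hR₁i hR₀i hR₁
    exact ⟨C₁, C₂, R₁, R₂, hC₁.trans hC₀, hC₂.trans hC₀, hR₁.trans hR₀, hR₂.trans hR₀, hR₁i, hR₂i,
      hCs, hRs, hC₁d, hCd, hR₁d, hRd⟩
  have dim : ∀ (A B : Submodule F V), A ≤ C → B ≤ R →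
      finrank F (A ⊔ B : Submodule F V) = finrank F A + finrank F B := by
    intro A B hA hB
    have := Submodule.finrank_sup_add_finrank_inf_eq A B
    rw [show A ⊓ B = ⊥ from eq_bot_iff.2 (h.isCompl.inf_eq_bot ▸ inf_le_inf hA hB), finrank_bot] at this
    omega
  obtain ⟨C₁, C₀, R₁, R₀, hC₁, hC₀, hR₁, hR₀, hR₁i, hR₀i, hCs, hRs, hC₁d, hCd, hR₁d, hRd⟩ :=
    part C R s₁ u₁ le_rfl le_rfl h.invR (by omega) ((Nat.mul_le_mul_right i (Nat.le_add_right u₁ u₂)).trans hu)
  obtain ⟨C₂, C₃, R₂, R₃, hC₂, hC₃, hR₂, hR₃, hR₂i, hR₃i, hCs', hRs', hC₂d, hCd', hR₂d, hRd'⟩ :=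
    part C₀ R₀ s₂ u₂ hC₀ hR₀ hR₀i (by omega) (by rw [Nat.add_mul] at hu; omega)
  refine ⟨C₁ ⊔ R₁, C₂ ⊔ R₂, C₃ ⊔ R₃, (h.eig _ hC₁).sup hR₁i, (h.eig _ hC₂).sup hR₂i,
    (h.eig _ hC₃).sup hR₃i, ?_, ?_, ?_, ?_⟩
  · rw [← h.isCompl.sup_eq_top, ← hCs, ← hRs, ← hCs', ← hRs']
    ac_rfl
  · rw [dim _ _ hC₁ hR₁, hC₁d, hR₁d]
  · rw [dim _ _ hC₂ hR₂, hC₂d, hR₂d]
  · rw [dim _ _ hC₁ hR₁, dim _ _ hC₂ hR₂, dim _ _ hC₃ hR₃]
    have := h.finrank_add
    omega

section Finite

variable [Finite F] {r : ℕ} [Fact r.Prime]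

/-- A map with `y ^ r = 1` and no fixed vector in `W` forces `r ∣ q ^ dim W - 1`. -/
theorem orderOf_dvd_finrank {y : V →ₗ[F] V} (hy : ∀ v, (y ^ r) v = v) {W : Submodule F V}
    (hW : Inv y W) (hfix : ∀ v ∈ W, y v = v → v = 0) :
    orderOf (Nat.card F : ZMod r) ∣ finrank F W := by
  classical
  haveI : Finite V := Module.finite_of_finite F
  haveI := Fintype.ofFinite W
  let σ : Function.End W := fun v => ⟨y v, hW v v.2⟩
  have hpow : ∀ (l : ℕ) (v : W), (((σ ^ l : Function.End W) v : W) : V) = (y ^ l) v := by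
    intro l
    induction l with
    | zero => intro v; rfl
    | succ l ih =>
      intro v
      rw [pow_succ', pow_succ', Module.End.mul_apply, ← ih]
      rfl
  have hσ : σ ^ (r ^ 1) = 1 := funext fun v => Subtype.ext (by rw [pow_one, hpow, hy]; rfl)
  have h := Equiv.Perm.card_fixedPoints_modEq (p := r) (n := 1) hσ
  have h1 : Fintype.card (Function.fixedPoints σ) = 1 := by
    rw [Fintype.card_eq_one_iff]
    refine ⟨⟨0, Subtype.ext (map_zero y)⟩, fun v => Subtype.ext (Subtype.ext ?_)⟩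
    exact hfix _ v.1.2 (congrArg Subtype.val v.2)
  rw [h1, ← Nat.card_eq_fintype_card, Module.natCard_eq_pow_finrank (K := F)] at h
  apply orderOf_dvd_of_pow_eq_one
  have := (ZMod.natCast_eq_natCast_iff _ _ r).2 h
  simpa using this

/-- The irreducible factors of the cyclotomic polynomial over `F`. -/
theorem factor_cyclotomic [DecidableEq F] {p : ℕ} [Fact p.Prime] [CharP F p] (hrp : r ≠ p) {g : F[X]}
    (hg : g ∈ UniqueFactorizationMonoid.normalizedFactors (cyclotomic r F)) :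
    g.Monic ∧ Irreducible g ∧ g.natDegree = orderOf (Nat.card F : ZMod r) := by
  classical
  haveI := Fintype.ofFinite F
  refine ⟨(normalize_eq_self_iff_monic (ne_zero_of_dvd_ne_zero (cyclotomic_ne_zero r F)
      (UniqueFactorizationMonoid.dvd_of_mem_normalizedFactors hg))).1
      (UniqueFactorizationMonoid.normalize_normalized_factor g hg),
    UniqueFactorizationMonoid.irreducible_of_normalized_factor g hg, ?_⟩
  obtain ⟨f, hf, hF⟩ := FiniteField.card F p
  rw [Polynomial.natDegree_of_mem_normalizedFactors_cyclotomic (p := p) (f := f) hF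
    ((Nat.coprime_primes Fact.out (Fact.out : r.Prime)).2 hrp.symm) hg, ← orderOf_units]
  simp [Nat.card_eq_fintype_card, hF]

/-- The step data for a map with `x ^ r = l ^ r`. -/
theorem step_pow {p : ℕ} [Fact p.Prime] [CharP F p] (hrp : r ≠ p) {l : F} (hl : l ≠ 0)
    (hx : ∀ v, (x ^ r) v = l ^ r • v) :
    ∃ R, Step x (LinearMap.ker (x - l • LinearMap.id)) R (orderOf (Nat.card F : ZMod r)) := by
  classical
  have hr : r.Prime := Fact.out
  haveI := Fintype.ofFinite F
  set C := LinearMap.ker (x - l • LinearMap.id)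
  have hC : ∀ v, v ∈ C ↔ x v = l • v := fun v => by simp [C, sub_eq_zero]
  have hrF : (r : F) ≠ 0 := fun h =>
    hrp ((Nat.prime_dvd_prime_iff_eq Fact.out hr).1 ((CharP.cast_eq_zero_iff F p r).1 h)).symm
  have hcompl : ∀ W, Inv x W → ∃ W', Inv x W' ∧ IsCompl W W' :=
    fun W hW => exists_invariant_compl (pow_ne_zero r hl) hrF hx hW
  have hCinv : ∀ W ≤ C, Inv x W := fun W hW v hv => by
    rw [(hC v).1 (hW hv)]; exact W.smul_mem l hv
  obtain ⟨R, hR, hCR⟩ := hcompl C (hCinv C le_rfl)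
  have hq0 : (Nat.card F : ZMod r) ≠ 0 := by
    obtain ⟨f, -, hf⟩ := FiniteField.card F p
    rw [Nat.card_eq_fintype_card, hf, Nat.cast_pow]
    refine pow_ne_zero _ fun h => hrp ?_
    exact (Nat.prime_dvd_prime_iff_eq hr Fact.out).1 ((ZMod.natCast_eq_zero_iff p r).1 h)
  refine ⟨R, ?_, hCR, hR, hCinv, hcompl, fun W hW hWC hne => ?_⟩
  · have hord : IsOfFinOrder (Nat.card F : ZMod r) :=
      isOfFinOrder_iff_pow_eq_one.2 ⟨r - 1, by have := hr.two_le; omega,
        ZMod.pow_card_sub_one_eq_one hq0⟩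
    exact hord.orderOf_pos
  set i := orderOf (Nat.card F : ZMod r)
  set y : V →ₗ[F] V := l⁻¹ • x with hy
  have hyW : Inv y W := fun v hv => W.smul_mem _ (hW v hv)
  have hyr : ∀ v, (y ^ r) v = v := fun v => by
    rw [hy, _root_.smul_pow, LinearMap.smul_apply, hx, smul_smul, inv_pow,
      inv_mul_cancel₀ (pow_ne_zero r hl), one_smul]
  have hfix : ∀ v ∈ W, y v = v → v = 0 := fun v hv hyv => by
    have hvC : v ∈ C := by
      rw [hC]
      have h' : l⁻¹ • x v = v := hyv
      exact ((smul_inv_smul₀ hl (x v)).symm.trans (congrArg (l • ·) h'))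
    exact (Submodule.mem_bot F).1 (hWC ▸ ⟨hv, hvC⟩)
  obtain ⟨v, hv, hv0⟩ := Submodule.exists_mem_ne_zero_of_ne_bot hne
  have hcyc : Polynomial.aeval y (cyclotomic r F) v = 0 := by
    refine hfix _ (hyW.aeval _ v hv) ?_
    have h : Polynomial.aeval y ((X - 1 : F[X]) * cyclotomic r F) v = 0 := by
      rw [mul_comm, cyclotomic_prime_mul_X_sub_one, map_sub, map_pow, aeval_X, map_one,
        LinearMap.sub_apply, hyr, Module.End.one_apply, sub_self]
    rw [map_mul, Module.End.mul_apply, map_sub, aeval_X, map_one, LinearMap.sub_apply,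
      Module.End.one_apply, sub_eq_zero] at h
    exact h
  obtain ⟨u, hu⟩ := UniqueFactorizationMonoid.prod_normalizedFactors
    (cyclotomic_ne_zero r F)
  have hprod : Polynomial.aeval y (UniqueFactorizationMonoid.normalizedFactors
      (cyclotomic r F)).prod v = 0 := by
    have h : Polynomial.aeval y (((u⁻¹ : (F[X])ˣ) : F[X]) * cyclotomic r F) v = 0 := by
      rw [map_mul, Module.End.mul_apply, hcyc, map_zero]
    rwa [← hu, mul_comm, mul_assoc, Units.mul_inv, mul_one] at h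
  have key : ∀ s : Multiset F[X], ∀ v ∈ W, v ≠ 0 → Polynomial.aeval y s.prod v = 0 →
      ∃ g ∈ s, ∃ w ∈ W, w ≠ 0 ∧ Polynomial.aeval y g w = 0 := by
    intro s
    induction s using Multiset.induction with
    | empty => intro v _ hv0 h; simp at h; exact absurd h hv0
    | cons g s ih =>
      intro v hv hv0 h
      rw [Multiset.prod_cons, map_mul, Module.End.mul_apply] at h
      by_cases hw : Polynomial.aeval y s.prod v = 0
      · obtain ⟨g', hg', rest⟩ := ih v hv hv0 hw
        exact ⟨g', Multiset.mem_cons_of_mem hg', rest⟩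
      · exact ⟨g, Multiset.mem_cons_self g s, _, hyW.aeval _ v hv, hw, h⟩
  obtain ⟨g, hg, w, hw, hw0, hgw⟩ := key _ v hv hv0 hprod
  obtain ⟨hgm, hirr, hdeg⟩ := factor_cyclotomic hrp hg
  have hg1 : g ≠ 1 := fun h => hirr.not_isUnit (h ▸ isUnit_one)
  obtain ⟨U, hU, hUW, hwU, hUd⟩ := exists_cyclic hyW hgm hw hgw
  refine ⟨U, fun z hz => ?_, hUW, le_antisymm (hUd.trans_eq hdeg) ?_⟩
  · have := U.smul_mem l (hU z hz)
    rwa [hy, LinearMap.smul_apply, smul_inv_smul₀ hl] at this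
  refine Nat.le_of_dvd ?_ (orderOf_dvd_finrank hyr hU fun z hz => hfix z (hUW hz))
  refine Nat.pos_of_ne_zero fun h0 => hw0 ?_
  have := hwU hg1
  rw [Submodule.finrank_eq_zero.1 h0, Submodule.mem_bot] at this
  exact this

/-- The step data for a map whose `r`-th power is a scalar that is no `r`-th power. -/
theorem step_nonpow {p : ℕ} [Fact p.Prime] [CharP F p] (hrp : r ≠ p) {c : F}
    (hc : ∀ y : F, y ^ r ≠ c) (hx : ∀ v, (x ^ r) v = c • v) : Step x ⊥ ⊤ r := by
  have hr : r.Prime := Fact.out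
  have hc0 : c ≠ 0 := fun h => hc 0 (by rw [h, zero_pow hr.ne_zero])
  have hrF : (r : F) ≠ 0 := fun h =>
    hrp ((Nat.prime_dvd_prime_iff_eq Fact.out hr).1 ((CharP.cast_eq_zero_iff F p r).1 h)).symm
  refine ⟨hr.pos, isCompl_bot_top, fun v _ => trivial, fun W hW v hv => ?_,
    fun W hW => exists_invariant_compl hc0 hrF hx hW, fun W hW _ hne => ?_⟩
  · rw [le_bot_iff] at hW
    subst hW
    rw [Submodule.mem_bot] at hv
    simp [hv]
  obtain ⟨v, hv, hv0⟩ := Submodule.exists_mem_ne_zero_of_ne_bot hne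
  obtain ⟨U, hU, hUW, hvU, hUd⟩ := exists_cyclic hW (monic_X_pow_sub_C c hr.ne_zero) hv
    (by simp [hx])
  rw [natDegree_X_pow_sub_C] at hUd
  have hd : r ∣ finrank F U := by
    by_contra hnd
    set d := finrank F U
    have hres : (x.restrict hU) ^ r = c • LinearMap.id := by
      refine LinearMap.ext fun z => Subtype.ext ?_
      rw [Module.End.pow_restrict r hU (fun z hz => (Inv.pow hU r) z hz)]
      simp [hx]
    have hdet : LinearMap.det (x.restrict hU) ^ r = c ^ d := by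
      rw [← map_pow, hres, LinearMap.det_smul, LinearMap.det_id, mul_one]
    obtain ⟨a, b, hab⟩ : ∃ a b : ℤ, a * d + b * r = 1 :=
      Int.isCoprime_iff_nat_coprime.2
        (by simpa using ((hr.coprime_iff_not_dvd).2 hnd).symm)
    refine hc (LinearMap.det (x.restrict hU) ^ a * c ^ b) ?_
    rw [mul_pow, ← zpow_natCast, ← zpow_mul, mul_comm a, zpow_mul, zpow_natCast, hdet,
      ← zpow_natCast, ← zpow_mul, ← zpow_natCast, ← zpow_mul, ← zpow_add₀ hc0,
      mul_comm (d : ℤ) a, hab, zpow_one]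
  refine ⟨U, hU, hUW, le_antisymm hUd (Nat.le_of_dvd (Nat.pos_of_ne_zero fun h0 => hv0 ?_) hd)⟩
  have := hvU fun h => by
    have := congrArg natDegree h
    rw [natDegree_X_pow_sub_C, natDegree_one] at this
    exact hr.ne_zero this
  rw [Submodule.finrank_eq_zero.1 h0, Submodule.mem_bot] at this
  exact this

end Finite

end Cfsg.Agent.Lib.Elusive
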