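import Cfsg.Agent.Lib.Jordan.Nilpotent
import Cfsg.Agent.Lib.Elusive.Semisimple

/-!
Elements of order `p` in special linear groups in characteristic `p`, through their Jordan types.
-/

set_option autoImplicit false

namespace Cfsg.Agent.Lib.Elusive

open Module Cfsg.Agent.Lib.Jordan

variable {F : Type*} [Field F]

theorem exists_model (μ : Multiset ℕ) (hμ : ∀ a ∈ μ, 0 < a) :
    ∃ f : Module.End F (Fin μ.sum → F), HasType f μ := by
  haveI : DecidableEq μ.ToType := Classical.decEq _
  have h := hasType_model (F := F) (fun a : μ.ToType => (a : ℕ)) (fun a => hμ _ Multiset.coe_mem)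
  rw [Multiset.map_univ_coe] at h
  let T := LinearEquiv.ofFinrankEq (R := F) ((k : μ.ToType) × Fin (k : ℕ) → F) (Fin μ.sum → F)
    (by rw [finrank_fin_fun]; exact h.sum_eq.symm)
  exact ⟨T.conj (model (fun a : μ.ToType => (a : ℕ))), h.transport T fun x => by
    simp [LinearEquiv.conj_apply]⟩

variable {V : Type*} [AddCommGroup V] [Module F V] {f : Module.End F V}

/-- A split of the Jordan type gives invariant complements. -/
theorem exists_split {ν ν' : Multiset ℕ} (h : HasType f (ν + ν')) :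
    ∃ U W : Submodule F V, IsCompl U W ∧ Inv f U ∧ Inv f W ∧ finrank F U = ν.sum := by
  obtain ⟨g, hg⟩ := exists_model (F := F) ν fun a ha => h.pos (Multiset.mem_add.2 (Or.inl ha))
  obtain ⟨g', hg'⟩ := exists_model (F := F) ν' fun a ha => h.pos (Multiset.mem_add.2 (Or.inr ha))
  obtain ⟨T, hT⟩ := (hg.prod hg').exists_equiv h
  refine ⟨(LinearMap.range (LinearMap.inl F _ _)).map T.toLinearMap,
    (LinearMap.range (LinearMap.inr F _ _)).map T.toLinearMap,
    (LinearMap.isCompl_range_inl_inr (R := F)).map (Submodule.orderIsoMapComap T), ?_, ?_, ?_⟩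
  · rintro _ ⟨_, ⟨a, rfl⟩, rfl⟩
    exact ⟨_, ⟨g a, rfl⟩, by simp [← hT]⟩
  · rintro _ ⟨_, ⟨a, rfl⟩, rfl⟩
    exact ⟨_, ⟨g' a, rfl⟩, by simp [← hT]⟩
  · rw [LinearEquiv.finrank_map_eq, LinearMap.finrank_range_of_inj LinearMap.inl_injective,
      finrank_fin_fun]

/-- Invariant complements split the Jordan type. -/
theorem exists_type_le [FiniteDimensional F V] {μ : Multiset ℕ} (h : HasType f μ) {U W : Submodule F V}
    (hc : IsCompl U W) (hU : Inv f U) (hW : Inv f W) : ∃ ν ≤ μ, ν.sum = finrank F U := by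
  obtain ⟨ν, hν⟩ := exists_type (Module.End.isNilpotent.restrict hU h.isNilpotent)
  obtain ⟨ν', hν'⟩ := exists_type (Module.End.isNilpotent.restrict hW h.isNilpotent)
  have h' : HasType f (ν + ν') := (hν.prod hν').transport (Submodule.prodEquivOfIsCompl U W hc) fun z => by
    simp [map_add, LinearMap.restrict_coe_apply]
    rfl
  exact ⟨ν, h.unique h' ▸ Multiset.le_add_right _ _, hν.sum_eq⟩

theorem inv_add_one {U : Submodule F V} : Inv (1 + f) U ↔ Inv f U := by
  refine ⟨fun h v hv => ?_, fun h v hv => ?_⟩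
  · have := U.sub_mem (h v hv) hv
    simpa using this
  · simpa using U.add_mem hv (h v hv)

section Char

open Polynomial

variable {p : ℕ} [Fact p.Prime] [CharP F p]

theorem aeval_sub_one_pow (y : Module.End F V) : (y - 1) ^ p = y ^ p - 1 := by
  have h : (X - 1 : F[X]) ^ p = X ^ p - 1 := by rw [sub_pow_char, one_pow]
  simpa using congrArg (Polynomial.aeval y) h

theorem add_one_pow (f : Module.End F V) : (1 + f) ^ p = 1 + f ^ p := by
  have h := aeval_sub_one_pow (p := p) (1 + f)
  rw [add_sub_cancel_left] at h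
  rw [h, add_sub_cancel]

theorem pow_pred_eq_sum (f : Module.End F V) :
    f ^ (p - 1) = ∑ l ∈ Finset.range p, (1 + f) ^ l := by
  have hp : p - 1 + 1 = p := Nat.sub_add_cancel (Fact.out : p.Prime).one_le
  have h : (X - 1 : F[X]) ^ (p - 1) = ∑ l ∈ Finset.range p, X ^ l := by
    refine mul_right_cancel₀ (b := (X - 1 : F[X])) (X_sub_C_ne_zero (1 : F) |> fun h => by simpa using h) ?_
    rw [← pow_succ, hp, sub_pow_char, one_pow, geom_sum_mul]
  simpa using congrArg (Polynomial.aeval (1 + f)) h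

theorem exists_root_char [Finite F] (c : F) : ∃ l : F, l ^ p = c :=
  (Finite.injective_iff_surjective.1 (frobenius_inj F p)) c

theorem sum_sub_pred {μ : Multiset ℕ} (hμ : ∀ a ∈ μ, a ≤ p) :
    (μ.map fun a => a - (p - 1)).sum = μ.count p := by
  induction μ using Multiset.induction with
  | empty => simp
  | cons a μ ih =>
    have h := hμ a (Multiset.mem_cons_self a μ)
    have := (Fact.out : p.Prime).one_le
    rw [Multiset.map_cons, Multiset.sum_cons, ih fun b hb => hμ b (Multiset.mem_cons_of_mem hb),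
      Multiset.count_cons]
    split <;> omega

variable [Finite F] {n : ℕ}

/-- Every element of order `p` is a scalar times a unipotent one. -/
theorem exists_nilpotent {A : Matrix.SpecialLinearGroup (Fin n) F} (hn : n ≠ 0)
    (hA : ∃ c : F, ((A ^ p : Matrix.SpecialLinearGroup (Fin n) F) : Matrix (Fin n) (Fin n) F) =
      c • (1 : Matrix (Fin n) (Fin n) F)) :
    ∃ (l : F) (N : Module.End F (Fin n → F)) (μ : Multiset ℕ),
      Matrix.toLin' (A : Matrix (Fin n) (Fin n) F) = l • (1 + N) ∧ HasType N μ ∧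
        (∀ a ∈ μ, 0 < a ∧ a ≤ p) ∧ μ.sum = n := by
  obtain ⟨c, hc⟩ := hA
  obtain ⟨l, hl⟩ := exists_root_char (p := p) c
  set x : Module.End F (Fin n → F) := Matrix.toLin' (A : Matrix (Fin n) (Fin n) F) with hx
  have hxp : x ^ p = c • (1 : Module.End F (Fin n → F)) := by
    rw [hx, ← Matrix.toLin'_pow, ← Matrix.SpecialLinearGroup.coe_pow, hc, map_smul, Matrix.toLin'_one]
    rfl
  have hl0 : l ≠ 0 := fun h => by
    have h' : LinearMap.det (x ^ p) = 1 := by
      rw [map_pow, hx, LinearMap.det_toLin', A.det_coe, one_pow]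
    rw [hxp, LinearMap.det_smul, ← hl, h, zero_pow (Fact.out : p.Prime).ne_zero, finrank_fin_fun,
      zero_pow hn, zero_mul] at h'
    exact zero_ne_one h'
  have hN : (l⁻¹ • x - 1) ^ p = 0 := by
    rw [aeval_sub_one_pow, _root_.smul_pow, hxp, ← hl, smul_smul, inv_pow,
      inv_mul_cancel₀ (pow_ne_zero p hl0), one_smul, sub_self]
  obtain ⟨μ, hμ⟩ := exists_type (f := l⁻¹ • x - 1) ⟨p, hN⟩
  exact ⟨l, _, μ, by rw [add_sub_cancel, smul_inv_smul₀ hl0], hμ,
    fun a ha => ⟨hμ.pos ha, (hμ.pow_eq_zero_iff p).1 hN a ha⟩, by rw [hμ.sum_eq, finrank_fin_fun]⟩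

/-- An element of order `p` with given Jordan type. -/
theorem exists_unipotent {μ : Multiset ℕ} (hμ : ∀ a ∈ μ, 0 < a ∧ a ≤ p) (hsum : μ.sum = n)
    (hne : μ ≠ Multiset.replicate n 1) :
    ∃ (A : Matrix.SpecialLinearGroup (Fin n) F) (N : Module.End F (Fin n → F)),
      HasType N μ ∧ Matrix.toLin' (A : Matrix (Fin n) (Fin n) F) = 1 + N ∧ (1 + N) ^ p = 1 ∧
      (∃ c : F, ((A ^ p : Matrix.SpecialLinearGroup (Fin n) F) : Matrix (Fin n) (Fin n) F) =
        c • (1 : Matrix (Fin n) (Fin n) F)) ∧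
      ∀ c : F, (A : Matrix (Fin n) (Fin n) F) ≠ c • (1 : Matrix (Fin n) (Fin n) F) := by
  classical
  subst hsum
  obtain ⟨N, hN⟩ := exists_model (F := F) μ fun a ha => (hμ a ha).1
  have hNp : N ^ p = 0 := (hN.pow_eq_zero_iff p).2 fun a ha => (hμ a ha).2
  have hx : (1 + N) ^ p = 1 := by rw [add_one_pow, hNp, add_zero]
  have hdet : LinearMap.det (1 + N) = 1 := by
    refine frobenius_inj F p ?_
    simp only [frobenius_def, one_pow]
    rw [← map_pow, hx]
    exact LinearMap.det_id
  let A : Matrix.SpecialLinearGroup (Fin μ.sum) F :=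
    ⟨LinearMap.toMatrix' (1 + N), by rw [LinearMap.det_toMatrix', hdet]⟩
  have hA : Matrix.toLin' (A : Matrix (Fin μ.sum) (Fin μ.sum) F) = 1 + N := Matrix.toLin'_toMatrix' _
  refine ⟨A, N, hN, hA, hx, ⟨1, ?_⟩, fun c hc => hne ?_⟩
  · apply Matrix.toLin'.injective
    rw [Matrix.SpecialLinearGroup.coe_pow, Matrix.toLin'_pow, hA, one_smul, Matrix.toLin'_one]
    exact hx
  · have h1 : 1 + N = c • (1 : Module.End F (Fin μ.sum → F)) := by
      rw [← hA, hc, map_smul, Matrix.toLin'_one]; rfl
    have h2 : N = (c - 1) • (1 : Module.End F (Fin μ.sum → F)) := by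
      refine LinearMap.ext fun v => ?_
      have h1v : v + N v = c • v := by simpa using LinearMap.congr_fun h1 v
      rw [LinearMap.smul_apply, Module.End.one_apply, _root_.sub_smul, one_smul, ← h1v,
        add_sub_cancel_left]
    have hz : N = 0 := by
      by_contra hN0
      have hc1 : c - 1 ≠ 0 := fun h => hN0 (by rw [h2, h, zero_smul])
      rw [h2, _root_.smul_pow, one_pow, smul_eq_zero] at hNp
      rcases hNp with h | h
      · exact pow_ne_zero p hc1 h
      · exact hN0 (by rw [h2, h, smul_zero])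
    have hall := hN.eq_zero_iff.1 hz
    have hcard : μ.card = μ.sum := by
      conv_rhs => rw [Multiset.eq_replicate_card.2 hall]
      simp
    rw [← hcard]
    exact Multiset.eq_replicate_card.2 hall

end Char

end Cfsg.Agent.Lib.Elusive
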