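import Cfsg.Agent.Lib.Elusive.Models
import Cfsg.Agent.Lib.Elusive.Unipotent

/-!
Conjugacy in `SL_n` of elements whose square (or `p`-th power) is scalar.
-/

set_option autoImplicit false

namespace Cfsg.Agent.Lib.Elusive

open Module Cfsg.Agent.Lib.Jordan

variable {F : Type*} [Field F]
  {V : Type*} [AddCommGroup V] [Module F V] [FiniteDimensional F V]
  {V' : Type*} [AddCommGroup V'] [Module F V'] [FiniteDimensional F V']

/-- `GL`-conjugacy with enough determinants in the centralizer gives `SL`-conjugacy. -/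
theorem exists_sl_conj {n : ℕ} {A : Matrix.SpecialLinearGroup (Fin n) F}
    {y : Module.End F (Fin n → F)} (T : (Fin n → F) ≃ₗ[F] (Fin n → F))
    (hT : ∀ v, T (y v) = Matrix.toLin' (A : Matrix (Fin n) (Fin n) F) (T v))
    (hcent : ∀ δ : F, δ ≠ 0 → ∃ C : Module.End F (Fin n → F), (∀ v, C (y v) = y (C v)) ∧
      LinearMap.det C = δ) :
    ∃ P : Matrix.SpecialLinearGroup (Fin n) F,
      Matrix.toLin' ((P⁻¹ * A * P : Matrix.SpecialLinearGroup (Fin n) F) : Matrix (Fin n) (Fin n) F) = y := by
  classical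
  have hd : LinearMap.det (T : (Fin n → F) →ₗ[F] (Fin n → F)) ≠ 0 := T.isUnit_det'.ne_zero
  obtain ⟨C, hC, hdC⟩ := hcent _ (inv_ne_zero hd)
  let P : Matrix.SpecialLinearGroup (Fin n) F := ⟨LinearMap.toMatrix' (T.toLinearMap ∘ₗ C), by
    rw [LinearMap.det_toMatrix', LinearMap.det_comp, hdC]; exact mul_inv_cancel₀ hd⟩
  have hP : ∀ v, Matrix.toLin' (P : Matrix (Fin n) (Fin n) F) v = T (C v) := fun v => by
    simp [P]
  refine ⟨P, LinearMap.ext fun v => ?_⟩
  rw [Matrix.SpecialLinearGroup.coe_mul, Matrix.SpecialLinearGroup.coe_mul, Matrix.toLin'_mul,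
    Matrix.toLin'_mul, LinearMap.comp_apply, LinearMap.comp_apply, hP, ← hT, ← hC, ← hP,
    ← LinearMap.comp_apply, ← Matrix.toLin'_mul, ← Matrix.SpecialLinearGroup.coe_mul,
    inv_mul_cancel, Matrix.SpecialLinearGroup.coe_one, Matrix.toLin'_one, LinearMap.id_apply]

/-- A commuting map supported on an invariant direct summand. -/
theorem exists_comm_det {x : Module.End F V} {U W : Submodule F V} (h : IsCompl U W) (hU : Inv x U)
    (hW : Inv x W) (a : F) :
    ∃ C : Module.End F V, (∀ v, C (x v) = x (C v)) ∧ LinearMap.det C = a ^ finrank F U := by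
  let e := Submodule.prodEquivOfIsCompl U W h
  refine ⟨e.conj ((a • LinearMap.id : U →ₗ[F] U).prodMap (LinearMap.id : W →ₗ[F] W)), fun v => ?_, ?_⟩
  · conv_lhs => rw [prod_conj h hU hW]
    conv_rhs => rw [prod_conj h hU hW]
    obtain ⟨z, rfl⟩ := e.surjective v
    simp only [LinearEquiv.conj_apply, LinearMap.comp_apply, LinearEquiv.coe_coe,
      LinearMap.prodMap_apply, LinearEquiv.symm_apply_apply, e]
    simp
  · rw [LinearEquiv.conj_apply, LinearMap.comp_assoc, LinearMap.det_conj, LinearMap.det_prodMap,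
      LinearMap.det_smul, LinearMap.det_id, LinearMap.det_id, mul_one, mul_one]

section Semisimple

theorem isCompl_eigen (h2 : (2 : F) ≠ 0) {x : Module.End F V} {l : F} (hl : l ≠ 0)
    (hx : ∀ v, x (x v) = (l * l) • v) :
    IsCompl (LinearMap.ker (x - l • LinearMap.id)) (LinearMap.ker (x + l • LinearMap.id)) := by
  refine ⟨?_, ?_⟩
  · rw [Submodule.disjoint_def]
    intro v hv hv'
    rw [LinearMap.mem_ker, LinearMap.sub_apply, LinearMap.smul_apply, LinearMap.id_apply, sub_eq_zero] at hv
    rw [LinearMap.mem_ker, LinearMap.add_apply, LinearMap.smul_apply, LinearMap.id_apply, hv, ← add_smul,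
      smul_eq_zero] at hv'
    exact hv'.resolve_left (by rw [← two_mul]; exact mul_ne_zero h2 hl)
  · rw [codisjoint_iff, eq_top_iff]
    intro v _
    refine Submodule.mem_sup.2 ⟨(2 * l)⁻¹ • (x v + l • v), ?_, (2 * l)⁻¹ • (l • v - x v), ?_, ?_⟩
    · rw [LinearMap.mem_ker, LinearMap.sub_apply, map_smul, map_add, map_smul, hx, LinearMap.smul_apply,
        LinearMap.id_apply]
      module
    · rw [LinearMap.mem_ker, LinearMap.add_apply, map_smul, map_sub, map_smul, hx, LinearMap.smul_apply,
        LinearMap.id_apply]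
      module
    · rw [← smul_add, show x v + l • v + (l • v - x v) = (2 * l) • v by module,
        inv_smul_smul₀ (mul_ne_zero h2 hl)]

theorem inv_eigen {x : Module.End F V} (l : F) : Inv x (LinearMap.ker (x - l • LinearMap.id)) ∧
    Inv x (LinearMap.ker (x + l • LinearMap.id)) := by
  constructor <;> intro v hv <;>
    simp only [LinearMap.mem_ker, LinearMap.sub_apply, LinearMap.add_apply, LinearMap.smul_apply,
      LinearMap.id_apply] at hv ⊢ <;>
    rw [← map_smul, ← map_zero x, ← hv] <;> simp

theorem eig_pos {x : Module.End F V} {l : F} {v : V}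
    (h : v ∈ LinearMap.ker (x - l • LinearMap.id)) : x v = l • v := by
  rwa [LinearMap.mem_ker, LinearMap.sub_apply, LinearMap.smul_apply, LinearMap.id_apply, sub_eq_zero] at h

theorem eig_neg {x : Module.End F V} {l : F} {v : V}
    (h : v ∈ LinearMap.ker (x + l • LinearMap.id)) : x v = (-l) • v := by
  rw [LinearMap.mem_ker, LinearMap.add_apply, LinearMap.smul_apply, LinearMap.id_apply] at h
  rw [neg_smul, eq_neg_iff_add_eq_zero, h]

theorem eigen_det (h2 : (2 : F) ≠ 0) {x : Module.End F V} {l : F} (hl : l ≠ 0)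
    (hx : ∀ v, x (x v) = (l * l) • v) :
    LinearMap.det x = l ^ finrank F V *
      (-1) ^ finrank F (LinearMap.ker (x + l • LinearMap.id)) := by
  have h := isCompl_eigen h2 hl hx
  rw [← Submodule.finrank_add_eq_of_isCompl h]
  conv_lhs => rw [prod_conj h (inv_eigen l).1 (inv_eigen l).2]
  rw [LinearEquiv.conj_apply, LinearMap.comp_assoc, LinearMap.det_conj, LinearMap.det_prodMap,
    show x.restrict (inv_eigen l).1 = l • LinearMap.id from LinearMap.ext fun v => Subtype.ext (eig_pos v.2),
    show x.restrict (inv_eigen l).2 = (-l) • LinearMap.id from LinearMap.ext fun v => Subtype.ext (eig_neg v.2),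
    LinearMap.det_smul, LinearMap.det_smul, LinearMap.det_id, LinearMap.det_id, mul_one, mul_one,
    neg_pow, pow_add]
  ring

theorem conj_semisimple (h2 : (2 : F) ≠ 0) {x : Module.End F V} {y : Module.End F V'} {l : F} (hl : l ≠ 0)
    (hx : ∀ v, x (x v) = (l * l) • v) (hy : ∀ v, y (y v) = (l * l) • v)
    (hd : finrank F V = finrank F V')
    (hk : finrank F (LinearMap.ker (x - l • LinearMap.id)) =
      finrank F (LinearMap.ker (y - l • LinearMap.id))) :
    ∃ T : V ≃ₗ[F] V', ∀ v, T (x v) = y (T v) := by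
  have h := isCompl_eigen h2 hl hx
  have h' := isCompl_eigen h2 hl hy
  have := Submodule.finrank_add_eq_of_isCompl h
  have := Submodule.finrank_add_eq_of_isCompl h'
  let e₁ := LinearEquiv.ofFinrankEq _ _ hk
  let e₂ := LinearEquiv.ofFinrankEq (R := F) (LinearMap.ker (x + l • LinearMap.id))
    (LinearMap.ker (y + l • LinearMap.id)) (by omega)
  refine ⟨((Submodule.prodEquivOfIsCompl _ _ h).symm.trans (e₁.prodCongr e₂)).trans
    (Submodule.prodEquivOfIsCompl _ _ h'), fun v => ?_⟩
  obtain ⟨⟨a, b⟩, rfl⟩ := (Submodule.prodEquivOfIsCompl _ _ h).surjective v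
  have h1 : x (a : V) = l • (a : V) := eig_pos a.2
  have h2 : x (b : V) = -(l • (b : V)) := (eig_neg b.2).trans (neg_smul _ _)
  have h3 : y (e₁ a : V') = l • (e₁ a : V') := eig_pos (e₁ a).2
  have h4 : y (e₂ b : V') = -(l • (e₂ b : V')) := (eig_neg (e₂ b).2).trans (neg_smul _ _)
  have hxv : x (Submodule.prodEquivOfIsCompl _ _ h (a, b)) =
      Submodule.prodEquivOfIsCompl _ _ h (l • a, -(l • b)) := by
    simp [h1, h2]
  rw [hxv]
  simp [h3, h4]

/-- The centralizer has every determinant. -/
theorem cent_semisimple (h2 : (2 : F) ≠ 0) {x : Module.End F V} {l : F} (hl : l ≠ 0)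
    (hx : ∀ v, x (x v) = (l * l) • v) (hV : 0 < finrank F V) (δ : F) :
    ∃ C : Module.End F V, (∀ v, C (x v) = x (C v)) ∧ LinearMap.det C = δ := by
  classical
  have h := isCompl_eigen h2 hl hx
  have hsum := Submodule.finrank_add_eq_of_isCompl h
  obtain ⟨U, W, hUW, hU, hW, m, hm, hsc⟩ : ∃ U W : Submodule F V, IsCompl U W ∧ Inv x U ∧ Inv x W ∧
      ∃ m : F, 0 < finrank F U ∧ ∀ v ∈ U, x v = m • v := by
    rcases Nat.eq_zero_or_pos (finrank F (LinearMap.ker (x - l • LinearMap.id))) with h0 | h0
    · refine ⟨_, _, h.symm, (inv_eigen l).2, (inv_eigen l).1, -l, by omega, fun v hv => ?_⟩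
      exact eig_neg hv
    · refine ⟨_, _, h, (inv_eigen l).1, (inv_eigen l).2, l, h0, fun v hv => ?_⟩
      exact eig_pos hv
  let b := Module.finBasis F U
  let C₀ : U →ₗ[F] U := Matrix.toLin b b (Matrix.diagonal fun j => if (j : ℕ) = 0 then δ else 1)
  let e := Submodule.prodEquivOfIsCompl U W hUW
  refine ⟨e.conj (C₀.prodMap (LinearMap.id : W →ₗ[F] W)), fun v => ?_, ?_⟩
  · obtain ⟨z, rfl⟩ := e.surjective v
    have hxz : x (e z) = e (m • z.1, (x.restrict hW) z.2) := by
      simp [e, map_add, hsc _ z.1.2]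
      rfl
    rw [hxz]
    simp only [LinearEquiv.conj_apply, LinearMap.comp_apply, LinearEquiv.coe_coe,
      LinearMap.prodMap_apply, LinearEquiv.symm_apply_apply, LinearMap.id_apply, map_smul]
    simp [e, map_add, hsc _ (C₀ z.1).2]
    rfl
  · rw [LinearEquiv.conj_apply, LinearMap.comp_assoc, LinearMap.det_conj, LinearMap.det_prodMap,
      LinearMap.det_id, mul_one, LinearMap.det_toLin, Matrix.det_diagonal,
      Finset.prod_eq_single (⟨0, hm⟩ : Fin (finrank F U))]
    · simp
    · intro j _ hj
      rw [if_neg fun h => hj (Fin.ext h)]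
    · simp

end Semisimple

section Irreducible

open Polynomial

variable {g : F[X]}

theorem exists_field_action [hg : Fact (Irreducible g)] {x : Module.End F V} (hx : Polynomial.aeval x g = 0) :
    ∃ φ : AdjoinRoot g →ₐ[F] Module.End F V, φ (AdjoinRoot.root g) = x := by
  refine ⟨Ideal.Quotient.liftₐ (Ideal.span {g}) (Polynomial.aeval x) fun a ha => ?_, ?_⟩
  · obtain ⟨b, rfl⟩ := Ideal.mem_span_singleton'.1 ha
    rw [map_mul, hx, mul_zero]
  · show Polynomial.aeval x X = x
    rw [aeval_X]

theorem conj_irreducible (hirr : Irreducible g) {x : Module.End F V} {y : Module.End F V'}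
    (hx : Polynomial.aeval x g = 0) (hy : Polynomial.aeval y g = 0)
    (hd : finrank F V = finrank F V') : ∃ T : V ≃ₗ[F] V', ∀ v, T (x v) = y (T v) := by
  haveI := Fact.mk hirr
  obtain ⟨φ, hφ⟩ := exists_field_action hx
  obtain ⟨ψ, hψ⟩ := exists_field_action hy
  letI : Module (AdjoinRoot g) V := Module.compHom V φ.toRingHom
  letI : Module (AdjoinRoot g) V' := Module.compHom V' ψ.toRingHom
  haveI : IsScalarTower F (AdjoinRoot g) V := IsScalarTower.of_algebraMap_smul fun a v => by
    show φ (algebraMap F (AdjoinRoot g) a) v = a • v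
    rw [AlgHom.commutes]; rfl
  haveI : IsScalarTower F (AdjoinRoot g) V' := IsScalarTower.of_algebraMap_smul fun a v => by
    show ψ (algebraMap F (AdjoinRoot g) a) v = a • v
    rw [AlgHom.commutes]; rfl
  haveI : FiniteDimensional (AdjoinRoot g) V := Module.Finite.of_restrictScalars_finite F _ _
  haveI : FiniteDimensional (AdjoinRoot g) V' := Module.Finite.of_restrictScalars_finite F _ _
  haveI : FiniteDimensional F (AdjoinRoot g) := (AdjoinRoot.powerBasis hirr.ne_zero).finite
  have h : finrank (AdjoinRoot g) V = finrank (AdjoinRoot g) V' := by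
    refine Nat.eq_of_mul_eq_mul_left (Module.finrank_pos (R := F) (M := AdjoinRoot g)) ?_
    rw [Module.finrank_mul_finrank, Module.finrank_mul_finrank, hd]
  let T := LinearEquiv.ofFinrankEq V V' h
  refine ⟨T.restrictScalars F, fun v => ?_⟩
  have := T.map_smul (AdjoinRoot.root g) v
  rw [show AdjoinRoot.root g • v = x v from LinearMap.congr_fun hφ v,
    show AdjoinRoot.root g • T v = y (T v) from LinearMap.congr_fun hψ (T v)] at this
  exact this

/-- The centralizer has every determinant (norms are onto). -/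
theorem cent_irreducible [Finite F] (hirr : Irreducible g) {x : Module.End F V}
    (hx : Polynomial.aeval x g = 0) (hV : 0 < finrank F V) {δ : F} (hδ : δ ≠ 0) :
    ∃ C : Module.End F V, (∀ v, C (x v) = x (C v)) ∧ LinearMap.det C = δ := by
  classical
  haveI := Fact.mk hirr
  obtain ⟨φ, hφ⟩ := exists_field_action hx
  letI : Module (AdjoinRoot g) V := Module.compHom V φ.toRingHom
  haveI : IsScalarTower F (AdjoinRoot g) V := IsScalarTower.of_algebraMap_smul fun a v => by
    show φ (algebraMap F (AdjoinRoot g) a) v = a • v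
    rw [AlgHom.commutes]; rfl
  haveI : FiniteDimensional (AdjoinRoot g) V := Module.Finite.of_restrictScalars_finite F _ _
  haveI : FiniteDimensional F (AdjoinRoot g) := (AdjoinRoot.powerBasis hirr.ne_zero).finite
  haveI : Finite (AdjoinRoot g) := Module.finite_of_finite F
  obtain ⟨a, ha⟩ := FiniteField.norm_surjective (K := F) (K' := AdjoinRoot g) δ
  haveI : Nontrivial V := Module.nontrivial_of_finrank_pos (R := F) hV
  let b := Module.finBasis (AdjoinRoot g) V
  let C₀ : V →ₗ[AdjoinRoot g] V := Matrix.toLin b b (Matrix.diagonal fun j => if (j : ℕ) = 0 then a else 1)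
  have hC : LinearMap.det C₀ = a := by
    rw [LinearMap.det_toLin, Matrix.det_diagonal,
      Finset.prod_eq_single (⟨0, Module.finrank_pos⟩ : Fin (finrank (AdjoinRoot g) V))]
    · simp
    · intro j _ hj
      rw [if_neg fun h => hj (Fin.ext h)]
    · simp
  refine ⟨C₀.restrictScalars F, fun v => ?_, by rw [LinearMap.det_restrictScalars, hC, ha]⟩
  have := C₀.map_smul (AdjoinRoot.root g) v
  rw [show AdjoinRoot.root g • v = x v from LinearMap.congr_fun hφ v,
    show AdjoinRoot.root g • C₀ v = x (C₀ v) from LinearMap.congr_fun hφ (C₀ v)] at this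
  exact this

theorem aeval_sq_sub {x : Module.End F V} {c : F} (hx : ∀ v, x (x v) = c • v) :
    Polynomial.aeval x (X ^ 2 - C c) = 0 := by
  refine LinearMap.ext fun v => ?_
  simp [pow_two, Module.End.mul_apply, hx]

end Irreducible

section Nilpotent

/-- The type of a square-zero map. -/
theorem type_sq_zero {N : Module.End F V} (hN : N ^ 2 = 0) :
    HasType N (Multiset.replicate (finrank F (LinearMap.range N)) 2 +
      Multiset.replicate (finrank F V - 2 * finrank F (LinearMap.range N)) 1) := by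
  obtain ⟨μ, hμ⟩ := exists_type (f := N) ⟨2, hN⟩
  have hle := (hμ.pow_eq_zero_iff 2).1 hN
  have he : μ = Multiset.replicate (μ.count 2) 2 + Multiset.replicate (μ.count 1) 1 := by
    ext a
    rw [Multiset.count_add, Multiset.count_replicate, Multiset.count_replicate]
    by_cases h2 : a = 2
    · subst h2; simp
    by_cases h1 : a = 1
    · subst h1; simp
    rw [if_neg (Ne.symm h2), if_neg (Ne.symm h1), add_zero, Multiset.count_eq_zero]
    intro ha
    have := hle a ha
    have := hμ.pos ha
    omega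
  have hr := hμ.finrank_range_pow 1
  rw [pow_one, he] at hr
  have hs := hμ.sum_eq
  rw [he] at hs
  simp at hr hs
  rw [hr, show finrank F V - 2 * μ.count 2 = μ.count 1 by omega, ← he]
  exact hμ

theorem conj_sq_zero {N : Module.End F V} {N' : Module.End F V'} (hN : N ^ 2 = 0) (hN' : N' ^ 2 = 0)
    (hd : finrank F V = finrank F V')
    (hr : finrank F (LinearMap.range N) = finrank F (LinearMap.range N')) :
    ∃ T : V ≃ₗ[F] V', ∀ v, T (N v) = N' (T v) := by
  have h := type_sq_zero hN'
  rw [← hd, ← hr] at h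
  exact (type_sq_zero hN).exists_equiv h

/-- Scalars on one block commute. -/
theorem exists_comm_det_part {N : Module.End F V} {μ : Multiset ℕ} (h : HasType N μ) {a : ℕ}
    (ha : a ∈ μ) (s : F) :
    ∃ C : Module.End F V, (∀ v, C (N v) = N (C v)) ∧ LinearMap.det C = s ^ a := by
  obtain ⟨ν', rfl⟩ := Multiset.exists_cons_of_mem ha
  rw [← Multiset.singleton_add] at h
  obtain ⟨U, W, hUW, hU, hW, hdU⟩ := exists_split h
  obtain ⟨C, hC, hdC⟩ := exists_comm_det hUW hU hW s
  exact ⟨C, hC, by rw [hdC, hdU, Multiset.sum_singleton]⟩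

end Nilpotent

end Cfsg.Agent.Lib.Elusive
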