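import Cfsg.Prelude.Def_GeometricClasses
import Cfsg.Agent.Lib.Elusive.Semisimple
import Cfsg.Agent.Lib.Elusive.SLConj

/-!
Maps permuting the summands of a decomposition into subspaces of equal dimension.
-/

set_option autoImplicit false

namespace Cfsg.Agent.Lib.Elusive.Decomp

open Module Cfsg.Geo
open scoped Matrix

universe u

variable {ι : Type} [Fintype ι] [DecidableEq ι] {F : Type u} [Field F] {t a : ℕ}
  {D : Fin t → Submodule F (ι → F)}

theorem finrank_sup_le (D : Fin t → Submodule F (ι → F)) (S : Finset (Fin t)) :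
    finrank F (S.sup D : Submodule F (ι → F)) ≤ ∑ j ∈ S, finrank F (D j) := by
  induction S using Finset.induction with
  | empty => simp
  | insert j S hj ih =>
    rw [Finset.sup_insert, Finset.sum_insert hj]
    exact (Submodule.finrank_add_le_finrank_add_finrank _ _).trans (Nat.add_le_add_left ih _)

/-- Spanning by `t` subspaces of dimension `a` with `t a = n` gives a decomposition. -/
theorem of_span (ht : 2 ≤ t) (ha : 0 < a) (hd : ∀ j, finrank F (D j) = a)
    (hcard : Fintype.card ι = a * t) (htop : iSup D = ⊤) : IsMDecomposition a D := by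
  refine ⟨ht, ha, hd, fun j => ?_, htop⟩
  set S := (Finset.univ.erase j).sup D
  have hle : (⨆ (i) (_ : i ≠ j), D i) ≤ S :=
    iSup₂_le fun i hi => Finset.le_sup (f := D) (Finset.mem_erase.2 ⟨hi, Finset.mem_univ i⟩)
  have hsup : D j ⊔ S = ⊤ := by
    rw [eq_top_iff, ← htop]
    refine iSup_le fun i => ?_
    rcases eq_or_ne i j with rfl | hi
    · exact le_sup_left
    · exact le_sup_of_le_right (Finset.le_sup (f := D) (Finset.mem_erase.2 ⟨hi, Finset.mem_univ i⟩))
  have h1 := Submodule.finrank_sup_add_finrank_inf_eq (D j) S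
  have h2 := finrank_sup_le D (Finset.univ.erase j)
  rw [Finset.sum_congr rfl fun i _ => hd i, Finset.sum_const, Finset.card_erase_of_mem (Finset.mem_univ j),
    Finset.card_univ, Fintype.card_fin, smul_eq_mul] at h2
  rw [hsup, finrank_top, Module.finrank_pi, hcard, hd] at h1
  change finrank F S ≤ _ at h2
  have h3 : (t - 1) * a + a = a * t := by
    conv_rhs => rw [show t = t - 1 + 1 by omega]
    ring
  exact (disjoint_iff.2 (Submodule.finrank_eq_zero.1 (by omega))).mono_right hle

/-- The sum map. -/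
noncomputable def sumMap (D : Fin t → Submodule F (ι → F)) : ((j : Fin t) → D j) →ₗ[F] (ι → F) :=
  ∑ j, (D j).subtype ∘ₗ LinearMap.proj j

theorem sumMap_apply (v : (j : Fin t) → D j) : sumMap D v = ∑ j, (v j : ι → F) := by
  simp [sumMap]

theorem sumMap_bijective (hD : IsMDecomposition a D) : Function.Bijective (sumMap D) := by
  have hsurj : Function.Surjective (sumMap D) := by
    rw [← LinearMap.range_eq_top, eq_top_iff, ← hD.iSup_eq_top]
    refine iSup_le fun j v hv => ⟨Pi.single j ⟨v, hv⟩, ?_⟩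
    rw [sumMap_apply, Finset.sum_eq_single j (fun i _ hi => by simp [Pi.single_eq_of_ne hi]) (by simp)]
    simp
  refine ⟨?_, hsurj⟩
  rw [injective_iff_map_eq_zero]
  intro v hv
  funext j
  refine Subtype.ext ?_
  refine Submodule.disjoint_def.1 (hD.indep j) _ (v j).2 ?_
  rw [sumMap_apply, ← Finset.add_sum_erase _ _ (Finset.mem_univ j), add_eq_zero_iff_eq_neg] at hv
  rw [hv]
  exact neg_mem (sum_mem fun i hi =>
    Submodule.mem_iSup_of_mem i (Submodule.mem_iSup_of_mem (Finset.ne_of_mem_erase hi) (v i).2))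

theorem card_eq (hD : IsMDecomposition a D) : Fintype.card ι = a * t := by
  have := (LinearEquiv.ofBijective _ (sumMap_bijective hD)).finrank_eq
  rw [Module.finrank_pi_fintype F, Finset.sum_congr rfl fun j _ => hD.finrank_eq j, Module.finrank_pi,
    Finset.sum_const, Finset.card_univ, Fintype.card_fin, smul_eq_mul] at this
  rw [← this, mul_comm]

theorem injective (hD : IsMDecomposition a D) : Function.Injective D := fun i j h => by
  by_contra hij
  have := hD.indep i
  have hle : D i ≤ ⨆ (k) (_ : k ≠ i), D k := h.le.trans (le_iSup₂ (f := fun k (_ : k ≠ i) => D k) j (Ne.symm hij))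
  have h0 : D i = ⊥ := eq_bot_iff.2 (disjoint_iff.1 this ▸ le_inf le_rfl hle)
  have h1 := hD.finrank_eq i
  rw [h0, finrank_bot] at h1
  exact hD.pos.ne h1

/-- Change of a decomposition by an automorphism. -/
theorem map (hD : IsMDecomposition a D) (e : (ι → F) ≃ₗ[F] (ι → F)) :
    IsMDecomposition a fun j => (D j).map (e : (ι → F) →ₗ[F] (ι → F)) :=
  of_span hD.two_le hD.pos (fun j => by rw [LinearEquiv.finrank_map_eq, hD.finrank_eq]) (card_eq hD)
    (by rw [← Submodule.map_iSup, hD.iSup_eq_top, Submodule.map_top, LinearEquiv.range])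

theorem comp_perm (hD : IsMDecomposition a D) (π : Equiv.Perm (Fin t)) : IsMDecomposition a (D ∘ π) :=
  ⟨hD.two_le, hD.pos, fun j => hD.finrank_eq _, hD.indep.comp π.injective,
    by rw [← hD.iSup_eq_top]; exact π.iSup_comp⟩

section Perm

variable {y : Module.End F (ι → F)} {σ : Equiv.Perm (Fin t)} {r : ℕ}

theorem map_pow (hσ : ∀ j, (D j).map y = D (σ j)) (s : ℕ) (j : Fin t) :
    (D j).map (y ^ s) = D ((σ ^ s) j) := by
  induction s generalizing j with
  | zero => simp [Module.End.one_eq_id]
  | succ s ih =>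
    rw [pow_succ, Module.End.mul_eq_comp, Submodule.map_comp, hσ, ih, pow_succ, Equiv.Perm.mul_apply]

theorem perm_pow (hD : IsMDecomposition a D) (hσ : ∀ j, (D j).map y = D (σ j)) (hy : y ^ r = 1) :
    σ ^ r = 1 :=
  Equiv.ext fun j => injective hD (by
    rw [← map_pow hσ, hy, Module.End.one_eq_id, Submodule.map_id, Equiv.Perm.one_apply])

theorem orbit_inj [Fact r.Prime] (hr : σ ^ r = 1) {j : Fin t} (hj : σ j ≠ j) {s s' : ℕ}
    (hs : s < r) (hs' : s' < r) (h : (σ ^ s) j = (σ ^ s') j) : s = s' := by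
  wlog hle : s ≤ s' generalizing s s'
  · exact (this hs' hs h.symm (le_of_not_ge hle)).symm
  by_contra hne
  obtain ⟨d, rfl⟩ := Nat.exists_eq_add_of_le hle
  rw [pow_add, Equiv.Perm.mul_apply] at h
  have hd : Function.IsPeriodicPt σ d j := by
    show σ^[d] j = j
    rw [← Equiv.Perm.coe_pow]
    exact ((σ ^ s).injective h).symm
  have hr' : Function.IsPeriodicPt σ r j := by
    show σ^[r] j = j
    rw [← Equiv.Perm.coe_pow, hr, Equiv.Perm.one_apply]
  have hg := hd.gcd hr'
  have hrp : r.Prime := Fact.out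
  rw [Nat.Coprime.gcd_eq_one ((hrp.coprime_iff_not_dvd.2 fun hdvd => by
    have := Nat.le_of_dvd (by omega) hdvd; omega).symm)] at hg
  exact hj hg

/-- Fixed vectors in coordinates. -/
theorem fixed_coord (hD : IsMDecomposition a D) (hσ : ∀ j, (D j).map y = D (σ j))
    {v : (j : Fin t) → D j} (hv : y (sumMap D v) = sumMap D v) (j : Fin t) :
    (v (σ j) : ι → F) = y (v j : ι → F) := by
  let w : (j : Fin t) → D j := fun k => ⟨y (v (σ.symm k) : ι → F), by
    have h : D k = (D (σ.symm k)).map y := by rw [hσ, Equiv.apply_symm_apply]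
    rw [h]
    exact Submodule.mem_map_of_mem (v (σ.symm k)).2⟩
  have hw : sumMap D w = y (sumMap D v) := by
    rw [sumMap_apply, sumMap_apply, map_sum]
    exact Equiv.sum_comp σ.symm fun k => y (v k : ι → F)
  have h := congrArg (fun u : (j : Fin t) → D j => (u (σ j) : ι → F))
    ((sumMap_bijective hD).1 (hw.trans hv))
  simp only [w] at h
  exact h.symm.trans (congrArg (fun i => y (v i : ι → F)) (σ.symm_apply_apply j))

variable [Fact r.Prime]

/-- The orbit sum of a vector of a moved summand. -/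
theorem exists_orbit_sum (hσ : ∀ j, (D j).map y = D (σ j)) (hy : y ^ r = 1)
    (hr : σ ^ r = 1) {j : Fin t} (hj : σ j ≠ j) (w : D j) :
    ∃ v : (i : Fin t) → D i, y (sumMap D v) = sumMap D v ∧ sumMap D v = ∑ s ∈ Finset.range r, (y ^ s) (w : ι → F) ∧
      (v j : ι → F) = w ∧ ∀ i, (∀ s < r, (σ ^ s) j ≠ i) → (v i : ι → F) = 0 := by
  classical
  have hrp : r.Prime := Fact.out
  have hmem : ∀ s, (y ^ s) (w : ι → F) ∈ D ((σ ^ s) j) := fun s => by
    rw [← map_pow hσ]; exact Submodule.mem_map_of_mem w.2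
  let v : (i : Fin t) → D i := fun i => ∑ s ∈ Finset.range r,
    if h : (σ ^ s) j = i then ⟨(y ^ s) (w : ι → F), h ▸ hmem s⟩ else 0
  have hv : ∀ i, (v i : ι → F) = ∑ s ∈ Finset.range r, if (σ ^ s) j = i then (y ^ s) (w : ι → F) else 0 := by
    intro i
    simp only [v, AddSubmonoidClass.coe_finsetSum]
    refine Finset.sum_congr rfl fun s _ => ?_
    split_ifs <;> rfl
  have hsum : sumMap D v = ∑ s ∈ Finset.range r, (y ^ s) (w : ι → F) := by
    rw [sumMap_apply, Finset.sum_congr rfl fun i _ => hv i, Finset.sum_comm]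
    exact Finset.sum_congr rfl fun s _ => by simp
  refine ⟨v, ?_, hsum, ?_, fun i hi => ?_⟩
  · rw [hsum, map_sum, Finset.sum_congr rfl fun s _ => show y ((y ^ s) (w : ι → F)) = (y ^ (s + 1)) (w : ι → F) by
      rw [pow_succ', Module.End.mul_apply]]
    have h1 := Finset.sum_range_succ' (fun s => (y ^ s) (w : ι → F)) r
    rw [Finset.sum_range_succ, hy, pow_zero] at h1
    exact (add_right_cancel h1).symm
  · rw [hv, Finset.sum_eq_single 0 (fun s hs hs0 => if_neg fun h => hs0 (orbit_inj hr hj (Finset.mem_range.1 hs) hrp.pos (by rw [h, pow_zero, Equiv.Perm.one_apply])))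
      (fun h => absurd (Finset.mem_range.2 hrp.pos) h)]
    simp
  · rw [hv]
    exact Finset.sum_eq_zero fun s hs => if_neg (hi s (Finset.mem_range.1 hs))

/-- A moved summand: `a` fixed dimensions and at least `a (r-1)` moved ones. -/
theorem moved_bound (hD : IsMDecomposition a D) (hσ : ∀ j, (D j).map y = D (σ j)) (hy : y ^ r = 1)
    {j : Fin t} (hj : σ j ≠ j) :
    a ≤ finrank F (LinearMap.ker (y - (1 : F) • LinearMap.id)) ∧
      finrank F (LinearMap.ker (y - (1 : F) • LinearMap.id)) + a * (r - 1) ≤ Fintype.card ι := by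
  classical
  have hr := perm_pow hD hσ hy
  have hC : ∀ u, u ∈ LinearMap.ker (y - (1 : F) • LinearMap.id) ↔ y u = u := fun u => by simp [sub_eq_zero]
  let Φ := LinearEquiv.ofBijective _ (sumMap_bijective hD)
  have hΦ : ∀ u, sumMap D (Φ.symm u) = u := fun u => Φ.apply_symm_apply u
  constructor
  · let L : D j →ₗ[F] LinearMap.ker (y - (1 : F) • LinearMap.id) :=
      LinearMap.codRestrict _ (∑ s ∈ Finset.range r, (y ^ s) ∘ₗ (D j).subtype) fun w => by
        obtain ⟨v, h1, h2, -⟩ := exists_orbit_sum hσ hy hr hj w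
        rw [hC, LinearMap.sum_apply]
        simp only [LinearMap.comp_apply, Submodule.coe_subtype]
        rw [← h2, h1]
    have hL : Function.Injective L := (injective_iff_map_eq_zero _).2 fun w hw => by
      obtain ⟨v, -, h2, h3, -⟩ := exists_orbit_sum hσ hy hr hj w
      have h0 : sumMap D v = 0 := by
        rw [h2]; simpa [L, LinearMap.sum_apply] using congrArg Subtype.val hw
      rw [← map_zero (sumMap D)] at h0
      refine Subtype.ext ?_
      rw [← h3, (sumMap_bijective hD).1 h0]
      rfl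
    have := LinearMap.finrank_le_finrank_of_injective hL
    rwa [hD.finrank_eq] at this
  · let S : Finset (Fin t) := (Finset.range (r - 1)).image fun s => (σ ^ s) j
    have hS : S.card = r - 1 := by
      rw [Finset.card_image_of_injOn, Finset.card_range]
      intro s hs s' hs' h
      simp only [Finset.coe_range, Set.mem_Iio] at hs hs'
      exact orbit_inj hr hj (by omega) (by omega) h
    let L : LinearMap.ker (y - (1 : F) • LinearMap.id) →ₗ[F] ((i : {i // i ∉ S}) → D i.1) :=
      LinearMap.pi fun i => LinearMap.proj i.1 ∘ₗ Φ.symm.toLinearMap ∘ₗ Submodule.subtype _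
    have hL : Function.Injective L := (injective_iff_map_eq_zero _).2 fun u hu => by
      set v := Φ.symm (u : ι → F) with hvdef
      have hfix := fixed_coord hD hσ (v := v) (by rw [hvdef, hΦ]; exact (hC _).1 u.2)
      have hout : ∀ i, i ∉ S → v i = 0 := fun i hi => congrFun hu ⟨i, hi⟩
      have hlast : v ((σ ^ (r - 1)) j) = 0 := hout _ fun h => by
        obtain ⟨s, hs, h'⟩ := Finset.mem_image.1 h
        rw [Finset.mem_range] at hs
        have := orbit_inj hr hj (s := s) (s' := r - 1) (by omega) (by omega) h'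
        omega
      have horb : ∀ s, (v ((σ ^ s) j) : ι → F) = 0 := by
        have hj0 : (v j : ι → F) = 0 := by
          have h := hfix ((σ ^ (r - 1)) j)
          rwa [← Equiv.Perm.mul_apply, ← pow_succ', Nat.sub_add_cancel (Fact.out : r.Prime).one_le, hr,
            Equiv.Perm.one_apply, hlast, ZeroMemClass.coe_zero, map_zero] at h
        intro s
        induction s with
        | zero => rw [pow_zero, Equiv.Perm.one_apply]; exact hj0
        | succ s ih => rw [pow_succ', Equiv.Perm.mul_apply, hfix, ih, map_zero]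
      have hv0 : v = 0 := funext fun i => by
        by_cases hi : i ∈ S
        · obtain ⟨s, -, rfl⟩ := Finset.mem_image.1 hi
          exact Subtype.ext (horb s)
        · exact hout i hi
      refine Subtype.ext ?_
      rw [← hΦ (u : ι → F), ← hvdef, hv0, map_zero]
      rfl
    have h := LinearMap.finrank_le_finrank_of_injective hL
    rw [Module.finrank_pi_fintype F, Finset.sum_congr rfl fun i _ => hD.finrank_eq i.1, Finset.sum_const,
      Finset.card_univ, Fintype.card_subtype_compl, Fintype.card_coe, Fintype.card_fin, hS, smul_eq_mul] at h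
    rw [card_eq hD]
    have ht : r - 1 ≤ t := hS ▸ (Finset.card_le_univ S).trans_eq (Fintype.card_fin t)
    calc _ ≤ (t - (r - 1)) * a + a * (r - 1) := Nat.add_le_add_right h _
      _ = a * (t - (r - 1) + (r - 1)) := by ring
      _ = a * t := by rw [Nat.sub_add_cancel ht]

omit [Fact r.Prime] in
/-- The fixed parts of the summands are independent. -/
theorem sum_inf_le (hD : IsMDecomposition a D) (C : Submodule F (ι → F)) :
    ∑ j, finrank F (D j ⊓ C : Submodule F (ι → F)) ≤ finrank F C := by
  let L : ((j : Fin t) → (D j ⊓ C : Submodule F (ι → F))) →ₗ[F] C :=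
    LinearMap.codRestrict C (sumMap D ∘ₗ LinearMap.pi fun j =>
      Submodule.inclusion inf_le_left ∘ₗ LinearMap.proj j) fun v => by
      rw [LinearMap.comp_apply, sumMap_apply]
      exact C.sum_mem fun j _ => (v j).2.2
  have hL : Function.Injective L := fun u v h => by
    have h' := (sumMap_bijective hD).1 (congrArg Subtype.val h)
    exact funext fun j => Subtype.ext (show ((u j : _) : ι → F) = (v j : _) from congrArg (Subtype.val : D j → ι → F) (congrFun h' j))
  have := LinearMap.finrank_le_finrank_of_injective hL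
  rwa [Module.finrank_pi_fintype F] at this

/-- Lines permuted with the fixed ones inside the fixed space. -/
theorem card_le_mul (hD : IsMDecomposition a D) (hσ : ∀ j, (D j).map y = D (σ j)) (hy : y ^ r = 1)
    (hfix : ∀ j, σ j = j → ∀ v ∈ D j, y v = v) :
    t ≤ r * finrank F (LinearMap.ker (y - (1 : F) • LinearMap.id)) := by
  classical
  have hrp : r.Prime := Fact.out
  have hr := perm_pow hD hσ hy
  have hne : ∀ j : Fin t, ((Finset.range r).image fun s => (σ ^ s) j).Nonempty :=
    fun j => (Finset.nonempty_range_iff.2 hrp.ne_zero).image _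
  let rep : Fin t → Fin t := fun j => ((Finset.range r).image fun s => (σ ^ s) j).min' (hne j)
  have hmod : ∀ (j : Fin t) (s : ℕ), (σ ^ s) j = (σ ^ (s % r)) j := fun j s => by
    rw [pow_eq_pow_mod s hr]
  have hrep : ∀ (j : Fin t) (s : ℕ), rep ((σ ^ s) j) = rep j := by
    intro j s
    have h : (Finset.range r).image (fun k => (σ ^ k) ((σ ^ s) j)) = (Finset.range r).image fun k => (σ ^ k) j := by
      ext i
      simp only [Finset.mem_image, Finset.mem_range]
      constructor
      · rintro ⟨k, -, rfl⟩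
        exact ⟨(k + s) % r, Nat.mod_lt _ hrp.pos, by rw [← hmod, pow_add, Equiv.Perm.mul_apply]⟩
      · rintro ⟨k, -, rfl⟩
        refine ⟨(k + (r - 1) * s) % r, Nat.mod_lt _ hrp.pos, ?_⟩
        have h1 : (r - 1) * s + s = r * s := by
          conv_rhs => rw [show r = r - 1 + 1 by have := hrp.pos; omega]
          ring
        rw [← hmod, ← Equiv.Perm.mul_apply, ← pow_add, add_assoc, h1, pow_add, pow_mul, hr, one_pow, mul_one]
    simp only [rep, h]
  let S : Finset (Fin t) := Finset.univ.image rep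
  have hcard : t ≤ r * S.card := by
    have := Finset.card_le_mul_card_image (f := rep) (Finset.univ : Finset (Fin t)) r fun i hi => by
      refine le_trans (Finset.card_le_card (t := (Finset.range r).image fun s => (σ ^ s) i) fun j hj => ?_)
        (Finset.card_image_le.trans (Finset.card_range r).le)
      rw [Finset.mem_filter] at hj
      obtain ⟨s, -, hs⟩ := Finset.mem_image.1 (Finset.min'_mem _ (hne j))
      refine Finset.mem_image.2 ⟨((r - 1) * s) % r, Finset.mem_range.2 (Nat.mod_lt _ hrp.pos), ?_⟩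
      have h1 : (r - 1) * s + s = r * s := by
        conv_rhs => rw [show r = r - 1 + 1 by have := hrp.pos; omega]
        ring
      have hs' : (σ ^ s) j = i := hs.trans hj.2
      rw [← hs', ← hmod, ← Equiv.Perm.mul_apply, ← pow_add, h1, pow_mul, hr, one_pow, Equiv.Perm.one_apply]
    simpa [Finset.card_univ] using this
  have hw : ∀ j : Fin t, ∃ w : D j, w ≠ 0 := fun j => by
    haveI : Nontrivial (D j) := Module.nontrivial_of_finrank_pos (R := F) (by rw [hD.finrank_eq]; exact hD.pos)
    exact exists_ne 0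
  choose w hw0 using hw
  have hv : ∀ j : Fin t, ∃ v : (i : Fin t) → D i, y (sumMap D v) = sumMap D v ∧ v j ≠ 0 ∧
      ∀ i, (∀ s < r, (σ ^ s) j ≠ i) → v i = 0 := by
    intro j
    by_cases hj : σ j = j
    · refine ⟨Pi.single j (w j), ?_, by simpa using hw0 j, fun i hi => Pi.single_eq_of_ne (fun h => hi 0 hrp.pos (by simp [h])) _⟩
      rw [sumMap_apply, Finset.sum_eq_single j (fun i _ hi => by simp [Pi.single_eq_of_ne hi]) (by simp), Pi.single_eq_same]
      exact hfix j hj _ (w j).2
    · obtain ⟨v, h1, -, h3, h4⟩ := exists_orbit_sum hσ hy hr hj (w j)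
      exact ⟨v, h1, fun h => hw0 j (Subtype.ext (by rw [← h3, h])), fun i hi => Subtype.ext (h4 i hi)⟩
  choose v hv1 hv2 hv3 using hv
  let z : S → LinearMap.ker (y - (1 : F) • LinearMap.id) := fun j =>
    ⟨sumMap D (v j.1), by simp [sub_eq_zero, hv1]⟩
  have hli : LinearIndependent F z := by
    rw [Fintype.linearIndependent_iff]
    intro c hc i
    have h0 : sumMap D (∑ j : S, c j • v j.1) = sumMap D 0 := by
      rw [map_zero, map_sum]
      simpa [z, map_smul] using congrArg Subtype.val hc
    have h1 := congrFun ((sumMap_bijective hD).1 h0) i.1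
    rw [Finset.sum_apply, Finset.sum_eq_single i (fun k _ hk => ?_) (by simp)] at h1
    · exact (smul_eq_zero.1 h1).resolve_right (hv2 i.1)
    · rw [Pi.smul_apply, hv3 k.1 i.1 fun s _ h => hk (Subtype.ext ?_), smul_zero]
      obtain ⟨jk, -, hjk⟩ := Finset.mem_image.1 k.2
      obtain ⟨ji, -, hji⟩ := Finset.mem_image.1 i.2
      have hidem : ∀ j, rep (rep j) = rep j := fun j => by
        obtain ⟨s, -, hs⟩ := Finset.mem_image.1 (Finset.min'_mem _ (hne j))
        have := hrep j s
        rwa [hs] at this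
      calc k.1 = rep k.1 := by rw [← hjk, hidem]
        _ = rep i.1 := by rw [← h, hrep]
        _ = i.1 := by rw [← hji, hidem]
  have := hli.fintype_card_le_finrank
  rw [Fintype.card_coe] at this
  exact hcard.trans (Nat.mul_le_mul_left r this)

end Perm

section Count

variable [Finite F]

/-- A prime dividing the number of decompositions divides the order of a transitive group. -/
theorem dvd_card_group {G : Type*} [Group G] [Finite G] (φ : G →* ((ι → F) ≃ₗ[F] (ι → F)))
    (P : (Fin t → Submodule F (ι → F)) → Prop) (hP : ∀ D, P D → IsMDecomposition a D)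
    (hperm : ∀ D π, P D → P (D ∘ (π : Equiv.Perm (Fin t))))
    (hmap : ∀ D g, P D → P fun j => (D j).map (φ g : (ι → F) →ₗ[F] (ι → F)))
    (htrans : ∀ D D', P D → P D' → ∃ g, ∀ j, (D j).map (φ g : (ι → F) →ₗ[F] (ι → F)) = D' j)
    {r : ℕ} [Fact r.Prime] (hne : ∃ D, P D) (h : r ∣ Nat.card {D // P D} / Nat.factorial t) : r ∣ Nat.card G := by
  classical
  haveI he : Nonempty {D // P D} := let ⟨D, hD⟩ := hne; ⟨⟨D, hD⟩⟩
  letI A : MulAction G {D // P D} :=
    { smul := fun g D => ⟨fun j => (D.1 j).map (φ g : (ι → F) →ₗ[F] (ι → F)), hmap _ g D.2⟩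
      one_smul := fun D => Subtype.ext (funext fun j => by
        show (D.1 j).map _ = _
        rw [map_one]; exact Submodule.map_id _)
      mul_smul := fun g g' D => Subtype.ext (funext fun j => by
        show (D.1 j).map _ = ((D.1 j).map _).map _
        rw [_root_.map_mul, ← Submodule.map_comp]; rfl) }
  haveI : MulAction.IsPretransitive G {D // P D} := ⟨fun D D' => by
    obtain ⟨g, hg⟩ := htrans D.1 D'.1 D.2 D'.2
    exact ⟨g, Subtype.ext (funext hg)⟩⟩
  obtain ⟨D₀⟩ := he
  have hN : Nat.card {D // P D} ∣ Nat.card G := by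
    rw [← MulAction.index_stabilizer_of_transitive G D₀]
    exact Subgroup.index_dvd_card _
  letI B : MulAction (Equiv.Perm (Fin t)) {D // P D} :=
    { smul := fun π D => ⟨D.1 ∘ (π⁻¹ : Equiv.Perm (Fin t)), hperm _ _ D.2⟩
      one_smul := fun D => Subtype.ext rfl
      mul_smul := fun π π' D => Subtype.ext (funext fun j => by
        show D.1 ((π * π')⁻¹ j) = D.1 (π'⁻¹ (π⁻¹ j))
        rw [mul_inv_rev]; rfl) }
  have hfree : ∀ D : {D // P D}, MulAction.stabilizer (Equiv.Perm (Fin t)) D = ⊥ := fun D => by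
    rw [eq_bot_iff]
    intro π hπ
    rw [Subgroup.mem_bot, ← inv_eq_one]
    exact Equiv.ext fun j => injective (hP _ D.2) (congrFun (congrArg Subtype.val hπ) j)
  have hfac : Nat.factorial t ∣ Nat.card {D // P D} := by
    rw [Nat.card_congr (MulAction.selfEquivSigmaOrbitsQuotientStabilizer (Equiv.Perm (Fin t)) {D // P D})]
    haveI := Fintype.ofFinite (MulAction.orbitRel.Quotient (Equiv.Perm (Fin t)) {D // P D})
    rw [Nat.card_sigma]
    refine Finset.dvd_sum fun ω _ => ?_
    show _ ∣ Subgroup.index _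
    rw [hfree, Subgroup.index_bot, Nat.card_perm, Nat.card_fin]
  exact (h.trans (Nat.div_dvd_of_dvd hfac)).trans hN

/-- `GL` is transitive on decompositions. -/
theorem exists_map (D D' : Fin t → Submodule F (ι → F)) (hD : IsMDecomposition a D) (hD' : IsMDecomposition a D')
    (e : ∀ j, D j ≃ₗ[F] D' j) :
    ∃ g : (ι → F) ≃ₗ[F] (ι → F), (∀ j, (D j).map (g : (ι → F) →ₗ[F] (ι → F)) = D' j) ∧
      ∀ v : (j : Fin t) → D j, g (sumMap D v) = sumMap D' fun j => e j (v j) := by
  let g := ((LinearEquiv.ofBijective _ (sumMap_bijective hD)).symm.trans (LinearEquiv.piCongrRight e)).trans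
    (LinearEquiv.ofBijective _ (sumMap_bijective hD'))
  have hg : ∀ v : (j : Fin t) → D j, g (sumMap D v) = sumMap D' fun j => e j (v j) := fun v => by
    have : (LinearEquiv.ofBijective _ (sumMap_bijective hD)).symm (sumMap D v) = v :=
      LinearEquiv.symm_apply_apply _ v
    simp only [g, LinearEquiv.trans_apply, this]
    rfl
  refine ⟨g, fun j => Submodule.eq_of_le_of_finrank_le ?_ (by rw [LinearEquiv.finrank_map_eq, hD.finrank_eq, hD'.finrank_eq]), hg⟩
  rintro _ ⟨w, hw, rfl⟩
  classical
  have h1 : ∀ {D : Fin t → Submodule F (ι → F)} (v : D j), sumMap D (Pi.single j v) = v := fun v => by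
    rw [sumMap_apply, Finset.sum_eq_single j (fun i _ hi => by simp [Pi.single_eq_of_ne hi]) (by simp)]
    simp
  show g w ∈ D' j
  have h2 : (fun i => e i (Pi.single (M := fun i => D i) j ⟨w, hw⟩ i)) = Pi.single j (e j ⟨w, hw⟩) :=
    funext fun i => Pi.apply_single (fun i => e i) (fun i => map_zero _) j ⟨w, hw⟩ i
  rw [show w = sumMap D (Pi.single j ⟨w, hw⟩) from (h1 ⟨w, hw⟩).symm, hg, h2, h1]
  exact (e j ⟨w, hw⟩).2

end Count

section Build

variable {x : Module.End F (ι → F)} {C R : Submodule F (ι → F)} {i : ℕ}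

omit [Fintype ι] [DecidableEq ι] in
theorem exists_sub (W : Submodule F (ι → F)) [FiniteDimensional F W] {s : ℕ} (hs : s ≤ finrank F W) :
    ∃ U ≤ W, finrank F U = s := by
  have hli : LinearIndependent F
      (fun j : Fin s => (Module.finBasis F W (j.castLE hs) : ι → F)) :=
    ((Module.finBasis F W).linearIndependent.comp _ (Fin.castLE_injective hs)).map'
      W.subtype (Submodule.ker_subtype W)
  refine ⟨Submodule.span F (Set.range fun j : Fin s => (Module.finBasis F W (j.castLE hs) : ι → F)),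
    ?_, by rw [finrank_span_eq_card hli, Fintype.card_fin]⟩
  rw [Submodule.span_le]; rintro _ ⟨j, rfl⟩; exact (Module.finBasis F W _).2

omit [DecidableEq ι] in
/-- Invariant pieces of dimension `a`. -/
theorem exists_blocks (h : Step x C R i) (a : ℕ) : ∀ (t : ℕ) (C₀ R₀ : Submodule F (ι → F)) (u : ℕ),
    C₀ ≤ C → R₀ ≤ R → Inv x R₀ → finrank F R₀ = u * i → finrank F C₀ + finrank F R₀ = t * a →
      u ≤ t * (a / i) →
      ∃ D : Fin t → Submodule F (ι → F), (∀ j, Inv x (D j) ∧ finrank F (D j) = a) ∧ C₀ ⊔ R₀ ≤ iSup D := by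
  intro t
  induction t with
  | zero =>
    intro C₀ R₀ u _ _ _ _ hsum _
    refine ⟨fun j => j.elim0, fun j => j.elim0, ?_⟩
    rw [Submodule.finrank_eq_zero.1 (show finrank F C₀ = 0 by omega),
      Submodule.finrank_eq_zero.1 (show finrank F R₀ = 0 by omega), bot_sup_eq]
    exact bot_le
  | succ t ih =>
    intro C₀ R₀ u hC₀ hR₀ hR₀i hu hsum hule
    have hdiv := Nat.div_add_mod a i
    rw [Nat.succ_mul] at hule hsum
    set u₁ := min u (a / i) with hu₁
    have h1 : u₁ * i ≤ a :=
      (Nat.mul_le_mul_right i (min_le_right _ _)).trans (Nat.div_mul_le_self a i)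
    have h2 : a - u₁ * i ≤ finrank F C₀ := by
      rcases le_total u (a / i) with hle | hle
      · rw [hu₁, min_eq_left hle]; omega
      · rw [hu₁, min_eq_right hle, Nat.mul_comm (a / i) i]
        have h3 : u * i ≤ (t * (a / i) + a / i) * i := Nat.mul_le_mul_right i hule
        have h4 : t * (a / i) * i ≤ t * a := by
          rw [mul_assoc]; exact Nat.mul_le_mul_left t (Nat.div_mul_le_self a i)
        rw [add_mul, Nat.mul_comm (a / i) i] at h3
        omega
    have hRC : R₀ ⊓ C = ⊥ := eq_bot_iff.2 (by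
      rw [← h.isCompl.inf_eq_bot]; exact le_inf inf_le_right (inf_le_left.trans hR₀))
    obtain ⟨R₁, hR₁i, hR₁, hR₁d⟩ := h.take u₁ R₀ hR₀i hRC
      (hu ▸ Nat.mul_le_mul_right i (min_le_left _ _))
    obtain ⟨R₂, hR₂i, hR₂, hRs, hRd⟩ := h.compl_in hR₁i hR₀i hR₁
    obtain ⟨C₁, hC₁, hC₁d⟩ := exists_sub C₀ h2
    obtain ⟨C₂, -, hC₂, hCs, hCd⟩ := h.compl_in (h.eig _ (hC₁.trans hC₀)) (h.eig _ hC₀) hC₁
    have hmin : u₁ ≤ u := min_le_left _ _
    have hR₂d : finrank F R₂ = (u - u₁) * i := by
      rw [Nat.sub_mul]; omega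
    obtain ⟨D, hD, hDs⟩ := ih C₂ R₂ (u - u₁) (hC₂.trans hC₀) (hR₂.trans hR₀) hR₂i hR₂d
      (by omega) (by
        rcases le_total u (a / i) with hle | hle
        · rw [hu₁, min_eq_left hle, Nat.sub_self]; exact Nat.zero_le _
        · rw [hu₁, min_eq_right hle]; omega)
    have hdim : finrank F (C₁ ⊔ R₁ : Submodule F (ι → F)) = a := by
      have := Submodule.finrank_sup_add_finrank_inf_eq C₁ R₁
      rw [show C₁ ⊓ R₁ = ⊥ from eq_bot_iff.2 (h.isCompl.inf_eq_bot ▸ inf_le_inf (hC₁.trans hC₀) (hR₁.trans hR₀)),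
        finrank_bot] at this
      omega
    refine ⟨Fin.cons (C₁ ⊔ R₁) D, fun j => ?_, ?_⟩
    · refine Fin.cases ?_ (fun k => ?_) j
      · simpa using ⟨(h.eig _ (hC₁.trans hC₀)).sup hR₁i, hdim⟩
      · rw [Fin.cons_succ]; exact hD k
    · rw [← hCs, ← hRs]
      have h5 : C₁ ⊔ R₁ ≤ iSup (Fin.cons (C₁ ⊔ R₁) D : Fin (t + 1) → Submodule F (ι → F)) :=
        le_iSup_of_le 0 (by simp)
      have h6 : iSup D ≤ iSup (Fin.cons (C₁ ⊔ R₁) D : Fin (t + 1) → Submodule F (ι → F)) :=
        iSup_le fun k => le_iSup_of_le k.succ (by simp)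
      refine sup_le (sup_le (le_sup_left.trans h5) ((le_sup_left.trans hDs).trans h6))
        (sup_le (le_sup_right.trans h5) ((le_sup_right.trans hDs).trans h6))

omit [DecidableEq ι] in
/-- Invariant pieces of dimension `i`. -/
theorem exists_pieces (h : Step x C R i) : ∀ (u : ℕ) (R₀ : Submodule F (ι → F)), R₀ ≤ R → Inv x R₀ →
    finrank F R₀ = u * i →
    ∃ U : Fin u → Submodule F (ι → F), (∀ j, Inv x (U j) ∧ U j ≤ R₀ ∧ finrank F (U j) = i) ∧ R₀ ≤ iSup U := by
  intro u
  induction u with
  | zero =>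
    intro R₀ _ _ hu
    exact ⟨fun j => j.elim0, fun j => j.elim0,
      by rw [Submodule.finrank_eq_zero.1 (hu.trans (Nat.zero_mul i))]; exact bot_le⟩
  | succ u ih =>
    intro R₀ hR₀ hR₀i hu
    rw [Nat.succ_mul] at hu
    have hRC : R₀ ⊓ C = ⊥ := eq_bot_iff.2 (by
      rw [← h.isCompl.inf_eq_bot]; exact le_inf inf_le_right (inf_le_left.trans hR₀))
    obtain ⟨U₁, hU₁, hU₁le, hU₁d⟩ := h.small R₀ hR₀i hRC fun hb => by
      rw [hb, finrank_bot] at hu; have := h.pos; omega
    obtain ⟨R₂, hR₂i, hR₂, hRs, hRd⟩ := h.compl_in hU₁ hR₀i hU₁le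
    obtain ⟨U, hU, hUs⟩ := ih R₂ (hR₂.trans hR₀) hR₂i (by omega)
    refine ⟨Fin.cons U₁ U, fun j => ?_, ?_⟩
    · refine Fin.cases ?_ (fun k => ?_) j
      · simpa using ⟨hU₁, hU₁le, hU₁d⟩
      · simpa using ⟨(hU k).1, (hU k).2.1.trans hR₂, (hU k).2.2⟩
    · rw [← hRs]
      exact sup_le (le_iSup_of_le 0 (by simp))
        (hUs.trans (iSup_le fun k => le_iSup_of_le k.succ (by simp)))

omit [DecidableEq ι] in
/-- The orbit of a nonzero vector spans an irreducible piece. -/
theorem span_orbit (h : Step x C R i) {U : Submodule F (ι → F)} (hU : Inv x U) (hUC : U ⊓ C = ⊥)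
    (hUd : finrank F U = i) {r : ℕ} {c : F} {w : ι → F} (hw : w ∈ U)
    (hw0 : w ≠ 0) (hxr : (x ^ r) w = c • w) (hr : 0 < r) :
    Submodule.span F (Set.range fun s : Fin r => (x ^ (s : ℕ)) w) = U := by
  set S := Submodule.span F (Set.range fun s : Fin r => (x ^ (s : ℕ)) w)
  have hle : S ≤ U := by
    rw [Submodule.span_le]
    rintro _ ⟨s, rfl⟩
    exact Inv.pow hU s w hw
  have hSi : Inv x S := by
    intro v hv
    induction hv using Submodule.span_induction with
    | mem v hv =>
      obtain ⟨s, rfl⟩ := hv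
      show x ((x ^ (s : ℕ)) w) ∈ S
      rw [← Module.End.mul_apply, ← pow_succ']
      rcases Nat.lt_or_ge ((s : ℕ) + 1) r with hs | hs
      · exact Submodule.subset_span ⟨⟨_, hs⟩, rfl⟩
      · rw [show (s : ℕ) + 1 = r by have := s.2; omega, hxr]
        exact S.smul_mem c (Submodule.subset_span ⟨⟨0, hr⟩, by simp⟩)
    | zero => simp
    | add a b _ _ ha hb => rw [map_add]; exact S.add_mem ha hb
    | smul k a _ ha => rw [map_smul]; exact S.smul_mem k ha
  refine Submodule.eq_of_le_of_finrank_le hle ?_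
  rw [hUd]
  refine Nat.le_of_dvd (Nat.pos_of_ne_zero fun h0 => hw0 ?_)
    (h.dvd S hSi (eq_bot_iff.2 (hUC ▸ inf_le_inf_right C hle)))
  have hm : w ∈ S := Submodule.subset_span ⟨⟨0, hr⟩, by simp⟩
  rwa [Submodule.finrank_eq_zero.1 h0, Submodule.mem_bot] at hm

end Build

end Cfsg.Agent.Lib.Elusive.Decomp
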