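import Cfsg.Prelude.Def_GeometricClasses
import Cfsg.Prelude.Def_LieClassical
import Mathlib

/-!
An absolutely irreducible group `4 ∘ 2^{1+4}` inside `GL₄`.
-/

set_option autoImplicit false

namespace Cfsg.Agent.Lib.Elusive.TwoSix

open scoped Matrix MatrixGroups commutatorElement
open Matrix Subgroup

section group

variable {P : Type*} [Group P] [Finite P]

theorem central_squares_and_commutators (hP : Nat.card P = 64)
    (hc : Nat.card (center P) = 4) (hexp : ∀ x : P, x ^ 4 = 1)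
    (hchar : ∀ A : Subgroup P, A.Characteristic → IsMulCommutative A → IsCyclic A) :
    (∀ u v : P, ⁅u, v⁆ ∈ center P ∧ ⁅u, v⁆ * ⁅u, v⁆ = 1) ∧ ∀ u : P, u * u ∈ center P := by
  classical
  have hp2 : IsPGroup 2 P := IsPGroup.of_card (n := 6) (by rw [hP]; norm_num)
  set π := QuotientGroup.mk' (center P) with hπ
  have hπZ : ∀ x : P, π x = 1 ↔ x ∈ center P := fun x => QuotientGroup.eq_one_iff x
  have hcomm : ∀ x y : P, ⁅x, y⁆ ∈ center P ↔ π x * π y = π y * π x := by
    intro x y
    rw [← hπZ, map_commutatorElement, commutatorElement_eq_one_iff_mul_comm]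
  -- a central commutator squares to one
  have hsq1 : ∀ x y : P, ⁅x, y⁆ ∈ center P → ⁅x, y⁆ * ⁅x, y⁆ = 1 := by
    intro x y hxy
    set c := ⁅x, y⁆ with hcdef
    have hcc : ∀ z : P, c * z = z * c := fun z => (mem_center_iff.1 hxy z).symm
    have hy : x * y = c * (y * x) := by rw [hcdef, commutatorElement_def]; group
    have hyw : ∀ w, x * (y * w) = c * (y * (x * w)) := fun w => by
      rw [← mul_assoc, hy]; simp only [mul_assoc]
    have hxc : ∀ w, x * (c * w) = c * (x * w) := fun w => by rw [← mul_assoc, ← hcc, mul_assoc]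
    have hyc : ∀ w, y * (c * w) = c * (y * w) := fun w => by rw [← mul_assoc, ← hcc, mul_assoc]
    have h4' : ∀ z : P, z * (z * (z * z)) = 1 := fun z => by
      rw [← hexp z]; simp only [pow_succ, pow_zero, one_mul, mul_assoc]
    have h4 : ∀ z w : P, z * (z * (z * (z * w))) = w := fun z w => by
      rw [← mul_assoc z z w, ← mul_assoc z (z * z) w, ← mul_assoc z (z * (z * z)) w, h4', one_mul]
    have := h4' (y * x)
    simp only [mul_assoc, hxc, hyc, hyw, hy, h4, h4', mul_one] at this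
    exact this
  set W : Subgroup P := (center (P ⧸ center P)).comap π with hW
  have hWmem : ∀ x, x ∈ W ↔ ∀ y, ⁅x, y⁆ ∈ center P := by
    intro x
    rw [hW, mem_comap, mem_center_iff]
    constructor
    · intro h y; exact (hcomm x y).2 ((h (π y)).symm)
    · intro h q
      obtain ⟨y, rfl⟩ := QuotientGroup.mk'_surjective (center P) q
      exact ((hcomm x y).1 (h y)).symm
  have hWchar : W.Characteristic := by
    rw [characteristic_iff_comap_eq]
    intro φ
    ext x
    have hcen : ∀ z, φ z ∈ center P ↔ z ∈ center P := fun z => by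
      have h := characteristic_iff_comap_eq.1 (centerCharacteristic (G := P)) φ
      exact SetLike.ext_iff.1 h z
    rw [mem_comap, hWmem, hWmem]
    constructor
    · intro h y; exact (hcen _).1 (by rw [map_commutatorElement]; exact h (φ y))
    · intro h y
      obtain ⟨y, rfl⟩ := φ.surjective y
      rw [MulEquiv.coe_toMonoidHom, ← map_commutatorElement]
      exact (hcen _).2 (h y)
  have hZW : center P ≤ W := fun x hx => (hWmem x).2 fun y => by
    rw [commutatorElement_eq_one_iff_mul_comm.2 (mem_center_iff.1 hx y).symm]; exact one_mem _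
  have hmul : ∀ x ∈ W, ∀ y y' : P, ⁅x, y * y'⁆ = ⁅x, y⁆ * ⁅x, y'⁆ := by
    intro x hx y y'
    have h := mem_center_iff.1 ((hWmem x).1 hx y') y
    calc ⁅x, y * y'⁆ = ⁅x, y⁆ * (y * ⁅x, y'⁆ * y⁻¹) := by simp only [commutatorElement_def]; group
      _ = _ := by rw [h, mul_inv_cancel_right]
  obtain ⟨u, hu, v, hv, huv⟩ : ∃ u ∈ W, ∃ v ∈ W, u * v ≠ v * u := by
    by_contra hne
    push Not at hne
    haveI : IsMulCommutative W := ⟨⟨fun a b => Subtype.ext (hne a a.2 b b.2)⟩⟩
    have h4 : Nat.card W ≤ 4 := by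
      haveI := hchar W hWchar inferInstance
      rw [← IsCyclic.exponent_eq_card]
      exact Nat.le_of_dvd (by norm_num) (Monoid.exponent_dvd_of_forall_pow_eq_one fun x => by
        ext; simp [hexp])
    have heq : center P = W := eq_of_le_of_card_ge hZW (by rw [hc]; exact h4)
    haveI : Nontrivial (P ⧸ center P) := by
      rw [← Finite.one_lt_card_iff_nontrivial]
      have := Subgroup.card_eq_card_quotient_mul_card_subgroup (center P)
      rw [hP, hc] at this
      omega
    haveI := (hp2.to_quotient (center P)).center_nontrivial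
    obtain ⟨q, hq⟩ := exists_ne (1 : center (P ⧸ center P))
    obtain ⟨x, hx⟩ := QuotientGroup.mk'_surjective (center P) q.1
    refine hq (Subtype.ext ?_)
    have hxW : x ∈ W := by rw [hW, mem_comap, hπ, hx]; exact q.2
    rw [← heq, ← hπZ, hπ, hx] at hxW
    exact hxW
  have hz0 : ⁅u, v⁆ ≠ 1 := fun h => huv (commutatorElement_eq_one_iff_mul_comm.1 h)
  haveI : IsCyclic (center P) := hchar (center P) centerCharacteristic inferInstance
  -- commutators with members of `W` are `1` or `⁅u, v⁆`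
  have hz : ∀ x ∈ W, ∀ y, ⁅x, y⁆ = 1 ∨ ⁅x, y⁆ = ⁅u, v⁆ := by
    intro x hx y
    haveI := Fintype.ofFinite (center P)
    by_contra h; push Not at h
    have hcard := IsCyclic.card_pow_eq_one_le (α := center P) (n := 2) two_pos
    have : 3 ≤ (Finset.univ.filter fun a : center P => a ^ 2 = 1).card := by
      calc 3 = ({1, ⟨_, (hWmem u).1 hu v⟩, ⟨_, (hWmem x).1 hx y⟩} : Finset (center P)).card := by
            rw [Finset.card_insert_of_notMem, Finset.card_insert_of_notMem, Finset.card_singleton]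
            · simp [Subtype.ext_iff, Ne.symm h.2]
            · simp [Subtype.ext_iff, Ne.symm hz0, Ne.symm h.1]
        _ ≤ _ := Finset.card_le_card fun a ha => by
            simp only [Finset.mem_insert, Finset.mem_singleton] at ha
            simp only [Finset.mem_filter, Finset.mem_univ, true_and]
            rcases ha with rfl | rfl | rfl
            · exact one_pow 2
            · exact Subtype.ext (by simpa [_root_.sq] using hsq1 u v ((hWmem u).1 hu v))
            · exact Subtype.ext (by simpa [_root_.sq] using hsq1 x y ((hWmem x).1 hx y))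
    omega
  have hvu : ⁅v, u⁆ = ⁅u, v⁆ := by
    rw [← commutatorElement_inv u v, inv_eq_iff_mul_eq_one]; exact hsq1 u v ((hWmem u).1 hu v)
  -- the joint centraliser of `u`, `v`
  let D : Subgroup P := centralizer ({u, v} : Set P)
  have hadj : ∀ a, ∃ q ∈ W, ⁅u, q * a⁆ = 1 ∧ ⁅v, q * a⁆ = 1 := by
    intro a
    have e := hsq1 u v ((hWmem u).1 hu v)
    rcases hz u hu a with h1 | h1 <;> rcases hz v hv a with h2 | h2
    · exact ⟨1, one_mem _, by rw [one_mul, h1], by rw [one_mul, h2]⟩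
    · exact ⟨u, hu, by rw [hmul u hu, commutatorElement_self, one_mul, h1], by rw [hmul v hv, h2, hvu, e]⟩
    · exact ⟨v, hv, by rw [hmul u hu, h1, e], by rw [hmul v hv, commutatorElement_self, one_mul, h2]⟩
    · exact ⟨u * v, mul_mem hu hv,
        by rw [hmul u hu, hmul u hu, commutatorElement_self, one_mul, h1, e],
        by rw [hmul v hv, hmul v hv, commutatorElement_self, mul_one, h2, hvu, e]⟩
  have hDmem : ∀ d, d ∈ D ↔ ⁅u, d⁆ = 1 ∧ ⁅v, d⁆ = 1 := by
    intro d
    rw [mem_centralizer_iff, commutatorElement_eq_one_iff_mul_comm, commutatorElement_eq_one_iff_mul_comm]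
    simp
  have hDab : ∀ d ∈ D, ∀ e ∈ D, π d * π e = π e * π d := by
    set hD := π.comp D.subtype
    have hcard : Nat.card hD.range ∣ 4 := by
      -- four cosets of `D`
      have hidx : 4 ≤ D.index := by
        rw [Subgroup.index_eq_card]
        let m : Fin 4 → P ⧸ D := ![((1 : P) : P ⧸ D), (u : P ⧸ D), (v : P ⧸ D), ((u * v : P) : P ⧸ D)]
        have hm : Function.Injective m := by
          intro i j hij
          have huu : ⁅u, u⁻¹⁆ = 1 := by simp [commutatorElement_def]
          have key : ∀ a b : P, (a : P ⧸ D) = (b : P ⧸ D) → ⁅u, a⁆ = ⁅u, b⁆ ∧ ⁅v, a⁆ = ⁅v, b⁆ := by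
            intro a b hab
            obtain ⟨h1, h2⟩ := (hDmem _).1 (QuotientGroup.eq.1 hab)
            have e : b = a * (a⁻¹ * b) := by group
            rw [e, hmul u hu, hmul v hv a, h1, h2, mul_one, mul_one]
            exact ⟨rfl, rfl⟩
          have h := key
          fin_cases i <;> fin_cases j <;> first
            | rfl
            | (exfalso
               obtain ⟨k1, k2⟩ := key _ _ hij
               simp [hmul u hu, hmul v hv, hvu, hz0, Ne.symm hz0] at k1 k2)
        simpa using Nat.card_le_card_of_injective m hm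
      have hle : center P ≤ D := fun z hz' => (hDmem z).2
        ⟨commutatorElement_eq_one_iff_mul_comm.2 (mem_center_iff.1 hz' u),
          commutatorElement_eq_one_iff_mul_comm.2 (mem_center_iff.1 hz' v)⟩
      have h2 : Nat.card hD.ker = 4 := by
        have : hD.ker = (center P).subgroupOf D := by
          ext x; simp [hD, MonoidHom.mem_ker, hπZ, mem_subgroupOf]
        rw [this, Nat.card_congr (subgroupOfEquivOfLe hle).toEquiv, hc]
      have h1 := hD.ker.card_mul_index
      rw [Subgroup.index_ker, h2] at h1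
      have h3 := D.card_mul_index
      rw [hP, ← h1] at h3
      obtain ⟨k, hk, hk'⟩ := (Nat.dvd_prime_pow Nat.prime_two (m := 6)).1
        (show Nat.card hD.range ∣ 2 ^ 6 from ⟨4 * D.index,
          calc 2 ^ 6 = 4 * Nat.card hD.range * D.index := by rw [h3]; norm_num
            _ = _ := by ring⟩)
      have : Nat.card hD.range ≤ 4 := by
        have := Nat.mul_le_mul_left (4 * Nat.card hD.range) hidx
        omega
      rw [hk'] at this ⊢
      interval_cases k <;> first | omega | norm_num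
    intro d hd e he
    have hab : ∀ a b : hD.range, a * b = b * a := by
      haveI := Fact.mk Nat.prime_two
      obtain ⟨k, hk, hk'⟩ := (Nat.dvd_prime_pow Nat.prime_two (m := 2)).1 (by norm_num; exact hcard)
      interval_cases k
      · intro a b
        haveI := (Nat.card_eq_one_iff_unique.1 hk').1
        exact Subsingleton.elim _ _
      · haveI := isCyclic_of_prime_card (p := 2) (hk'.trans (pow_one 2))
        exact fun a b => (IsCyclic.commutative (α := hD.range)).is_comm.comm a b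
      · exact IsPGroup.commutative_of_card_eq_prime_sq (p := 2) hk'
    exact congrArg Subtype.val (hab ⟨_, ⟨⟨d, hd⟩, rfl⟩⟩ ⟨_, ⟨⟨e, he⟩, rfl⟩⟩)
  have key : ∀ a b : P, ⁅a, b⁆ ∈ center P := by
    intro a b
    rw [hcomm]
    obtain ⟨q, hq, hq1, hq2⟩ := hadj a
    obtain ⟨q', hq', hq1', hq2'⟩ := hadj b
    have hWc : ∀ x ∈ W, ∀ y, Commute (π x) (π y) := fun x hx y => (hcomm x y).1 ((hWmem x).1 hx y)
    have h1 : Commute (π (q * a)) (π (q' * b)) := hDab _ ((hDmem _).2 ⟨hq1, hq2⟩) _ ((hDmem _).2 ⟨hq1', hq2'⟩)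
    have ea : π a = (π q)⁻¹ * π (q * a) := by rw [map_mul]; group
    have eb : π b = (π q')⁻¹ * π (q' * b) := by rw [map_mul]; group
    rw [ea, eb]
    refine ((Commute.inv_left ?_).mul_left ((Commute.inv_right ?_).mul_right h1)).eq
    · rw [← map_inv, ← map_mul]; exact hWc q hq _
    · exact (hWc q' hq' _).symm
  refine ⟨fun a b => ⟨key a b, hsq1 a b (key a b)⟩, fun x => ?_⟩
  rw [mem_center_iff]
  intro y
  have hxW : x ∈ W := (hWmem x).2 (key x)
  have : ⁅x * x, y⁆ = 1 := by
    calc ⁅x * x, y⁆ = (x * ⁅x, y⁆ * x⁻¹) * ⁅x, y⁆ := by simp only [commutatorElement_def]; group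
      _ = 1 := by rw [mem_center_iff.1 (key x y) x, mul_inv_cancel_right, hsq1 x y (key x y)]
  exact (commutatorElement_eq_one_iff_mul_comm.1 this).symm

end group

universe v
variable {F : Type v} [Field F]

local notation "G4" => GL (Fin 4) F
local notation "M4" => Matrix (Fin 4) (Fin 4) F

/-- A scalar matrix as a unit. -/
def sc (c : F) (hc : c ≠ 0) : GL (Fin 4) F where
  val := c • 1
  inv := c⁻¹ • 1
  val_inv := by rw [Matrix.smul_mul, Matrix.one_mul, smul_smul, mul_inv_cancel₀ hc, one_smul]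
  inv_val := by rw [Matrix.smul_mul, Matrix.one_mul, smul_smul, inv_mul_cancel₀ hc, one_smul]

theorem sc_val (c : F) (hc : c ≠ 0) : (sc c hc : M4) = c • 1 := rfl

theorem sc_comm (c : F) (hc : c ≠ 0) (u : G4) : sc c hc * u = u * sc c hc := by
  apply Units.ext
  rw [Units.val_mul, Units.val_mul, sc_val, Matrix.smul_mul, Matrix.mul_smul, one_mul, mul_one]

theorem ne_neg_self (h2 : (2 : F) ≠ 0) (u : G4) : u ≠ -u := by
  intro h
  have h1 : u⁻¹ * u = u⁻¹ * -u := by rw [← h]
  rw [inv_mul_cancel, mul_neg, inv_mul_cancel] at h1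
  have h' := congrArg (fun g : G4 => (g : M4) 0 0) h1
  simp only [Units.val_neg, Units.val_one, Matrix.neg_apply, Matrix.one_apply_eq] at h'
  exact h2 (by linear_combination h')

/-- What is used about the subgroup. -/
structure Four (R : Subgroup (GL (Fin 4) F)) where
  ι : F
  ι_sq : ι * ι = -1
  two_ne : (2 : F) ≠ 0
  z : GL (Fin 4) F
  z_mem : z ∈ R
  z_val : (z : Matrix (Fin 4) (Fin 4) F) = ι • 1
  comm : ∀ u ∈ R, ∀ v ∈ R, u * v = v * u ∨ u * v = -(v * u)
  sq : ∀ u ∈ R, u * u = 1 ∨ u * u = -1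
  central : ∀ u ∈ R, (∀ v ∈ R, u * v = v * u) → u = 1 ∨ u = -1 ∨ u = z ∨ u = -z
  scalar : ∀ M : Matrix (Fin 4) (Fin 4) F,
    (∀ u ∈ R, M * (u : Matrix (Fin 4) (Fin 4) F) = (u : Matrix (Fin 4) (Fin 4) F) * M) → ∃ c : F, M = c • 1
  card : Nat.card R = 64

theorem exists_four {p : ℕ} [Fact p.Prime] [CharP F p] (hodd : Odd p) [Finite F]
    (R : Subgroup (GL (Fin 4) F)) (hRs : Cfsg.Geo.IsSymplecticTypeGroup 2 R)
    (hRi : Cfsg.Geo.ActsAbsolutelyIrreducibly (Cfsg.Geo.matrixSet R)) (hR6 : Nat.card R = 2 ^ 6)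
    (hRZ : Nat.card (Subgroup.center R) = 4) : Nonempty (Four R) := by
  classical
  have h2 : (2 : F) ≠ 0 := by
    intro h
    have h' : ((2 : ℕ) : F) = 0 := by exact_mod_cast h
    rw [CharP.cast_eq_zero_iff F p] at h'
    have := (Nat.prime_dvd_prime_iff_eq Fact.out Nat.prime_two).1 h'
    subst this
    exact absurd hodd (by decide)
  have hscal : ∀ M : M4, (∀ u ∈ R, M * (u : M4) = (u : M4) * M) → ∃ c : F, M = c • 1 := fun M hM =>
    hRi.2 M (by rintro s ⟨u, hu, rfl⟩; exact hM u hu)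
  have hexp : ∀ x : R, x ^ 4 = 1 := fun x => by
    have := Monoid.pow_exponent_eq_one x
    rwa [hRs.exponent_eq] at this
  obtain ⟨hcomm, hsq⟩ := central_squares_and_commutators (P := R) (by rw [hR6]; norm_num) hRZ hexp
    hRs.cyclic_of_characteristic
  have hcen : ∀ z : R, z ∈ Subgroup.center R → ∃ c : F, ((z : G4) : M4) = c • 1 := fun z hz =>
    hscal ((z : G4) : M4) fun u hu => by
      have := congrArg (fun w : R => ((w : G4) : M4)) (Subgroup.mem_center_iff.1 hz ⟨u, hu⟩)
      simpa using this.symm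
  haveI : IsCyclic (Subgroup.center R) :=
    hRs.cyclic_of_characteristic _ Subgroup.centerCharacteristic inferInstance
  obtain ⟨g, hg⟩ := IsCyclic.exists_generator (α := Subgroup.center R)
  have hord : orderOf g = 4 := by rw [orderOf_eq_card_of_forall_mem_zpowers hg, hRZ]
  obtain ⟨c, hc⟩ := hcen g.1 g.2
  have hc2 : c * c = -1 := by
    have h4 : c * c * (c * c) = 1 := by
      have := congrArg (fun w : R => ((w : G4) : M4) 0 0) (hexp g.1)
      simp [Units.val_pow_eq_pow_val, hc, smul_pow] at this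
      linear_combination this
    refine (mul_self_eq_one_iff.1 h4).resolve_left fun h1 => ?_
    have h22 : g ^ 2 = 1 := Subtype.ext (Subtype.ext (Units.ext (by
      simp [Units.val_pow_eq_pow_val, hc, smul_pow, _root_.sq, smul_smul, h1])))
    have := Nat.le_of_dvd two_pos (hord ▸ orderOf_dvd_of_pow_eq_one h22)
    omega
  set z : G4 := (g.1 : G4) with hz
  have hzz : z * z = -1 := Units.ext (by
    rw [Units.val_mul, hc, Matrix.smul_mul, Matrix.mul_smul, mul_one, smul_smul, hc2, neg_one_smul]; simp)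
  have hcen' : ∀ w : R, w ∈ Subgroup.center R → (w : G4) = 1 ∨ (w : G4) = -1 ∨ (w : G4) = z ∨ (w : G4) = -z := by
    intro w hw
    obtain ⟨k, hk, hk'⟩ := (isOfFinOrder_of_finite g).mem_zpowers_iff_mem_range_orderOf.1
      (hg ⟨w, hw⟩) |> Finset.mem_image.1
    rw [Finset.mem_range, hord] at hk
    have e : (w : G4) = z ^ k := by
      have := congrArg (fun a : Subgroup.center R => ((a : R) : G4)) hk'
      simpa [hz] using this.symm
    interval_cases k
    · left; simpa using e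
    · right; right; left; simpa using e
    · right; left; rw [e, _root_.sq, hzz]
    · right; right; right; rw [e, pow_succ', _root_.sq, hzz, mul_neg, mul_one]
  have hone : ∀ w : G4, (w = 1 ∨ w = -1 ∨ w = z ∨ w = -z) → w * w = 1 → w = 1 ∨ w = -1 := by
    intro w hw hww
    rcases hw with e | e | e | e
    · exact Or.inl e
    · exact Or.inr e
    · rw [e, hzz] at hww; exact absurd hww.symm (ne_neg_self h2 1)
    · rw [e, neg_mul_neg, hzz] at hww; exact absurd hww.symm (ne_neg_self h2 1)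
  refine ⟨⟨c, hc2, h2, z, g.1.2, hc, ?_, ?_, ?_, hscal, by rw [hR6]; norm_num⟩⟩
  · intro u hu v hv
    obtain ⟨h1, h1'⟩ := hcomm ⟨u, hu⟩ ⟨v, hv⟩
    rcases hone _ (hcen' _ h1) (congrArg Subtype.val h1') with h | h
    · left; exact commutatorElement_eq_one_iff_mul_comm.1 h
    · right
      have : u * v = -1 * (v * u) := by
        rw [← h]
        show u * v = (u * v * u⁻¹ * v⁻¹) * (v * u)
        group
      rw [this, neg_one_mul]
  · intro u hu
    refine hone _ (hcen' _ (hsq ⟨u, hu⟩)) ?_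
    have := congrArg Subtype.val (hexp ⟨u, hu⟩)
    simp only [Subgroup.coe_pow, Subgroup.coe_one] at this
    rw [← this]; simp only [pow_succ, pow_zero, one_mul, mul_assoc]
  · intro u hu h
    exact hcen' ⟨u, hu⟩ (Subgroup.mem_center_iff.2 fun v => Subtype.ext (h v v.2).symm)

/-- Generators. -/
structure Frame (R : Subgroup (GL (Fin 4) F)) where
  a : GL (Fin 4) F
  b : GL (Fin 4) F
  i : GL (Fin 4) F
  j : GL (Fin 4) F
  ha : a ∈ R
  hb : b ∈ R
  hi : i ∈ R
  hj : j ∈ R
  aa : a * a = 1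
  bb : b * b = 1
  ii : i * i = -1
  jj : j * j = -1
  ba : b * a = -(a * b)
  ia : i * a = a * i
  ja : j * a = a * j
  ib : i * b = b * i
  jb : j * b = b * j
  ji : j * i = -(i * j)

namespace Four

variable {R : Subgroup (GL (Fin 4) F)} (h : Four R)
include h

theorem neg_one_mem : (-1 : G4) ∈ R := by
  have : h.z * h.z = -1 := Units.ext (by
    rw [Units.val_mul, h.z_val, Matrix.smul_mul, Matrix.mul_smul, mul_one, smul_smul, h.ι_sq, neg_one_smul]; simp)
  rw [← this]; exact mul_mem h.z_mem h.z_mem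

theorem neg_mem {u : G4} (hu : u ∈ R) : -u ∈ R := by
  rw [← neg_one_mul]; exact mul_mem h.neg_one_mem hu

theorem z_comm (u : G4) : h.z * u = u * h.z := Units.ext (by
  rw [Units.val_mul, Units.val_mul, h.z_val, Matrix.smul_mul, Matrix.mul_smul, one_mul, mul_one])

theorem z_sq : h.z * h.z = -1 := Units.ext (by
  rw [Units.val_mul, h.z_val, Matrix.smul_mul, Matrix.mul_smul, mul_one, smul_smul, h.ι_sq, neg_one_smul]; simp)

theorem ι_ne : h.ι ≠ 0 := fun e => by
  have := h.ι_sq
  rw [e, mul_zero] at this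
  exact one_ne_zero (neg_eq_zero.1 this.symm)

theorem central_comm {u : G4} (hu : u = 1 ∨ u = -1 ∨ u = h.z ∨ u = -h.z) (v : G4) : u * v = v * u := by
  rcases hu with rfl | rfl | rfl | rfl <;> simp [h.z_comm]

theorem exists_anti {u : G4} (hu : u ∈ R) (hn : ¬ (u = 1 ∨ u = -1 ∨ u = h.z ∨ u = -h.z)) :
    ∃ v ∈ R, v * u = -(u * v) := by
  by_contra hne
  push Not at hne
  exact hn (h.central u hu (fun v hv => ((h.comm v hv u hu).resolve_right (hne v hv)).symm))

theorem not_central_of_anti {u v : G4} (huv : v * u = -(u * v)) :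
    ¬ (u = 1 ∨ u = -1 ∨ u = h.z ∨ u = -h.z) := fun hu => by
  rw [h.central_comm hu v] at huv
  exact ne_neg_self h.two_ne _ huv

theorem scale (u : G4) (hu : u ∈ R) (ε : G4) (hε : ε = 1 ∨ ε = -1) :
    ∃ w ∈ R, w * w = ε ∧ ∀ v : G4, (u * v = v * u → w * v = v * w) ∧ (u * v = -(v * u) → w * v = -(v * w)) := by
  by_cases hs : u * u = ε
  · exact ⟨u, hu, hs, fun v => ⟨id, id⟩⟩
  · refine ⟨h.z * u, mul_mem h.z_mem hu, ?_, fun v => ⟨fun e => ?_, fun e => ?_⟩⟩
    · have e' : h.z * u * (h.z * u) = -(u * u) := by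
        rw [show h.z * u * (h.z * u) = h.z * (u * h.z) * u by simp only [mul_assoc], ← h.z_comm, ← mul_assoc,
          h.z_sq, mul_assoc, neg_one_mul]
      rw [e']
      rcases h.sq u hu with e | e <;> rcases hε with rfl | rfl <;> rw [e] at hs ⊢ <;> simp at hs ⊢
    · rw [mul_assoc, e, ← mul_assoc, h.z_comm, mul_assoc]
    · rw [mul_assoc, e, mul_neg, ← mul_assoc, h.z_comm, mul_assoc]

theorem exists_frame [Finite F] : Nonempty (Frame R) := by
  classical
  haveI : Finite R := Nat.finite_of_card_ne_zero (by rw [h.card]; norm_num)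
  haveI := Fintype.ofFinite R
  have hcard : Fintype.card R = 64 := by rw [← Nat.card_eq_fintype_card, h.card]
  let Zs : Finset G4 := {1, -1, h.z, -h.z}
  have hZs : ∀ u, u ∈ Zs ↔ u = 1 ∨ u = -1 ∨ u = h.z ∨ u = -h.z := fun u => by simp [Zs]
  have hbound : ∀ T : Finset G4, T.card ≤ 4 → ∃ v ∈ R, ∀ t ∈ T, ∀ c ∈ Zs, v ≠ t * c := by
    intro T hT
    by_contra hne
    push Not at hne
    have h1 : Fintype.card R ≤ (Finset.image₂ (· * ·) T Zs).card := by
      rw [← Fintype.card_coe]
      refine Fintype.card_le_of_injective (fun x => ⟨x.1, ?_⟩) (fun x y e => Subtype.ext (congrArg Subtype.val e :))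
      obtain ⟨t, ht, c, hc, e⟩ := hne x.1 x.2
      exact Finset.mem_image₂.2 ⟨t, ht, c, hc, e.symm⟩
    have := h1.trans (Finset.card_image₂_le _ _ _)
    have h4 : Zs.card ≤ 4 := Finset.card_le_four
    have := Nat.mul_le_mul hT h4
    omega
  obtain ⟨u0, hu0, hu0'⟩ := hbound {1} (by simp)
  have hu0n : ¬ (u0 = 1 ∨ u0 = -1 ∨ u0 = h.z ∨ u0 = -h.z) := fun hc =>
    hu0' 1 (by simp) u0 ((hZs _).2 hc) (one_mul _).symm
  obtain ⟨b00, hb00, hb00u⟩ := h.exists_anti hu0 hu0n
  obtain ⟨a, ha, haa, hav⟩ := h.scale u0 hu0 1 (Or.inl rfl)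
  have hb00a : b00 * a = -(a * b00) := by
    have := (hav b00).2 (by rw [hb00u, neg_neg])
    rw [this, neg_neg]
  obtain ⟨b, hb, hbb, hbv⟩ := h.scale b00 hb00 1 (Or.inl rfl)
  have hba : b * a = -(a * b) := (hbv a).2 hb00a
  have hadj : ∀ v ∈ R, ∃ c ∈ R, c * a = a * c ∧ c * b = b * c ∧
      (c = v ∨ c = a * v ∨ c = b * v ∨ c = a * (b * v)) := by
    intro v hv
    rcases h.comm v hv a ha with e1 | e1 <;> rcases h.comm v hv b hb with e2 | e2
    · exact ⟨v, hv, e1, e2, Or.inl rfl⟩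
    · refine ⟨a * v, mul_mem ha hv, by rw [mul_assoc, e1], ?_, Or.inr (Or.inl rfl)⟩
      rw [mul_assoc, e2, mul_neg, ← mul_assoc, ← mul_assoc, hba, neg_mul]
    · refine ⟨b * v, mul_mem hb hv, ?_, by rw [mul_assoc, e2], Or.inr (Or.inr (Or.inl rfl))⟩
      rw [mul_assoc, e1, mul_neg, ← mul_assoc, hba, neg_mul, neg_neg, mul_assoc]
    · refine ⟨a * (b * v), mul_mem ha (mul_mem hb hv), ?_, ?_, Or.inr (Or.inr (Or.inr rfl))⟩
      · rw [mul_assoc, mul_assoc, e1, mul_neg, mul_neg, ← mul_assoc b, hba, neg_mul, mul_neg, neg_neg, mul_assoc]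
      · rw [mul_assoc, mul_assoc, e2, mul_neg, mul_neg, ← mul_assoc b a, hba, neg_mul]
        simp only [mul_assoc]
  obtain ⟨v0, hv0, hv0'⟩ := hbound {1, a, b, b * a} (Finset.card_le_four)
  obtain ⟨i0, hi0, hi0a, hi0b, hi0v⟩ := hadj v0 hv0
  have hi0n : ¬ (i0 = 1 ∨ i0 = -1 ∨ i0 = h.z ∨ i0 = -h.z) := by
    intro hc
    rcases hi0v with e | e | e | e
    · exact hv0' 1 (by simp) i0 ((hZs _).2 hc) (by rw [one_mul, e])
    · exact hv0' a (by simp) i0 ((hZs _).2 hc) (by rw [e, ← mul_assoc, haa, one_mul])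
    · exact hv0' b (by simp) i0 ((hZs _).2 hc) (by rw [e, ← mul_assoc, hbb, one_mul])
    · exact hv0' (b * a) (by simp) i0 ((hZs _).2 hc)
        (by rw [e, mul_assoc b a, ← mul_assoc a a, haa, one_mul, ← mul_assoc, hbb, one_mul])
  obtain ⟨j00, hj00, hj00i⟩ := h.exists_anti hi0 hi0n
  obtain ⟨j0, hj0, hj0a, hj0b, hj0v⟩ := hadj j00 hj00
  have hj0i : j0 * i0 = -(i0 * j0) := by
    rcases hj0v with rfl | rfl | rfl | rfl
    · exact hj00i
    · rw [mul_assoc, hj00i, mul_neg, ← mul_assoc, ← mul_assoc, hi0a]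
    · rw [mul_assoc, hj00i, mul_neg, ← mul_assoc, ← mul_assoc, hi0b]
    · rw [mul_assoc, mul_assoc, hj00i, mul_neg, mul_neg, ← mul_assoc b i0, ← hi0b, mul_assoc i0 b,
        ← mul_assoc a i0, ← hi0a, mul_assoc i0 a]
  obtain ⟨i, hi, hii, hiv⟩ := h.scale i0 hi0 (-1) (Or.inr rfl)
  obtain ⟨j, hj, hjj, hjv⟩ := h.scale j0 hj0 (-1) (Or.inr rfl)
  have h1 : j0 * i = -(i * j0) := by
    have := (hiv j0).2 (by rw [hj0i, neg_neg])
    rw [this, neg_neg]
  exact ⟨⟨a, b, i, j, ha, hb, hi, hj, haa, hbb, hii, hjj, hba, (hiv a).1 hi0a, (hjv a).1 hj0a, (hiv b).1 hi0b,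
    (hjv b).1 hj0b, (hjv i).2 h1⟩⟩

end Four

namespace Frame

variable {R : Subgroup (GL (Fin 4) F)} (s : Frame R)

theorem rules :
    (∀ x : G4, s.a * (s.a * x) = x) ∧ (∀ x : G4, s.b * (s.b * x) = x) ∧
    (∀ x : G4, s.i * (s.i * x) = -x) ∧ (∀ x : G4, s.j * (s.j * x) = -x) ∧
    (∀ x : G4, s.b * (s.a * x) = -(s.a * (s.b * x))) ∧ (∀ x : G4, s.i * (s.a * x) = s.a * (s.i * x)) ∧
    (∀ x : G4, s.j * (s.a * x) = s.a * (s.j * x)) ∧ (∀ x : G4, s.i * (s.b * x) = s.b * (s.i * x)) ∧
    (∀ x : G4, s.j * (s.b * x) = s.b * (s.j * x)) ∧ (∀ x : G4, s.j * (s.i * x) = -(s.i * (s.j * x))) := by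
  refine ⟨?_, ?_, ?_, ?_, ?_, ?_, ?_, ?_, ?_, ?_⟩ <;> intro x <;>
    simp only [← mul_assoc, s.aa, s.bb, s.ii, s.jj, s.ba, s.ia, s.ja, s.ib, s.jb, s.ji, one_mul, neg_mul]

/-- The monomial `a^e b^f i^g j^h`. -/
def w (e : Bool × Bool × Bool × Bool) : GL (Fin 4) F :=
  (if e.1 then s.a else 1) * (if e.2.1 then s.b else 1) * (if e.2.2.1 then s.i else 1) *
    (if e.2.2.2 then s.j else 1)

theorem conj_w (e : Bool × Bool × Bool × Bool) :
    s.a * s.w e = (if e.2.1 then -(s.w e * s.a) else s.w e * s.a) ∧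
    s.b * s.w e = (if e.1 then -(s.w e * s.b) else s.w e * s.b) ∧
    s.i * s.w e = (if e.2.2.2 then -(s.w e * s.i) else s.w e * s.i) ∧
    s.j * s.w e = (if e.2.2.1 then -(s.w e * s.j) else s.w e * s.j) := by
  obtain ⟨r1, r2, r3, r4, r5, r6, r7, r8, r9, r10⟩ := s.rules
  rcases e with ⟨⟨⟩, ⟨⟩, ⟨⟩, ⟨⟩⟩ <;>
    simp [w, mul_assoc, s.aa, s.bb, s.ii, s.jj, s.ba, s.ia, s.ja, s.ib, s.jb, s.ji,
      r1, r2, r3, r4, r5, r6, r7, r8, r9, r10]

theorem w_mem (e : Bool × Bool × Bool × Bool) : s.w e ∈ R := by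
  have h1 := one_mem R
  rw [w]
  refine mul_mem (mul_mem (mul_mem ?_ ?_) ?_) ?_ <;> split <;>
    first | exact s.ha | exact s.hb | exact s.hi | exact s.hj | exact h1

/-- The four central elements. -/
def zc (h : Four R) (k : Bool × Bool) : GL (Fin 4) F :=
  (if k.1 then -1 else 1) * (if k.2 then h.z else 1)

theorem zc_comm (h : Four R) (k : Bool × Bool) (u : G4) : zc h k * u = u * zc h k := by
  rcases k with ⟨⟨⟩, ⟨⟩⟩ <;> simp [zc, h.z_comm]

theorem zc_mem (h : Four R) (k : Bool × Bool) : zc h k ∈ R := by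
  rcases k with ⟨⟨⟩, ⟨⟩⟩ <;> simp [zc, h.z_mem, h.neg_one_mem, h.neg_mem h.z_mem]

theorem zc_injective (h : Four R) : Function.Injective (zc h) := by
  have hz : ∀ w : G4, w * w = 1 → w ≠ h.z ∧ w ≠ -h.z := fun w hw => by
    constructor <;> rintro rfl <;> simp [h.z_sq] at hw <;> exact ne_neg_self h.two_ne 1 hw.symm
  have e1 := hz 1 (one_mul 1)
  have e2 := hz (-1) (by simp)
  have e3 := ne_neg_self h.two_ne (1 : G4)
  have e4 := ne_neg_self h.two_ne h.z
  rintro ⟨⟨⟩, ⟨⟩⟩ ⟨⟨⟩, ⟨⟩⟩ hk <;>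
    simp [zc, e1.1, e1.1.symm, e1.2, e1.2.symm, e2.1, e2.1.symm, e2.2, e2.2.symm, e3, e3.symm, e4, e4.symm] at hk ⊢

theorem exists_w (h : Four R) {u : G4} (hu : u ∈ R) : ∃ k e, u = zc h k * s.w e := by
  classical
  haveI : Finite R := Nat.finite_of_card_ne_zero (by rw [h.card]; norm_num)
  have hb : Function.Bijective (fun q : (Bool × Bool) × (Bool × Bool × Bool × Bool) =>
      (⟨zc h q.1 * s.w q.2, mul_mem (zc_mem h q.1) (s.w_mem q.2)⟩ : R)) := by
    refine (Nat.bijective_iff_injective_and_card _).2 ⟨?_, by rw [h.card]; simp [Nat.card_eq_fintype_card]⟩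
    rintro ⟨k, e⟩ ⟨k', e'⟩ hq
    have he : zc h k * s.w e = zc h k' * s.w e' := congrArg Subtype.val hq
    have key : ∀ (x u : G4) (f f' : Bool),
        x * u = (if f then -(u * x) else u * x) → x * u = (if f' then -(u * x) else u * x) → f = f' := by
      intro x u f f' e1 e2
      rw [e1] at e2
      cases f <;> cases f' <;> simp at e2 <;> first
        | rfl | exact absurd e2 (ne_neg_self h.two_ne _) | exact absurd e2.symm (ne_neg_self h.two_ne _)
    have lift : ∀ (x w : G4) (f : Bool) (k : Bool × Bool), x * w = (if f then -(w * x) else w * x) →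
        x * (zc h k * w) = (if f then -(zc h k * w * x) else zc h k * w * x) := by
      intro x w f k hxw
      rw [← mul_assoc x, ← zc_comm, mul_assoc, hxw]
      cases f <;> simp [mul_assoc]
    obtain ⟨a1, b1, i1, j1⟩ := s.conj_w e
    obtain ⟨a2, b2, i2, j2⟩ := s.conj_w e'
    have ea := key _ _ _ _ (lift _ _ _ k a1) (he ▸ lift _ _ _ k' a2)
    have eb := key _ _ _ _ (lift _ _ _ k b1) (he ▸ lift _ _ _ k' b2)
    have ei := key _ _ _ _ (lift _ _ _ k i1) (he ▸ lift _ _ _ k' i2)
    have ej := key _ _ _ _ (lift _ _ _ k j1) (he ▸ lift _ _ _ k' j2)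
    have hee : e = e' := Prod.ext eb (Prod.ext ea (Prod.ext ej ei))
    subst hee
    rw [zc_injective h (mul_right_cancel he)]
  obtain ⟨⟨k, e⟩, hq⟩ := hb.2 ⟨u, hu⟩
  exact ⟨k, e, (congrArg Subtype.val hq).symm⟩

theorem commute_all (h : Four R) (M : M4)
    (ha : M * (s.a : M4) = (s.a : M4) * M) (hb : M * (s.b : M4) = (s.b : M4) * M)
    (hi : M * (s.i : M4) = (s.i : M4) * M) (hj : M * (s.j : M4) = (s.j : M4) * M) :
    ∃ c : F, M = c • 1 := by
  refine h.scalar M fun u hu => ?_
  obtain ⟨k, ⟨e, f, g, j⟩, rfl⟩ := s.exists_w h hu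
  have hk : Commute M ((zc h k : G4) : M4) := by
    rcases k with ⟨⟨⟩, ⟨⟩⟩ <;> simp [zc, h.z_val, Commute, SemiconjBy]
  rw [Units.val_mul]
  refine (hk.mul_right ?_).eq
  simp only [w, Units.val_mul]
  refine ((Commute.mul_right (Commute.mul_right ?_ ?_) ?_).mul_right ?_) <;> split <;>
    first | exact ha | exact hb | exact hi | exact hj | (simp only [Units.val_one]; exact Commute.one_right M)

end Frame

end Cfsg.Agent.Lib.Elusive.TwoSix
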