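import Mathlib

/-!
Groups of order 32 and exponent four with centre of order two in which every characteristic abelian
subgroup is cyclic have central squares and commutators.
-/

set_option autoImplicit false

namespace Cfsg.Agent.Lib.Elusive.TwoFive

open Subgroup
open scoped commutatorElement

variable {P : Type*} [Group P] [Finite P]

theorem central_squares_and_commutators (hP : Nat.card P = 32)
    (hc : Nat.card (center P) = 2) (hexp : ∀ x : P, x ^ 4 = 1)
    (hchar : ∀ A : Subgroup P, A.Characteristic → IsMulCommutative A → IsCyclic A) :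
    (∀ u v : P, ⁅u, v⁆ ∈ center P) ∧ ∀ u : P, u * u ∈ center P := by
  classical
  have hp2 : IsPGroup 2 P := IsPGroup.of_card (n := 5) (by rw [hP]; norm_num)
  set π := QuotientGroup.mk' (center P) with hπ
  have hπZ : ∀ x : P, π x = 1 ↔ x ∈ center P := fun x => QuotientGroup.eq_one_iff x
  have hcomm : ∀ x y : P, ⁅x, y⁆ ∈ center P ↔ π x * π y = π y * π x := by
    intro x y
    rw [← hπZ, map_commutatorElement, commutatorElement_eq_one_iff_mul_comm]
  have hz : ∀ z ∈ center P, z * z = 1 := by
    intro z hz
    have := pow_card_eq_one' (x := (⟨z, hz⟩ : center P))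
    rw [hc] at this
    simpa [Subtype.ext_iff, sq] using this
  set W : Subgroup P := (center (P ⧸ center P)).comap π with hW
  have hWmem : ∀ x, x ∈ W ↔ ∀ y, ⁅x, y⁆ ∈ center P := by
    intro x
    rw [hW, mem_comap, mem_center_iff]
    constructor
    · intro h y; exact (hcomm x y).2 ((h (π y)).symm)
    · intro h q
      obtain ⟨y, rfl⟩ := QuotientGroup.mk'_surjective (center P) q
      exact ((hcomm x y).1 (h y)).symm
  have hWchar : W.Characteristic := by
    rw [characteristic_iff_comap_eq]
    intro φ
    ext x
    have hcen : ∀ z, φ z ∈ center P ↔ z ∈ center P := fun z => by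
      have h := characteristic_iff_comap_eq.1 (centerCharacteristic (G := P)) φ
      exact SetLike.ext_iff.1 h z
    rw [mem_comap, hWmem, hWmem]
    constructor
    · intro h y; exact (hcen _).1 (by rw [map_commutatorElement]; exact h (φ y))
    · intro h y
      obtain ⟨y, rfl⟩ := φ.surjective y
      rw [MulEquiv.coe_toMonoidHom, ← map_commutatorElement]
      exact (hcen _).2 (h y)
  have hZW : center P ≤ W := fun x hx => (hWmem x).2 fun y => by
    rw [commutatorElement_eq_one_iff_mul_comm.2 (mem_center_iff.1 hx y).symm]; exact one_mem _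
  -- the commutator with a fixed element of `W` is multiplicative
  have hmul : ∀ x ∈ W, ∀ y y' : P, ⁅x, y * y'⁆ = ⁅x, y⁆ * ⁅x, y'⁆ := by
    intro x hx y y'
    have h := mem_center_iff.1 ((hWmem x).1 hx y') y
    calc ⁅x, y * y'⁆ = ⁅x, y⁆ * (y * ⁅x, y'⁆ * y⁻¹) := by simp only [commutatorElement_def]; group
      _ = _ := by rw [h, mul_inv_cancel_right]
  have hWsq : ∀ x ∈ W, x * x ∈ center P := by
    intro x hx
    rw [mem_center_iff]
    intro y
    have h := (hWmem x).1 hx y
    have : ⁅x * x, y⁆ = 1 := by
      calc ⁅x * x, y⁆ = (x * ⁅x, y⁆ * x⁻¹) * ⁅x, y⁆ := by simp only [commutatorElement_def]; group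
        _ = 1 := by rw [mem_center_iff.1 h x, mul_inv_cancel_right, hz _ h]
    exact (commutatorElement_eq_one_iff_mul_comm.1 this).symm
  -- a cyclic subgroup has at most four elements
  have hcyc : ∀ A : Subgroup P, A.Characteristic → IsMulCommutative A → Nat.card A ≤ 4 := by
    intro A h1 h2
    haveI := hchar A h1 h2
    rw [← IsCyclic.exponent_eq_card]
    exact Nat.le_of_dvd (by norm_num) (Monoid.exponent_dvd_of_forall_pow_eq_one fun x => by
      ext; simp [hexp])
  obtain ⟨x₀, hx₀W, hx₀Z⟩ : ∃ x, x ∈ W ∧ x ∉ center P := by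
    haveI : Nontrivial (P ⧸ center P) := by
      rw [← Finite.one_lt_card_iff_nontrivial]
      have := Subgroup.card_eq_card_quotient_mul_card_subgroup (center P)
      rw [hP, hc] at this
      omega
    haveI := (hp2.to_quotient (center P)).center_nontrivial
    obtain ⟨q, hq⟩ := exists_ne (1 : center (P ⧸ center P))
    obtain ⟨x, hx⟩ := QuotientGroup.mk'_surjective (center P) q.1
    refine ⟨x, ?_, fun h => hq ?_⟩
    · rw [hW, mem_comap, hπ, hx]; exact q.2
    · rw [← hπZ, hπ, hx] at h
      exact Subtype.ext h
  suffices hcom : ∀ u v : P, ⁅u, v⁆ ∈ center P from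
    ⟨hcom, fun u => hWsq u ((hWmem u).2 (hcom u))⟩
  by_cases hab : ∀ x ∈ W, ∀ y ∈ W, x * y = y * x
  · -- `W` is cyclic of order four: impossible
    exfalso
    haveI : IsMulCommutative W := ⟨⟨fun a b => Subtype.ext (hab a a.2 b b.2)⟩⟩
    have hW4 := hcyc W hWchar inferInstance
    have h4 : 2 ∣ Nat.card W ∧ 2 < Nat.card W := by
      refine ⟨hc ▸ card_dvd_of_le hZW, ?_⟩
      rw [← hc]
      refine lt_of_le_of_ne (card_le_of_le hZW) fun h => hx₀Z ?_
      rw [eq_of_le_of_card_ge hZW h.ge]; exact hx₀W
    have hW4' : Nat.card W = 4 := by omega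
    haveI : IsCyclic W := hchar W hWchar inferInstance
    obtain ⟨⟨w, hw⟩, hgen⟩ := IsCyclic.exists_generator (α := W)
    have hWw : ∀ x ∈ W, ∃ k : ℕ, x = w ^ k := by
      intro x hx
      obtain ⟨k, -, hk⟩ := (isOfFinOrder_of_finite (⟨w, hw⟩ : W)).mem_zpowers_iff_mem_range_orderOf.1
        (hgen ⟨x, hx⟩) |> Finset.mem_image.1
      exact ⟨k, by simpa using (congrArg Subtype.val hk).symm⟩
    have hwZ : w ∉ center P := fun h => hx₀Z (by
      obtain ⟨k, rfl⟩ := hWw x₀ hx₀W
      exact pow_mem h k)
    let f : P →* center P :=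
      { toFun := fun y => ⟨⁅w, y⁆, (hWmem w).1 hw y⟩
        map_one' := Subtype.ext (by simp)
        map_mul' := fun y y' => Subtype.ext (hmul w hw y y') }
    have hfsurj : Function.Surjective f := by
      rw [← MonoidHom.range_eq_top]
      have h1 : f.range ≠ ⊥ := fun h => hwZ (mem_center_iff.2 fun y => by
        have : f y = 1 := by rw [← Subgroup.mem_bot, ← h]; exact ⟨y, rfl⟩
        exact (commutatorElement_eq_one_iff_mul_comm.1 (congrArg Subtype.val this)).symm)
      haveI := Fact.mk Nat.prime_two
      exact (Subgroup.eq_bot_or_eq_top_of_prime_card (hp := by rw [hc]; infer_instance) f.range).resolve_left h1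
    set C : Subgroup P := f.ker with hC
    have hCcard : Nat.card C = 16 := by
      have h1 := C.card_mul_index
      rw [hC, Subgroup.index_ker, MonoidHom.range_eq_top.2 hfsurj, Subgroup.card_top, hc, hP] at h1
      rw [hC]
      omega
    have hCmem : ∀ y, y ∈ C ↔ w * y = y * w := fun y => by
      rw [hC, MonoidHom.mem_ker, ← commutatorElement_eq_one_iff_mul_comm, Subtype.ext_iff]; rfl
    have hCW : C = centralizer (W : Set P) := by
      ext y
      rw [hCmem, mem_centralizer_iff]
      constructor
      · intro h x hx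
        obtain ⟨k, rfl⟩ := hWw x hx
        exact (Commute.pow_left h k).eq
      · intro h; exact h w hw
    haveI hCchar : C.Characteristic := by
      rw [hCW]; haveI := hWchar; infer_instance
    set A : Subgroup P := C ⊓ centralizer (C : Set P) with hA
    have hAW : A = W := by
      haveI : IsMulCommutative A := ⟨⟨fun a b => Subtype.ext
        (mem_centralizer_iff.1 b.2.2 a a.2.1)⟩⟩
      have hWA : W ≤ A := by
        intro x hx
        refine ⟨?_, ?_⟩
        · show x ∈ C
          rw [hCW, mem_centralizer_iff]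
          exact fun y hy => (hab x hx y hy).symm
        · show x ∈ centralizer (C : Set P)
          rw [mem_centralizer_iff]
          intro y hy
          rw [SetLike.mem_coe, hCW, mem_centralizer_iff] at hy
          exact (hy x hx).symm
      have hAchar : A.Characteristic := inferInstance
      exact (eq_of_le_of_card_ge hWA (hW4'.symm ▸ hcyc A hAchar inferInstance)).symm
    -- squares of `C` are central
    have hCsq : ∀ c ∈ C, c * c ∈ center P := by
      intro c hc'
      have hccW : c * c ∈ W := by
        by_contra hcon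
        have hcl : ∀ d ∈ C, c * d = d * c := by
          intro d hd
          -- `C` is generated by `c` and `W`
          have hcent : ∀ x ∈ W, x * c = c * x := fun x hx => by
            rw [hCW, mem_centralizer_iff] at hc'; exact hc' x hx
          let D : Subgroup P := zpowers c ⊔ W
          have hDC : D ≤ C := sup_le (zpowers_le.2 hc') (hAW ▸ inf_le_left)
          have hWD : W < D := lt_of_le_of_ne le_sup_right fun h => hcon (by
            rw [h]; exact le_sup_left (a := zpowers c) (mul_mem (mem_zpowers c) (mem_zpowers c)))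
          have hD16 : D = C := by
            refine eq_of_le_of_card_ge hDC ?_
            rw [hCcard]
            by_contra hlt
            have hd1 : 4 ∣ Nat.card D := hW4' ▸ card_dvd_of_le hWD.le
            have hd2 : Nat.card D ∣ 16 := hCcard ▸ card_dvd_of_le hDC
            have hd3 : 4 < Nat.card D := by
              rw [← hW4']
              exact lt_of_le_of_ne (card_le_of_le hWD.le) fun h => hWD.ne (eq_of_le_of_card_ge hWD.le h.ge)
            obtain ⟨k, hk, hk'⟩ := (Nat.dvd_prime_pow Nat.prime_two (m := 4)).1 hd2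
            have hk3 : k = 3 := by
              interval_cases k <;> first | rfl | omega
            rw [hk3] at hk'
            norm_num at hk'
            -- `D` has order eight and `W` has index two
            have hidx : (W.subgroupOf D).index = 2 := by
              have h := (W.subgroupOf D).card_mul_index
              rw [Nat.card_congr (subgroupOfEquivOfLe hWD.le).toEquiv, hW4', hk'] at h
              omega
            have := mul_self_mem_of_index_two hidx ⟨c, le_sup_left (a := zpowers c) (mem_zpowers c)⟩
            exact hcon (mem_subgroupOf.1 this)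
          have hd' : d ∈ D := hD16 ▸ hd
          have : D ≤ centralizer ({c} : Set P) := sup_le
            (zpowers_le.2 (mem_centralizer_singleton_iff.2 rfl))
            (fun x hx => mem_centralizer_singleton_iff.2 (hcent x hx))
          exact (mem_centralizer_singleton_iff.1 (this hd')).symm
        apply hcon
        have : c ∈ A := ⟨hc', by
          show c ∈ centralizer (C : Set P)
          rw [mem_centralizer_iff]; exact fun d hd => (hcl d hd).symm⟩
        rw [hAW] at this
        exact mul_mem this this
      obtain ⟨k, hk⟩ := hWw _ hccW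
      rcases Nat.even_or_odd k with ⟨m, rfl⟩ | ⟨m, rfl⟩
      · rw [hk, pow_add]; exact hWsq _ (pow_mem hw m)
      · exfalso
        apply hwZ
        have h4 : (c * c) * (c * c) = 1 := by
          calc (c * c) * (c * c) = c ^ 4 := by simp only [pow_succ, pow_zero, one_mul, mul_assoc]
            _ = 1 := hexp c
        rw [hk, ← pow_add] at h4
        have hw2 : w ^ 2 = 1 := by
          have h' : w ^ (4 * m + 2) = 1 := by rw [← h4]; ring_nf
          rw [pow_add, pow_mul, hexp, one_pow, one_mul] at h'
          exact h'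
        have : Nat.card W ≤ 2 := by
          rw [← orderOf_eq_card_of_forall_mem_zpowers hgen]
          exact Nat.le_of_dvd two_pos (orderOf_dvd_of_pow_eq_one (Subtype.ext (by simpa using hw2)))
        omega
    have hCab : ∀ c ∈ C, ∀ d ∈ C, π c * π d = π d * π c := by
      intro c hc' d hd'
      have e : ∀ x ∈ C, π x * π x = 1 := fun x hx => by rw [← map_mul, hπZ]; exact hCsq x hx
      have h1 := e _ (mul_mem hc' hd')
      have hci : (π c)⁻¹ = π c := inv_eq_of_mul_eq_one_right (e c hc')
      have hdi : (π d)⁻¹ = π d := inv_eq_of_mul_eq_one_right (e d hd')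
      rw [map_mul] at h1
      have := inv_eq_of_mul_eq_one_right h1
      rw [mul_inv_rev, hci, hdi] at this
      exact this.symm
    obtain ⟨t, ht⟩ : ∃ t, t ∉ C := by
      by_contra h; push Not at h
      rw [show C = ⊤ from eq_top_iff.2 (fun x _ => h x), Subgroup.card_top, hP] at hCcard
      omega
    have htt : t * t ∈ C := mul_self_mem_of_index_two (by
      have h := C.card_mul_index; rw [hCcard, hP] at h; omega) t
    haveI : C.Normal := inferInstance
    -- the commutator with `t`
    have hgC : ∀ c ∈ C, ⁅t, c⁆ ∈ C := fun c hc' =>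
      mul_mem (Normal.conj_mem inferInstance c hc' t) (inv_mem hc')
    let g : C →* P ⧸ center P :=
      { toFun := fun c => π ⁅t, (c : P)⁆
        map_one' := by simp
        map_mul' := fun c d => by
          have e : ⁅t, ((c * d : C) : P)⁆ = ⁅t, (c : P)⁆ * ((c : P) * ⁅t, (d : P)⁆ * (c : P)⁻¹) := by
            simp only [Subgroup.coe_mul, commutatorElement_def]; group
          rw [e, map_mul, map_mul π ((c : P) * _), map_mul π (c : P), hCab c c.2 _ (hgC d d.2),
            map_inv, mul_inv_cancel_right] }
    have hgg : ∀ c ∈ C, π ⁅t, ⁅t, c⁆⁆ = 1 := by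
      intro c hc'
      have e1 : π ⁅t, ⁅t, c⁆⁆ = π t * π ⁅t, c⁆ * (π t)⁻¹ * (π ⁅t, c⁆)⁻¹ := by
        rw [map_commutatorElement π t, commutatorElement_def]
      have esq : ∀ x ∈ C, (π x)⁻¹ = π x := fun x hx =>
        inv_eq_of_mul_eq_one_right (by rw [← map_mul, hπZ]; exact hCsq x hx)
      have e2 : π t * π ⁅t, c⁆ * (π t)⁻¹ = π (t * t * c * (t * t)⁻¹) * π (t * c * t⁻¹) := by
        conv_rhs => rw [← esq (t * c * t⁻¹) (Normal.conj_mem inferInstance c hc' t)]
        simp only [map_mul, map_inv, map_commutatorElement, commutatorElement_def]; group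
      have e3 : π (t * t * c * (t * t)⁻¹) = π c := by
        rw [map_mul, map_mul _ (t * t), hCab _ htt _ hc', map_inv, mul_inv_cancel_right]
      rw [e1, e2, e3, mul_inv_eq_one]
      conv_lhs => rw [← esq c hc']
      rw [commutatorElement_def, ← map_inv, hCab _ (inv_mem hc') _ (Normal.conj_mem inferInstance c hc' t),
        ← map_mul]
    have hkerW : g.ker.map C.subtype ≤ W := by
      rintro x ⟨c, hc', rfl⟩
      have h1 : ⁅t, (c : P)⁆ ∈ center P := (hπZ _).1 hc'
      rw [hWmem]
      intro y
      rw [hcomm]
      have ht' : π t * π (c : P) = π (c : P) * π t := (hcomm _ _).1 h1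
      by_cases hy : y ∈ C
      · exact hCab c c.2 y hy
      · have hty : t⁻¹ * y ∈ C := by
          rcases (Subgroup.mul_mem_iff_of_index_two (show C.index = 2 by
            have h := C.card_mul_index; rw [hCcard, hP] at h; omega) (a := t⁻¹) (b := y)) with h
          exact h.2 (iff_of_false (fun h => ht ((inv_mem_iff).1 h)) hy)
        have : y = t * (t⁻¹ * y) := by group
        rw [this, map_mul, coe_subtype, ← mul_assoc, ← ht', mul_assoc, hCab c c.2 _ hty, mul_assoc]
    have hk4 : Nat.card g.ker ≤ 4 := by
      rw [← hW4', Nat.card_congr (g.ker.equivMapOfInjective _ C.subtype_injective).toEquiv]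
      exact card_le_of_le hkerW
    have hrange : Nat.card g.range * 2 ≤ Nat.card g.ker := by
      have hle : g.range ≤ (g.ker.map C.subtype).map π := by
        rintro q ⟨c, rfl⟩
        exact ⟨⁅t, (c : P)⁆, ⟨⟨_, hgC c c.2⟩, hgg c c.2, rfl⟩, rfl⟩
      set K := g.ker.map C.subtype with hK
      have hZK : center P ≤ K := by
        intro z hz'
        have hzC : z ∈ C := (hCmem z).2 (mem_center_iff.1 hz' w)
        refine ⟨⟨z, hzC⟩, ?_, rfl⟩
        show π ⁅t, z⁆ = 1
        rw [commutatorElement_eq_one_iff_mul_comm.2 (mem_center_iff.1 hz' t), map_one]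
      have h1 := (π.comp K.subtype).ker.card_mul_index
      rw [Subgroup.index_ker, MonoidHom.range_comp, Subgroup.range_subtype] at h1
      have h2 : Nat.card (π.comp K.subtype).ker = 2 := by
        have : (π.comp K.subtype).ker = (center P).subgroupOf K := by
          ext x; simp [MonoidHom.mem_ker, hπZ, mem_subgroupOf]
        rw [this, Nat.card_congr (subgroupOfEquivOfLe hZK).toEquiv, hc]
      rw [h2] at h1
      have h3 := card_le_of_le hle
      have h4 : Nat.card g.ker = Nat.card K :=
        Nat.card_congr (g.ker.equivMapOfInjective _ C.subtype_injective).toEquiv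
      omega
    have h1 := g.ker.card_mul_index
    rw [Subgroup.index_ker, hCcard] at h1
    have : Nat.card g.ker * Nat.card g.range ≤ 4 * 2 := Nat.mul_le_mul hk4 (by omega)
    omega
  · push Not at hab
    obtain ⟨u, hu, v, hv, huv⟩ := hab
    have hz0 : ⁅u, v⁆ ≠ 1 := fun h => huv (commutatorElement_eq_one_iff_mul_comm.1 h)
    have hZ2 : ∀ z ∈ center P, z = 1 ∨ z = ⁅u, v⁆ := by
      intro z hz'
      by_contra h; push Not at h
      haveI := Fintype.ofFinite (center P)
      have : 3 ≤ Nat.card (center P) := by
        rw [Nat.card_eq_fintype_card]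
        calc 3 = ({1, ⟨_, (hWmem u).1 hu v⟩, ⟨z, hz'⟩} : Finset (center P)).card := by
              rw [Finset.card_insert_of_notMem, Finset.card_insert_of_notMem, Finset.card_singleton]
              · simp [Subtype.ext_iff, Ne.symm h.2]
              · simp [Subtype.ext_iff, Ne.symm hz0, Ne.symm h.1]
          _ ≤ _ := Finset.card_le_univ _
      omega
    have hvu : ⁅v, u⁆ = ⁅u, v⁆ := by
      rw [← commutatorElement_inv u v, inv_eq_iff_mul_eq_one]; exact hz _ ((hWmem u).1 hu v)
    let f : P →* center P × center P :=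
      { toFun := fun y => (⟨⁅u, y⁆, (hWmem u).1 hu y⟩, ⟨⁅v, y⁆, (hWmem v).1 hv y⟩)
        map_one' := by ext <;> simp
        map_mul' := fun y y' => by
          ext
          · exact hmul u hu y y'
          · exact hmul v hv y y' }
    have hfsurj : Function.Surjective f := by
      rintro ⟨⟨a, ha⟩, ⟨b, hb⟩⟩
      rcases hZ2 a ha with rfl | rfl <;> rcases hZ2 b hb with rfl | rfl
      · exact ⟨1, map_one f⟩
      · exact ⟨u, Prod.ext (Subtype.ext (commutatorElement_self u)) (Subtype.ext hvu)⟩
      · exact ⟨v, Prod.ext (Subtype.ext rfl) (Subtype.ext (commutatorElement_self v))⟩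
      · refine ⟨u * v, Prod.ext (Subtype.ext ?_) (Subtype.ext ?_)⟩
        · show ⁅u, u * v⁆ = ⁅u, v⁆
          rw [hmul u hu, commutatorElement_self, one_mul]
        · show ⁅v, u * v⁆ = ⁅u, v⁆
          rw [hmul v hv, commutatorElement_self, mul_one, hvu]
    have hD : Nat.card f.ker = 8 := by
      have h1 := f.ker.card_mul_index
      rw [Subgroup.index_ker, MonoidHom.range_eq_top.2 hfsurj, Subgroup.card_top, Nat.card_prod, hc,
        hP] at h1
      omega
    have hDab : ∀ d ∈ f.ker, ∀ e ∈ f.ker, π d * π e = π e * π d := by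
      set h := π.comp f.ker.subtype
      have hcard : Nat.card h.range = 4 := by
        have h1 := h.ker.card_mul_index
        rw [Subgroup.index_ker, hD] at h1
        have hle : center P ≤ f.ker := fun z hz' => MonoidHom.mem_ker.2 (Prod.ext
          (Subtype.ext (commutatorElement_eq_one_iff_mul_comm.2 (mem_center_iff.1 hz' u)))
          (Subtype.ext (commutatorElement_eq_one_iff_mul_comm.2 (mem_center_iff.1 hz' v))))
        have h2 : Nat.card h.ker = 2 := by
          have : h.ker = (center P).subgroupOf f.ker := by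
            ext x; simp [h, MonoidHom.mem_ker, hπZ, mem_subgroupOf]
          rw [this, Nat.card_congr (subgroupOfEquivOfLe hle).toEquiv, hc]
        rw [h2] at h1; omega
      haveI := Fact.mk Nat.prime_two
      have hab' := IsPGroup.commutative_of_card_eq_prime_sq (G := h.range) (p := 2) (by rw [hcard]; norm_num)
      intro d hd e he
      exact congrArg Subtype.val (hab' ⟨_, ⟨⟨d, hd⟩, rfl⟩⟩ ⟨_, ⟨⟨e, he⟩, rfl⟩⟩)
    have hWc : ∀ x ∈ W, ∀ y, π x * π y = π y * π x := fun x hx y => (hcomm x y).1 ((hWmem x).1 hx y)
    intro a b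
    rw [hcomm]
    obtain ⟨q, hq, hqa⟩ : ∃ q ∈ W, q * a ∈ f.ker := by
      rcases hZ2 _ ((hWmem u).1 hu a) with h1 | h1 <;> rcases hZ2 _ ((hWmem v).1 hv a) with h2 | h2
      · exact ⟨1, one_mem _, by rw [one_mul]; exact MonoidHom.mem_ker.2 (Prod.ext (Subtype.ext h1) (Subtype.ext h2))⟩
      · refine ⟨u, hu, MonoidHom.mem_ker.2 (Prod.ext (Subtype.ext ?_) (Subtype.ext ?_))⟩
        · show ⁅u, u * a⁆ = 1; rw [hmul u hu, commutatorElement_self, one_mul, h1]
        · show ⁅v, u * a⁆ = 1; rw [hmul v hv, h2, hvu, hz _ ((hWmem u).1 hu v)]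
      · refine ⟨v, hv, MonoidHom.mem_ker.2 (Prod.ext (Subtype.ext ?_) (Subtype.ext ?_))⟩
        · show ⁅u, v * a⁆ = 1; rw [hmul u hu, h1, hz _ ((hWmem u).1 hu v)]
        · show ⁅v, v * a⁆ = 1; rw [hmul v hv, commutatorElement_self, one_mul, h2]
      · refine ⟨u * v, mul_mem hu hv, MonoidHom.mem_ker.2 (Prod.ext (Subtype.ext ?_) (Subtype.ext ?_))⟩
        · show ⁅u, u * v * a⁆ = 1
          rw [hmul u hu, hmul u hu, commutatorElement_self, one_mul, h1, hz _ ((hWmem u).1 hu v)]
        · show ⁅v, u * v * a⁆ = 1
          rw [hmul v hv, hmul v hv, commutatorElement_self, mul_one, h2, hvu, hz _ ((hWmem u).1 hu v)]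
    obtain ⟨q', hq', hqb⟩ : ∃ q ∈ W, q * b ∈ f.ker := by
      obtain ⟨q, hq⟩ := hfsurj (f b)⁻¹
      rcases hZ2 _ (f q).1.2 with h1 | h1 <;> rcases hZ2 _ (f q).2.2 with h2 | h2
      · exact ⟨1, one_mem _, by
          rw [MonoidHom.mem_ker, one_mul]
          rw [← inv_eq_one, ← hq]; exact Prod.ext (Subtype.ext h1) (Subtype.ext h2)⟩
      · refine ⟨u, hu, ?_⟩
        have e : f u = f q := Prod.ext (Subtype.ext ((commutatorElement_self u).trans h1.symm)) (Subtype.ext (hvu.trans h2.symm))
        rw [MonoidHom.mem_ker, map_mul, e, hq, inv_mul_cancel]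
      · refine ⟨v, hv, ?_⟩
        have e : f v = f q := Prod.ext (Subtype.ext h1.symm) (Subtype.ext ((commutatorElement_self v).trans h2.symm))
        rw [MonoidHom.mem_ker, map_mul, e, hq, inv_mul_cancel]
      · refine ⟨u * v, mul_mem hu hv, ?_⟩
        have e : f (u * v) = f q := Prod.ext
          (Subtype.ext ((show ⁅u, u * v⁆ = ⁅u, v⁆ by rw [hmul u hu, commutatorElement_self, one_mul]).trans h1.symm))
          (Subtype.ext ((show ⁅v, u * v⁆ = ⁅u, v⁆ by rw [hmul v hv, commutatorElement_self, mul_one, hvu]).trans h2.symm))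
        rw [MonoidHom.mem_ker, map_mul, e, hq, inv_mul_cancel]
    have hA : Commute (π a) (π b) := by
      have h1 : Commute (π (q * a)) (π (q' * b)) := hDab _ hqa _ hqb
      have ea : π a = (π q)⁻¹ * π (q * a) := by rw [map_mul]; group
      have eb : π b = (π q')⁻¹ * π (q' * b) := by rw [map_mul]; group
      rw [ea, eb]
      refine (Commute.inv_left ?_).mul_left ((Commute.inv_right ?_).mul_right h1)
      · rw [← map_inv, ← map_mul]; exact hWc q hq _
      · exact (hWc q' hq' _).symm
    exact hA.eq

end Cfsg.Agent.Lib.Elusive.TwoFive
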