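import Cfsg.Prelude.Def_GeometricClasses
import Cfsg.Agent.Lib.Elusive.TwoFiveGroup

/-!
An absolutely irreducible extraspecial group `2^{1+4}` of minus type inside `GL₄`, and the
elements normalising it.
-/

set_option autoImplicit false

namespace Cfsg.Agent.Lib.Elusive.TwoFive

open scoped Matrix MatrixGroups
open Matrix

universe v
variable {F : Type v} [Field F]

local notation "G4" => GL (Fin 2 ⊕ Fin 2) F
local notation "M4" => Matrix (Fin 2 ⊕ Fin 2) (Fin 2 ⊕ Fin 2) F

/-- What is used about the subgroup. -/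
structure Minus (R : Subgroup (GL (Fin 2 ⊕ Fin 2) F)) : Prop where
  neg_one_mem : (-1 : GL (Fin 2 ⊕ Fin 2) F) ∈ R
  comm : ∀ u ∈ R, ∀ v ∈ R, u * v = v * u ∨ u * v = -(v * u)
  sq : ∀ u ∈ R, u * u = 1 ∨ u * u = -1
  central : ∀ u ∈ R, (∀ v ∈ R, u * v = v * u) → u = 1 ∨ u = -1
  scalar : ∀ M : Matrix (Fin 2 ⊕ Fin 2) (Fin 2 ⊕ Fin 2) F,
    (∀ u ∈ R, M * (u : Matrix (Fin 2 ⊕ Fin 2) (Fin 2 ⊕ Fin 2) F) = (u : Matrix _ _ F) * M) → ∃ c : F, M = c • 1
  minus : ∀ a ∈ R, ∀ b ∈ R, a * a = 1 → b * b = 1 → a * b = b * a →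
    a = 1 ∨ a = -1 ∨ b = 1 ∨ b = -1 ∨ b = a ∨ b = -a
  card : Nat.card R = 32
  two_ne : (2 : F) ≠ 0

theorem ne_neg_self (h2 : (2 : F) ≠ 0) (u : G4) : u ≠ -u := by
  intro h
  have h1 : u⁻¹ * u = u⁻¹ * -u := by rw [← h]
  rw [inv_mul_cancel, mul_neg, inv_mul_cancel] at h1
  have h' := congrArg (fun g : G4 => (g : M4) (Sum.inl 0) (Sum.inl 0)) h1
  simp only [Units.val_neg, Units.val_one, Matrix.neg_apply, Matrix.one_apply_eq] at h'
  exact h2 (by linear_combination h')

theorem neg_one_ne (h2 : (2 : F) ≠ 0) : (-1 : G4) ≠ 1 := fun h => ne_neg_self h2 1 h.symm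

theorem Minus.of_group {p : ℕ} [Fact p.Prime] [CharP F p] (hodd : Odd p) [Finite F]
    (R : Subgroup (GL (Fin 2 ⊕ Fin 2) F)) (hRs : Cfsg.Geo.IsSymplecticTypeGroup 2 R)
    (hRi : Cfsg.Geo.ActsAbsolutelyIrreducibly (Cfsg.Geo.matrixSet R)) (hR5 : Nat.card R = 2 ^ 5)
    (hRZ : Nat.card (Subgroup.center R) = 2) (hRm : Cfsg.Geo.IsOfMinusType 2 R) : Minus R := by
  classical
  have h2 : (2 : F) ≠ 0 := by
    intro h
    have h' : ((2 : ℕ) : F) = 0 := by exact_mod_cast h
    rw [CharP.cast_eq_zero_iff F p] at h'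
    have := (Nat.prime_dvd_prime_iff_eq Fact.out Nat.prime_two).1 h'
    subst this
    exact absurd hodd (by decide)
  have hscal : ∀ M : M4, (∀ u ∈ R, M * (u : M4) = (u : M4) * M) → ∃ c : F, M = c • 1 := fun M hM =>
    hRi.2 M (by rintro s ⟨u, hu, rfl⟩; exact hM u hu)
  obtain ⟨hcomm, hsq⟩ := central_squares_and_commutators (P := R) (by rw [hR5]; norm_num) hRZ
    (fun x => by
      have := Monoid.pow_exponent_eq_one x
      rwa [hRs.exponent_eq] at this) hRs.cyclic_of_characteristic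
  -- the centre is `±1`
  have hcen : ∀ z : R, z ∈ Subgroup.center R → (z : G4) = 1 ∨ (z : G4) = -1 := by
    intro z hz
    obtain ⟨c, hc⟩ := hscal (z : G4) fun u hu => by
      have := congrArg (fun w : R => ((w : G4) : M4)) (Subgroup.mem_center_iff.1 hz ⟨u, hu⟩)
      simpa using this.symm
    have h1 : z * z = 1 := by
      have := pow_card_eq_one' (x := (⟨z, hz⟩ : Subgroup.center R))
      rw [hRZ] at this
      simpa [Subtype.ext_iff, _root_.sq] using this
    have h2' : c * c = 1 := by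
      have := congrArg (fun w : R => ((w : G4) : M4) (Sum.inl 0) (Sum.inl 0)) h1
      simpa [hc] using this
    rcases mul_self_eq_one_iff.1 h2' with rfl | rfl
    · exact Or.inl (Units.ext (by simpa using hc))
    · exact Or.inr (Units.ext (by simpa using hc))
  have hneg : (-1 : G4) ∈ R := by
    haveI : Nontrivial (Subgroup.center R) := Finite.one_lt_card_iff_nontrivial.1 (by omega)
    obtain ⟨z, hz⟩ := exists_ne (1 : Subgroup.center R)
    rcases hcen z.1 z.2 with h | h
    · exact absurd (Subtype.ext (Subtype.ext h)) hz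
    · rw [← h]; exact z.1.2
  refine ⟨hneg, ?_, ?_, ?_, hscal, ?_, by rw [hR5]; norm_num, h2⟩
  · intro u hu v hv
    rcases hcen _ (hcomm ⟨u, hu⟩ ⟨v, hv⟩) with h | h
    · left
      exact commutatorElement_eq_one_iff_mul_comm.1 h
    · right
      have : u * v = -1 * (v * u) := by
        rw [← h]
        show u * v = (u * v * u⁻¹ * v⁻¹) * (v * u)
        group
      rw [this, neg_one_mul]
  · intro u hu
    exact hcen _ (hsq ⟨u, hu⟩)
  · intro u hu h
    exact hcen ⟨u, hu⟩ (Subgroup.mem_center_iff.2 fun v => Subtype.ext (h v v.2).symm)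
  · intro a ha b hb haa hbb hab
    by_contra hne
    push Not at hne
    obtain ⟨ha1, ha2, hb1, hb2, hba, hba'⟩ := hne
    let S : Set R := {⟨-1, hneg⟩, ⟨a, ha⟩, ⟨b, hb⟩}
    let A := Subgroup.closure S
    have hS : ∀ x ∈ S, ∀ y ∈ S, x * y = y * x := by
      rintro x (rfl | rfl | rfl) y (rfl | rfl | rfl) <;> apply Subtype.ext <;> simp [hab]
    haveI hA : IsMulCommutative A := Subgroup.isMulCommutative_closure hS
    have hSsq : ∀ x ∈ A, x * x = 1 := by
      intro x hx
      induction hx using Subgroup.closure_induction with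
      | mem x hx => rcases hx with rfl | rfl | rfl <;> apply Subtype.ext <;> simp [haa, hbb]
      | one => simp
      | mul x y hx' hy' hx hy =>
        have hc : x * y = y * x := congrArg Subtype.val
          (mul_comm' (⟨x, hx'⟩ : A) ⟨y, hy'⟩)
        calc x * y * (x * y) = x * y * (y * x) := by rw [hc]
          _ = x * (y * y) * x := by simp only [mul_assoc]
          _ = 1 := by rw [hy, mul_one, hx]
      | inv x _ hx => rw [← _root_.mul_inv_rev, hx, inv_one]
    have h8 := hRm A hA hSsq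
    norm_num at h8
    haveI : Fintype A := Fintype.ofFinite A
    have h5 : 5 ≤ Nat.card A := by
      rw [Nat.card_eq_fintype_card]
      let m : Fin 5 → A := ![⟨1, one_mem _⟩, ⟨⟨-1, hneg⟩, Subgroup.subset_closure (by simp [S])⟩,
        ⟨⟨a, ha⟩, Subgroup.subset_closure (by simp [S])⟩,
        ⟨⟨b, hb⟩, Subgroup.subset_closure (by simp [S])⟩,
        ⟨⟨-1, hneg⟩ * ⟨a, ha⟩, mul_mem (Subgroup.subset_closure (by simp [S])) (Subgroup.subset_closure (by simp [S]))⟩]
      have hm : Function.Injective m := by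
        have e : (-1 : G4) ≠ 1 := neg_one_ne h2
        have na : -a ≠ 1 := fun h => ha2 (by rw [← h, neg_neg])
        intro i j hij
        have h' := congrArg (fun w : A => ((w : R) : G4)) hij
        fin_cases i <;> fin_cases j <;>
          simp [m, e, e.symm, na, na.symm, ha1, ha1.symm, ha2, ha2.symm, hb1, hb1.symm, hb2, hb2.symm,
            hba, hba.symm, hba', hba'.symm, ne_neg_self h2 a, (ne_neg_self h2 a).symm] at h' ⊢
      simpa using Fintype.card_le_of_injective m hm
    obtain ⟨k, hk⟩ := (hRs.pGroup.to_subgroup A).exists_card_eq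
    have : k ≤ 2 := by
      by_contra hk'
      have := Nat.pow_le_pow_right two_pos (show 3 ≤ k by omega)
      omega
    interval_cases k <;> omega

/-- Generators of a minus type group. -/
structure Frame (R : Subgroup (GL (Fin 2 ⊕ Fin 2) F)) where
  a : GL (Fin 2 ⊕ Fin 2) F
  b : GL (Fin 2 ⊕ Fin 2) F
  i : GL (Fin 2 ⊕ Fin 2) F
  j : GL (Fin 2 ⊕ Fin 2) F
  ha : a ∈ R
  hb : b ∈ R
  hi : i ∈ R
  hj : j ∈ R
  aa : a * a = 1
  bb : b * b = 1
  ii : i * i = -1
  jj : j * j = -1
  ba : b * a = -(a * b)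
  ia : i * a = a * i
  ja : j * a = a * j
  ib : i * b = b * i
  jb : j * b = b * j
  ji : j * i = -(i * j)

namespace Minus

variable {R : Subgroup (GL (Fin 2 ⊕ Fin 2) F)} (h : Minus R)
include h

theorem neg_mem {u : G4} (hu : u ∈ R) : -u ∈ R := by
  rw [← neg_one_mul]; exact mul_mem h.neg_one_mem hu

theorem exists_anti {u : G4} (hu : u ∈ R) (h1 : u ≠ 1) (h2 : u ≠ -1) : ∃ v ∈ R, v * u = -(u * v) := by
  by_contra hne
  push Not at hne
  rcases h.central u hu (fun v hv => ((h.comm v hv u hu).resolve_right (hne v hv)).symm) with e | e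
  · exact h1 e
  · exact h2 e

theorem exists_frame [Finite F] : Nonempty (Frame R) := by
  classical
  haveI : Finite R := Nat.finite_of_card_ne_zero (by rw [h.card]; norm_num)
  haveI := Fintype.ofFinite R
  have h2 := h.two_ne
  -- a non-central involution
  obtain ⟨a, ha, ha1, ha2, haa⟩ : ∃ a ∈ R, a ≠ 1 ∧ a ≠ -1 ∧ a * a = 1 := by
    by_contra hne
    push Not at hne
    have hsq : ∀ u ∈ R, u ≠ 1 → u ≠ -1 → u * u = -1 := fun u hu e1 e2 =>
      (h.sq u hu).resolve_left (hne u hu e1 e2)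
    obtain ⟨u, hu, hu1, hu2⟩ : ∃ u ∈ R, u ≠ 1 ∧ u ≠ -1 := by
      by_contra hc; push Not at hc
      have : Fintype.card R ≤ ({1, ⟨-1, h.neg_one_mem⟩} : Finset R).card :=
        Finset.card_le_card fun x _ => by
          rcases em ((x : G4) = 1) with e | e
          · simp [Subtype.ext_iff, e]
          · simp [Subtype.ext_iff, hc x x.2 e]
      have h' := h.card
      rw [Nat.card_eq_fintype_card] at h'
      have := this.trans Finset.card_le_two
      omega
    let φ : R →* G4 :=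
      { toFun := fun v => if (v : G4) * u = u * v then 1 else -1
        map_one' := by simp
        map_mul' := fun v w => by
          have e : (-1 : G4) ≠ 1 := neg_one_ne h2
          simp only [Subgroup.coe_mul]
          rcases h.comm v v.2 u hu with e1 | e1 <;> rcases h.comm w w.2 u hu with e2 | e2
          · have : (v : G4) * w * u = u * (v * w) := by rw [mul_assoc, e2, ← mul_assoc, e1, mul_assoc]
            simp [e1, e2, this]
          · have : (v : G4) * w * u = -(u * (v * w)) := by rw [mul_assoc, e2, mul_neg, ← mul_assoc, e1, mul_assoc]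
            simp [e1, e2, this, (ne_neg_self h2 _).symm]
          · have : (v : G4) * w * u = -(u * (v * w)) := by rw [mul_assoc, e2, ← mul_assoc, e1, neg_mul, mul_assoc]
            simp [e1, e2, this, (ne_neg_self h2 _).symm]
          · have : (v : G4) * w * u = u * (v * w) := by
              rw [mul_assoc, e2, mul_neg, ← mul_assoc, e1, neg_mul, neg_neg, mul_assoc]
            simp [e1, e2, this, (ne_neg_self h2 _).symm] }
    have hker : 16 ≤ Nat.card φ.ker := by
      have h1 := φ.ker.card_mul_index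
      rw [Subgroup.index_ker, h.card] at h1
      have h2' : Nat.card φ.range ≤ 2 := by
        calc Nat.card φ.range ≤ Nat.card ({1, -1} : Set G4) := by
              refine Nat.card_mono (Set.toFinite _) ?_
              rintro x ⟨v, rfl⟩
              simp only [φ, MonoidHom.coe_mk, OneHom.coe_mk]
              split <;> simp
          _ ≤ 2 := by
              rw [Nat.card_coe_set_eq]
              exact (Set.ncard_insert_le _ _).trans (by simp)
      have := Nat.mul_le_mul_left (Nat.card φ.ker) h2'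
      omega
    haveI := Fintype.ofFinite φ.ker
    obtain ⟨v, hv, hvu⟩ : ∃ v ∈ φ.ker,
        v ∉ ({1, ⟨-1, h.neg_one_mem⟩, ⟨u, hu⟩, ⟨-u, h.neg_mem hu⟩} : Finset R) := by
      by_contra hc; push Not at hc
      have : Fintype.card φ.ker ≤ Fintype.card ({1, ⟨-1, h.neg_one_mem⟩, ⟨u, hu⟩, ⟨-u, h.neg_mem hu⟩} : Finset R) :=
        Fintype.card_le_of_injective (fun x => ⟨x.1, hc x.1 x.2⟩)
          (fun x y e => Subtype.ext (congrArg Subtype.val e :))
      rw [Nat.card_eq_fintype_card] at hker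
      rw [Fintype.card_coe] at this
      have := this.trans Finset.card_le_four
      omega
    simp only [Finset.mem_insert, Finset.mem_singleton, Subtype.ext_iff, not_or, OneMemClass.coe_one] at hvu
    have hc : (v : G4) * u = u * v := by
      rw [MonoidHom.mem_ker] at hv
      by_contra hne'
      simp [φ, hne', neg_one_ne h2] at hv
    have e1 := hsq v v.2 hvu.1 hvu.2.1
    have e2 := hsq u hu hu1 hu2
    have e3 : u * (v : G4) * (u * v) = 1 := by
      rw [show u * (v : G4) * (u * v) = u * (v * u) * v by simp only [mul_assoc], hc, ← mul_assoc u u, e2,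
        mul_assoc, e1, neg_one_mul, neg_neg]
    have hn : ∀ w : G4, w = 1 ∨ w = -1 → u * (v : G4) = w → (v : G4) = u ∨ (v : G4) = -u := by
      intro w hw e
      have : (v : G4) = -(u * (u * v)) := by rw [← mul_assoc, e2, neg_one_mul, neg_neg]
      rw [e] at this
      rcases hw with rfl | rfl
      · right; simpa using this
      · left; simpa using this
    exact hne (u * v) (mul_mem hu v.2)
      (fun e => (hn 1 (Or.inl rfl) e).elim hvu.2.2.1 hvu.2.2.2)
      (fun e => (hn (-1) (Or.inr rfl) e).elim hvu.2.2.1 hvu.2.2.2) e3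
  obtain ⟨b0, hb0, hb0a⟩ := h.exists_anti ha ha1 ha2
  obtain ⟨b, hb, hba, hbb⟩ : ∃ b ∈ R, b * a = -(a * b) ∧ b * b = 1 := by
    rcases h.sq b0 hb0 with e | e
    · exact ⟨b0, hb0, hb0a, e⟩
    · refine ⟨a * b0, mul_mem ha hb0, ?_, ?_⟩
      · rw [mul_assoc, hb0a, mul_neg]
      · rw [show a * b0 * (a * b0) = a * (b0 * a) * b0 by simp only [mul_assoc], hb0a, mul_neg, ← mul_assoc, haa,
          one_mul, neg_mul, e, neg_neg]
  -- into the centraliser of `a` and `b`
  have hadj : ∀ v ∈ R, ∃ c ∈ R, c * a = a * c ∧ c * b = b * c ∧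
      (c = v ∨ c = a * v ∨ c = b * v ∨ c = a * (b * v)) := by
    intro v hv
    rcases h.comm v hv a ha with e1 | e1 <;> rcases h.comm v hv b hb with e2 | e2
    · exact ⟨v, hv, e1, e2, Or.inl rfl⟩
    · refine ⟨a * v, mul_mem ha hv, by rw [mul_assoc, e1], ?_, Or.inr (Or.inl rfl)⟩
      rw [mul_assoc, e2, mul_neg, ← mul_assoc, ← mul_assoc, hba, neg_mul]
    · refine ⟨b * v, mul_mem hb hv, ?_, by rw [mul_assoc, e2], Or.inr (Or.inr (Or.inl rfl))⟩
      rw [mul_assoc, e1, mul_neg, ← mul_assoc, hba, neg_mul, neg_neg, mul_assoc]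
    · refine ⟨a * (b * v), mul_mem ha (mul_mem hb hv), ?_, ?_, Or.inr (Or.inr (Or.inr rfl))⟩
      · rw [mul_assoc, mul_assoc, e1, mul_neg, mul_neg, ← mul_assoc b, hba, neg_mul, mul_neg, neg_neg, mul_assoc]
      · rw [mul_assoc, mul_assoc, e2, mul_neg, mul_neg, ← mul_assoc b a, hba, neg_mul]
        simp only [mul_assoc]
  -- a non-scalar element of that centraliser
  obtain ⟨i, hi, hia, hib, hi1, hi2⟩ : ∃ i ∈ R, i * a = a * i ∧ i * b = b * i ∧ i ≠ 1 ∧ i ≠ -1 := by
    by_contra hne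
    push Not at hne
    have hcov : ∀ v ∈ R, v ∈ ({1, -1, a, -a, b, -b, b * a, -(b * a)} : Finset G4) := by
      intro v hv
      obtain ⟨c, hc, hca, hcb, hcv⟩ := hadj v hv
      have hc' : c = 1 ∨ c = -1 := (em (c = 1)).imp id (hne c hc hca hcb)
      have key : v = c ∨ v = a * c ∨ v = b * c ∨ v = b * (a * c) := by
        rcases hcv with e | e | e | e <;> rw [e]
        · exact Or.inl rfl
        · exact Or.inr (Or.inl (by rw [← mul_assoc, haa, one_mul]))
        · exact Or.inr (Or.inr (Or.inl (by rw [← mul_assoc, hbb, one_mul])))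
        · exact Or.inr (Or.inr (Or.inr (by rw [← mul_assoc a a, haa, one_mul, ← mul_assoc, hbb, one_mul])))
      rcases hc' with rfl | rfl <;> rcases key with rfl | rfl | rfl | rfl <;> simp
    have h8 : Fintype.card R ≤ ({1, -1, a, -a, b, -b, b * a, -(b * a)} : Finset G4).card := by
      rw [← Fintype.card_coe]
      exact Fintype.card_le_of_injective (fun x => ⟨x.1, hcov x.1 x.2⟩)
        (fun x y e => Subtype.ext (congrArg Subtype.val e :))
    have h' := h.card
    rw [Nat.card_eq_fintype_card] at h'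
    have h9 : ({1, -1, a, -a, b, -b, b * a, -(b * a)} : Finset G4).card ≤ 8 := by
      iterate 7 refine (Finset.card_insert_le _ _).trans (Nat.succ_le_succ ?_)
      rw [Finset.card_singleton]
    omega
  have hii : ∀ c ∈ R, c * a = a * c → c * b = b * c → c ≠ 1 → c ≠ -1 → c * c = -1 := by
    intro c hc hca hcb hc1 hc2
    refine (h.sq c hc).resolve_left fun e => ?_
    rcases h.minus a ha c hc haa e hca.symm with e' | e' | e' | e' | e' | e'
    · exact ha1 e'
    · exact ha2 e'
    · exact hc1 e'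
    · exact hc2 e'
    · subst e'
      exact ne_neg_self h2 (b * c) (by conv_rhs => rw [← hcb]
                                       rw [hba])
    · subst e'
      rw [neg_mul, mul_neg, neg_inj] at hcb
      exact ne_neg_self h2 (a * b) (by conv_lhs => rw [hcb, hba])
  obtain ⟨j0, hj0, hj0i⟩ := h.exists_anti hi hi1 hi2
  obtain ⟨j, hj, hja, hjb, hjv⟩ := hadj j0 hj0
  have hji : j * i = -(i * j) := by
    rcases hjv with rfl | rfl | rfl | rfl
    · exact hj0i
    · rw [mul_assoc, hj0i, mul_neg, ← mul_assoc, ← mul_assoc, hia]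
    · rw [mul_assoc, hj0i, mul_neg, ← mul_assoc, ← mul_assoc, hib]
    · rw [mul_assoc, mul_assoc, hj0i, mul_neg, mul_neg, ← mul_assoc b i, ← hib, mul_assoc i b, ← mul_assoc a i,
        ← hia, mul_assoc i a]
  have hj1 : j ≠ 1 ∧ j ≠ -1 := by
    constructor <;> rintro rfl <;> simp at hji
    · exact ne_neg_self h2 i hji
    · exact ne_neg_self h2 i hji.symm
  exact ⟨⟨a, b, i, j, ha, hb, hi, hj, haa, hbb, hii i hi hia hib hi1 hi2, hii j hj hja hjb hj1.1 hj1.2,
    hba, hia, hja, hib, hjb, hji⟩⟩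

end Minus

namespace Frame

variable {R : Subgroup (GL (Fin 2 ⊕ Fin 2) F)} (s : Frame R)

theorem rules (x : G4) :
    s.a * (s.a * x) = x ∧ s.b * (s.b * x) = x ∧ s.i * (s.i * x) = -x ∧ s.j * (s.j * x) = -x ∧
    s.b * (s.a * x) = -(s.a * (s.b * x)) ∧ s.i * (s.a * x) = s.a * (s.i * x) ∧
    s.j * (s.a * x) = s.a * (s.j * x) ∧ s.i * (s.b * x) = s.b * (s.i * x) ∧
    s.j * (s.b * x) = s.b * (s.j * x) ∧ s.j * (s.i * x) = -(s.i * (s.j * x)) := by
  refine ⟨?_, ?_, ?_, ?_, ?_, ?_, ?_, ?_, ?_, ?_⟩ <;>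
    simp only [← mul_assoc, s.aa, s.bb, s.ii, s.jj, s.ba, s.ia, s.ja, s.ib, s.jb, s.ji, one_mul, neg_mul]

/-- The monomial `a^e b^f i^g j^h`. -/
def w (e : Bool × Bool × Bool × Bool) : GL (Fin 2 ⊕ Fin 2) F :=
  (if e.1 then s.a else 1) * (if e.2.1 then s.b else 1) * (if e.2.2.1 then s.i else 1) *
    (if e.2.2.2 then s.j else 1)

/-- The signed monomial. -/
def sw (e : Bool × Bool × Bool × Bool × Bool) : GL (Fin 2 ⊕ Fin 2) F :=
  if e.1 then -(s.w e.2) else s.w e.2

/-- Whether a monomial squares to `-1`. -/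
def qb (e : Bool × Bool × Bool × Bool) : Bool :=
  xor (e.1 && e.2.1) (e.2.2.1 || e.2.2.2)

theorem conj_w (e : Bool × Bool × Bool × Bool) :
    s.a * s.w e = (if e.2.1 then -(s.w e * s.a) else s.w e * s.a) ∧
    s.b * s.w e = (if e.1 then -(s.w e * s.b) else s.w e * s.b) ∧
    s.i * s.w e = (if e.2.2.2 then -(s.w e * s.i) else s.w e * s.i) ∧
    s.j * s.w e = (if e.2.2.1 then -(s.w e * s.j) else s.w e * s.j) := by
  obtain ⟨r1, r2, r3, r4, r5, r6, r7, r8, r9, r10⟩ :
      (∀ x : G4, s.a * (s.a * x) = x) ∧ (∀ x : G4, s.b * (s.b * x) = x) ∧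
      (∀ x : G4, s.i * (s.i * x) = -x) ∧ (∀ x : G4, s.j * (s.j * x) = -x) ∧
      (∀ x : G4, s.b * (s.a * x) = -(s.a * (s.b * x))) ∧ (∀ x : G4, s.i * (s.a * x) = s.a * (s.i * x)) ∧
      (∀ x : G4, s.j * (s.a * x) = s.a * (s.j * x)) ∧ (∀ x : G4, s.i * (s.b * x) = s.b * (s.i * x)) ∧
      (∀ x : G4, s.j * (s.b * x) = s.b * (s.j * x)) ∧
      (∀ x : G4, s.j * (s.i * x) = -(s.i * (s.j * x))) := by
    refine ⟨?_, ?_, ?_, ?_, ?_, ?_, ?_, ?_, ?_, ?_⟩ <;> intro x <;>
      obtain ⟨h1, h2, h3, h4, h5, h6, h7, h8, h9, h10⟩ := s.rules x <;> assumption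
  rcases e with ⟨⟨⟩, ⟨⟩, ⟨⟩, ⟨⟩⟩ <;>
    simp [w, mul_assoc, s.aa, s.bb, s.ii, s.jj, s.ba, s.ia, s.ja, s.ib, s.jb, s.ji,
      r1, r2, r3, r4, r5, r6, r7, r8, r9, r10]

theorem sq_w (e : Bool × Bool × Bool × Bool) :
    s.w e * s.w e = if qb e then -1 else 1 := by
  obtain ⟨r1, r2, r3, r4, r5, r6, r7, r8, r9, r10⟩ :
      (∀ x : G4, s.a * (s.a * x) = x) ∧ (∀ x : G4, s.b * (s.b * x) = x) ∧
      (∀ x : G4, s.i * (s.i * x) = -x) ∧ (∀ x : G4, s.j * (s.j * x) = -x) ∧
      (∀ x : G4, s.b * (s.a * x) = -(s.a * (s.b * x))) ∧ (∀ x : G4, s.i * (s.a * x) = s.a * (s.i * x)) ∧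
      (∀ x : G4, s.j * (s.a * x) = s.a * (s.j * x)) ∧ (∀ x : G4, s.i * (s.b * x) = s.b * (s.i * x)) ∧
      (∀ x : G4, s.j * (s.b * x) = s.b * (s.j * x)) ∧
      (∀ x : G4, s.j * (s.i * x) = -(s.i * (s.j * x))) := by
    refine ⟨?_, ?_, ?_, ?_, ?_, ?_, ?_, ?_, ?_, ?_⟩ <;> intro x <;>
      obtain ⟨h1, h2, h3, h4, h5, h6, h7, h8, h9, h10⟩ := s.rules x <;> assumption
  rcases e with ⟨⟨⟩, ⟨⟩, ⟨⟩, ⟨⟩⟩ <;>
    simp [w, qb, mul_assoc, s.aa, s.bb, s.ii, s.jj, s.ba, s.ia, s.ja, s.ib, s.jb, s.ji,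
      r1, r2, r3, r4, r5, r6, r7, r8, r9, r10]

theorem w_mem (e : Bool × Bool × Bool × Bool) : s.w e ∈ R := by
  have h1 := one_mem R
  rw [w]
  refine mul_mem (mul_mem (mul_mem ?_ ?_) ?_) ?_ <;> split <;>
    first | exact s.ha | exact s.hb | exact s.hi | exact s.hj | exact h1

theorem sw_mem (h : Minus R) (e : Bool × Bool × Bool × Bool × Bool) : s.sw e ∈ R := by
  rw [sw]; split
  · exact h.neg_mem (s.w_mem _)
  · exact s.w_mem _

theorem conj_sw (e : Bool × Bool × Bool × Bool × Bool) :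
    s.a * s.sw e = (if e.2.2.1 then -(s.sw e * s.a) else s.sw e * s.a) ∧
    s.b * s.sw e = (if e.2.1 then -(s.sw e * s.b) else s.sw e * s.b) ∧
    s.i * s.sw e = (if e.2.2.2.2 then -(s.sw e * s.i) else s.sw e * s.i) ∧
    s.j * s.sw e = (if e.2.2.2.1 then -(s.sw e * s.j) else s.sw e * s.j) := by
  obtain ⟨c1, c2, c3, c4⟩ := s.conj_w e.2
  obtain ⟨sg, rest⟩ := e
  cases sg <;> simp only [sw, ↓reduceIte, Bool.false_eq_true] <;>
    refine ⟨?_, ?_, ?_, ?_⟩ <;> simp only [mul_neg, neg_mul, c1, c2, c3, c4] <;> split <;> simp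

theorem sw_bijective (h : Minus R) :
    Function.Bijective (fun e => (⟨s.sw e, s.sw_mem h e⟩ : R)) := by
  classical
  haveI : Finite R := Nat.finite_of_card_ne_zero (by rw [h.card]; norm_num)
  refine (Nat.bijective_iff_injective_and_card _).2 ⟨?_, by rw [h.card]; simp [Nat.card_eq_fintype_card]⟩
  intro e e' he
  have he' : s.sw e = s.sw e' := congrArg Subtype.val he
  have h2 := h.two_ne
  have key : ∀ (x : G4) (f f' : Bool) (u : G4),
      x * u = (if f then -(u * x) else u * x) → x * u = (if f' then -(u * x) else u * x) → f = f' := by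
    intro x f f' u e1 e2
    rw [e1] at e2
    cases f <;> cases f' <;> simp at e2 <;> first | rfl | exact absurd e2 (ne_neg_self h2 _) | exact absurd e2.symm (ne_neg_self h2 _)
  obtain ⟨a1, b1, i1, j1⟩ := s.conj_sw e
  obtain ⟨a2, b2, i2, j2⟩ := s.conj_sw e'
  rw [← he'] at a2 b2 i2 j2
  have ea := key _ _ _ _ a1 a2
  have eb := key _ _ _ _ b1 b2
  have ei := key _ _ _ _ i1 i2
  have ej := key _ _ _ _ j1 j2
  obtain ⟨g1, g2, g3, g4, g5⟩ := e
  obtain ⟨g1', g2', g3', g4', g5'⟩ := e'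
  simp only at ea eb ei ej
  subst ea eb ei ej
  cases g1 <;> cases g1' <;> first | rfl | (simp [sw] at he'; first | exact absurd he' (ne_neg_self h2 _) | exact absurd he'.symm (ne_neg_self h2 _))

theorem exists_sw (h : Minus R) {u : G4} (hu : u ∈ R) : ∃ e, s.sw e = u :=
  (s.sw_bijective h).2 ⟨u, hu⟩ |>.imp fun _ he => congrArg Subtype.val he

theorem sq_sw (e : Bool × Bool × Bool × Bool × Bool) :
    s.sw e * s.sw e = if qb e.2 then -1 else 1 := by
  rw [← s.sq_w, sw]; split <;> simp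

include s in
/-- The non-central involutions number ten. -/
theorem card_invol (h : Minus R) :
    Nat.card {u : R // (u : G4) * u = 1 ∧ (u : G4) ≠ 1 ∧ (u : G4) ≠ -1} = 10 := by
  classical
  have h2 := h.two_ne
  have hz : ∀ e, (s.sw e = 1 ∨ s.sw e = -1) ↔ e.2 = (false, false, false, false) := by
    intro e
    have h1 : s.sw (false, false, false, false, false) = 1 := by simp [sw, w]
    have h1' : s.sw (true, false, false, false, false) = -1 := by simp [sw, w]
    constructor
    · intro he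
      rcases he with he | he
      · have := (s.sw_bijective h).1 (a₁ := e) (a₂ := (false, false, false, false, false)) (Subtype.ext (he.trans h1.symm))
        rw [this]
      · have := (s.sw_bijective h).1 (a₁ := e) (a₂ := (true, false, false, false, false)) (Subtype.ext (he.trans h1'.symm))
        rw [this]
    · obtain ⟨sg, rest⟩ := e
      rintro rfl
      cases sg
      · exact Or.inl h1
      · exact Or.inr h1'
  rw [← Nat.card_congr ((Equiv.ofBijective _ (s.sw_bijective h)).subtypeEquiv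
    (p := fun e => qb e.2 = false ∧ e.2 ≠ (false, false, false, false))
    (fun e => by
      simp only [Equiv.ofBijective_apply, ← not_or, s.sq_sw]
      rw [Ne, ← hz e]
      constructor
      · rintro ⟨q1, q2⟩; exact ⟨by rw [q1]; rfl, q2⟩
      · rintro ⟨q1, q2⟩
        refine ⟨?_, q2⟩
        rcases Bool.eq_false_or_eq_true (qb e.2) with hq | hq
        · rw [hq, if_pos rfl] at q1; exact absurd q1 (neg_one_ne h2)
        · exact hq))]
  rw [Nat.card_eq_fintype_card]
  decide

theorem commute_all (h : Minus R) (M : M4)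
    (ha : M * (s.a : M4) = (s.a : M4) * M) (hb : M * (s.b : M4) = (s.b : M4) * M)
    (hi : M * (s.i : M4) = (s.i : M4) * M) (hj : M * (s.j : M4) = (s.j : M4) * M) :
    ∃ c : F, M = c • 1 := by
  refine h.scalar M fun u hu => ?_
  obtain ⟨⟨sg, e, f, g, j⟩, rfl⟩ := s.exists_sw h hu
  have hw : Commute M ((s.w (e, f, g, j) : G4) : M4) := by
    simp only [w, Units.val_mul]
    refine ((Commute.mul_right (Commute.mul_right ?_ ?_) ?_).mul_right ?_) <;> split <;>
      first | exact ha | exact hb | exact hi | exact hj | (simp only [Units.val_one]; exact Commute.one_right M)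
  cases sg
  · exact hw
  · simp only [sw, ↓reduceIte, Units.val_neg]
    exact hw.neg_right

end Frame

end Cfsg.Agent.Lib.Elusive.TwoFive
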