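import Cfsg.Agent.Lib.Elusive.SLConj

/-!
Involutions of `PSL_n`: the three kinds, block models and conjugacy to them.
-/

set_option autoImplicit false

namespace Cfsg.Agent.Lib.Elusive

open Module

variable {F : Type*} [Field F]

section Arith

variable [Fintype F] {n : ℕ}

theorem dvd_card_sub_one (h2 : (2 : F) ≠ 0) : 2 ∣ Fintype.card F - 1 := by
  have h := FiniteField.odd_card_of_char_ne_two (F := F) fun e => h2 (by
    have := ringChar.spec F 2
    simpa using this.2 (e ▸ dvd_rfl))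
  omega

theorem odd_card (h2 : (2 : F) ≠ 0) : Odd (Fintype.card F) := by
  have := dvd_card_sub_one h2
  have := Fintype.card_pos (α := F)
  exact Nat.odd_iff.2 (by omega)

theorem two_ne_zero_of_odd {q : ℕ} (hq : Fintype.card F = q) (h : Odd q) : (2 : F) ≠ 0 := fun h2 => by
  haveI : CharP F 2 := CharTwo.of_one_ne_zero_of_two_eq_zero one_ne_zero h2
  obtain ⟨f, -, hf⟩ := FiniteField.card F 2
  rw [← hq, hf] at h
  exact Nat.not_odd_iff_even.2 (Nat.even_pow.2 ⟨even_two, f.ne_zero⟩) h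

theorem npow_ne_neg_one (h2 : (2 : F) ≠ 0)
    (hv : padicValNat 2 (Fintype.card F - 1) ≤ padicValNat 2 n) {l : F} (hl : l ≠ 0) :
    l ^ n ≠ -1 := fun h => by
  obtain ⟨M, hM⟩ : 2 ^ padicValNat 2 (Fintype.card F - 1) ∣ Fintype.card F - 1 := pow_padicValNat_dvd
  have hodd : Odd M := Nat.not_even_iff_odd.1 fun ⟨k, hk⟩ =>
    pow_succ_padicValNat_not_dvd (p := 2) (n := Fintype.card F - 1)
      (by have := Fintype.one_lt_card (α := F); omega) ⟨k, by
        calc Fintype.card F - 1 = 2 ^ padicValNat 2 (Fintype.card F - 1) * (k + k) := by rw [← hk, ← hM]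
          _ = _ := by rw [pow_succ]; ring⟩
  obtain ⟨w, hw⟩ : Fintype.card F - 1 ∣ n * M := by
    rw [hM]
    exact Nat.mul_dvd_mul_right ((pow_dvd_pow 2 hv).trans pow_padicValNat_dvd) M
  have h1 : l ^ (n * M) = 1 := by
    rw [hw, pow_mul, FiniteField.pow_card_sub_one_eq_one l hl, one_pow]
  rw [pow_mul, h, hodd.neg_one_pow] at h1
  exact h2 (by rw [show (2 : F) = 1 - (-1) by ring, h1, sub_self])

theorem exists_npow_neg_one (h2 : (2 : F) ≠ 0) (hn : n ≠ 0)
    (hv : padicValNat 2 n < padicValNat 2 (Fintype.card F - 1)) : ∃ l : F, l ≠ 0 ∧ l ^ n = -1 := by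
  obtain ⟨g, hg, -⟩ := exists_gen F
  set v := padicValNat 2 n
  obtain ⟨u, hu⟩ : 2 ^ v ∣ n := pow_padicValNat_dvd
  have hodd : Odd u := Nat.not_even_iff_odd.1 fun ⟨k, hk⟩ =>
    pow_succ_padicValNat_not_dvd (p := 2) (n := n) hn ⟨k, by
      calc n = 2 ^ v * (k + k) := by rw [← hk, ← hu]
        _ = _ := by rw [pow_succ]; ring⟩
  obtain ⟨M, hM⟩ : 2 ^ (v + 1) ∣ Fintype.card F - 1 := (pow_dvd_pow 2 hv).trans pow_padicValNat_dvd
  refine ⟨(g : F) ^ M, pow_ne_zero _ g.ne_zero, ?_⟩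
  have hsq : ((g : F) ^ (2 ^ v * M)) ^ 2 = 1 := by
    rw [← pow_mul, show 2 ^ v * M * 2 = Fintype.card F - 1 by rw [hM, pow_succ]; ring, ← hg,
      ← Units.val_pow_eq_pow_val, pow_orderOf_eq_one, Units.val_one]
  have hne : (g : F) ^ (2 ^ v * M) ≠ 1 := fun h => by
    have hd : Fintype.card F - 1 ∣ 2 ^ v * M := by
      rw [← hg]
      exact orderOf_dvd_of_pow_eq_one (Units.ext (by rw [Units.val_pow_eq_pow_val, h, Units.val_one]))
    have hpos : 0 < 2 ^ v * M := by
      rcases Nat.eq_zero_or_pos M with h0 | h0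
      · rw [h0, mul_zero] at hM
        have := Fintype.one_lt_card (α := F)
        omega
      · positivity
    have := Nat.le_of_dvd hpos hd
    rw [hM, pow_succ, mul_comm (2 ^ v) 2, mul_assoc] at this
    omega
  rw [← pow_mul, hu, show M * (2 ^ v * u) = 2 ^ v * M * u by ring, pow_mul,
    (sq_eq_one_iff.1 hsq).resolve_left hne, hodd.neg_one_pow]

/-- The three kinds of involutions of `PSL_n`. -/
theorem invol_cases (hn : n ≠ 0) {A : Matrix.SpecialLinearGroup (Fin n) F}
    (hA : ∃ c : F, ((A ^ 2 : Matrix.SpecialLinearGroup (Fin n) F) : Matrix (Fin n) (Fin n) F) =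
      c • (1 : Matrix (Fin n) (Fin n) F)) :
    ((2 : F) ≠ 0 ∧ ∃ l : F, l ≠ 0 ∧ ∀ v, Matrix.toLin' (A : Matrix (Fin n) (Fin n) F)
        (Matrix.toLin' (A : Matrix (Fin n) (Fin n) F) v) = (l * l) • v) ∨
    ((2 : F) ≠ 0 ∧ ∃ c : F, (∀ y : F, y ^ 2 ≠ c) ∧ ∀ v, Matrix.toLin' (A : Matrix (Fin n) (Fin n) F)
        (Matrix.toLin' (A : Matrix (Fin n) (Fin n) F) v) = c • v) ∨
    ((2 : F) = 0 ∧ ∃ (l : F) (N : Module.End F (Fin n → F)), l ≠ 0 ∧ N ^ 2 = 0 ∧
        Matrix.toLin' (A : Matrix (Fin n) (Fin n) F) = l • (1 + N)) := by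
  obtain ⟨c, hc⟩ := hA
  have hx : ∀ v, Matrix.toLin' (A : Matrix (Fin n) (Fin n) F)
      (Matrix.toLin' (A : Matrix (Fin n) (Fin n) F) v) = c • v := fun v => by
    rw [← LinearMap.comp_apply, ← Matrix.toLin'_mul, ← pow_two, ← Matrix.SpecialLinearGroup.coe_pow,
      hc, map_smul, Matrix.toLin'_one, LinearMap.smul_apply, LinearMap.id_apply]
  have hc0 : c ≠ 0 := fun h => by
    have hdet := (A ^ 2 : Matrix.SpecialLinearGroup (Fin n) F).det_coe
    have : Nonempty (Fin n) := ⟨⟨0, by omega⟩⟩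
    rw [hc, h, zero_smul, Matrix.det_zero] at hdet
    exact zero_ne_one hdet
  by_cases h2 : (2 : F) = 0
  · haveI : CharP F 2 := CharTwo.of_one_ne_zero_of_two_eq_zero one_ne_zero h2
    obtain ⟨l, N, μ, hA', hN, hμ, -⟩ := exists_nilpotent (p := 2) hn ⟨c, hc⟩
    refine Or.inr (Or.inr ⟨h2, l, N, fun h => ?_, (hN.pow_eq_zero_iff 2).2 fun a ha => (hμ a ha).2, hA'⟩)
    have := LinearMap.det_toLin' (A : Matrix (Fin n) (Fin n) F)
    rw [hA', A.det_coe, h, zero_smul, LinearMap.det_zero, finrank_fin_fun, zero_pow hn] at this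
    exact zero_ne_one this
  by_cases hs : ∃ y : F, y ^ 2 = c
  · obtain ⟨l, rfl⟩ := hs
    exact Or.inl ⟨h2, l, fun h => hc0 (by rw [h]; ring), fun v => by rw [hx, sq]⟩
  · exact Or.inr (Or.inl ⟨h2, c, fun y hy => hs ⟨y, hy⟩, hx⟩)

end Arith

section Conj

variable {n : ℕ} {A : Matrix.SpecialLinearGroup (Fin n) F} {y : Module.End F (Fin n → F)}

theorem sl_conj_semisimple (hn : n ≠ 0) (h2 : (2 : F) ≠ 0) {l : F} (hl : l ≠ 0)
    (hx : ∀ v, Matrix.toLin' (A : Matrix (Fin n) (Fin n) F)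
      (Matrix.toLin' (A : Matrix (Fin n) (Fin n) F) v) = (l * l) • v)
    (hy : ∀ v, y (y v) = (l * l) • v)
    (hk : finrank F (LinearMap.ker (y - l • LinearMap.id)) =
      finrank F (LinearMap.ker (Matrix.toLin' (A : Matrix (Fin n) (Fin n) F) - l • LinearMap.id))) :
    ∃ P : Matrix.SpecialLinearGroup (Fin n) F,
      Matrix.toLin' ((P⁻¹ * A * P : Matrix.SpecialLinearGroup (Fin n) F) : Matrix (Fin n) (Fin n) F) = y := by
  obtain ⟨T, hT⟩ := conj_semisimple h2 hl hy hx rfl hk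
  exact exists_sl_conj T hT fun δ _ => cent_semisimple h2 hl hy (by rw [finrank_fin_fun]; omega) δ

theorem sl_conj_nonsquare [Finite F] (hn : n ≠ 0) {c : F} (hc : ∀ z : F, z ^ 2 ≠ c)
    (hx : ∀ v, Matrix.toLin' (A : Matrix (Fin n) (Fin n) F)
      (Matrix.toLin' (A : Matrix (Fin n) (Fin n) F) v) = c • v)
    (hy : ∀ v, y (y v) = c • v) :
    ∃ P : Matrix.SpecialLinearGroup (Fin n) F,
      Matrix.toLin' ((P⁻¹ * A * P : Matrix.SpecialLinearGroup (Fin n) F) : Matrix (Fin n) (Fin n) F) = y := by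
  have hirr := X_pow_sub_C_irreducible_of_prime Nat.prime_two hc
  obtain ⟨T, hT⟩ := conj_irreducible hirr (aeval_sq_sub hy) (aeval_sq_sub hx) rfl
  exact exists_sl_conj T hT fun δ hδ =>
    cent_irreducible hirr (aeval_sq_sub hy) (by rw [finrank_fin_fun]; omega) hδ

theorem sl_conj_char_two [Finite F] (hn : n ≠ 0) (h2 : (2 : F) = 0) {l : F}
    {N N' : Module.End F (Fin n → F)}
    (hx : Matrix.toLin' (A : Matrix (Fin n) (Fin n) F) = l • (1 + N)) (hN : N ^ 2 = 0) (hN' : N' ^ 2 = 0)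
    (hr : finrank F (LinearMap.range N') = finrank F (LinearMap.range N)) (hy : y = l • (1 + N')) :
    ∃ P : Matrix.SpecialLinearGroup (Fin n) F,
      Matrix.toLin' ((P⁻¹ * A * P : Matrix.SpecialLinearGroup (Fin n) F) : Matrix (Fin n) (Fin n) F) = y := by
  haveI : CharP F 2 := CharTwo.of_one_ne_zero_of_two_eq_zero one_ne_zero h2
  obtain ⟨T, hT⟩ := conj_sq_zero hN' hN rfl hr
  refine exists_sl_conj T (fun v => ?_) fun δ _ => ?_
  · rw [hy, hx]
    simp only [LinearMap.smul_apply, LinearMap.add_apply, Module.End.one_apply, map_smul, map_add, hT]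
  have hμ := type_sq_zero hN'
  have hs := hμ.sum_eq
  rw [finrank_fin_fun] at hs
  set a := finrank F (LinearMap.range N')
  obtain ⟨s, hs2⟩ := exists_root_char (p := 2) δ
  have key : ∀ (b : ℕ) (w : F), b ∈ (Multiset.replicate a 2 +
      Multiset.replicate (finrank F (Fin n → F) - 2 * a) 1) → w ^ b = δ →
      ∃ C : Module.End F (Fin n → F), (∀ v, C (y v) = y (C v)) ∧ LinearMap.det C = δ := by
    intro b w hb hw
    obtain ⟨C, hC, hd⟩ := exists_comm_det_part hμ hb w
    exact ⟨C, fun v => by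
      rw [hy]
      simp only [LinearMap.smul_apply, LinearMap.add_apply, Module.End.one_apply, map_smul, map_add, hC],
      hd.trans hw⟩
  rcases Nat.eq_zero_or_pos a with ha | ha
  · refine key 1 δ (Multiset.mem_add.2 (Or.inr (Multiset.mem_replicate.2 ⟨?_, rfl⟩))) (pow_one δ)
    rw [finrank_fin_fun]; omega
  · exact key 2 s (Multiset.mem_add.2 (Or.inl (Multiset.mem_replicate.2 ⟨by omega, rfl⟩))) hs2

end Conj

section Blocks

variable {t n : ℕ} {U : Type*} [AddCommGroup U] [Module F U]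

/-- A block diagonal map. -/
def blockMap (L : Fin t → Module.End F U) : Module.End F (Fin t → U) :=
  LinearMap.pi fun k => (L k).comp (LinearMap.proj k)

theorem blockMap_apply (L : Fin t → Module.End F U) (v : Fin t → U) (k : Fin t) :
    blockMap L v k = L k (v k) := rfl

theorem finrank_ker_blockMap [FiniteDimensional F U] (L : Fin t → Module.End F U) :
    finrank F (LinearMap.ker (blockMap L)) = ∑ k, finrank F (LinearMap.ker (L k)) := by
  let e : LinearMap.ker (blockMap L) ≃ₗ[F] (Π k, LinearMap.ker (L k)) :=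
    { toFun := fun v k => ⟨v.1 k, congrFun v.2 k⟩
      map_add' := fun _ _ => rfl
      map_smul' := fun _ _ => rfl
      invFun := fun w => ⟨fun k => w k, funext fun k => (w k).2⟩
      left_inv := fun _ => rfl
      right_inv := fun _ => rfl }
  rw [e.finrank_eq, Module.finrank_pi_fintype F]

theorem finrank_ker_conj {V W : Type*} [AddCommGroup V] [Module F V] [AddCommGroup W] [Module F W]
    (e : V ≃ₗ[F] W) (f : Module.End F V) :
    finrank F (LinearMap.ker (e.conj f)) = finrank F (LinearMap.ker f) := by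
  have : LinearMap.ker (e.conj f) = (LinearMap.ker f).map e.toLinearMap := by
    ext v
    rw [Submodule.mem_map_equiv, LinearMap.mem_ker, LinearMap.mem_ker, LinearEquiv.conj_apply]
    simp
  rw [this]
  exact LinearEquiv.finrank_map_eq e _

theorem sum_two_blocks (a : ℕ) (ha : a ≤ t) (x y : ℕ) :
    (∑ k : Fin t, if (k : ℕ) < a then x else y) = a * x + (t - a) * y := by
  rw [Finset.sum_ite, Finset.sum_const, Finset.sum_const, smul_eq_mul, smul_eq_mul]
  have h1 : (Finset.univ.filter fun k : Fin t => (k : ℕ) < a).card = a := by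
    rw [Fin.card_filter_val_lt, min_eq_right ha]
  rw [h1, Finset.filter_not, Finset.card_sdiff_of_subset (Finset.filter_subset _ _), Finset.card_univ,
    Fintype.card_fin, h1]

end Blocks

end Cfsg.Agent.Lib.Elusive
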