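import Cfsg.Agent.Lib.Forms.SympTI

/-!
Counting pairs of complementary totally isotropic `d`-subspaces.
-/

set_option autoImplicit false

namespace Cfsg.Agent.Lib.Elusive

open Module Cfsg.Agent.Lib.Forms
open scoped Matrix

variable {F : Type*} [Field F] [Fintype F] {d : ℕ}

/-- Totally isotropic. -/
def TI (W : Submodule F (Fin d ⊕ Fin d → F)) : Prop :=
  ∀ u ∈ W, ∀ v ∈ W, Cfsg.sympForm d F u v = 0

theorem prod_pow_ne : (∏ i ∈ Finset.range d, (Fintype.card F ^ d - Fintype.card F ^ i)) ≠ 0 :=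
  Finset.prod_ne_zero_iff.2 fun i hi =>
    (Nat.sub_pos_of_lt (Nat.pow_lt_pow_right Fintype.one_lt_card (Finset.mem_range.1 hi))).ne'

theorem card_ti : Nat.card {U : Submodule F (Fin d ⊕ Fin d → F) // finrank F U = d ∧ TI U} =
    ∏ i ∈ Finset.range d, (Fintype.card F ^ (d - i) + 1) := by
  have h := card_ti_mul (F := F) (V := Fin d ⊕ Fin d → F) (h := Cfsg.sympForm d F) sympForm_span_zero d
  rw [card_symp_frame, Nat.card_eq_fintype_card (α := F),
    Fin.prod_univ_eq_prod_range (fun i => Fintype.card F ^ d - Fintype.card F ^ i) d] at h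
  have h2 : ∏ i ∈ Finset.range d, (Fintype.card F ^ (2 * d - i) - Fintype.card F ^ i) =
      (∏ i ∈ Finset.range d, (Fintype.card F ^ (d - i) + 1)) *
        ∏ i ∈ Finset.range d, (Fintype.card F ^ d - Fintype.card F ^ i) := by
    rw [← Finset.prod_mul_distrib]
    refine Finset.prod_congr rfl fun i hi => ?_
    have hid : i ≤ d := (Finset.mem_range.1 hi).le
    set x := Fintype.card F ^ (d - i)
    have hx : 1 ≤ x := Nat.one_le_pow _ _ Fintype.card_pos
    have e1 : Fintype.card F ^ d = x * Fintype.card F ^ i := by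
      rw [← pow_add, Nat.sub_add_cancel hid]
    have e2 : Fintype.card F ^ (2 * d - i) = x * x * Fintype.card F ^ i := by
      rw [← pow_add, ← pow_add]; congr 1; omega
    obtain ⟨y, hy⟩ := Nat.exists_eq_add_of_le hx
    rw [e1, e2, hy, show (1 + y) * (1 + y) * Fintype.card F ^ i =
        (1 + y + 1) * (y * Fintype.card F ^ i) + Fintype.card F ^ i by ring, Nat.add_sub_cancel,
      show (1 + y) * Fintype.card F ^ i = y * Fintype.card F ^ i + Fintype.card F ^ i by ring,
      Nat.add_sub_cancel]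
  rw [h2] at h
  exact Nat.eq_of_mul_eq_mul_right (Nat.pos_of_ne_zero prod_pow_ne) h

/-- The totally isotropic complements of `U` correspond to a subspace of `Hom(W₀, U)`. -/
theorem card_compl_ti {U W₀ : Submodule F (Fin d ⊕ Fin d → F)} (hU : TI U) (hW₀ : TI W₀)
    (hc : IsCompl U W₀) :
    ∃ s, Nat.card {W : Submodule F (Fin d ⊕ Fin d → F) // IsCompl U W ∧ TI W} = Fintype.card F ^ s := by
  let B := stdB d F
  let S : Submodule F (W₀ →ₗ[F] U) :=
    { carrier := {φ | ∀ w w' : W₀, B (w : Fin d ⊕ Fin d → F) (φ w' : Fin d ⊕ Fin d → F) +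
        B (φ w : Fin d ⊕ Fin d → F) (w' : Fin d ⊕ Fin d → F) = 0}
      add_mem' := fun {a b} ha hb w w' => by
        have := ha w w'
        have := hb w w'
        simp only [LinearMap.add_apply, Submodule.coe_add, map_add]
        linear_combination (ha w w') + (hb w w')
      zero_mem' := fun w w' => by simp
      smul_mem' := fun c a ha w w' => by
        simp only [LinearMap.smul_apply, Submodule.coe_smul, map_smul, smul_eq_mul]
        linear_combination c * ha w w' }
  haveI : Finite (W₀ →ₗ[F] U) := Module.finite_of_finite F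
  refine ⟨finrank F S, ?_⟩
  letI : AddCommGroup (W₀ →ₗ[F] U) := LinearMap.addCommGroup
  letI : AddCommGroup S := Submodule.addCommGroup (R := F) (M := W₀ →ₗ[F] U) S
  rw [← Nat.card_eq_fintype_card]
  refine Eq.trans ?_ (Module.natCard_eq_pow_finrank (K := F) (V := S))
  symm
  let g : (W₀ →ₗ[F] U) → (W₀ →ₗ[F] (Fin d ⊕ Fin d → F)) := fun φ => W₀.subtype - U.subtype.comp φ
  have hg : ∀ φ (w : W₀), g φ w = (w : Fin d ⊕ Fin d → F) - φ w := fun _ _ => rfl
  have hcomb : ∀ φ (w w' : W₀), B (g φ w) (g φ w') =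
      -(B (w : Fin d ⊕ Fin d → F) (φ w') + B (φ w : Fin d ⊕ Fin d → F) (w' : Fin d ⊕ Fin d → F)) := by
    intro φ w w'
    have e1 : B (w : Fin d ⊕ Fin d → F) (w' : Fin d ⊕ Fin d → F) = 0 := by
      rw [stdB_apply]; exact hW₀ _ w.2 _ w'.2
    have e2 : B (φ w : Fin d ⊕ Fin d → F) (φ w' : Fin d ⊕ Fin d → F) = 0 := by
      rw [stdB_apply]; exact hU _ (φ w).2 _ (φ w').2
    simp only [hg, map_sub, LinearMap.sub_apply, e1, e2]
    ring
  have hrange : ∀ φ, IsCompl U (LinearMap.range (g φ)) := by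
    intro φ
    refine ⟨Submodule.disjoint_def.2 ?_, codisjoint_iff.2 (eq_top_iff.2 fun v _ => ?_)⟩
    · rintro v hv ⟨w, rfl⟩
      rw [hg] at hv ⊢
      have hw : (w : Fin d ⊕ Fin d → F) ∈ U := by
        have := U.add_mem hv (φ w).2
        rwa [sub_add_cancel] at this
      have h0 : (w : Fin d ⊕ Fin d → F) = 0 := Submodule.disjoint_def.1 hc.disjoint _ hw w.2
      rw [show w = 0 from Subtype.ext h0, map_zero]
      simp
    · obtain ⟨u, hu, w, hw, rfl⟩ := Submodule.mem_sup.1 (hc.sup_eq_top ▸ Submodule.mem_top (x := v))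
      refine Submodule.mem_sup.2 ⟨u + φ ⟨w, hw⟩, U.add_mem hu (φ _).2, g φ ⟨w, hw⟩, ⟨_, rfl⟩, ?_⟩
      rw [hg]
      abel
  refine Nat.card_congr (Equiv.ofBijective (fun φ : S => (⟨LinearMap.range (g φ.1), hrange φ.1, ?_⟩ :
    {W : Submodule F (Fin d ⊕ Fin d → F) // IsCompl U W ∧ TI W})) ⟨?_, ?_⟩)
  · rintro _ ⟨w, rfl⟩ _ ⟨w', rfl⟩
    rw [← stdB_apply]
    show B (g φ.1 w) (g φ.1 w') = 0
    rw [hcomb, φ.2 w w', neg_zero]
  · intro φ ψ h
    refine Subtype.ext (LinearMap.ext fun w => Subtype.ext ?_)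
    have hmem : g φ.1 w ∈ LinearMap.range (g ψ.1) := by
      exact SetLike.ext_iff.1 (show LinearMap.range (g φ.1) = LinearMap.range (g ψ.1) from Subtype.ext_iff.1 h) _ |>.1 ⟨w, rfl⟩
    obtain ⟨w', hw'⟩ := hmem
    rw [hg, hg] at hw'
    have hd : (w' : Fin d ⊕ Fin d → F) - w = ψ.1 w' - φ.1 w :=
      sub_eq_sub_iff_sub_eq_sub.1 hw'
    have h0 : (w' : Fin d ⊕ Fin d → F) - w = 0 := Submodule.disjoint_def.1 hc.disjoint _
      (hd ▸ U.sub_mem (ψ.1 w').2 (φ.1 w).2) (W₀.sub_mem w'.2 w.2)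
    obtain rfl : w' = w := Subtype.ext (sub_eq_zero.1 h0)
    exact (sub_right_inj.1 hw').symm
  · rintro ⟨W, hW, hWti⟩
    let P := Submodule.linearProjOfIsCompl U W hW
    let φ : W₀ →ₗ[F] U := P.comp W₀.subtype
    have hgW : ∀ w, g φ w ∈ W := fun w => by
      rw [hg]
      have := Submodule.linearProjOfIsCompl_ker hW
      refine this.le ?_
      rw [LinearMap.mem_ker, map_sub, Submodule.linearProjOfIsCompl_apply_left]
      exact sub_self _
    have hφ : φ ∈ S := fun w w' => by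
      have h : B (g φ w) (g φ w') = 0 := by
        rw [stdB_apply]; exact hWti _ (hgW w) _ (hgW w')
      rw [hcomb, neg_eq_zero] at h
      exact h
    refine ⟨⟨φ, hφ⟩, Subtype.ext (le_antisymm ?_ fun z hz => ?_)⟩
    · rintro _ ⟨w, rfl⟩; exact hgW w
    obtain ⟨u, hu, w, hw, rfl⟩ := Submodule.mem_sup.1 (hc.sup_eq_top ▸ Submodule.mem_top (x := z))
    refine ⟨⟨w, hw⟩, ?_⟩
    have h1 : u + w - g φ ⟨w, hw⟩ ∈ U := by
      rw [hg, show u + w - (w - (φ ⟨w, hw⟩ : Fin d ⊕ Fin d → F)) = u + φ ⟨w, hw⟩ by abel]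
      exact U.add_mem hu (φ _).2
    exact (sub_eq_zero.1 (Submodule.disjoint_def.1 hW.disjoint _ h1 (W.sub_mem hz (hgW _)))).symm

theorem card_lagrange_pairs :
    ∃ s, Nat.card {P : Submodule F (Fin d ⊕ Fin d → F) × Submodule F (Fin d ⊕ Fin d → F) //
      IsCompl P.1 P.2 ∧ TI P.1 ∧ TI P.2} =
      (∏ i ∈ Finset.range d, (Fintype.card F ^ (d - i) + 1)) * Fintype.card F ^ s := by
  classical
  let V := Fin d ⊕ Fin d → F
  let inl : (Fin d → F) →ₗ[F] V := (LinearEquiv.sumArrowLequivProdArrow (Fin d) (Fin d) F F).symm.toLinearMap ∘ₗ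
    LinearMap.inl F (Fin d → F) (Fin d → F)
  let inr : (Fin d → F) →ₗ[F] V := (LinearEquiv.sumArrowLequivProdArrow (Fin d) (Fin d) F F).symm.toLinearMap ∘ₗ
    LinearMap.inr F (Fin d → F) (Fin d → F)
  set U₀ := LinearMap.range inl with hU₀
  set W₀ := LinearMap.range inr with hW₀
  have hpair : ∀ a b : Fin d → F,
      (LinearEquiv.sumArrowLequivProdArrow (Fin d) (Fin d) F F).symm (a, b) = Sum.elim a b := fun a b => by
    funext i; cases i <;> rfl
  have hU : TI U₀ := by
    rintro _ ⟨a, rfl⟩ _ ⟨b, rfl⟩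
    simp only [inl, LinearMap.comp_apply, LinearEquiv.coe_coe, LinearMap.inl_apply, hpair]
    simp [Cfsg.sympForm, Matrix.J, Matrix.fromBlocks_mulVec, dotProduct, Fintype.sum_sum_type]
  have hW : TI W₀ := by
    rintro _ ⟨a, rfl⟩ _ ⟨b, rfl⟩
    simp only [inr, LinearMap.comp_apply, LinearEquiv.coe_coe, LinearMap.inr_apply, hpair]
    simp [Cfsg.sympForm, Matrix.J, Matrix.fromBlocks_mulVec, dotProduct, Fintype.sum_sum_type]
  have hc : IsCompl U₀ W₀ := by
    rw [hU₀, hW₀, LinearMap.range_comp, LinearMap.range_comp]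
    exact (LinearMap.isCompl_range_inl_inr (R := F)).map (Submodule.orderIsoMapComap _)
  obtain ⟨s, hs⟩ := card_compl_ti hU hW hc
  refine ⟨s, ?_⟩
  have hdim : ∀ {A B : Submodule F V}, IsCompl A B → TI A → TI B → finrank F A = d := by
    intro A B hAB hA hB
    have hle : ∀ {C : Submodule F V}, TI C → finrank F C ≤ d := by
      intro C hC
      have hle' : C ≤ LinearMap.BilinForm.orthogonal (stdB d F) C := fun v hv u hu => by
        show stdB d F u v = 0
        rw [stdB_apply]; exact hC u hu v hv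
      have h := Submodule.finrank_mono hle'
      rw [LinearMap.BilinForm.finrank_orthogonal (stdB_nondegenerate d), Module.finrank_pi,
        Fintype.card_sum, Fintype.card_fin] at h
      omega
    have h := Submodule.finrank_add_eq_of_isCompl hAB
    rw [Module.finrank_pi, Fintype.card_sum, Fintype.card_fin] at h
    have := hle hA
    have := hle hB
    omega
  have hdU : finrank F U₀ = d := hdim hc hU hW
  let bU := Module.finBasisOfFinrankEq F U₀ hdU
  let u₀ : TIFrame (Cfsg.sympForm d F) d := ⟨fun i => (bU i : V),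
    bU.linearIndependent.map' U₀.subtype (Submodule.ker_subtype _), fun i j => hU _ (bU i).2 _ (bU j).2⟩
  have hconst : ∀ U : {U : Submodule F V // finrank F U = d ∧ TI U},
      Nat.card {W : Submodule F V // IsCompl U.1 W ∧ TI W} = Fintype.card F ^ s := by
    rintro ⟨U, hdU', hU'⟩
    let b := Module.finBasisOfFinrankEq F U hdU'
    let u : TIFrame (Cfsg.sympForm d F) d := ⟨fun i => (b i : V),
      b.linearIndependent.map' U.subtype (Submodule.ker_subtype _), fun i j => hU' _ (b i).2 _ (b j).2⟩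
    obtain ⟨g, hg⟩ := exists_sp_frame u₀ u
    have hginv : ∀ h : Matrix.symplecticGroup (Fin d) F, ∀ v,
        ((h⁻¹ : Matrix.symplecticGroup (Fin d) F) : Matrix (Fin d ⊕ Fin d) (Fin d ⊕ Fin d) F) *ᵥ
          ((h : Matrix (Fin d ⊕ Fin d) (Fin d ⊕ Fin d) F) *ᵥ v) = v := fun h v => by
      rw [Matrix.mulVec_mulVec, ← Submonoid.coe_mul, inv_mul_cancel]; simp
    have hginv' : ∀ v, (g : Matrix (Fin d ⊕ Fin d) (Fin d ⊕ Fin d) F) *ᵥ
          (((g⁻¹ : Matrix.symplecticGroup (Fin d) F) : Matrix (Fin d ⊕ Fin d) (Fin d ⊕ Fin d) F) *ᵥ v) = v := fun v => by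
      rw [Matrix.mulVec_mulVec, ← Submonoid.coe_mul, mul_inv_cancel]; simp
    let e : V ≃ₗ[F] V :=
      { Matrix.toLin' (g : Matrix (Fin d ⊕ Fin d) (Fin d ⊕ Fin d) F) with
        invFun := fun v => ((g⁻¹ : Matrix.symplecticGroup (Fin d) F) : Matrix (Fin d ⊕ Fin d) (Fin d ⊕ Fin d) F) *ᵥ v
        left_inv := fun v => hginv g v
        right_inv := fun v => hginv' v }
    have heU : U₀.map e.toLinearMap = U := by
      have e1 : U₀ = Submodule.span F (Set.range u₀.1) := by
        show U₀ = Submodule.span F (Set.range (U₀.subtype ∘ bU))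
        rw [Set.range_comp, Submodule.span_image, bU.span_eq, Submodule.map_top, Submodule.range_subtype]
      have e2 : U = Submodule.span F (Set.range u.1) := by
        show U = Submodule.span F (Set.range (U.subtype ∘ b))
        rw [Set.range_comp, Submodule.span_image, b.span_eq, Submodule.map_top, Submodule.range_subtype]
      rw [e1, e2, Submodule.map_span, ← Set.range_comp]
      congr 2
      funext i
      exact hg i
    rw [← hs]
    refine (Nat.card_congr (Equiv.subtypeEquiv (Submodule.orderIsoMapComap e).toEquiv fun W => ?_)).symm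
    show IsCompl U₀ W ∧ TI W ↔ IsCompl U (W.map e.toLinearMap) ∧ TI (W.map e.toLinearMap)
    rw [← heU]
    have hiso : ∀ x y, Cfsg.sympForm d F (e x) (e y) = Cfsg.sympForm d F x y := fun x y => by
      rw [← stdB_apply, ← stdB_apply]
      exact Cfsg.Agent.Lib.Classical.sp_iso d g x y
    constructor
    · rintro ⟨hc', hti⟩
      refine ⟨hc'.map (Submodule.orderIsoMapComap e), ?_⟩
      rintro _ ⟨x, hx, rfl⟩ _ ⟨y, hy, rfl⟩
      show Cfsg.sympForm d F (e x) (e y) = 0
      rw [hiso]; exact hti x hx y hy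
    · rintro ⟨hc', hti⟩
      refine ⟨?_, fun x hx y hy => ?_⟩
      · have := hc'.map (Submodule.orderIsoMapComap e).symm
        simpa [Submodule.comap_map_eq_of_injective e.injective] using this
      · rw [← hiso]; exact hti _ ⟨x, hx, rfl⟩ _ ⟨y, hy, rfl⟩
  haveI : Finite V := Pi.finite
  haveI := Fintype.ofFinite {U : Submodule F V // finrank F U = d ∧ TI U}
  rw [Nat.card_congr (β := Σ U : {U : Submodule F V // finrank F U = d ∧ TI U},
      {W : Submodule F V // IsCompl U.1 W ∧ TI W})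
    { toFun := fun P => ⟨⟨P.1.1, hdim P.2.1 P.2.2.1 P.2.2.2, P.2.2.1⟩, P.1.2, P.2.1, P.2.2.2⟩
      invFun := fun x => ⟨(x.1.1, x.2.1), x.2.2.1, x.1.2.2, x.2.2.2⟩
      left_inv := fun _ => rfl
      right_inv := fun _ => rfl }, Nat.card_sigma, Finset.sum_congr rfl fun U _ => hconst U,
    Finset.sum_const, Finset.card_univ, smul_eq_mul, ← Nat.card_eq_fintype_card, card_ti]

end Cfsg.Agent.Lib.Elusive
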