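import Cfsg.Agent.Lib.Elusive.Semisimple

/-!
Elements of prime order `r ≠ p` in special linear groups: determinants and explicit examples.
-/

set_option autoImplicit false

namespace Cfsg.Agent.Lib.Elusive

open Module Polynomial

universe u

variable {F : Type*} [Field F]

theorem pow_eq_of_conj {V V' : Type*} [AddCommGroup V] [Module F V] [AddCommGroup V'] [Module F V']
    (e : V ≃ₗ[F] V') (x : V →ₗ[F] V) (r : ℕ) (v : V') :
    ((e.conj x) ^ r) v = e ((x ^ r) (e.symm v)) := by
  induction r with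
  | zero => simp
  | succ r ih =>
    rw [pow_succ', pow_succ', Module.End.mul_apply, Module.End.mul_apply, ih]
    simp [LinearEquiv.conj_apply]

theorem prod_conj {V : Type*} [AddCommGroup V] [Module F V] {x : V →ₗ[F] V} {U W : Submodule F V}
    (h : IsCompl U W) (hU : Inv x U) (hW : Inv x W) :
    x = (Submodule.prodEquivOfIsCompl U W h).conj ((x.restrict hU).prodMap (x.restrict hW)) := by
  refine LinearMap.ext fun v => ?_
  obtain ⟨z, rfl⟩ := (Submodule.prodEquivOfIsCompl U W h).surjective v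
  simp [LinearEquiv.conj_apply, map_add, LinearMap.restrict_coe_apply]
  rfl

section Det

variable [Finite F] {r : ℕ} [Fact r.Prime] {p : ℕ} [Fact p.Prime] [CharP F p]

/-- The determinant of a map whose `r`-th power is a scalar that is no `r`-th power. -/
theorem det_nonpow (hrp : r ≠ p) {c : F} (hc : ∀ y : F, y ^ r ≠ c) : ∀ (d : ℕ) {V : Type u}
    [AddCommGroup V] [Module F V] [FiniteDimensional F V] (x : V →ₗ[F] V), finrank F V = d →
    (∀ v, (x ^ r) v = c • v) → ∃ t, d = r * t ∧ LinearMap.det x = ((-1) ^ (r + 1) * c) ^ t := by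
  intro d
  induction d using Nat.strong_induction_on with
  | _ d ih =>
    intro V _ _ _ x hd hx
    rcases Nat.eq_zero_or_pos d with rfl | hpos
    · exact ⟨0, rfl, by rw [LinearMap.det_eq_one_of_finrank_eq_zero hd, pow_zero]⟩
    have hr : r.Prime := Fact.out
    have hS := step_nonpow hrp hc hx
    have hne : (⊤ : Submodule F V) ≠ ⊥ := fun h => by
      rw [← finrank_top F V, h, finrank_bot] at hd; omega
    obtain ⟨U, hU, -, hUd⟩ := hS.small ⊤ (fun _ _ => trivial) (inf_bot_eq _) hne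
    obtain ⟨U', hU', hUU'⟩ := hS.compl U hU
    have hsum : finrank F U + finrank F U' = d := by
      rw [Submodule.finrank_add_eq_of_isCompl hUU', hd]
    have hres : ∀ (T : Submodule F V) (hT : Inv x T) (v : T), ((x.restrict hT) ^ r) v = c • v := by
      intro T hT v
      refine Subtype.ext ?_
      rw [Module.End.pow_restrict r hT (fun z hz => (Inv.pow hT r) z hz)]
      simp [hx]
    obtain ⟨t, ht, hdet⟩ := ih (finrank F U') (by have := hr.pos; omega) (x.restrict hU') rfl (hres U' hU')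
    refine ⟨t + 1, by rw [Nat.mul_succ, ← ht, ← hsum, hUd, add_comm], ?_⟩
    conv_lhs => rw [prod_conj hUU' hU hU']
    rw [LinearEquiv.conj_apply, LinearMap.comp_assoc, LinearMap.det_conj, LinearMap.det_prodMap, hdet, pow_succ' _ t, mul_left_inj' ?_]
    · haveI : Nontrivial U := Module.nontrivial_of_finrank_pos (R := F) (by rw [hUd]; exact hr.pos)
      have hirr : Irreducible (X ^ r - C c) := X_pow_sub_C_irreducible_of_prime hr hc
      have hmon : (X ^ r - C c).Monic := monic_X_pow_sub_C c hr.ne_zero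
      have haev : Polynomial.aeval (x.restrict hU) (X ^ r - C c) = 0 := by
        refine LinearMap.ext fun v => ?_
        simp [hres U hU v]
      have hmin := minpoly.eq_of_irreducible_of_monic hirr haev hmon
      have hchar : (x.restrict hU).charpoly = X ^ r - C c := by
        refine Polynomial.eq_of_monic_of_dvd_of_natDegree_le hmon (LinearMap.charpoly_monic _) ?_ ?_
        · rw [hmin]; exact LinearMap.minpoly_dvd_charpoly _
        · rw [LinearMap.charpoly_natDegree, natDegree_X_pow_sub_C, hUd]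
      rw [LinearMap.det_eq_sign_charpoly_coeff, hchar, hUd, coeff_sub, coeff_X_pow, coeff_C_zero,
        if_neg hr.ne_zero.symm, zero_sub, pow_succ]
      ring
    · exact pow_ne_zero _ (mul_ne_zero (pow_ne_zero _ (neg_ne_zero.2 one_ne_zero))
        fun h => hc 0 (by rw [h, zero_pow hr.ne_zero]))

end Det

section Scalars

variable [Fintype F] {r : ℕ} [Fact r.Prime]

theorem one_le_card_sub : 1 ≤ Fintype.card F - 1 := by
  have := Fintype.one_lt_card (α := F); omega

theorem dvd_card_sub_one_iff :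
    r ∣ Fintype.card F - 1 ↔ orderOf (Fintype.card F : ZMod r) = 1 := by
  rw [orderOf_eq_one_iff, ← ZMod.natCast_eq_zero_iff, Nat.cast_sub Fintype.card_pos, sub_eq_zero,
    Nat.cast_one]

theorem exists_gen (F : Type*) [Field F] [Fintype F] :
    ∃ g : Fˣ, orderOf g = Fintype.card F - 1 ∧ ∀ y : Fˣ, ∃ k : ℕ, g ^ k = y := by
  classical
  obtain ⟨g, hg⟩ := IsCyclic.exists_monoid_generator (α := Fˣ)
  exact ⟨g, by rw [orderOf_eq_card_of_forall_mem_powers hg, Nat.card_units, Nat.card_eq_fintype_card],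
    fun y => hg y⟩

/-- All scalars are `r`-th powers when `r` does not divide `q - 1`. -/
theorem exists_root (h : ¬ r ∣ Fintype.card F - 1) {c : F} (hc : c ≠ 0) :
    ∃ y : F, y ≠ 0 ∧ y ^ r = c := by
  classical
  have hco : (Nat.card Fˣ).Coprime r := by
    rw [Nat.card_units, Nat.card_eq_fintype_card]
    exact ((Nat.Prime.coprime_iff_not_dvd Fact.out).2 h).symm
  obtain ⟨y, hy⟩ := (powCoprime hco).surjective (Units.mk0 c hc)
  exact ⟨y, y.ne_zero, by simpa [powCoprime] using congrArg Units.val hy⟩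

/-- A scalar that is no `r`-th power, with the determinant condition. -/
theorem exists_nonpow (h : r ∣ Fintype.card F - 1) {n : ℕ} (hn : n ≠ 0)
    (hcond : ¬(padicValNat r n ≤ padicValNat r (Fintype.card F - 1) ∧
      (r = 2 → Even n → Fintype.card F % 4 = 1))) :
    ∃ (c : F) (t : ℕ), (∀ y : F, y ^ r ≠ c) ∧ n = r * t ∧ ((-1) ^ (r + 1) * c) ^ t = 1 := by
  classical
  have hr : r.Prime := Fact.out
  set e := padicValNat r (Fintype.card F - 1) with he
  by_cases h2 : r = 2 ∧ Even n ∧ Fintype.card F % 4 ≠ 1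
  · obtain ⟨rfl, hev, hq⟩ := h2
    obtain ⟨t, rfl⟩ := hev.two_dvd
    refine ⟨-1, t, fun y hy => ?_, rfl, by norm_num⟩
    have hsq : IsSquare (-1 : F) := ⟨y, by rw [← hy, sq]⟩
    have := FiniteField.isSquare_neg_one_iff.1 hsq
    have : 2 ∣ Fintype.card F - 1 := h
    have := Fintype.card_pos (α := F)
    omega
  have hv : e < padicValNat r n := by
    by_contra hle
    exact hcond ⟨not_lt.1 hle, fun h2' hev => not_not.1 fun hq => h2 ⟨h2', hev, hq⟩⟩
  have hrn : r ^ (e + 1) ∣ n := (pow_dvd_pow r hv).trans pow_padicValNat_dvd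
  obtain ⟨t, rfl⟩ := (dvd_pow_self r (Nat.succ_ne_zero e)).trans hrn
  have het : r ^ e ∣ t := by
    rw [pow_succ'] at hrn
    exact Nat.dvd_of_mul_dvd_mul_left hr.pos hrn
  obtain ⟨M, hM⟩ : r ^ e ∣ Fintype.card F - 1 := pow_padicValNat_dvd
  have hMr : ¬ r ∣ M := fun ⟨k, hk⟩ => by
    refine pow_succ_padicValNat_not_dvd (p := r) (n := Fintype.card F - 1)
      (by have := one_le_card_sub (F := F); omega) ⟨k, ?_⟩
    rw [← he, hM, hk, pow_succ, mul_assoc]
  obtain ⟨g, hg, hgen⟩ := exists_gen F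
  have hgM : ((g : F) ^ M) ^ t = 1 := by
    obtain ⟨k, hk⟩ := het
    rw [← pow_mul, hk, ← mul_assoc, mul_comm M, ← hM, pow_mul, ← hg, ← Units.val_pow_eq_pow_val,
      pow_orderOf_eq_one, Units.val_one, one_pow]
  have hnp : ∀ y : F, y ^ r ≠ (g : F) ^ M := fun y hy => by
    have hy0 : y ≠ 0 := fun h0 => by
      rw [h0, zero_pow hr.ne_zero] at hy
      exact pow_ne_zero M g.ne_zero hy.symm
    obtain ⟨k, hk⟩ := hgen (Units.mk0 y hy0)
    have h' : g ^ (k * r) = g ^ M := Units.ext (by
      rw [pow_mul, hk, Units.val_pow_eq_pow_val, Units.val_mk0, hy, Units.val_pow_eq_pow_val])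
    rw [pow_eq_pow_iff_modEq, hg] at h'
    exact hMr ((Nat.modEq_zero_iff_dvd).1 ((h'.of_dvd h).symm.trans
      (Nat.modEq_zero_iff_dvd.2 (dvd_mul_left r k))))
  by_cases hr2 : r = 2
  · subst hr2
    refine ⟨-(g : F) ^ M, t, fun y hy => ?_, rfl, by
      rw [show ((-1 : F) ^ (2 + 1)) * -(g : F) ^ M = (g : F) ^ M by ring]; exact hgM⟩
    have hq : Fintype.card F % 4 = 1 := not_not.1 fun hq => h2 ⟨rfl, even_two_mul t, hq⟩
    obtain ⟨s, hs⟩ := FiniteField.isSquare_neg_one_iff.2 (show Fintype.card F % 4 ≠ 3 by omega)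
    exact hnp (s * y) (by rw [mul_pow, sq s, ← hs, hy]; ring)
  · refine ⟨(g : F) ^ M, t, hnp, rfl, ?_⟩
    rw [(hr.odd_of_ne_two hr2).add_one.neg_one_pow, one_mul, hgM]

/-- The determinant condition rules out scalars that are no powers. -/
theorem nonpow_false (h : r ∣ Fintype.card F - 1) {n t : ℕ} (hn : n ≠ 0) (hnt : n = r * t) {c : F}
    (hc : ∀ y : F, y ^ r ≠ c) (hdet : ((-1) ^ (r + 1) * c) ^ t = 1)
    (hcond : padicValNat r n ≤ padicValNat r (Fintype.card F - 1) ∧
      (r = 2 → Even n → Fintype.card F % 4 = 1)) : False := by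
  classical
  have hr : r.Prime := Fact.out
  obtain ⟨d, hd, hdt⟩ : ∃ d : F, (∀ y : F, y ^ r ≠ d) ∧ d ^ t = 1 := by
    refine ⟨_, fun y hy => ?_, hdet⟩
    by_cases hr2 : r = 2
    · subst hr2
      have hq := hcond.2 rfl (hnt ▸ even_two_mul t)
      obtain ⟨s, hs⟩ := FiniteField.isSquare_neg_one_iff.2 (show Fintype.card F % 4 ≠ 3 by omega)
      refine hc (s * y) ?_
      rw [mul_pow, sq s, ← hs, hy]; ring
    · rw [(hr.odd_of_ne_two hr2).add_one.neg_one_pow, one_mul] at hy
      exact hc y hy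
  obtain ⟨g, hg, hgen⟩ := exists_gen F
  have hd0 : d ≠ 0 := fun h0 => hd 0 (by rw [h0, zero_pow hr.ne_zero])
  obtain ⟨k, hk⟩ := hgen (Units.mk0 d hd0)
  have hN : Fintype.card F - 1 ∣ k * t := by
    rw [← hg]
    refine orderOf_dvd_of_pow_eq_one (Units.ext ?_)
    rw [pow_mul, hk, Units.val_pow_eq_pow_val, Units.val_mk0, hdt, Units.val_one]
  have hrk : ¬ r ∣ k := fun ⟨l, hl⟩ => hd ((g : F) ^ l) (by
    rw [← pow_mul, mul_comm, ← hl, ← Units.val_pow_eq_pow_val, hk, Units.val_mk0])
  set e := padicValNat r (Fintype.card F - 1)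
  have het : r ^ e ∣ t := ((hr.coprime_iff_not_dvd.2 hrk).pow_left e).dvd_of_dvd_mul_left
    (pow_padicValNat_dvd.trans hN)
  have : e + 1 ≤ padicValNat r n := (padicValNat_dvd_iff_le hn).1 (by
    rw [hnt, pow_succ']; exact Nat.mul_dvd_mul_left r het)
  omega

end Scalars

section Models

variable [Fintype F] [DecidableEq F] {r : ℕ} [Fact r.Prime] {n : ℕ}

/-- Conjugate a map of determinant one into `SL_n`. -/
theorem exists_sl {V : Type*} [AddCommGroup V] [Module F V] [FiniteDimensional F V]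
    (hV : finrank F V = n) {x : V →ₗ[F] V} (hx : LinearMap.det x = 1) :
    ∃ (e : V ≃ₗ[F] (Fin n → F)) (A : Matrix.SpecialLinearGroup (Fin n) F),
      Matrix.toLin' (A : Matrix (Fin n) (Fin n) F) = e.conj x := by
  let e : V ≃ₗ[F] (Fin n → F) := LinearEquiv.ofFinrankEq _ _ (by rw [hV, finrank_fin_fun])
  refine ⟨e, ⟨LinearMap.toMatrix' (e.conj x), ?_⟩, Matrix.toLin'_toMatrix' _⟩
  rw [LinearMap.det_toMatrix', LinearEquiv.conj_apply, LinearMap.comp_assoc, LinearMap.det_conj, hx]

/-- An element whose `r`-th power is a scalar that is no power. -/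
theorem exists_nonpow_elt {p : ℕ} [Fact p.Prime] [CharP F p] (hrp : r ≠ p) {c : F} {t : ℕ}
    (hc : ∀ y : F, y ^ r ≠ c) (hnt : n = r * t) (hdet : ((-1) ^ (r + 1) * c) ^ t = 1) :
    ∃ A : Matrix.SpecialLinearGroup (Fin n) F,
      ∀ v, ((Matrix.toLin' (A : Matrix (Fin n) (Fin n) F)) ^ r) v = c • v := by
  have hr : r.Prime := Fact.out
  have hg : (X ^ r - C c).Monic := monic_X_pow_sub_C c hr.ne_zero
  let pb := AdjoinRoot.powerBasis' hg
  haveI : FiniteDimensional F (AdjoinRoot (X ^ r - C c)) := pb.finite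
  let x : (Fin t → AdjoinRoot (X ^ r - C c)) →ₗ[F] (Fin t → AdjoinRoot (X ^ r - C c)) :=
    Algebra.lsmul F F _ (AdjoinRoot.root (X ^ r - C c))
  have hx : ∀ v, (x ^ r) v = c • v := fun v => by
    have h0 : AdjoinRoot.root (X ^ r - C c) ^ r =
        algebraMap F (AdjoinRoot (X ^ r - C c)) c := by
      have h := AdjoinRoot.eval₂_root (X ^ r - C c)
      rw [eval₂_sub, eval₂_X_pow, eval₂_C, sub_eq_zero] at h
      exact h
    simp only [x, ← map_pow, h0, Algebra.lsmul_coe]
    exact algebraMap_smul _ _ _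
  have hfin : finrank F (Fin t → AdjoinRoot (X ^ r - C c)) = n := by
    rw [Module.finrank_pi_fintype F, Finset.sum_const, pb.finrank, AdjoinRoot.powerBasis'_dim,
      natDegree_X_pow_sub_C, Finset.card_univ, Fintype.card_fin, smul_eq_mul, hnt, mul_comm]
  obtain ⟨t', ht', hdet'⟩ := det_nonpow hrp hc _ x hfin hx
  have htt : t = t' := Nat.eq_of_mul_eq_mul_left hr.pos (hnt.symm.trans ht')
  obtain ⟨e, A, hA⟩ := exists_sl hfin (x := x) (hdet'.trans (htt ▸ hdet))
  exact ⟨A, fun v => by rw [hA, pow_eq_of_conj, hx, map_smul, LinearEquiv.apply_symm_apply]⟩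

/-- An element of order `r` with a prescribed fixed space. -/
theorem exists_root_elt {p : ℕ} [Fact p.Prime] [CharP F p] (hrp : r ≠ p)
    (hi : 2 ≤ orderOf (Fintype.card F : ZMod r)) {t k : ℕ}
    (hn : n = t * orderOf (Fintype.card F : ZMod r) + k) :
    ∃ A : Matrix.SpecialLinearGroup (Fin n) F,
      (∀ v, ((Matrix.toLin' (A : Matrix (Fin n) (Fin n) F)) ^ r) v = v) ∧
        finrank F (LinearMap.ker (Matrix.toLin' (A : Matrix (Fin n) (Fin n) F) -
          (1 : F) • LinearMap.id)) = k := by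
  classical
  have hr : r.Prime := Fact.out
  obtain ⟨g, hg⟩ := UniqueFactorizationMonoid.exists_mem_normalizedFactors (cyclotomic_ne_zero r F)
    fun hu => (degree_cyclotomic_pos r F hr.pos).ne' (degree_eq_zero_of_isUnit hu)
  obtain ⟨hgm, hirr, hdeg⟩ := factor_cyclotomic hrp hg
  rw [Nat.card_eq_fintype_card] at hdeg
  haveI : Fact (Irreducible g) := ⟨hirr⟩
  let pb := AdjoinRoot.powerBasis' hgm
  haveI : FiniteDimensional F (AdjoinRoot g) := pb.finite
  set ζ := AdjoinRoot.root g with hζ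
  have hζr : ζ ^ r = 1 := by
    have hdvd : g ∣ X ^ r - 1 :=
      (UniqueFactorizationMonoid.dvd_of_mem_normalizedFactors hg).trans (cyclotomic.dvd_X_pow_sub_one r F)
    have h := AdjoinRoot.mk_eq_zero.2 hdvd
    simpa [sub_eq_zero] using h
  have hζ1 : ζ ≠ 1 := fun h => by
    have h' : g ∣ X - C (1 : F) := AdjoinRoot.mk_eq_zero.1 (by simp [← hζ, h])
    have := natDegree_le_of_dvd h' (X_sub_C_ne_zero 1)
    rw [natDegree_X_sub_C] at this
    omega
  let a : (Fin t → AdjoinRoot g) →ₗ[F] (Fin t → AdjoinRoot g) := Algebra.lsmul F F _ ζ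
  let x := a.prodMap (LinearMap.id : (Fin k → F) →ₗ[F] (Fin k → F))
  have hx : ∀ v, (x ^ r) v = v := fun v => by
    have hpow : ∀ (j : ℕ) (v : (Fin t → AdjoinRoot g) × (Fin k → F)),
        (x ^ j) v = (ζ ^ j • v.1, v.2) := by
      intro j
      induction j with
      | zero => simp
      | succ j ih => intro v; simp [pow_succ', Module.End.mul_apply, ih, x, a, mul_smul]
    simp [hpow, hζr]
  have hker : LinearMap.ker (x - (1 : F) • LinearMap.id) =
      LinearMap.range (LinearMap.inr F (Fin t → AdjoinRoot g) (Fin k → F)) := by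
    ext ⟨v, w⟩
    constructor
    · intro h
      rw [LinearMap.mem_ker, LinearMap.sub_apply, sub_eq_zero] at h
      have h1 : ζ • v = v := by simpa [x, a] using congrArg Prod.fst h
      refine ⟨w, Prod.ext ?_ rfl⟩
      funext j
      by_contra hv
      exact hζ1 (mul_right_cancel₀ (b := v j) (fun h0 => hv h0.symm)
        (by rw [one_mul]; exact congrFun h1 j))
    · rintro ⟨w', hw⟩
      rw [← hw]
      simp [x]
  have hfin : finrank F ((Fin t → AdjoinRoot g) × (Fin k → F)) = n := by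
    rw [Module.finrank_prod, Module.finrank_pi_fintype F, Finset.sum_const, pb.finrank,
      AdjoinRoot.powerBasis'_dim, Finset.card_univ, Fintype.card_fin, smul_eq_mul, hdeg,
      finrank_fin_fun, hn]
  have hdet : LinearMap.det x = 1 := by
    have hdr : LinearMap.det x ^ r = 1 := by
      rw [← map_pow, show x ^ r = LinearMap.id from LinearMap.ext hx, LinearMap.det_id]
    have hnd : ¬ r ∣ Fintype.card F - 1 := fun h => by
      rw [dvd_card_sub_one_iff.1 h] at hi; omega
    have hne : LinearMap.det x ≠ 0 := fun h => by rw [h, zero_pow hr.ne_zero] at hdr; exact zero_ne_one hdr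
    have h1 : LinearMap.det x ^ (Fintype.card F - 1) = 1 := FiniteField.pow_card_sub_one_eq_one _ hne
    simpa [(hr.coprime_iff_not_dvd.2 hnd).gcd_eq_one] using pow_gcd_eq_one.2 ⟨hdr, h1⟩
  obtain ⟨e, A, hA⟩ := exists_sl hfin hdet
  refine ⟨A, fun v => by rw [hA, pow_eq_of_conj, hx, LinearEquiv.apply_symm_apply], ?_⟩
  have : LinearMap.ker (Matrix.toLin' (A : Matrix (Fin n) (Fin n) F) - (1 : F) • LinearMap.id) =
      (LinearMap.ker (x - (1 : F) • LinearMap.id)).map (e : _ →ₗ[F] _) := by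
    ext v
    rw [Submodule.mem_map_equiv, hA, LinearMap.mem_ker, LinearMap.mem_ker]
    rw [← e.symm.map_eq_zero_iff]
    simp [LinearEquiv.conj_apply]
  rw [this, LinearEquiv.finrank_map_eq, hker,
    LinearMap.finrank_range_of_inj LinearMap.inr_injective, finrank_fin_fun]

end Models

end Cfsg.Agent.Lib.Elusive
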