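import Cfsg.Agent.Lib.Elusive.NotSimilitude
import Cfsg.Agent.Lib.Classical.OrthTorsionExist
import Cfsg.Agent.Lib.Forms.SymmType

/-!
Elements preserving, or not preserving, a non-degenerate symmetric form up to a scalar.
-/

set_option autoImplicit false

namespace Cfsg.Agent.Lib.Elusive.NotOrth

open Module Polynomial

variable {F : Type*} [Field F]

/-- A similitude scaling a large set of basis vectors by `s` has multiplier `s ^ 2`, and its
eigenvalues pair up. -/
theorem diag_pairs {ι : Type*} [Fintype ι] [DecidableEq ι] {B : LinearMap.BilinForm F (ι → F)}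
    (hA : B.IsRefl) (hB : B.SeparatingLeft) {d : ι → F} {c : F}
    (hd : ∀ i j, d i * d j * B (Pi.single i 1) (Pi.single j 1) = c * B (Pi.single i 1) (Pi.single j 1))
    {S : Finset ι} {s : F} (hS : ∀ j ∈ S, d j = s) (hcard : Fintype.card ι < 2 * S.card) :
    ∀ i, ∃ j, d i * d j = s * s := by
  classical
  have hc : c = s * s := by
    by_contra hne
    have hzero : ∀ i ∈ S, ∀ j ∈ S, B (Pi.single i 1) (Pi.single j 1) = 0 := fun i hi j hj => by
      have := hd i j
      rw [hS i hi, hS j hj, ← sub_eq_zero, ← sub_mul] at this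
      exact (mul_eq_zero.1 this).resolve_left (sub_ne_zero.2 (Ne.symm hne))
    let W : Submodule F (ι → F) := Submodule.span F (Set.range fun j : S => Pi.single (j : ι) (1 : F))
    have hW : finrank F W = S.card := by
      rw [finrank_span_eq_card, Fintype.card_coe]
      simpa [Function.comp_def] using (Pi.basisFun F ι).linearIndependent.comp _ (Subtype.val_injective (p := (· ∈ S)))
    have hle : W ≤ B.orthogonal W := by
      rw [Submodule.span_le]
      rintro _ ⟨i, rfl⟩
      rw [SetLike.mem_coe, LinearMap.BilinForm.mem_orthogonal_iff]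
      intro w hw
      induction hw using Submodule.span_induction with
      | mem w hw =>
        obtain ⟨j, rfl⟩ := hw
        exact hzero _ j.2 _ i.2
      | zero => simp [LinearMap.BilinForm.IsOrtho]
      | add a b _ _ ha hb =>
        simp only [LinearMap.BilinForm.IsOrtho, map_add, LinearMap.add_apply] at ha hb ⊢
        rw [ha, hb, add_zero]
      | smul t a _ ha =>
        simp only [LinearMap.BilinForm.IsOrtho, map_smul, LinearMap.smul_apply] at ha ⊢
        rw [ha, smul_zero]
    have h1 := Submodule.finrank_mono hle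
    rw [LinearMap.BilinForm.finrank_orthogonal (B := B) ((LinearMap.IsRefl.nondegenerate_iff_separatingLeft hA).2 hB),
      finrank_pi, hW] at h1
    omega
  intro i
  by_contra hcon
  push Not at hcon
  have h0 := hB (Pi.single i 1) fun v => by
    rw [pi_eq_sum_univ' v]
    simp only [map_sum, map_smul]
    refine Finset.sum_eq_zero fun j _ => ?_
    have := hd i j
    rw [hc, ← sub_eq_zero, ← sub_mul] at this
    rw [(mul_eq_zero.1 this).resolve_left (sub_ne_zero.2 (hcon j)), smul_zero]
  simpa using congrFun h0 i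

/-- A transvection preserves no non-degenerate symmetric form, in odd characteristic. -/
theorem not_transvection {V : Type*} [AddCommGroup V] [Module F V] [FiniteDimensional F V]
    {B : LinearMap.BilinForm F V} (h2 : (2 : F) ≠ 0) (hsym : ∀ u v, B u v = B v u) (hB : B.SeparatingLeft)
    {N : Module.End F V} (hN : ∀ v, N (N v) = 0)
    (hinv : ∀ u v, B (u + N u) (v + N v) = B u v) (h1 : finrank F (LinearMap.range N) = 1) : False := by
  obtain ⟨⟨w, hw⟩, hw0, hsp⟩ := finrank_eq_one_iff'.1 h1
  obtain ⟨u₀, rfl⟩ := hw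
  have E : ∀ u v, B u (N v) + B (N u) v + B (N u) (N v) = 0 := fun u v => by
    have := hinv u v
    simp only [map_add, LinearMap.add_apply] at this
    linear_combination this
  have e1 := E u₀ (N u₀)
  simp only [hN, map_zero, zero_add, add_zero] at e1
  have e0 := E u₀ u₀
  rw [hsym u₀ (N u₀), e1] at e0
  have e3 : B (N u₀) u₀ = 0 := by
    have : (2 : F) * B (N u₀) u₀ = 0 := by linear_combination e0
    exact (mul_eq_zero.1 this).resolve_left h2
  refine hw0 (Subtype.ext (hB _ fun v => ?_))
  obtain ⟨c, hc⟩ := hsp ⟨N v, LinearMap.mem_range_self _ v⟩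
  have hc' : c • N u₀ = N v := congrArg Subtype.val hc
  have e := E u₀ v
  rw [← hc', map_smul, map_smul, smul_eq_mul, smul_eq_mul, hsym u₀ (N u₀), e3, e1] at e
  show B (N u₀) v = 0
  linear_combination e

/-- A basis of eigenvectors. -/
theorem eigen_basis {V : Type*} [AddCommGroup V] [Module F V] [FiniteDimensional F V] {n r : ℕ}
    (hn : finrank F V = n) [NeZero r] (hr : (r : F) ≠ 0) {ζ : F} (hζ : IsPrimitiveRoot ζ r)
    {X : Module.End F V} (hX : ∀ v, (X ^ r) v = v) :
    ∃ (b : Basis (Fin n) F V) (e : Fin n → ZMod r), ∀ i, X (b i) = ζ ^ (e i).val • b i := by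
  classical
  let S : Set V := {v | ∃ e : ZMod r, X v = ζ ^ e.val • v}
  have hS : Submodule.span F S = ⊤ := by
    rw [eq_top_iff]
    intro v _
    have hv : (r : F) • v = ∑ j ∈ Finset.range r, ∑ k ∈ Finset.range r, ((ζ⁻¹ ^ j) ^ k) • (X ^ k) v := by
      rw [Finset.sum_comm, Finset.sum_eq_single 0]
      · simp [Nat.cast_smul_eq_nsmul]
      · intro k hk hk0
        rw [← Finset.sum_smul]
        have hne : ζ⁻¹ ^ k ≠ 1 := by
          rw [inv_pow, ne_eq, inv_eq_one]
          exact hζ.pow_ne_one_of_pos_of_lt hk0 (Finset.mem_range.1 hk)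
        have h0 : ∑ j ∈ Finset.range r, (ζ⁻¹ ^ j) ^ k = 0 := by
          have h := geom_sum_mul (ζ⁻¹ ^ k) r
          rw [← pow_mul, mul_comm k r, pow_mul, inv_pow ζ r, hζ.pow_eq_one, inv_one, one_pow, sub_self] at h
          rw [Finset.sum_congr rfl fun j _ => by rw [← pow_mul, mul_comm, pow_mul]]
          exact (mul_eq_zero.1 h).resolve_right (sub_ne_zero.2 hne)
        rw [h0, zero_smul]
      · intro h
        exact absurd (Finset.mem_range.2 (NeZero.pos r)) h
    rw [← inv_smul_smul₀ hr v, hv]
    refine Submodule.smul_mem _ _ (Submodule.sum_mem _ fun j hj => Submodule.subset_span ⟨(j : ZMod r), ?_⟩)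
    rw [ZMod.val_natCast_of_lt (Finset.mem_range.1 hj), map_sum, Finset.smul_sum]
    let f : ℕ → V := fun k => ((ζ⁻¹ ^ j) ^ k) • (X ^ k) v
    have h1 : ∀ k, X (((ζ⁻¹ ^ j) ^ k) • (X ^ k) v) = ζ ^ j • f (k + 1) := fun k => by
      simp only [f]
      rw [map_smul, smul_smul, pow_succ' X, Module.End.mul_apply]
      congr 1
      rw [pow_succ', ← mul_assoc, inv_pow, mul_inv_cancel₀ (pow_ne_zero _ (hζ.ne_zero (NeZero.ne r))), one_mul]
    rw [Finset.sum_congr rfl fun k _ => h1 k]
    rw [← Finset.smul_sum, ← Finset.smul_sum]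
    congr 1
    have hf : f r = f 0 := by
      simp only [f, hX, pow_zero, Module.End.one_apply, one_smul]
      rw [inv_pow, inv_pow, ← pow_mul, mul_comm, pow_mul, hζ.pow_eq_one, one_pow, inv_one, one_smul]
    have h4 := Finset.sum_range_succ' f r
    rw [Finset.sum_range_succ, hf] at h4
    exact (add_right_cancel h4).symm
  obtain ⟨s, hs, hspan, hli⟩ := exists_linearIndependent F S
  let b₀ := Basis.mk hli (by rw [Subtype.range_coe, hspan, hS])
  haveI : Fintype s := FiniteDimensional.fintypeBasisIndex b₀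
  have hcard : Fintype.card s = n := by rw [← hn, finrank_eq_card_basis b₀]
  let b := b₀.reindex (Fintype.equivFinOfCardEq hcard)
  have hb : ∀ i, b i ∈ S := fun i => by
    rw [Basis.reindex_apply, Basis.mk_apply]
    exact hs (Subtype.prop _)
  choose e he using hb
  exact ⟨b, e, he⟩

/-- An element preserving a suitable form up to a scalar is conjugate into the similitudes of `B`. -/
theorem exists_similitude [Finite F] (h2 : (2 : F) ≠ 0) {n : ℕ} {B B' : LinearMap.BilinForm F (Fin n → F)}
    {b b' : Basis (Fin n) F (Fin n → F)} {d d' : Fin n → F}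
    (hb : ∀ i j, B (b i) (b j) = if i = j then d i else 0)
    (hb' : ∀ i j, B' (b' i) (b' j) = if i = j then d' i else 0)
    (hd : ∀ i, d i ≠ 0) (hd' : ∀ i, d' i ≠ 0) {s : F} (hs : s ≠ 0)
    (hsq : IsSquare ((∏ i, s * d i) * ∏ i, d' i)) {X : Module.End F (Fin n → F)} {c : F}
    (hX : ∀ u v, B' (X u) (X v) = c * B' u v) :
    ∃ T : (Fin n → F) ≃ₗ[F] (Fin n → F), ∀ u v,
      B (T.symm (X (T u))) (T.symm (X (T v))) = c * B u v := by
  classical
  obtain ⟨g, hg⟩ := Cfsg.Agent.Lib.Forms.exists_isometry h2 (s • B) B' b b' (fun i => s * d i) d'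
    (fun i j => by simp [hb]) hb' (fun i => mul_ne_zero hs (hd i)) hd' hsq
  have hinj : Function.Injective g := by
    rw [injective_iff_map_eq_zero]
    intro w hw
    refine b'.ext_elem fun i => ?_
    have h1 : B' w (b' i) = 0 := by rw [← hg, hw]; simp
    rw [← b'.sum_repr w] at h1
    simp only [map_sum, LinearMap.sum_apply, map_smul, LinearMap.smul_apply, hb', smul_eq_mul, mul_ite,
      mul_zero, Finset.sum_ite_eq', Finset.mem_univ, if_true] at h1
    simpa using (mul_eq_zero.1 h1).resolve_right (hd' i)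
  let G := LinearEquiv.ofInjectiveEndo g hinj
  refine ⟨G.symm, fun u v => ?_⟩
  obtain ⟨u, rfl⟩ := G.surjective u
  obtain ⟨v, rfl⟩ := G.surjective v
  simp only [LinearEquiv.symm_apply_apply, LinearEquiv.symm_symm]
  refine mul_left_cancel₀ hs ?_
  calc s * B (G (X u)) (G (X v)) = B' (X u) (X v) := hg _ _
    _ = c * B' u v := hX u v
    _ = c * (s * B (G u) (G v)) := congrArg (c * ·) (hg u v).symm
    _ = s * (c * B (G u) (G v)) := mul_left_comm _ _ _

end Cfsg.Agent.Lib.Elusive.NotOrth
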