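import Cfsg.Agent.Lib.Elusive.Models
import Cfsg.Agent.Lib.Elusive.Unipotent
import Mathlib.LinearAlgebra.BilinearForm.Orthogonal

/-!
Obstructions to being a similitude of a nondegenerate alternating form.
-/

set_option autoImplicit false

namespace Cfsg.Agent.Lib.Elusive.NotSimilitude

open Module Polynomial

variable {F : Type*} [Field F] {V : Type*} [AddCommGroup V] [Module F V] [FiniteDimensional F V]
  {B : LinearMap.BilinForm F V}

/-- A unipotent isometry with `N ^ 3 = 0` cannot have `N ^ 2` of rank one. -/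
theorem not_rank_one (hA : B.IsAlt) (hB : B.SeparatingLeft) {N : Module.End F V} (hN : N ^ 3 = 0)
    (hinv : ∀ u v, B (u + N u) (v + N v) = B u v) (h1 : finrank F (LinearMap.range (N ^ 2)) = 1) : False := by
  have h3 : ∀ v, N (N (N v)) = 0 := fun v => by
    have := LinearMap.congr_fun hN v
    simpa [pow_succ, Module.End.mul_apply] using this
  have E : ∀ u v, B u (N v) + B (N u) v + B (N u) (N v) = 0 := fun u v => by
    have := hinv u v
    simp only [map_add, LinearMap.add_apply] at this
    linear_combination this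
  have hsymm : ∀ u v, B u (N (N v)) = B (N (N u)) v := fun u v => by
    have e1 := E u (N v); have e2 := E (N u) v; have e3 := E (N u) (N v)
    have e4 := E u (N (N v)); have e5 := E (N (N u)) v
    simp only [h3, map_zero, LinearMap.zero_apply, add_zero, zero_add] at e4 e5
    linear_combination e1 - e2 - e4 + e5
  obtain ⟨⟨w, hw⟩, hw0, hsp⟩ := finrank_eq_one_iff'.1 h1
  obtain ⟨v₀, rfl⟩ := hw
  have hsq : ∀ v, (N ^ 2) v = N (N v) := fun v => by rw [pow_two, Module.End.mul_apply]
  have hv0 : B v₀ ((N ^ 2) v₀) = 0 := by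
    have h := hsymm v₀ v₀
    have hn := hA.neg_eq v₀ (N (N v₀))
    rw [← h] at hn
    rcases eq_or_ne (2 : F) 0 with h2 | h2
    · by_contra hne
      exact hne (by
        have := hinv v₀ v₀
        have e1 := E v₀ (N v₀)
        simp only [hA.self_eq_zero, add_zero, hsq] at e1 ⊢
        have e4 := E v₀ (N (N v₀))
        simp only [h3, map_zero, zero_add, add_zero] at e4
        linear_combination e1 - e4)
    · rw [hsq]
      have : (2 : F) * B v₀ (N (N v₀)) = 0 := by linear_combination -hn
      exact (mul_eq_zero.1 this).resolve_left h2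
  refine hw0 (Subtype.ext (hB _ fun u => ?_))
  obtain ⟨c, hc⟩ := hsp ⟨(N ^ 2) u, LinearMap.mem_range_self _ u⟩
  have hc' : c • (N ^ 2) v₀ = (N ^ 2) u := congrArg Subtype.val hc
  show B ((N ^ 2) v₀) u = 0
  rw [hsq, ← hsymm, ← hsq, ← hc', map_smul, hv0, smul_zero]

/-- A similitude scaling a large set of basis vectors by `s` has multiplier `s ^ 2`, and its
eigenvalues pair up. -/
theorem diag_pairs {ι : Type*} [Fintype ι] [DecidableEq ι] {B : LinearMap.BilinForm F (ι → F)}
    (hA : B.IsAlt) (hB : B.SeparatingLeft) {d : ι → F} {c : F}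
    (hd : ∀ i j, d i * d j * B (Pi.single i 1) (Pi.single j 1) = c * B (Pi.single i 1) (Pi.single j 1))
    {S : Finset ι} {s : F} (hS : ∀ j ∈ S, d j = s) (hcard : Fintype.card ι < 2 * S.card) :
    c = s * s ∧ ∀ i, ∃ j, d i * d j = s * s := by
  classical
  have hc : c = s * s := by
    by_contra hne
    have hzero : ∀ i ∈ S, ∀ j ∈ S, B (Pi.single i 1) (Pi.single j 1) = 0 := fun i hi j hj => by
      have := hd i j
      rw [hS i hi, hS j hj, ← sub_eq_zero, ← sub_mul] at this
      exact (mul_eq_zero.1 this).resolve_left (sub_ne_zero.2 (Ne.symm hne))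
    let W : Submodule F (ι → F) := Submodule.span F (Set.range fun j : S => Pi.single (j : ι) (1 : F))
    have hW : finrank F W = S.card := by
      rw [finrank_span_eq_card, Fintype.card_coe]
      simpa [Function.comp_def] using (Pi.basisFun F ι).linearIndependent.comp _ (Subtype.val_injective (p := (· ∈ S)))
    have hle : W ≤ B.orthogonal W := by
      rw [Submodule.span_le]
      rintro _ ⟨i, rfl⟩
      rw [SetLike.mem_coe, LinearMap.BilinForm.mem_orthogonal_iff]
      intro w hw
      induction hw using Submodule.span_induction with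
      | mem w hw =>
        obtain ⟨j, rfl⟩ := hw
        exact hzero _ j.2 _ i.2
      | zero => simp [LinearMap.BilinForm.IsOrtho]
      | add a b _ _ ha hb =>
        simp only [LinearMap.BilinForm.IsOrtho, map_add, LinearMap.add_apply] at ha hb ⊢
        rw [ha, hb, add_zero]
      | smul t a _ ha =>
        simp only [LinearMap.BilinForm.IsOrtho, map_smul, LinearMap.smul_apply] at ha ⊢
        rw [ha, smul_zero]
    have h1 := Submodule.finrank_mono hle
    rw [LinearMap.BilinForm.finrank_orthogonal (B := B) ((LinearMap.IsRefl.nondegenerate_iff_separatingLeft hA.isRefl).2 hB),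
      finrank_pi, hW] at h1
    omega
  refine ⟨hc, fun i => ?_⟩
  by_contra hcon
  push Not at hcon
  have h0 := hB (Pi.single i 1) fun v => by
    rw [pi_eq_sum_univ' v]
    simp only [map_sum, map_smul]
    refine Finset.sum_eq_zero fun j _ => ?_
    have := hd i j
    rw [hc, ← sub_eq_zero, ← sub_mul] at this
    rw [(mul_eq_zero.1 this).resolve_left (sub_ne_zero.2 (hcon j)), smul_zero]
  simpa using congrFun h0 i

/-- An isometry `x` has no eigen-polynomial `g` with `g (x⁻¹)` onto. -/
theorem not_isometry (hB : B.SeparatingLeft) {x y : Module.End F V}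
    (hinv : ∀ u v, B (x u) v = B u (y v)) {g : F[X]} (hsurj : Function.Surjective (aeval y g))
    {u : V} (hu : u ≠ 0) (hgu : aeval x g u = 0) : False := by
  have hpow : ∀ (j : ℕ) u v, B ((x ^ j) u) v = B u ((y ^ j) v) := by
    intro j
    induction j with
    | zero => intro u v; rfl
    | succ j ih =>
      intro u v
      rw [pow_succ, pow_succ', Module.End.mul_apply, Module.End.mul_apply, ih, hinv]
  have hadj : ∀ (g : F[X]) (u v : V), B (aeval x g u) v = B u (aeval y g v) := by
    intro g
    clear hsurj hgu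
    induction g using Polynomial.induction_on' with
    | add a b ha hb => intro u v; simp only [map_add, LinearMap.add_apply, ha, hb]
    | monomial j a =>
      intro u v
      simp only [aeval_monomial, Module.End.mul_apply, Module.algebraMap_end_apply, map_smul,
        LinearMap.smul_apply, hpow]
  refine hu (hB u fun v => ?_)
  obtain ⟨w, rfl⟩ := hsurj v
  rw [← hadj, hgu, map_zero, LinearMap.zero_apply]

variable [Fintype F] [DecidableEq F] {r : ℕ} [Fact r.Prime] {p : ℕ} [Fact p.Prime] [CharP F p]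

/-- An element of order `r` preserving no alternating form, for odd order of `q` mod `r`. -/
theorem exists_odd_elt {n : ℕ} (hrp : r ≠ p) (hr2 : r ≠ 2)
    (hi : 2 ≤ orderOf (Fintype.card F : ZMod r)) (hodd : Odd (orderOf (Fintype.card F : ZMod r)))
    (hn : orderOf (Fintype.card F : ZMod r) ≤ n) :
    ∃ A : Matrix.SpecialLinearGroup (Fin n) F,
      (∀ v, ((Matrix.toLin' (A : Matrix (Fin n) (Fin n) F)) ^ r) v = v) ∧
      ∀ B : LinearMap.BilinForm F (Fin n → F), B.SeparatingLeft →
        ¬ ∀ u v, B (Matrix.toLin' (A : Matrix (Fin n) (Fin n) F) u)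
          (Matrix.toLin' (A : Matrix (Fin n) (Fin n) F) v) = B u v := by
  classical
  have hr : r.Prime := Fact.out
  obtain ⟨g, hg⟩ := UniqueFactorizationMonoid.exists_mem_normalizedFactors (cyclotomic_ne_zero r F)
    fun hu => (degree_cyclotomic_pos r F hr.pos).ne' (degree_eq_zero_of_isUnit hu)
  obtain ⟨hgm, hirr, hdeg⟩ := factor_cyclotomic hrp hg
  rw [Nat.card_eq_fintype_card] at hdeg
  haveI : Fact (Irreducible g) := ⟨hirr⟩
  let pb := AdjoinRoot.powerBasis' hgm
  haveI : FiniteDimensional F (AdjoinRoot g) := pb.finite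
  haveI : Finite (AdjoinRoot g) := Module.finite_of_finite F
  set ζ := AdjoinRoot.root g with hζ
  have hfinK : finrank F (AdjoinRoot g) = g.natDegree := by
    rw [pb.finrank, AdjoinRoot.powerBasis'_dim]
  have hζr : ζ ^ r = 1 := by
    have hdvd : g ∣ X ^ r - 1 :=
      (UniqueFactorizationMonoid.dvd_of_mem_normalizedFactors hg).trans (cyclotomic.dvd_X_pow_sub_one r F)
    have h := AdjoinRoot.mk_eq_zero.2 hdvd
    simpa [sub_eq_zero] using h
  have hgz : ∀ z : AdjoinRoot g, aeval z g = 0 → z ^ r = 1 → z ≠ 1 := fun z hz _ h1 => by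
    have hev : aeval (1 : F) g = 0 := by
      rw [h1, ← map_one (algebraMap F (AdjoinRoot g)), aeval_algebraMap_apply] at hz
      exact (map_eq_zero _).1 hz
    have hd := eq_of_monic_of_associated hgm (monic_X_sub_C 1)
      ((irreducible_X_sub_C 1).associated_of_dvd hirr (dvd_iff_isRoot.2 (by simpa [IsRoot] using hev))).symm
    rw [hd, natDegree_X_sub_C] at hdeg
    omega
  have hζg : aeval ζ g = 0 := by rw [AdjoinRoot.aeval_eq]; exact AdjoinRoot.mk_self
  have hζ0 : ζ ≠ 0 := fun h => by rw [h, zero_pow hr.ne_zero] at hζr; exact zero_ne_one hζr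
  have hζinv : ζ ^ (r - 1) = ζ⁻¹ := eq_inv_of_mul_eq_one_left (by
    rw [← pow_succ, Nat.sub_add_cancel hr.one_le, hζr])
  have hginv : aeval (ζ ^ (r - 1)) g ≠ 0 := fun h => by
    rw [hζinv] at h
    let σ : AdjoinRoot g →ₐ[F] AdjoinRoot g := AdjoinRoot.liftAlgHom g (Algebra.ofId F _) ζ⁻¹ h
    have hσ : σ ζ = ζ⁻¹ := AdjoinRoot.liftAlgHom_root _ _ _ _
    have hσσ : σ.comp σ = AlgHom.id F _ := AdjoinRoot.algHom_ext (by
      rw [AlgHom.comp_apply, hσ, map_inv₀, hσ, inv_inv]; rfl)
    let e : AdjoinRoot g ≃ₐ[F] AdjoinRoot g := AlgEquiv.ofAlgHom σ σ hσσ hσσ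
    have he2 : orderOf e = 2 := orderOf_eq_prime
      (AlgEquiv.ext fun z => by rw [pow_two, AlgEquiv.mul_apply]; exact DFunLike.congr_fun hσσ z)
      (fun he => by
        have h1 : ζ⁻¹ = ζ := hσ.symm.trans (DFunLike.congr_fun he ζ)
        have h2 : ζ ^ 2 = 1 := by rw [sq]; nth_rw 1 [← h1]; exact inv_mul_cancel₀ hζ0
        have := pow_gcd_eq_one.2 ⟨h2, hζr⟩
        rw [((Nat.coprime_primes Nat.prime_two hr).2 hr2.symm).gcd_eq_one, pow_one] at this
        exact hgz ζ hζg hζr this)
    have h2d : 2 ∣ Nat.card (AdjoinRoot g ≃ₐ[F] AdjoinRoot g) := he2 ▸ orderOf_dvd_natCard e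
    rw [IsGalois.card_aut_eq_finrank, hfinK, hdeg] at h2d
    exact Nat.not_even_iff_odd.2 hodd (even_iff_two_dvd.2 h2d)
  set m := n - g.natDegree with hm
  let W := Fin m → F
  let Φ : AdjoinRoot g × F →ₐ[F] Module.End F (AdjoinRoot g × W) :=
    (LinearMap.prodMapAlgHom F (AdjoinRoot g) W).comp
      (((Algebra.lsmul F F (AdjoinRoot g)).comp (AlgHom.fst F _ _)).prod
        ((Algebra.lsmul F F W).comp (AlgHom.snd F _ _)))
  have hΦ : ∀ (a : AdjoinRoot g × F) v, Φ a v = (a.1 * v.1, a.2 • v.2) := fun a v => rfl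
  set x := Φ (ζ, 1) with hx
  have hxr : x ^ r = 1 := by rw [hx, ← map_pow, Prod.pow_mk, hζr, one_pow]; exact map_one Φ
  have hfin : finrank F (AdjoinRoot g × W) = n := by
    rw [Module.finrank_prod, hfinK, finrank_fin_fun, hm]; omega
  have hdet : LinearMap.det x = 1 := by
    have hdr : LinearMap.det x ^ r = 1 := by rw [← map_pow, hxr, map_one]
    have hnd : ¬ r ∣ Fintype.card F - 1 := fun h => by
      rw [dvd_card_sub_one_iff.1 h] at hi; omega
    have hne : LinearMap.det x ≠ 0 := fun h => by
      rw [h, zero_pow hr.ne_zero] at hdr; exact zero_ne_one hdr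
    have h1 : LinearMap.det x ^ (Fintype.card F - 1) = 1 := FiniteField.pow_card_sub_one_eq_one _ hne
    simpa [(hr.coprime_iff_not_dvd.2 hnd).gcd_eq_one] using pow_gcd_eq_one.2 ⟨hdr, h1⟩
  obtain ⟨e, A, hA⟩ := exists_sl hfin hdet
  refine ⟨A, fun v => by rw [hA, pow_eq_of_conj, hxr, Module.End.one_apply, e.apply_symm_apply],
    fun B hB hinv => ?_⟩
  let B' : LinearMap.BilinForm F (AdjoinRoot g × W) := B.compl₁₂ e.toLinearMap e.toLinearMap
  have hB' : B'.SeparatingLeft := fun u hu => e.injective (by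
    rw [map_zero]
    exact hB _ fun v => by
      obtain ⟨w, rfl⟩ := e.surjective v
      exact hu w)
  have hB'x : ∀ u v, B' (x u) (x v) = B' u v := fun u v => by
    have := hinv (e u) (e v)
    simpa [hA, LinearEquiv.conj_apply, B'] using this
  refine not_isometry hB' (x := x) (y := x ^ (r - 1)) (g := g) (fun u v => ?_) ?_
    (u := ((1 : AdjoinRoot g), 0)) (fun h => one_ne_zero (congrArg Prod.fst h)) ?_
  · conv_lhs => rw [show v = x ((x ^ (r - 1)) v) by
      rw [← Module.End.mul_apply, ← pow_succ', Nat.sub_add_cancel hr.one_le, hxr, Module.End.one_apply]]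
    rw [hB'x]
  · rw [hx, ← map_pow, aeval_algHom_apply]
    refine LinearMap.injective_iff_surjective.1 ((injective_iff_map_eq_zero _).2 fun v hv => ?_)
    rw [hΦ, Prod.pow_mk, one_pow, aeval_prod_apply] at hv
    refine Prod.ext ((mul_eq_zero.1 (congrArg Prod.fst hv)).resolve_left hginv) ?_
    refine (smul_eq_zero.1 (congrArg Prod.snd hv)).resolve_left fun h1 => hgz 1 ?_ (one_pow r) rfl
    rw [← map_one (algebraMap F (AdjoinRoot g)), aeval_algebraMap_apply, show aeval (1 : F) g = 0 from h1,
      map_zero]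
  · rw [hx, aeval_algHom_apply, hΦ, aeval_prod_apply]
    exact Prod.ext (by simp [hζg]) (by simp)

end Cfsg.Agent.Lib.Elusive.NotSimilitude
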