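import Cfsg.Agent.Lib.Elusive.OrthType
import Cfsg.Agent.Lib.Classical.QuadStd

/-!
Classes of non-degenerate subspaces: two in each dimension in odd characteristic, orbit sizes divide quotients of
orders, involutions fix subspaces of both classes.
-/

set_option autoImplicit false

namespace Cfsg.Agent.Lib.Elusive.OrthClasses

open Module QuadraticMap Cfsg.Agent.Lib.Classical.Quad Cfsg.Agent.Lib.Classical.QuadOmega
open Cfsg.Agent.Lib.Classical.QuadF2 Cfsg.Agent.Lib.Elusive.OrthType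

universe u

variable {F : Type u} [Field F] {V : Type u} [AddCommGroup V] [Module F V] [FiniteDimensional F V]
variable {Q : QuadraticForm F V}

theorem exists_img {W₁ W₂ A : Submodule F V} (e : W₁ ≃ₗ[F] W₂) (he : ∀ w : W₁, Q (e w : V) = Q (w : V))
    (hA : A ≤ W₁) : ∃ (A' : Submodule F V) (f : A ≃ₗ[F] A'), A' ≤ W₂ ∧ (∀ a : A, Q (f a : V) = Q (a : V)) ∧
      ∀ a : A, (f a : V) = e (Submodule.inclusion hA a) :=
  ⟨_, LinearEquiv.ofInjective (W₂.subtype ∘ₗ e.toLinearMap ∘ₗ Submodule.inclusion hA)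
    (Subtype.val_injective.comp (e.injective.comp (Submodule.inclusion_injective hA))),
    by rintro _ ⟨a, rfl⟩; exact (e _).2, fun a => he _, fun a => rfl⟩

theorem ndOn_isom {A B : Submodule F V} (hA : NdOn Q A) (h : IsomOn Q A B) : NdOn Q B := by
  obtain ⟨e, he⟩ := h
  intro x hx hh
  obtain ⟨a, ha⟩ := e.surjective ⟨x, hx⟩
  have hp : ∀ b : A, polar Q (a : V) (b : V) = polar Q x (e b : V) := fun b => by
    rw [show x = (e a : V) by rw [ha]]
    simp only [polar]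
    rw [he, he, ← Submodule.coe_add (e a) (e b), ← map_add, he, Submodule.coe_add]
  have ha0 : a = 0 := Subtype.ext (hA a a.2 fun b hb => by
    rw [hp ⟨b, hb⟩]
    exact hh _ (e ⟨b, hb⟩).2)
  rw [ha0, map_zero] at ha
  exact (congrArg Subtype.val ha).symm

/-- A common summand does not merge classes. -/
theorem not_isom_sup {A U₁ U₂ : Submodule F V} (hA : NdOn Q A) (h₁ : NdOn Q U₁) (h₂ : NdOn Q U₂)
    (ho₁ : Orth Q A U₁) (ho₂ : Orth Q A U₂) (hne : ¬ IsomOn Q U₁ U₂) :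
    ¬ IsomOn Q (A ⊔ U₁) (A ⊔ U₂) := by
  intro hiso
  have hdim := hiso.finrank_eq
  rw [finrank_sup hA ho₁, finrank_sup hA ho₂] at hdim
  obtain ⟨e, he⟩ := hiso
  obtain ⟨A', f, hA', hf, hfv⟩ := exists_img e he (le_sup_left : A ≤ A ⊔ U₁)
  obtain ⟨U', g, hU', hg, hgv⟩ := exists_img e he (le_sup_right : U₁ ≤ A ⊔ U₁)
  have hW₂ := ndOn_sup hA h₂ ho₂
  have hA'n : NdOn Q A' := ndOn_isom hA ⟨f, hf⟩
  have hpol : ∀ (a : A) (b : U₁), polar Q (f a : V) (g b : V) = polar Q (a : V) (b : V) := fun a b => by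
    simp only [polar]
    rw [hf, hg, hfv, hgv, ← Submodule.coe_add, ← map_add, he]
    rfl
  have hle : U' ≤ perp Q A' (A ⊔ U₂) := fun v hv => mem_perp.2 ⟨hU' hv, fun w hw => by
    obtain ⟨a, ha⟩ := f.surjective ⟨w, hw⟩
    obtain ⟨b, hb⟩ := g.surjective ⟨v, hv⟩
    have h := hpol a b
    rw [ha, hb] at h
    exact h.trans (ho₁ a a.2 b b.2)⟩
  have hle₂ : U₂ ≤ perp Q A (A ⊔ U₂) := fun v hv => mem_perp.2 ⟨Submodule.mem_sup_right hv, fun w hw => ho₂ w hw v hv⟩
  have hd₁ := (ndOn_split hA'n hW₂ hA').2.2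
  have hd₂ := (ndOn_split hA hW₂ le_sup_left).2.2
  rw [finrank_sup hA ho₂] at hd₁ hd₂
  rw [← f.finrank_eq] at hd₁
  have e₁ : U' = perp Q A' (A ⊔ U₂) :=
    Submodule.eq_of_le_of_finrank_le hle (by rw [← g.finrank_eq]; omega)
  have e₂ : U₂ = perp Q A (A ⊔ U₂) := Submodule.eq_of_le_of_finrank_le hle₂ (by omega)
  have h := IsomOn.cancel hW₂ hA hA'n le_sup_left hA' ⟨f, hf⟩
  rw [← e₁, ← e₂] at h
  exact hne ((IsomOn.trans h ⟨g.symm, fun x => by rw [← hg (g.symm x), g.apply_symm_apply]⟩).symm)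

variable [Fintype F]

/-- Both classes inside a sum with a fixed summand. -/
theorem sup_two (h2 : (2 : F) ≠ 0) {A C : Submodule F V} (hA : NdOn Q A) (hC : NdOn Q C) (ho : Orth Q A C)
    {t : ℕ} (ht : 1 ≤ t) (htC : t < finrank F C) :
    ∃ U₁ U₂ : Submodule F V, U₁ ≤ C ∧ U₂ ≤ C ∧ NdOn Q (A ⊔ U₁) ∧ NdOn Q (A ⊔ U₂) ∧
      finrank F (A ⊔ U₁ : Submodule F V) = finrank F A + t ∧ finrank F (A ⊔ U₂ : Submodule F V) = finrank F A + t ∧
      ¬ IsomOn Q (A ⊔ U₁) (A ⊔ U₂) := by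
  obtain ⟨U₁, U₂, l₁, l₂, n₁, n₂, d₁, d₂, hne⟩ := exists_two h2 ht (finrank F C - (t + 1)) hC (by omega)
  have o₁ := ho.mono le_rfl l₁
  have o₂ := ho.mono le_rfl l₂
  exact ⟨U₁, U₂, l₁, l₂, ndOn_sup hA n₁ o₁, ndOn_sup hA n₂ o₂, by rw [finrank_sup hA o₁, d₁],
    by rw [finrank_sup hA o₂, d₂], not_isom_sup hA n₁ n₂ o₁ o₂ hne⟩

/-- An even-dimensional space of prescribed type with a fixed summand, from a type in the rest. -/
theorem sup_type {A C : Submodule F V} (hA : NdOn Q A) (hC : NdOn Q C) (ho : Orth Q A C)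
    (hAe : Even (finrank F A)) {a : ℕ} (ha : 1 ≤ a) (haC : 2 * a < finrank F C) (b : Prop) :
    ∃ U ≤ C, NdOn Q (A ⊔ U) ∧ finrank F (A ⊔ U : Submodule F V) = finrank F A + 2 * a ∧
      (Plus Q (A ⊔ U) ↔ b) := by
  obtain ⟨U, hUC, hUn, hUd, hUp⟩ := exists_sub hC ha haC (b ↔ Plus Q A)
  have o := ho.mono le_rfl hUC
  refine ⟨U, hUC, ndOn_sup hA hUn o, by rw [finrank_sup hA o, hUd], ?_⟩
  rw [plus_sup hA hUn o hAe (by rw [hUd]; exact even_two_mul a), hUp]
  tauto

/-- A normal form in odd dimension. -/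
theorem odd_model {W : Submodule F V} (hW : NdOn Q W) {k : ℕ} (hd : finrank F W = 2 * k + 1) :
    ∃ d : F, d ≠ 0 ∧ ∃ e : (Unit ⊕ (Fin k ⊕ Fin k) → F) ≃ₗ[F] W, ∀ v, Q (e v : V) = d * Cfsg.Agent.Lib.Classical.OrthTorsion.oddQ k F v := by
  obtain ⟨d, hd0, e, he⟩ := exists_normal_odd k hW.res hd
  let φ : (Unit ⊕ (Fin k ⊕ Fin k) → F) ≃ₗ[F] (Unit ⊕ (Fin k ⊕ Fin k) → F) :=
    { toFun := fun v => Sum.elim (fun u => v (.inl u)) (Sum.elim (fun j => d * v (.inr (.inl j))) fun j => v (.inr (.inr j)))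
      invFun := fun v => Sum.elim (fun u => v (.inl u)) (Sum.elim (fun j => d⁻¹ * v (.inr (.inl j))) fun j => v (.inr (.inr j)))
      left_inv := fun v => by ext (u | j | j) <;> simp [hd0]
      right_inv := fun v => by ext (u | j | j) <;> simp [hd0]
      map_add' := fun v v' => by ext (u | j | j) <;> simp [mul_add]
      map_smul' := fun c v => by ext (u | j | j) <;> simp [mul_left_comm] }
  refine ⟨d, hd0, φ.trans e, fun v => (he (φ v)).trans ?_⟩
  simp [Cfsg.Agent.Lib.Classical.OrthTorsion.oddQ_apply, Cfsg.quadFormOdd, φ, mul_add, Finset.mul_sum, mul_assoc]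

omit [Fintype F] in
theorem isom_of_sq {ι : Type} [Fintype ι] {A B : Submodule F V} {R : (ι → F) → F}
    (hR : ∀ (c : F) v, R (c • v) = c * c * R v)
    (e : (ι → F) ≃ₗ[F] A) {a : F} (he : ∀ v, Q (e v : V) = a * R v)
    (e' : (ι → F) ≃ₗ[F] B) {b : F} (he' : ∀ v, Q (e' v : V) = b * R v) {t : F} (ht : t ≠ 0) (hab : b = t ^ 2 * a) :
    IsomOn Q A B := by
  refine ⟨e.symm.trans ((LinearEquiv.smulOfNeZero F (ι → F) t⁻¹ (inv_ne_zero ht)).trans e'), fun x => ?_⟩
  obtain ⟨v, rfl⟩ := e.surjective x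
  rw [LinearEquiv.trans_apply, LinearEquiv.trans_apply, LinearEquiv.symm_apply_apply, he']
  show b * R (t⁻¹ • v) = _
  rw [hR, he, hab]
  field_simp

/-- There are at most two classes in each dimension. -/
theorem two_classes {A B W : Submodule F V} (hA : NdOn Q A) (hB : NdOn Q B) (hW : NdOn Q W)
    (hAd : finrank F A = finrank F W) (hBd : finrank F B = finrank F W) (hne : ¬ IsomOn Q A B) :
    IsomOn Q W A ∨ IsomOn Q W B := by
  rcases Nat.even_or_odd (finrank F W) with hev | ⟨k, hk⟩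
  · have h := plus_iff_not_of_not_isom hA hB (by rw [hAd]; exact hev) (by rw [hAd, hBd]) hne
    by_cases hp : Plus Q W ↔ Plus Q A
    · exact Or.inl (isomOn_of_plus_iff hW hA hev hAd.symm hp)
    · exact Or.inr (isomOn_of_plus_iff hW hB hev hBd.symm (by tauto))
  obtain ⟨a, ha, eA, heA⟩ := odd_model hA (k := k) (by omega)
  obtain ⟨b, hb, eB, heB⟩ := odd_model hB (k := k) (by omega)
  obtain ⟨w, hw, eW, heW⟩ := odd_model hW (k := k) (by omega)
  have hsm : ∀ (c : F) v, Cfsg.Agent.Lib.Classical.OrthTorsion.oddQ k F (c • v) =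
      c * c * Cfsg.Agent.Lib.Classical.OrthTorsion.oddQ k F v := fun c v => by
    rw [QuadraticMap.map_smul, smul_eq_mul]
  have h : sqSign w = sqSign a ∨ sqSign w = sqSign b ∨ sqSign a = sqSign b := by
    rcases Int.units_eq_one_or (sqSign w) with h1 | h1 <;> rcases Int.units_eq_one_or (sqSign a) with h2 | h2 <;>
      rcases Int.units_eq_one_or (sqSign b) with h3 | h3 <;> simp [h1, h2, h3]
  rcases h with h | h | h
  · obtain ⟨t, ht, e⟩ := exists_sq_mul hw ha h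
    exact Or.inl (isom_of_sq hsm eW heW eA heA ht e)
  · obtain ⟨t, ht, e⟩ := exists_sq_mul hw hb h
    exact Or.inr (isom_of_sq hsm eW heW eB heB ht e)
  · obtain ⟨t, ht, e⟩ := exists_sq_mul ha hb h
    exact absurd (isom_of_sq hsm eA heA eB heB ht e) hne

/-- A square-one isometry fixes subspaces of both classes in every proper dimension, except that one eigenspace
may be the only room left. -/
theorem invol_two (hQ : Nd Q) (h2 : (2 : F) ≠ 0) {X : Module.End F V} (hiso : ∀ v, Q (X v) = Q v)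
    (hX : ∀ v, X (X v) = v) {m : ℕ} (hm : 1 ≤ m) (hmn : m < finrank F V)
    (hcase : 2 ≤ m ∨ finrank F (LinearMap.ker (X + (1 : F) • LinearMap.id)) ≠ m) :
    ∃ W₁ W₂ : Submodule F V, Inv X W₁ ∧ Inv X W₂ ∧ NdOn Q W₁ ∧ NdOn Q W₂ ∧ finrank F W₁ = m ∧ finrank F W₂ = m ∧
      ¬ IsomOn Q W₁ W₂ := by
  set E := LinearMap.ker (X - (1 : F) • LinearMap.id) with hE
  set E' := LinearMap.ker (X + (1 : F) • LinearMap.id) with hE'
  have hEv : ∀ v, v ∈ E ↔ X v = v := fun v => by simp [hE, sub_eq_zero]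
  have hE'v : ∀ v, v ∈ E' ↔ X v = -v := fun v => by simp [hE', add_eq_zero_iff_eq_neg]
  have ho : Orth Q E E' := fun a ha b hb => by
    have h : polar Q (X a) (X b) = polar Q a b := by simp [polar, ← map_add, hiso]
    rw [(hEv a).1 ha, (hE'v b).1 hb, polar_neg_right] at h
    have : (2 : F) * polar Q a b = 0 := by linear_combination -h
    exact (mul_eq_zero.1 this).resolve_left h2
  have hdec : ∀ v : V, ∃ a ∈ E, ∃ b ∈ E', a + b = v := fun v => by
    refine ⟨(2 : F)⁻¹ • (v + X v), (hEv _).2 ?_, (2 : F)⁻¹ • (v - X v), (hE'v _).2 ?_, ?_⟩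
    · rw [map_smul, map_add, hX, add_comm]
    · rw [map_smul, map_sub, hX, ← smul_neg, neg_sub]
    · rw [← smul_add, show (v + X v) + (v - X v) = (2 : F) • v by rw [two_smul]; abel, smul_smul,
        inv_mul_cancel₀ h2, one_smul]
  have hn : NdOn Q E := fun x hx h => hQ x fun y => by
    obtain ⟨a, ha, b, hb, rfl⟩ := hdec y
    rw [polar_add_right, h a ha, ho x hx b hb, add_zero]
  have hn' : NdOn Q E' := fun x hx h => hQ x fun y => by
    obtain ⟨a, ha, b, hb, rfl⟩ := hdec y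
    rw [polar_add_right, h b hb, polar_comm Q x a, ho a ha x hx, add_zero]
  have hsum : finrank F E + finrank F E' = finrank F V := by
    have htop : E ⊔ E' = ⊤ := by
      refine eq_top_iff.2 fun v _ => ?_
      obtain ⟨a, ha, b, hb, rfl⟩ := hdec v
      exact Submodule.add_mem_sup ha hb
    rw [← finrank_sup hn ho, htop, finrank_top]
  have scal : ∀ A B : Submodule F V, A ≤ E → B ≤ E' → Inv X (A ⊔ B) := fun A B hA hB =>
    Inv.sup (fun v hv => by rw [(hEv v).1 (hA hv)]; exact hv)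
      fun v hv => by rw [(hE'v v).1 (hB hv)]; exact B.neg_mem hv
  rcases Nat.lt_trichotomy m (finrank F E') with h | h | h
  · obtain ⟨U₁, U₂, l₁, l₂, n₁, n₂, d₁, d₂, hne⟩ := sup_two h2 ndOn_bot hn'
      (fun a ha b _ => by rw [(Submodule.mem_bot F).1 ha, polar_zero_left]) hm h
    exact ⟨_, _, scal _ _ bot_le l₁, scal _ _ bot_le l₂, n₁, n₂, by rw [d₁, finrank_bot, zero_add],
      by rw [d₂, finrank_bot, zero_add], hne⟩
  · have hm2 : 2 ≤ m := hcase.resolve_right fun hc => hc h.symm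
    obtain ⟨A, -, hAE, -, hAn, -, hAd, -, -⟩ : ∃ U₁ U₂ : Submodule F V, U₁ ≤ E ∧ U₂ ≤ E ∧ NdOn Q U₁ ∧ NdOn Q U₂ ∧
        finrank F U₁ = 1 ∧ finrank F U₂ = 1 ∧ True := by
      rcases Nat.lt_or_ge 1 (finrank F E) with h1 | h1
      · obtain ⟨U₁, U₂, a, b, c, d, e, f, -⟩ := exists_two h2 le_rfl (finrank F E - 2) hn (by omega)
        exact ⟨U₁, U₂, a, b, c, d, e, f, trivial⟩
      · exact ⟨E, E, le_rfl, le_rfl, hn, hn, by omega, by omega, trivial⟩
    obtain ⟨U₁, U₂, l₁, l₂, n₁, n₂, d₁, d₂, hne⟩ := sup_two h2 hAn hn' (ho.mono hAE le_rfl)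
      (t := m - 1) (by omega) (by omega)
    exact ⟨_, _, scal _ _ hAE l₁, scal _ _ hAE l₂, n₁, n₂, by rw [d₁, hAd]; omega, by rw [d₂, hAd]; omega, hne⟩
  · obtain ⟨U₁, U₂, l₁, l₂, n₁, n₂, d₁, d₂, hne⟩ := sup_two h2 hn' hn ho.symm
      (t := m - finrank F E') (by omega) (by omega)
    exact ⟨_, _, sup_comm U₁ E' ▸ scal _ _ l₁ le_rfl, sup_comm U₂ E' ▸ scal _ _ l₂ le_rfl, n₁, n₂,
      by rw [d₁]; omega, by rw [d₂]; omega, hne⟩

/-- The class of `W₀`. -/
abbrev Cls (Q : QuadraticForm F V) (W₀ : Submodule F V) : Type u :=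
  {W : Submodule F V // NdOn Q W ∧ IsomOn Q W W₀}

/-- The number of subspaces isometric to `W₀` times the order of the isometry group of its orthogonal divides
the order of the isometry group. -/
theorem card_cls_dvd [Finite V] (hQ : Nd Q) {W₀ : Submodule F V} (h₀ : NdOn Q W₀) :
    Nat.card (Cls Q W₀) * Nat.card (isoG (Q.comp (perp Q W₀ ⊤).subtype)) ∣ Nat.card (isoG Q) := by
  have hinj : ∀ g : isoG Q, Function.Injective (g.1 : V →ₗ[F] V) := fun g => g.1.injective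
  have himg : ∀ (g : isoG Q) (W : Submodule F V), IsomOn Q W (imgS g W) := fun g W =>
    ⟨Submodule.equivMapOfInjective _ (hinj g) W, fun w => iso_Q g _⟩
  letI A : MulAction (isoG Q) (Cls Q W₀) :=
    { smul := fun g W => ⟨imgS g W.1, ndOn_isom W.2.1 (himg g W.1), (himg g W.1).symm.trans W.2.2⟩
      one_smul := fun W => Subtype.ext (imgS_one W.1)
      mul_smul := fun g h W => Subtype.ext (imgS_mul g h W.1) }
  let w₀ : Cls Q W₀ := ⟨W₀, h₀, IsomOn.refl W₀⟩
  haveI : MulAction.IsPretransitive (isoG Q) (Cls Q W₀) := by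
    refine ⟨fun W W' => ?_⟩
    obtain ⟨e, he⟩ := W.2.2.trans W'.2.2.symm
    obtain ⟨γ, hγ, hγW⟩ := QuadWitt.witt_quad Q
      ⟨fun x hx => hQ x fun y => by simpa using hx y, fun x hx => hQ x fun y => by rw [polar_comm]; simpa using hx y⟩
      W.1 W.2.1 (W'.1.subtype ∘ₗ e.toLinearMap) he
    refine ⟨⟨γ, hγ⟩, Subtype.ext ?_⟩
    show imgS _ W.1 = W'.1
    ext v
    rw [mem_imgS]
    constructor
    · rintro ⟨w, hw, rfl⟩
      show γ w ∈ _
      rw [hγW ⟨w, hw⟩]
      exact (e _).2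
    · intro hv
      obtain ⟨a, ha⟩ := e.surjective ⟨v, hv⟩
      exact ⟨a, a.2, by show γ a = v; rw [hγW a]; exact congrArg Subtype.val ha⟩
  set B := perp Q W₀ ⊤
  obtain ⟨-, hsup, -⟩ := ndOn_split h₀ (ndOn_top hQ) le_top
  obtain ⟨s₀, hs₀, hsQ⟩ := exists_sum_equiv h₀ (orth_perp (Q := Q) W₀ ⊤)
  let s : (W₀ × B) ≃ₗ[F] V := s₀.trans ((LinearEquiv.ofEq _ _ hsup).trans Submodule.topEquiv)
  have hs : ∀ p, s p = (p.1 : V) + (p.2 : V) := fun p => hs₀ p
  have hsQ' : ∀ p, Q (s p) = Q (p.1 : V) + Q (p.2 : V) := fun p => hsQ p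
  let ψ : isoG (Q.comp B.subtype) →* isoG Q :=
    { toFun := fun g => ⟨s.symm.trans (((LinearEquiv.refl F W₀).prodCongr g.1).trans s), fun v => by
        obtain ⟨p, rfl⟩ := s.surjective v
        rw [LinearEquiv.trans_apply, LinearEquiv.trans_apply, LinearEquiv.symm_apply_apply, hsQ', hsQ']
        exact congrArg (Q (p.1 : V) + ·) (g.2 p.2)⟩
      map_one' := Subtype.ext (LinearEquiv.ext fun v => by
        obtain ⟨p, rfl⟩ := s.surjective v
        show s ((LinearEquiv.refl F W₀).prodCongr 1 (s.symm (s p))) = s p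
        rw [LinearEquiv.symm_apply_apply]
        rfl)
      map_mul' := fun g h => Subtype.ext (LinearEquiv.ext fun v => by
        obtain ⟨p, rfl⟩ := s.surjective v
        show s _ = s ((LinearEquiv.refl F W₀).prodCongr g.1 (s.symm (s _)))
        simp only [LinearEquiv.symm_apply_apply]
        rfl) }
  have hψ : ∀ g p, (ψ g).1 (s p) = s (p.1, g.1 p.2) := fun g p => by
    show s ((LinearEquiv.refl F W₀).prodCongr g.1 (s.symm (s p))) = _
    rw [LinearEquiv.symm_apply_apply]; rfl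
  have hψi : Function.Injective ψ := fun g h e => Subtype.ext (LinearEquiv.ext fun b => by
    have := congrArg (fun x : isoG Q => x.1 (s (0, b))) e
    simp only [hψ] at this
    exact (Prod.ext_iff.1 (s.injective this)).2)
  have hle : ψ.range ≤ MulAction.stabilizer (isoG Q) w₀ := by
    rintro _ ⟨g, rfl⟩
    refine MulAction.mem_stabilizer_iff.2 (Subtype.ext ?_)
    show imgS (ψ g) W₀ = W₀
    have key : ∀ w : W₀, (ψ g).1 (w : V) = w := fun w => by
      have : (w : V) = s (w, 0) := by rw [hs]; simp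
      rw [this, hψ, map_zero]
    ext v
    rw [mem_imgS]
    exact ⟨by rintro ⟨w, hw, rfl⟩; rw [key ⟨w, hw⟩]; exact hw, fun hv => ⟨v, hv, key ⟨v, hv⟩⟩⟩
  have h1 := Subgroup.card_mul_index (MulAction.stabilizer (isoG Q) w₀)
  rw [MulAction.index_stabilizer_of_transitive] at h1
  have h2 := Subgroup.card_dvd_of_le hle
  rw [Nat.card_congr (MonoidHom.ofInjective hψi).symm.toEquiv] at h2
  rw [mul_comm]
  exact h1 ▸ Nat.mul_dvd_mul_right h2 _

end Cfsg.Agent.Lib.Elusive.OrthClasses
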