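import Cfsg.Agent.Lib.Elusive.OrthOdd

/-!
Elements of odd prime order of the even-dimensional orthogonal groups and their invariant non-degenerate
subspaces.
-/

set_option autoImplicit false
set_option maxHeartbeats 1000000

namespace Cfsg.Agent.Lib.Elusive.OrthEven

open Module Polynomial QuadraticMap Cfsg.Agent.Lib.Classical.Quad Cfsg.Agent.Lib.Classical.QuadOmega
open Cfsg.Agent.Lib.Classical.QuadF2
open Cfsg.Agent.Lib.Classical.OrthTorsion Cfsg.Agent.Lib.Elusive.OrthType Cfsg.Agent.Lib.Elusive.OrthClasses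
open Cfsg.Agent.Lib.Elusive.OrthStep Cfsg.Agent.Lib.Elusive.OrthOdd
open Cfsg.Agent.Lib.Elusive.SympStep (fixedSpace mem_fixed cOf)
open scoped Matrix

universe u

/-- The type of a moved space with `w` pieces. -/
def RPlus (i w : ℕ) : Prop := ¬ Even i ∨ Even w

/-- An element with `u` moved pieces and fixed dimension `s` fixes an `m`-space of the wanted type. -/
def Good (i c m s u : ℕ) (bV b : Prop) : Prop :=
  ∃ w ρ, w ≤ u ∧ m = w * c + ρ ∧ ρ ≤ s ∧ (ρ = 0 → (b ↔ RPlus i w)) ∧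
    (ρ = s → (b ↔ (bV ↔ RPlus i (u - w))))

theorem rPlus_sub {i u w : ℕ} (h : w ≤ u) : RPlus i (u - w) ↔ (RPlus i u ↔ RPlus i w) := by
  rcases em (Even i) with hi | hi
  · simp only [RPlus, hi, not_true, false_or, Nat.even_sub h]
  · simp [RPlus, hi]

theorem iff_chain {P U W : Prop} : ((P ↔ W) ↔ ((P ↔ U) ↔ (U ↔ W))) := by tauto

theorem iff_chain' {P U W : Prop} : ((W ↔ P) ↔ ((P ↔ U) ↔ (U ↔ W))) := by tauto

theorem iff_not_chain {b B V R : Prop} (hV : V ↔ (b ↔ B)) (h : (¬ B) ↔ R) : ¬ (b ↔ (V ↔ R)) := by tauto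

variable {F : Type u} [Field F] {ι : Type} [Fintype ι] [DecidableEq ι] {Q : QuadraticForm F (ι → F)}

theorem exists_nonsing' (hQ : Nd Q) (hι : 0 < Fintype.card ι) : ∃ v, Q v ≠ 0 := by
  haveI : Nonempty ι := Fintype.card_pos_iff.1 hι
  haveI : Nontrivial (ι → F) := Function.nontrivial
  exact Nd.exists_nonsing hQ

/-- A matrix with scalar `r`-th power gives an element of order dividing `r`. -/
theorem exists_y (hQ : Nd Q) (hι : 0 < Fintype.card ι) {p r : ℕ} [Fact p.Prime] [CharP F p] [Fact r.Prime]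
    (hrp : r ≠ p) (hr2 : r ≠ 2) {x : GL ι F} (hiso : ∀ v, Q ((x : Matrix ι ι F) *ᵥ v) = Q v) {z : F}
    (hz : ((x ^ r : GL ι F) : Matrix ι ι F) = z • (1 : Matrix ι ι F)) :
    ∃ e : F, e * e = 1 ∧ Setting Q (e • Matrix.toLin' (x : Matrix ι ι F)) r p := by
  obtain ⟨v, hv⟩ := exists_nonsing' hQ hι
  have hpow : ∀ (k : ℕ) w, Q (((x ^ k : GL ι F) : Matrix ι ι F) *ᵥ w) = Q w := fun k => by
    induction k with
    | zero => simp
    | succ k ih => intro w; rw [pow_succ', Units.val_mul, ← Matrix.mulVec_mulVec, hiso, ih]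
  have hz2 : z * z = 1 := by
    have := hpow r v
    rw [hz, Matrix.smul_mulVec, Matrix.one_mulVec, QuadraticMap.map_smul, smul_eq_mul] at this
    exact mul_right_cancel₀ hv (by rw [one_mul]; exact this)
  obtain ⟨r', hr'⟩ := (Fact.out : r.Prime).odd_of_ne_two hr2
  refine ⟨z, hz2, fun w => ?_, fun w => ?_, hrp, hr2⟩
  · rw [LinearMap.smul_apply, Matrix.toLin'_apply, QuadraticMap.map_smul, smul_eq_mul, hiso, hz2, one_mul]
  · rw [_root_.smul_pow, LinearMap.smul_apply, ← Matrix.toLin'_pow, ← Units.val_pow_eq_pow_val, hz, map_smul,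
      Matrix.toLin'_one, LinearMap.smul_apply, LinearMap.id_apply, smul_smul, ← pow_succ, hr',
      show 2 * r' + 1 + 1 = 2 * (r' + 1) by ring, pow_mul, pow_two, hz2, one_pow, one_smul]

theorem inv_back {e : F} (he : e * e = 1) {x : Module.End F (ι → F)} {W : Submodule F (ι → F)}
    (h : Inv (e • x) W) : Inv x W := fun v hv => by
  have := W.smul_mem e (h v hv)
  rwa [LinearMap.smul_apply, smul_smul, he, one_smul] at this

theorem inv_scale {e : F} {x : Module.End F (ι → F)} {W : Submodule F (ι → F)}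
    (h : Inv x W) : Inv (e • x) W := fun v hv => W.smul_mem e (h v hv)

variable [Fintype F]

/-- Elements realising a given split into moved and fixed parts. -/
theorem exists_split_elt {d : ℕ} (hι : Fintype.card ι = 2 * d) (hQ : Nd Q) (hreg : Reg F (ι → F))
    {p r : ℕ} [Fact p.Prime] [CharP F p] [Fact r.Prime] (hrp : r ≠ p) (hr2 : r ≠ 2) {i c u s : ℕ}
    (hi : i = orderOf (Fintype.card F : ZMod r)) (hc : c = cOf i) (hu : 1 ≤ u) (hd : 2 * d = u * c + s)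
    (htype : s = 0 → (Plus Q ⊤ ↔ RPlus i u)) :
    ∃ x : GL ι F, x ∈ Cfsg.Geo.omegaGL ⇑Q ∧
      (∀ z : F, (x : Matrix ι ι F) ≠ z • (1 : Matrix ι ι F)) ∧ x ^ r = 1 ∧
      Setting Q (Matrix.toLin' (x : Matrix ι ι F)) r p ∧
      finrank F (fixedSpace (Matrix.toLin' (x : Matrix ι ι F))) = s := by
  have hr : r.Prime := Fact.out
  have hi0 : 0 < i := i_pos (p := p) (q := Fintype.card F) (r := r) rfl hr hrp hi
  have hc0 : 0 < c := by rw [hc, cOf]; split_ifs <;> omega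
  obtain ⟨c', hc'⟩ : ∃ c', c = 2 * c' := (hc ▸ SympStep.cOf_even _ : Even c).two_dvd
  obtain ⟨P, P', hP, hPP, h1⟩ := exists_poly (F := F) (p := p) hrp hr2 (w := c' * u) (hi ▸ by
    refine dvd_trans ?_ (show c ∣ 2 * (c' * u) from ⟨u, by rw [hc']; ring⟩)
    rw [hc, cOf]; split_ifs
    · exact dvd_rfl
    · exact dvd_mul_left _ 2) s
  rw [show 2 * (c' * u) + s = 2 * d by rw [hd, hc']; ring] at hP
  have hd0 : 1 ≤ d := by
    have : 0 < u * c := Nat.mul_pos hu hc0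
    omega
  obtain ⟨k, rfl⟩ : ∃ k, d = k + 1 := ⟨d - 1, by omega⟩
  have hfin : finrank F (⊤ : Submodule F (ι → F)) = 2 * (k + 1) := by rw [finrank_top, finrank_pi, hι]
  have hqd : P.eval 1 ≠ 0 → Even i → (Fintype.card F : ZMod r) ^ (k + 1) = (-1) ^ u ∧ (Plus Q ⊤ ↔ Even u) := by
    intro he hie
    have hs : s = 0 := by
      by_contra h
      exact he (by rw [hPP, eval_mul, eval_pow, eval_sub, eval_X, eval_one, sub_self, zero_pow h, zero_mul])
    obtain ⟨b', hb'⟩ := hie.two_dvd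
    refine ⟨?_, (htype hs).trans (or_iff_right (not_not.2 hie))⟩
    rw [cOf, if_pos hie] at hc
    have h2 : (Fintype.card F : ZMod r) ^ b' * (Fintype.card F : ZMod r) ^ b' = 1 := by
      rw [← pow_add, ← two_mul, ← hb', hi, pow_orderOf_eq_one]
    have hb1 : (Fintype.card F : ZMod r) ^ b' = -1 := (mul_self_eq_one_iff.1 h2).resolve_left fun h3 => by
      have := Nat.le_of_dvd (by omega) (orderOf_dvd_of_pow_eq_one h3)
      omega
    rw [show k + 1 = b' * u by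
      have : u * c = 2 * (b' * u) := by rw [hc, hb']; ring
      omega, pow_mul, hb1]
  have hreal : Real Q r P := by
    rcases model_cases (ndOn_top hQ) (k := k) hfin with ⟨hpl, e, he⟩ | ⟨hpl, ζ, hζ, e, he⟩
    · refine (real_plus_exists (p := p) (q := Fintype.card F) rfl hr hr2 hrp hi (m := k + 1) hP fun h hie => ?_).map
        (e.trans Submodule.topEquiv) he
      obtain ⟨h3, h4⟩ := hqd h hie
      rw [h3, (h4.1 hpl).neg_one_pow]
    · refine (real_minus_exists (p := p) (q := Fintype.card F) rfl hr hr2 hrp hi hζ (M := k) hP fun h => ?_).map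
        (e.trans Submodule.topEquiv) he
      have hs : s = 0 := by
        by_contra h'
        exact h (by rw [hPP, eval_mul, eval_pow, eval_sub, eval_X, eval_one, sub_self, zero_pow h', zero_mul])
      have hnp : ¬ RPlus i u := fun h' => hpl ((htype hs).2 h')
      rw [RPlus, not_or, not_not] at hnp
      exact ⟨hnp.1, by rw [(hqd h hnp.1).1, (Nat.not_even_iff_odd.1 hnp.2).neg_one_pow]⟩
  obtain ⟨x, hx, hxo, hne, S, hC⟩ := exists_elt hQ hreg hrp hr2 hreal hPP h1 (by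
    have : 0 < u * c := Nat.mul_pos hu hc0
    omega)
  exact ⟨x, hx, hne, hxo ▸ pow_orderOf_eq_one x, S, hC⟩

/-- The data of the split of an element. -/
theorem split_data {d : ℕ} (hι : Fintype.card ι = 2 * d) (hQ : Nd Q)
    {p r : ℕ} [Fact p.Prime] [CharP F p] [Fact r.Prime] {y : Module.End F (ι → F)} (S : Setting Q y r p)
    {i c : ℕ} (hi : i = orderOf (Fintype.card F : ZMod r)) (hc : c = cOf i) :
    ∃ u, 2 * d = u * c + finrank F (fixedSpace y) ∧ finrank F (moved y r) = u * c ∧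
      NdOn Q (fixedSpace y) ∧ NdOn Q (moved y r) ∧ Inv y (moved y r) ∧ (Plus Q (moved y r) ↔ RPlus i u) ∧
      (Plus Q ⊤ ↔ (Plus Q (fixedSpace y) ↔ RPlus i u)) ∧ Even (finrank F (fixedSpace y)) := by
  obtain ⟨h1, h2, h3, h4, h5, h6, h7⟩ := OrthStep.split S (W := ⊤) (fun _ _ => trivial) (ndOn_top hQ)
  rw [top_inf_eq, top_inf_eq] at h3 h4 h7
  rw [top_inf_eq] at h1 h2 h5 h6
  obtain ⟨u, hu, ht⟩ := fpf_type S h5 h2 h6
  subst hi
  rw [← hc] at hu
  rw [finrank_top, finrank_pi, hι, hu] at h7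
  have hRe : Even (finrank F (moved y r)) := by rw [hu]; exact (hc ▸ SympStep.cOf_even _ : Even c).mul_left u
  have hCe : Even (finrank F (fixedSpace y)) := by
    rw [Nat.even_iff] at hRe ⊢
    omega
  refine ⟨u, by omega, hu, h1, h2, h5, ht, ?_, hCe⟩
  conv_lhs => rw [← h4]
  rw [plus_sup h1 h2 h3 hCe hRe]
  exact iff_congr Iff.rfl ht

/-- Even-dimensional subspaces of given type. -/
theorem main {d : ℕ} (hι : Fintype.card ι = 2 * d) (hd : 1 ≤ d) (hQ : Nd Q) (hreg : Reg F (ι → F))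
    {p r : ℕ} [Fact p.Prime] [CharP F p] [Fact r.Prime] (hrp : r ≠ p) (hr2 : r ≠ 2) (a : ℕ) (b : Prop)
    {i c : ℕ} (hi : i = orderOf (Fintype.card F : ZMod r)) (hc : c = cOf i) :
    (∀ x : GL ι F, x ∈ Cfsg.Geo.omegaGL ⇑Q →
      (∃ z : F, ((x ^ r : GL ι F) : Matrix ι ι F) = z • (1 : Matrix ι ι F)) →
      (∀ z : F, (x : Matrix ι ι F) ≠ z • (1 : Matrix ι ι F)) →
      ∃ W : Submodule F (ι → F), (finrank F W = 2 * a ∧ NdOn Q W ∧ (Plus Q W ↔ b)) ∧
        Inv (Matrix.toLin' (x : Matrix ι ι F)) W) ↔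
    ∀ u s, 1 ≤ u → 2 * d = u * c + s → (s = 0 → (Plus Q ⊤ ↔ RPlus i u)) →
      Good i c (2 * a) s u (Plus Q ⊤) b := by
  have hr : r.Prime := Fact.out
  have hi0 : 0 < i := i_pos (p := p) (q := Fintype.card F) (r := r) rfl hr hrp hi
  have hc0 : 0 < c := by rw [hc, cOf]; split_ifs <;> omega
  constructor
  · intro hall u s hu hsum htype
    obtain ⟨x, hx, hne, hxr, S, hC⟩ := exists_split_elt hι hQ hreg hrp hr2 hi hc hu hsum htype
    obtain ⟨W, ⟨hWd, hWn, hWp⟩, hWi⟩ := hall x hx ⟨1, by rw [hxr, one_smul, Units.val_one]⟩ hne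
    obtain ⟨u', hu', hRd, hCn, hRn, hRi, -, hV, hCe⟩ := split_data hι hQ S hi hc
    rw [hC] at hu' hCe
    obtain rfl : u = u' := Nat.eq_of_mul_eq_mul_right hc0 (by omega)
    obtain ⟨h1, h2, h3, h4, h5, h6, h7⟩ := OrthStep.split S hWi hWn
    obtain ⟨w, hw, ht⟩ := fpf_type S h5 h2 h6
    subst hi
    rw [← hc] at hw
    rw [hWd, hw] at h7
    set y := Matrix.toLin' (x : Matrix ι ι F)
    have hwu : w ≤ u := by
      have := Submodule.finrank_mono (inf_le_right : W ⊓ moved y r ≤ moved y r)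
      rw [hw, hRd] at this
      exact Nat.le_of_mul_le_mul_right this hc0
    have hρs : finrank F (W ⊓ fixedSpace y : Submodule F (ι → F)) ≤ s :=
      hC ▸ Submodule.finrank_mono inf_le_right
    refine ⟨w, finrank F (W ⊓ fixedSpace y : Submodule F (ι → F)), hwu, by omega, hρs, fun h0 => ?_, fun hs => ?_⟩
    · rw [Submodule.finrank_eq_zero.1 h0, bot_sup_eq] at h4
      rw [h4] at ht
      exact hWp.symm.trans ht
    · have hWC : W ⊓ fixedSpace y = fixedSpace y :=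
        Submodule.eq_of_le_of_finrank_le inf_le_right (by rw [hC, hs])
      rw [hWC] at h1 h3 h4
      rw [← h4, plus_sup h1 h2 h3 (by rw [hC]; exact hCe)
        (by rw [hw]; exact (hc ▸ SympStep.cOf_even _ : Even c).mul_left w), ht] at hWp
      rw [← hWp, rPlus_sub hwu, hV]
      exact iff_chain
  · intro H x hx ⟨z, hz⟩ hne
    obtain ⟨e, he, S⟩ := exists_y hQ (by omega) hrp hr2 (fun v => iso_of_omega hx v) hz
    set y := e • Matrix.toLin' (x : Matrix ι ι F) with hy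
    obtain ⟨u, hu, hRd, hCn, hRn, hRi, hRp, hV, hCe⟩ := split_data hι hQ S hi hc
    have hu0 : 1 ≤ u := by
      by_contra h
      obtain rfl : u = 0 := by omega
      have htop : fixedSpace y = ⊤ := Submodule.eq_top_of_finrank_eq (by rw [finrank_pi, hι]; omega)
      refine hne e (Matrix.toLin'.injective (LinearMap.ext fun v => ?_))
      have hv : y v = v := mem_fixed.1 (htop ▸ Submodule.mem_top)
      rw [map_smul, Matrix.toLin'_one, LinearMap.smul_apply, LinearMap.id_apply]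
      conv_rhs => rw [← hv, hy, LinearMap.smul_apply, smul_smul, he, one_smul]
    obtain ⟨w, ρ, hwu, hm, hρs, h0, hfull⟩ := H u _ hu0 hu fun hs => by
      rw [hV]; simp [plus_of_finrank_zero (Q := Q) hs]
    subst hi
    have hRC := moved_inf_fixed S
    obtain ⟨U, hUR, hUi, hUn, hUd⟩ := exists_fpf_sub S hRi hRn hRC (w := w)
      (by rw [← hc, hRd]; exact Nat.mul_le_mul_right c hwu)
    rw [← hc] at hUd
    have hUC : U ⊓ fixedSpace y = ⊥ := eq_bot_iff.2 ((inf_le_inf_right _ hUR).trans hRC.le)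
    obtain ⟨w', hw', hUp⟩ := fpf_type S hUi hUn hUC
    rw [← hc, hUd] at hw'
    obtain rfl : w = w' := Nat.eq_of_mul_eq_mul_right hc0 hw'
    have hUe : Even (finrank F U) := by rw [hUd]; exact (hc ▸ SympStep.cOf_even _ : Even c).mul_left w
    have hoUC : Orth Q U (fixedSpace y) := ((orth_fixed S).mono le_rfl hUR).symm
    rcases Nat.eq_zero_or_pos ρ with hρ0 | hρ0
    · exact ⟨U, ⟨by omega, hUn, hUp.trans (h0 hρ0).symm⟩, inv_back he hUi⟩
    rcases Nat.eq_or_lt_of_le hρs with hρf | hρl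
    · refine ⟨U ⊔ fixedSpace y, ⟨by rw [finrank_sup hUn hoUC, hUd, ← hρf, ← hm], ndOn_sup hUn hCn hoUC, ?_⟩,
        inv_back he (hUi.sup (SympStep.fixed_inv _ le_rfl))⟩
      rw [plus_sup hUn hCn hoUC hUe hCe, hfull hρf, rPlus_sub hwu, hV, hUp]
      exact iff_chain'
    · obtain ⟨ρ', rfl⟩ : ∃ ρ', ρ = 2 * ρ' := by
        refine (Nat.even_add.1 ?_).1 (hUd ▸ hUe) |>.two_dvd
        rw [← hm]; exact even_two_mul a
      obtain ⟨T, hTC, hn, hd', hp'⟩ := sup_type hUn hCn hoUC hUe (a := ρ') (by omega) hρl b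
      exact ⟨U ⊔ T, ⟨by rw [hd', hUd, ← hm], hn, hp'⟩,
        inv_back he (hUi.sup (SympStep.fixed_inv (y := y) T hTC))⟩

/-- Odd-dimensional subspaces of a given class. -/
theorem main_cls (h2 : (2 : F) ≠ 0) {d : ℕ} (hι : Fintype.card ι = 2 * d) (hd : 1 ≤ d) (hQ : Nd Q)
    {p r : ℕ} [Fact p.Prime] [CharP F p] [Fact r.Prime] (hrp : r ≠ p) (hr2 : r ≠ 2)
    {m : ℕ} (hm : Odd m) {W₀ : Submodule F (ι → F)} (hW₀ : finrank F W₀ = m) (hn₀ : NdOn Q W₀)
    {i c : ℕ} (hi : i = orderOf (Fintype.card F : ZMod r)) (hc : c = cOf i) :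
    (∀ x : GL ι F, x ∈ Cfsg.Geo.omegaGL ⇑Q →
      (∃ z : F, ((x ^ r : GL ι F) : Matrix ι ι F) = z • (1 : Matrix ι ι F)) →
      (∀ z : F, (x : Matrix ι ι F) ≠ z • (1 : Matrix ι ι F)) →
      ∃ W : Submodule F (ι → F), (finrank F W = m ∧ NdOn Q W ∧ IsomOn Q W W₀) ∧
        Inv (Matrix.toLin' (x : Matrix ι ι F)) W) ↔
    ∀ u s, 1 ≤ u → 2 * d = u * c + s → (s = 0 → (Plus Q ⊤ ↔ RPlus i u)) →
      ∃ w, w ≤ u ∧ w * c ≤ m ∧ m < w * c + s := by
  have hr : r.Prime := Fact.out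
  have hi0 : 0 < i := i_pos (p := p) (q := Fintype.card F) (r := r) rfl hr hrp hi
  have hc0 : 0 < c := by rw [hc, cOf]; split_ifs <;> omega
  constructor
  · intro hall u s hu hsum htype
    obtain ⟨x, hx, hne, hxr, S, hC⟩ := exists_split_elt hι hQ (reg_of_two_ne_zero h2) hrp hr2 hi hc hu hsum htype
    obtain ⟨W, ⟨hWd, hWn, -⟩, hWi⟩ := hall x hx ⟨1, by rw [hxr, one_smul, Units.val_one]⟩ hne
    obtain ⟨u', hu', hRd, -, -, -, -, -, hCe⟩ := split_data hι hQ S hi hc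
    rw [hC] at hu' hCe
    obtain rfl : u = u' := Nat.eq_of_mul_eq_mul_right hc0 (by omega)
    obtain ⟨-, h2', -, -, h5, h6, h7⟩ := OrthStep.split S hWi hWn
    obtain ⟨w, hw, -⟩ := fpf_type S h5 h2' h6
    subst hi
    rw [← hc] at hw
    rw [hWd, hw] at h7
    set y := Matrix.toLin' (x : Matrix ι ι F)
    have h8 := Submodule.finrank_mono (inf_le_right : W ⊓ moved y r ≤ moved y r)
    rw [hw, hRd] at h8
    have h9 : finrank F (W ⊓ fixedSpace y : Submodule F (ι → F)) ≤ s := hC ▸ Submodule.finrank_mono inf_le_right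
    refine ⟨w, Nat.le_of_mul_le_mul_right h8 hc0, by omega, lt_of_le_of_ne (by omega) fun h => ?_⟩
    rw [h] at hm
    exact Nat.not_even_iff_odd.2 hm (((hc ▸ SympStep.cOf_even _ : Even c).mul_left w).add hCe)
  · intro H x hx ⟨z, hz⟩ hne
    obtain ⟨e, he, S⟩ := exists_y hQ (by omega) hrp hr2 (fun v => iso_of_omega hx v) hz
    set y := e • Matrix.toLin' (x : Matrix ι ι F) with hy
    obtain ⟨u, hu, hRd, hCn, hRn, hRi, -, hV, hCe⟩ := split_data hι hQ S hi hc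
    have hu0 : 1 ≤ u := by
      by_contra h
      obtain rfl : u = 0 := by omega
      have htop : fixedSpace y = ⊤ := Submodule.eq_top_of_finrank_eq (by rw [finrank_pi, hι]; omega)
      refine hne e (Matrix.toLin'.injective (LinearMap.ext fun v => ?_))
      have hv : y v = v := mem_fixed.1 (htop ▸ Submodule.mem_top)
      rw [map_smul, Matrix.toLin'_one, LinearMap.smul_apply, LinearMap.id_apply]
      conv_rhs => rw [← hv, hy, LinearMap.smul_apply, smul_smul, he, one_smul]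
    obtain ⟨w, hwu, hwm, hms⟩ := H u _ hu0 hu fun hs => by
      rw [hV]; simp [plus_of_finrank_zero (Q := Q) hs]
    subst hi
    have hRC := moved_inf_fixed S
    obtain ⟨U, hUR, hUi, hUn, hUd⟩ := exists_fpf_sub S hRi hRn hRC (w := w)
      (by rw [← hc, hRd]; exact Nat.mul_le_mul_right c hwu)
    rw [← hc] at hUd
    have hoUC : Orth Q U (fixedSpace y) := ((orth_fixed S).mono le_rfl hUR).symm
    have hρ : 1 ≤ m - w * c := by
      by_contra h
      rw [show m = w * c by omega] at hm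
      exact Nat.not_even_iff_odd.2 hm ((hc ▸ SympStep.cOf_even _ : Even c).mul_left w)
    obtain ⟨T₁, T₂, l₁, l₂, n₁, n₂, e₁, e₂, hne'⟩ := sup_two h2 hUn hCn hoUC hρ (by omega)
    rw [hUd] at e₁ e₂
    rcases two_classes n₁ n₂ hn₀ (by omega) (by omega) hne' with h | h
    · exact ⟨U ⊔ T₁, ⟨by omega, n₁, h.symm⟩, inv_back he (hUi.sup (SympStep.fixed_inv (y := y) T₁ l₁))⟩
    · exact ⟨U ⊔ T₂, ⟨by omega, n₂, h.symm⟩, inv_back he (hUi.sup (SympStep.fixed_inv (y := y) T₂ l₂))⟩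

/-! ### Counting -/

theorem card_iso_even {V : Type u} [AddCommGroup V] [Module F V] [FiniteDimensional F V] {R : QuadraticForm F V}
    {W : Submodule F V} (hW : NdOn R W) {k : ℕ} (hd : finrank F W = 2 * (k + 1)) :
    (Plus R W ∧ Nat.card (isoG (R.comp W.subtype)) = 2 * Fintype.card F ^ ((k + 1) * k) *
        (Fintype.card F ^ (k + 1) - 1) * ∏ i ∈ Finset.range k, (Fintype.card F ^ (2 * (i + 1)) - 1)) ∨
      (¬ Plus R W ∧ Nat.card (isoG (R.comp W.subtype)) = 2 * Fintype.card F ^ ((k + 1) * k) *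
        (Fintype.card F ^ (k + 1) + 1) * ∏ i ∈ Finset.range k, (Fintype.card F ^ (2 * (i + 1)) - 1)) := by
  rcases model_cases hW hd with ⟨h, e, he⟩ | ⟨h, ζ, hζ, e, he⟩
  · refine Or.inl ⟨h, ?_⟩
    rw [← card_isoG_congr (Q := plusQ (k + 1) F) (R := R.comp W.subtype) e he, ← card_O_plus k,
      card_isometryGroup (Q := plusQ (k + 1) F) _ (LinearEquiv.refl F _) fun v => (plusQ_apply _ v).symm]
  · refine Or.inr ⟨h, ?_⟩
    rw [← card_isoG_congr (Q := minusQ k 1 ζ) (R := R.comp W.subtype) e he, ← card_O_minus hζ k,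
      card_isometryGroup (Q := minusQ k 1 ζ) _ (LinearEquiv.refl F _) fun v => (minusQ_apply _ _ _ v).symm]

theorem card_iso_top (hQ : Nd Q) {d : ℕ} (hι : Fintype.card ι = 2 * (d + 1)) :
    (Plus Q ⊤ ∧ Nat.card (isoG Q) = 2 * Fintype.card F ^ ((d + 1) * d) *
        (Fintype.card F ^ (d + 1) - 1) * ∏ i ∈ Finset.range d, (Fintype.card F ^ (2 * (i + 1)) - 1)) ∨
      (¬ Plus Q ⊤ ∧ Nat.card (isoG Q) = 2 * Fintype.card F ^ ((d + 1) * d) *
        (Fintype.card F ^ (d + 1) + 1) * ∏ i ∈ Finset.range d, (Fintype.card F ^ (2 * (i + 1)) - 1)) := by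
  have h := card_iso_even (R := Q) (ndOn_top hQ) (k := d) (by rw [finrank_top, finrank_pi, hι])
  rwa [card_isoG_congr (Q := Q.comp (⊤ : Submodule F (ι → F)).subtype) (R := Q) Submodule.topEquiv fun v => rfl] at h

theorem pow_sub_one_iff {r n : ℕ} {q : ℕ} (hq : 1 ≤ q) : r ∣ q ^ n - 1 ↔ (q : ZMod r) ^ n = 1 := by
  rw [← ZMod.natCast_eq_zero_iff, Nat.cast_sub (Nat.one_le_pow _ _ hq), sub_eq_zero, Nat.cast_pow, Nat.cast_one]

theorem pow_add_one_iff {r n : ℕ} {q : ℕ} : r ∣ q ^ n + 1 ↔ (q : ZMod r) ^ n = -1 := by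
  rw [← ZMod.natCast_eq_zero_iff, Nat.cast_add, Nat.cast_pow, Nat.cast_one, add_eq_zero_iff_eq_neg]

/-- The minimal dimension `c` divides `2 n` when `q ^ n = ± 1`, and the sign is the type of `2 n / c` pieces. -/
theorem pieces {p r : ℕ} [Fact p.Prime] [CharP F p] [Fact r.Prime] (hrp : r ≠ p) (hr2 : r ≠ 2) {i c n : ℕ}
    (hi : i = orderOf (Fintype.card F : ZMod r)) (hc : c = cOf i) (b : Prop)
    (h : (b ∧ (Fintype.card F : ZMod r) ^ n = 1) ∨ (¬ b ∧ (Fintype.card F : ZMod r) ^ n = -1)) :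
    c ∣ 2 * n ∧ (b ↔ RPlus i (2 * n / c)) := by
  have hr : r.Prime := Fact.out
  have hi0 : 0 < i := i_pos (p := p) (q := Fintype.card F) (r := r) rfl hr hrp hi
  have h2 : (Fintype.card F : ZMod r) ^ (2 * n) = 1 := by
    rw [mul_comm, pow_mul]; rcases h with ⟨-, h⟩ | ⟨-, h⟩ <;> rw [h] <;> simp
  have hd : i ∣ 2 * n := hi ▸ orderOf_dvd_of_pow_eq_one h2
  rcases Nat.even_or_odd i with hie | hio
  · obtain ⟨b', hb'⟩ := hie.two_dvd
    rw [cOf, if_pos hie] at hc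
    subst hc
    refine ⟨hd, ?_⟩
    obtain ⟨w, hw⟩ := hd
    have hn : n = b' * w := by rw [hb', mul_assoc] at hw; omega
    rw [hw, Nat.mul_div_cancel_left _ hi0, RPlus, or_iff_right (not_not.2 hie)]
    have hb2 : (Fintype.card F : ZMod r) ^ b' * (Fintype.card F : ZMod r) ^ b' = 1 := by
      rw [← pow_add, ← two_mul, ← hb', hi, pow_orderOf_eq_one]
    have hb1 : (Fintype.card F : ZMod r) ^ b' = -1 := (mul_self_eq_one_iff.1 hb2).resolve_left fun h3 => by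
      have := Nat.le_of_dvd (by omega) (orderOf_dvd_of_pow_eq_one h3)
      omega
    have key : (Fintype.card F : ZMod r) ^ n = (-1) ^ w := by rw [hn, pow_mul, hb1]
    rw [key] at h
    rcases Nat.even_or_odd w with hw' | hw' <;> rw [hw'.neg_one_pow] at h
    · exact iff_of_true (h.resolve_right fun h' => neg_one_ne_one hr hr2 h'.2.symm).1 hw'
    · exact iff_of_false (h.resolve_left fun h' => neg_one_ne_one hr hr2 h'.2).1 (Nat.not_even_iff_odd.2 hw')
  · rw [cOf, if_neg (Nat.not_even_iff_odd.2 hio)] at hc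
    have hin : i ∣ n := (Nat.coprime_two_right.2 hio).dvd_of_dvd_mul_left hd
    refine ⟨hc ▸ mul_dvd_mul_left 2 hin, iff_of_true ?_ (Or.inl (Nat.not_even_iff_odd.2 hio))⟩
    rcases h with ⟨h, -⟩ | ⟨-, h⟩
    · exact h
    · exfalso
      obtain ⟨w, hw⟩ := hin
      rw [hw, pow_mul, hi, pow_orderOf_eq_one, one_pow] at h
      exact neg_one_ne_one hr hr2 h.symm

theorem dvd_even {p r : ℕ} [Fact p.Prime] [CharP F p] [Fact r.Prime] {i c j : ℕ}
    (hi : i = orderOf (Fintype.card F : ZMod r)) (hc : c = cOf i)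
    (h : r ∣ Fintype.card F ^ (2 * j) - 1) : c ∣ 2 * j := by
  have h3 : i ∣ 2 * j := hi ▸ orderOf_dvd_of_pow_eq_one ((pow_sub_one_iff Fintype.card_pos).1 h)
  rw [hc, cOf]
  split_ifs with he
  · exact h3
  · exact (Nat.coprime_two_left.2 (Nat.not_even_iff_odd.1 he)).mul_dvd_of_dvd_of_dvd (dvd_mul_right 2 _) h3

/-- The bound forced by the divisibility of the number of even-dimensional subspaces. -/
theorem bound {d : ℕ} (hι : Fintype.card ι = 2 * d) (hQ : Nd Q) {p r : ℕ} [Fact p.Prime] [CharP F p] [Fact r.Prime]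
    (hrp : r ≠ p) (hr2 : r ≠ 2) {a : ℕ} (ha1 : 1 ≤ a) (had : a < d) (b : Prop) {i c : ℕ}
    (hi : i = orderOf (Fintype.card F : ZMod r)) (hc : c = cOf i)
    (hdiv : r ∣ Nat.card {W : Submodule F (ι → F) // finrank F W = 2 * a ∧ NdOn Q W ∧ (Plus Q W ↔ b)}) :
    (2 * d) % c ≤ 2 * a ∧ c ≤ 2 * d ∧
      ((2 * d) % c = 2 * a → 2 * a < c → ¬ (b ↔ (Plus Q ⊤ ↔ RPlus i (2 * d / c)))) := by
  have hr : r.Prime := Fact.out
  have hi0 : 0 < i := i_pos (p := p) (q := Fintype.card F) (r := r) rfl hr hrp hi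
  have hc0 : 0 < c := by rw [hc, cOf]; split_ifs <;> omega
  obtain ⟨U, -, hU, hUd, hUp⟩ := exists_sub (ndOn_top hQ) ha1 (by rw [finrank_top, finrank_pi, hι]; omega) b
  let e : {W : Submodule F (ι → F) // finrank F W = 2 * a ∧ NdOn Q W ∧ (Plus Q W ↔ b)} ≃ Cls Q U :=
    Equiv.subtypeEquivRight fun W => by
    constructor
    · rintro ⟨h1, h2', h3⟩
      exact ⟨h2', isomOn_of_plus_iff h2' hU (by rw [h1]; exact even_two_mul a) (by rw [h1, hUd]) (h3.trans hUp.symm)⟩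
    · rintro ⟨h1, h2'⟩
      exact ⟨h2'.finrank_eq.trans hUd, h1, (⟨h2'.plus, h2'.symm.plus⟩ : Plus Q W ↔ Plus Q U).trans hUp⟩
  obtain ⟨hBn, hsup, hBd⟩ := ndOn_split hU (ndOn_top hQ) le_top
  rw [finrank_top, finrank_pi, hι, hUd] at hBd
  obtain ⟨k, hk⟩ : ∃ k, d = k + 1 := ⟨d - 1, by omega⟩
  obtain ⟨β, hβ⟩ : ∃ β, d - a = β + 1 := ⟨d - a - 1, by omega⟩
  have hV : Plus Q ⊤ ↔ (b ↔ Plus Q (perp Q U ⊤)) := by
    conv_lhs => rw [← hsup]
    rw [plus_sup hU hBn (orth_perp _ _) (by rw [hUd]; exact even_two_mul a)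
      (by rw [show finrank F (perp Q U ⊤) = 2 * (β + 1) by omega]; exact even_two_mul _), hUp]
  haveI : Finite (ι → F) := Pi.finite
  have h := card_cls_dvd hQ hU
  rw [← Nat.card_congr e] at h
  set N := Nat.card {W : Submodule F (ι → F) // finrank F W = 2 * a ∧ NdOn Q W ∧ (Plus Q W ↔ b)}
  set q := Fintype.card F with hq
  have hq2 : 2 ≤ q := Fintype.one_lt_card
  have hrq : ¬ r ∣ q := cast_q_ne hrp
  have hP : 0 < ∏ x ∈ Finset.range β, (q ^ (2 * (x + 1)) - 1) :=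
    Finset.prod_pos fun x _ => Nat.sub_pos_of_lt (Nat.one_lt_pow (by omega) hq2)
  have h4 : q ^ (2 * (β + 1)) - 1 = (q ^ (β + 1) - 1) * (q ^ (β + 1) + 1) := by
    rw [mul_comm (q ^ (β + 1) - 1), ← Nat.sq_sub_sq, one_pow, ← pow_mul, mul_comm 2]
  -- one common shape
  obtain ⟨A, B', hA, hB, hA', hB'⟩ : ∃ A B' : ℕ,
      ((Plus Q ⊤ ∧ A = q ^ (k + 1) - 1) ∨ (¬ Plus Q ⊤ ∧ A = q ^ (k + 1) + 1)) ∧
      ((Plus Q (perp Q U ⊤) ∧ B' = q ^ (β + 1) + 1) ∨ (¬ Plus Q (perp Q U ⊤) ∧ B' = q ^ (β + 1) - 1)) ∧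
      N * (q ^ ((β + 1) * β)) ∣ q ^ ((k + 1) * k) * A * B' * ∏ x ∈ Finset.Ico (β + 1) k, (q ^ (2 * (x + 1)) - 1) ∧
      True := by
    have hsplit : ∏ x ∈ Finset.range k, (q ^ (2 * (x + 1)) - 1) = (∏ x ∈ Finset.range β, (q ^ (2 * (x + 1)) - 1)) *
        (q ^ (2 * (β + 1)) - 1) * ∏ x ∈ Finset.Ico (β + 1) k, (q ^ (2 * (x + 1)) - 1) := by
      rw [← Finset.prod_range_succ, Finset.prod_range_mul_prod_Ico _ (show β + 1 ≤ k by omega)]
    have hm1 : 0 < q ^ (β + 1) - 1 := Nat.sub_pos_of_lt (Nat.one_lt_pow (by omega) hq2)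
    rcases card_iso_top hQ (d := k) (by omega) with ⟨hv, hVc⟩ | ⟨hv, hVc⟩ <;>
      rcases card_iso_even hBn (k := β) (by omega) with ⟨hb, hBc⟩ | ⟨hb, hBc⟩ <;>
      rw [hVc, hBc, ← hq, hsplit, h4] at h
    · exact ⟨_, _, Or.inl ⟨hv, rfl⟩, Or.inl ⟨hb, rfl⟩, Nat.dvd_of_mul_dvd_mul_left
        (show 0 < 2 * (q ^ (β + 1) - 1) * ∏ x ∈ Finset.range β, (q ^ (2 * (x + 1)) - 1) from by positivity)
        (by convert h using 1 <;> ring), trivial⟩
    · exact ⟨_, _, Or.inl ⟨hv, rfl⟩, Or.inr ⟨hb, rfl⟩, Nat.dvd_of_mul_dvd_mul_left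
        (show 0 < 2 * (q ^ (β + 1) + 1) * ∏ x ∈ Finset.range β, (q ^ (2 * (x + 1)) - 1) from by positivity)
        (by convert h using 1 <;> ring), trivial⟩
    · exact ⟨_, _, Or.inr ⟨hv, rfl⟩, Or.inl ⟨hb, rfl⟩, Nat.dvd_of_mul_dvd_mul_left
        (show 0 < 2 * (q ^ (β + 1) - 1) * ∏ x ∈ Finset.range β, (q ^ (2 * (x + 1)) - 1) from by positivity)
        (by convert h using 1 <;> ring), trivial⟩
    · exact ⟨_, _, Or.inr ⟨hv, rfl⟩, Or.inr ⟨hb, rfl⟩, Nat.dvd_of_mul_dvd_mul_left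
        (show 0 < 2 * (q ^ (β + 1) + 1) * ∏ x ∈ Finset.range β, (q ^ (2 * (x + 1)) - 1) from by positivity)
        (by convert h using 1 <;> ring), trivial⟩
  have hmodlt := Nat.mod_lt (2 * d) hc0
  rcases hr.dvd_mul.1 ((dvd_mul_of_dvd_left hdiv _).trans hA') with h1 | h1
  · rcases hr.dvd_mul.1 h1 with h1 | h1
    · rcases hr.dvd_mul.1 h1 with h1 | h1
      · exact absurd (hr.dvd_of_dvd_pow h1) hrq
      · obtain ⟨hd', -⟩ := pieces hrp hr2 hi hc (Plus Q ⊤) (n := k + 1) (by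
          rcases hA with ⟨hv, rfl⟩ | ⟨hv, rfl⟩
          · exact Or.inl ⟨hv, (pow_sub_one_iff (by omega)).1 h1⟩
          · exact Or.inr ⟨hv, pow_add_one_iff.1 h1⟩)
        rw [← hk] at hd'
        rw [Nat.mod_eq_zero_of_dvd hd']
        exact ⟨Nat.zero_le _, Nat.le_of_dvd (by omega) hd', fun h => by omega⟩
    · obtain ⟨hd', htype⟩ := pieces hrp hr2 hi hc (¬ Plus Q (perp Q U ⊤)) (n := β + 1) (by
        rcases hB with ⟨hb, rfl⟩ | ⟨hb, rfl⟩
        · exact Or.inr ⟨not_not.2 hb, pow_add_one_iff.1 h1⟩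
        · exact Or.inl ⟨hb, (pow_sub_one_iff (by omega)).1 h1⟩)
      obtain ⟨u, hu⟩ := hd'
      have hmod : 2 * d % c = 2 * a % c := by
        rw [show 2 * d = 2 * a + c * u by omega, Nat.add_mul_mod_self_left]
      refine ⟨hmod ▸ Nat.mod_le _ _, (Nat.le_of_dvd (by omega) ⟨u, hu⟩).trans (by omega), fun _ hlt => ?_⟩
      rw [show 2 * d / c = u by
        rw [show 2 * d = 2 * a + c * u by omega, Nat.add_mul_div_left _ _ hc0, Nat.div_eq_of_lt hlt, zero_add]]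
      rw [hu, Nat.mul_div_cancel_left _ hc0] at htype
      exact iff_not_chain hV htype
  · obtain ⟨j, hj, hjd⟩ := (Prime.dvd_finsetProd_iff (Nat.prime_iff.1 hr) _).1 h1
    rw [Finset.mem_Ico] at hj
    obtain ⟨u, hu⟩ := dvd_even (p := p) hi hc hjd
    have hlt : 2 * d % c < 2 * a := by
      rw [show 2 * d = 2 * (d - (j + 1)) + c * u by omega, Nat.add_mul_mod_self_left]
      exact (Nat.mod_le _ _).trans_lt (by omega)
    exact ⟨hlt.le, (Nat.le_of_dvd (by omega) ⟨u, hu⟩).trans (by omega), fun h => by omega⟩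

/-- The bound forced by the divisibility of the number of odd-dimensional subspaces of a class. -/
theorem bound_cls (h2 : (2 : F) ≠ 0) {d : ℕ} (hι : Fintype.card ι = 2 * d) (hQ : Nd Q) {p r : ℕ} [Fact p.Prime]
    [CharP F p] [Fact r.Prime] (hrp : r ≠ p) (hr2 : r ≠ 2) {m : ℕ} (hm : Odd m) (hmd : m < 2 * d)
    {W₀ : Submodule F (ι → F)} (hW₀ : finrank F W₀ = m) (hn₀ : NdOn Q W₀) {i c : ℕ}
    (hi : i = orderOf (Fintype.card F : ZMod r)) (hc : c = cOf i)
    (hdiv : r ∣ Nat.card {W : Submodule F (ι → F) // finrank F W = m ∧ NdOn Q W ∧ IsomOn Q W W₀}) :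
    (2 * d) % c < m ∧ c ≤ 2 * d := by
  have hr : r.Prime := Fact.out
  let e : {W : Submodule F (ι → F) // finrank F W = m ∧ NdOn Q W ∧ IsomOn Q W W₀} ≃ Cls Q W₀ :=
    Equiv.subtypeEquivRight fun W => ⟨fun h => h.2, fun h => ⟨h.2.finrank_eq.trans hW₀, h⟩⟩
  obtain ⟨hBn, -, hBd⟩ := ndOn_split hn₀ (ndOn_top hQ) le_top
  rw [finrank_top, finrank_pi, hι, hW₀] at hBd
  obtain ⟨m', rfl⟩ := hm
  obtain ⟨k, hk⟩ : ∃ k, d = k + 1 := ⟨d - 1, by omega⟩
  obtain ⟨β, hβ⟩ : ∃ β, d = β + m' + 1 := ⟨d - m' - 1, by omega⟩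
  haveI : Finite (ι → F) := Pi.finite
  have h := card_cls_dvd hQ hn₀
  rw [← Nat.card_congr e, card_iso_odd h2 hBn (k := β) (by omega)] at h
  set q := Fintype.card F with hq
  have hP : 0 < ∏ x ∈ Finset.range β, (q ^ (2 * (x + 1)) - 1) :=
    Finset.prod_pos fun x _ => Nat.sub_pos_of_lt (Nat.one_lt_pow (by omega) Fintype.one_lt_card)
  set N := Nat.card {W : Submodule F (ι → F) // finrank F W = 2 * m' + 1 ∧ NdOn Q W ∧ IsomOn Q W W₀}
  obtain ⟨A, hA, hA'⟩ : ∃ A : ℕ, ((Plus Q ⊤ ∧ A = q ^ (k + 1) - 1) ∨ (¬ Plus Q ⊤ ∧ A = q ^ (k + 1) + 1)) ∧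
      N * q ^ (β ^ 2) ∣ q ^ ((k + 1) * k) * A * ∏ x ∈ Finset.Ico β k, (q ^ (2 * (x + 1)) - 1) := by
    rcases card_iso_top hQ (d := k) (by omega) with ⟨hv, hVc⟩ | ⟨hv, hVc⟩ <;>
      rw [hVc, ← hq, ← Finset.prod_range_mul_prod_Ico (fun x => q ^ (2 * (x + 1)) - 1) (show β ≤ k by omega)] at h
    · exact ⟨_, Or.inl ⟨hv, rfl⟩, Nat.dvd_of_mul_dvd_mul_left
        (show 0 < 2 * ∏ x ∈ Finset.range β, (q ^ (2 * (x + 1)) - 1) from by positivity)
        (by convert h using 1 <;> ring)⟩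
    · exact ⟨_, Or.inr ⟨hv, rfl⟩, Nat.dvd_of_mul_dvd_mul_left
        (show 0 < 2 * ∏ x ∈ Finset.range β, (q ^ (2 * (x + 1)) - 1) from by positivity)
        (by convert h using 1 <;> ring)⟩
  rcases hr.dvd_mul.1 ((dvd_mul_of_dvd_left hdiv _).trans hA') with h1 | h1
  · rcases hr.dvd_mul.1 h1 with h1 | h1
    · exact absurd (hr.dvd_of_dvd_pow h1) (cast_q_ne hrp)
    · obtain ⟨hd', -⟩ := pieces hrp hr2 hi hc (Plus Q ⊤) (n := k + 1) (by
        rcases hA with ⟨hv, rfl⟩ | ⟨hv, rfl⟩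
        · exact Or.inl ⟨hv, (pow_sub_one_iff Fintype.card_pos).1 h1⟩
        · exact Or.inr ⟨hv, pow_add_one_iff.1 h1⟩)
      rw [← hk] at hd'
      rw [Nat.mod_eq_zero_of_dvd hd']
      exact ⟨by omega, Nat.le_of_dvd (by omega) hd'⟩
  · obtain ⟨j, hj, hjd⟩ := (Prime.dvd_finsetProd_iff (Nat.prime_iff.1 hr) _).1 h1
    rw [Finset.mem_Ico] at hj
    obtain ⟨u, hu⟩ := dvd_even (p := p) hi hc hjd
    refine ⟨?_, (Nat.le_of_dvd (by omega) ⟨u, hu⟩).trans (by omega)⟩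
    rw [show 2 * d = 2 * (d - (j + 1)) + c * u by omega, Nat.add_mul_mod_self_left]
    exact (Nat.mod_le _ _).trans_lt (by omega)

end Cfsg.Agent.Lib.Elusive.OrthEven
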