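import Cfsg.Agent.Lib.Elusive.OrthSingTwo

/-!
# Conjugacy of rotations and elements commuting with them
-/

set_option autoImplicit false
set_option maxHeartbeats 1000000

namespace Cfsg.Agent.Lib.Elusive.OrthRotConj

open Module QuadraticMap
open Cfsg.Agent.Lib.Classical.Quad Cfsg.Agent.Lib.Classical.QuadOmega
open Cfsg.Agent.Lib.Classical.QuadF2 Cfsg.Agent.Lib.Classical.OrthTorsion Cfsg.Agent.Lib.Elusive.OrthType
open Cfsg.Agent.Lib.Elusive.OrthInvol Cfsg.Agent.Lib.Elusive.OrthSingTwo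

universe u

variable {F : Type u} [Field F] [Fintype F] {V : Type u} [AddCommGroup V] [Module F V] [FiniteDimensional F V]
variable {Q : QuadraticForm F V}

omit [Fintype F] in
/-- A rotated vector is orthogonal to the vector. -/
theorem polar_rot (h2 : (2 : F) ≠ 0) {y : Module.End F V} {U : Submodule F V} (h : Rot Q y U) {v : V} (hv : v ∈ U) :
    polar Q (y v) v = 0 := by
  have e := h.polar_eq (h.inv v hv) hv
  rw [h.sq v hv, polar_neg_left, polar_comm Q v (y v)] at e
  have : (2 : F) * polar Q (y v) v = 0 := by linear_combination -e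
  exact (mul_eq_zero.1 this).resolve_left h2

/-- The standard rotation. -/
def stdJ (F : Type u) [Field F] (n : ℕ) : (Fin n ⊕ Fin n → F) →ₗ[F] (Fin n ⊕ Fin n → F) where
  toFun v := Sum.elim (fun i => -v (.inr i)) fun i => v (.inl i)
  map_add' a b := by ext (i | i) <;> simp [add_comm]
  map_smul' t a := by ext (i | i) <;> simp

omit [Fintype F] in
theorem sqSum_apply (n : ℕ) (w : Fin n ⊕ Fin n → F) :
    sqSum F n w = ∑ i, w (.inl i) * w (.inl i) + ∑ i, w (.inr i) * w (.inr i) := by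
  simp [sqSum, weightedSumSquares_apply]

/-- A rotated space has a frame of rotated vectors of value one. -/
theorem exists_frame (h2 : (2 : F) ≠ 0) {y : Module.End F V} : ∀ (n : ℕ) {U : Submodule F V},
    finrank F U = 2 * n → Rot Q y U → NdOn Q U →
    ∃ e : (Fin n ⊕ Fin n → F) →ₗ[F] V, (∀ w, e w ∈ U) ∧ (∀ w, Q (e w) = sqSum F n w) ∧
      ∀ w, e (stdJ F n w) = y (e w) := by
  intro n
  induction n with
  | zero =>
    intro U _ _ _
    exact ⟨0, fun w => U.zero_mem, fun w => by simp [sqSum_apply], fun w => by simp⟩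
  | succ n ih =>
    intro U hd h hU
    obtain ⟨⟨v, hv⟩, hQv⟩ := Nd.exists_eq hU.res h2 (by omega) (1 : F)
    change Q v = 1 at hQv
    have hw := h.inv v hv
    have hQw : Q (y v) = 1 := (h.iso v hv).trans hQv
    have hb := polar_rot h2 h hv
    obtain ⟨hPn, hPd, -⟩ := plane_plus h2 (v := v) (w := y v) (by rw [hQv]; exact one_ne_zero)
      (by rw [hQw]; exact one_ne_zero) (by rw [polar_comm]; exact hb)
    set P := Submodule.span F {v} ⊔ Submodule.span F {y v} with hP
    have hPU : P ≤ U := sup_le ((Submodule.span_singleton_le_iff_mem _ _).2 hv)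
      ((Submodule.span_singleton_le_iff_mem _ _).2 hw)
    have hPi : Inv y P := fun x hx => by
      obtain ⟨a, ha, c, hc, rfl⟩ := Submodule.mem_sup.1 hx
      obtain ⟨s, rfl⟩ := Submodule.mem_span_singleton.1 ha
      obtain ⟨t, rfl⟩ := Submodule.mem_span_singleton.1 hc
      rw [map_add, map_smul, map_smul, h.sq v hv, smul_neg, ← neg_smul, add_comm]
      exact Submodule.add_mem_sup (Submodule.smul_mem _ _ (Submodule.mem_span_singleton_self v))
        (Submodule.smul_mem _ _ (Submodule.mem_span_singleton_self (y v)))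
    obtain ⟨hRn, -, hRd⟩ := ndOn_split hPn hU hPU
    obtain ⟨e, heR, heQ, hey⟩ := ih (U := OrthType.perp Q P U) (by omega) (h.perp h2 hPU hPi) hRn
    let tl : (Fin (n + 1) ⊕ Fin (n + 1) → F) →ₗ[F] (Fin n ⊕ Fin n → F) :=
      LinearMap.funLeft F F (Sum.map Fin.succ Fin.succ)
    let e' : (Fin (n + 1) ⊕ Fin (n + 1) → F) →ₗ[F] V :=
      (LinearMap.proj (Sum.inl 0)).smulRight v + (LinearMap.proj (Sum.inr 0)).smulRight (y v) + e ∘ₗ tl
    have he' : ∀ w, e' w = w (.inl 0) • v + w (.inr 0) • y v + e (tl w) := fun w => rfl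
    refine ⟨e', fun w => ?_, fun w => ?_, fun w => ?_⟩
    · rw [he']
      exact U.add_mem (U.add_mem (U.smul_mem _ hv) (U.smul_mem _ hw)) (mem_perp.1 (heR _)).1
    · rw [he', QuadraticMap.map_add ⇑Q, QuadraticMap.map_add ⇑Q, QuadraticMap.map_smul, QuadraticMap.map_smul,
        hQv, hQw, heQ, polar_smul_left, polar_smul_right, polar_comm Q v, hb,
        (mem_perp.1 (heR (tl w))).2 _ (Submodule.add_mem_sup
          (Submodule.smul_mem _ _ (Submodule.mem_span_singleton_self v))
          (Submodule.smul_mem _ _ (Submodule.mem_span_singleton_self (y v)))), sqSum_apply, sqSum_apply,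
        Fin.sum_univ_succ, Fin.sum_univ_succ]
      simp [tl, LinearMap.funLeft_apply]
      ring
    · rw [he', he', map_add, map_add, map_smul, map_smul, h.sq v hv, ← hey,
        show tl (stdJ F (n + 1) w) = stdJ F n (tl w) by ext (i | i) <;> simp [tl, stdJ, LinearMap.funLeft_apply]]
      simp only [stdJ, LinearMap.coe_mk, AddHom.coe_mk, Sum.elim_inl, Sum.elim_inr, neg_smul, smul_neg]
      abel

/-- Two rotations of the whole space are conjugate. -/
theorem rot_conj (hQ : Nd Q) (h2 : (2 : F) ≠ 0) (g g' : isoG Q) (hg : Rot Q (g.1 : V →ₗ[F] V) ⊤)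
    (hg' : Rot Q (g'.1 : V →ₗ[F] V) ⊤) : ∃ φ : isoG Q, g' * φ = φ * g := by
  obtain ⟨d, hd, -⟩ := rot_type h2 _ (U := ⊤) rfl hg (ndOn_top hQ)
  obtain ⟨e, -, heQ, hey⟩ := exists_frame h2 d (U := ⊤) hd hg (ndOn_top hQ)
  obtain ⟨e', -, heQ', hey'⟩ := exists_frame h2 d (U := ⊤) hd hg' (ndOn_top hQ)
  rw [finrank_top] at hd
  have hdim : finrank F (Fin d ⊕ Fin d → F) = finrank F V := by rw [hd]; simp [two_mul]
  have hinj : ∀ f : (Fin d ⊕ Fin d → F) →ₗ[F] V, (∀ w, Q (f w) = sqSum F d w) → Function.Bijective f := by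
    intro f hf
    have hi : Function.Injective f := (injective_iff_map_eq_zero f).2 fun w hw => by
      have hp : ∀ z, polar (sqSum F d) w z = 0 := fun z => by
        simp only [polar, ← hf, map_add, hw, zero_add, map_zero, sub_zero, sub_self]
      funext s
      have := hp (Pi.single s 1)
      rcases s with i | i
      · simp [polar, sqSum_apply, Pi.single_apply, add_mul, mul_add, Finset.sum_add_distrib] at this
        exact (mul_eq_zero.1 (show (2 : F) * w (.inl i) = 0 by linear_combination this)).resolve_left h2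
      · simp [polar, sqSum_apply, Pi.single_apply, add_mul, mul_add, Finset.sum_add_distrib] at this
        exact (mul_eq_zero.1 (show (2 : F) * w (.inr i) = 0 by linear_combination this)).resolve_left h2
    exact ⟨hi, (LinearMap.injective_iff_surjective_of_finrank_eq_finrank hdim).1 hi⟩
  let E₁ := LinearEquiv.ofBijective e (hinj e heQ)
  let E₂ := LinearEquiv.ofBijective e' (hinj e' heQ')
  refine ⟨⟨E₁.symm.trans E₂, fun v => ?_⟩, iso_ext fun v => ?_⟩
  · obtain ⟨w, rfl⟩ := E₁.surjective v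
    show Q (E₂ (E₁.symm (E₁ w))) = Q (E₁ w)
    rw [E₁.symm_apply_apply]
    exact (heQ' w).trans (heQ w).symm
  · obtain ⟨w, rfl⟩ := E₁.surjective v
    show g'.1 (E₂ (E₁.symm (E₁ w))) = E₂ (E₁.symm (g.1 (E₁ w)))
    rw [show g.1 (E₁ w) = E₁ (stdJ F d w) from (hey w).symm, E₁.symm_apply_apply, E₁.symm_apply_apply]
    exact (hey' w).symm

omit [Fintype F] in
/-- Conjugating a rotation by a reflection. -/
theorem flip_eq (h2 : (2 : F) ≠ 0) (g : isoG Q) (hg : Rot Q (g.1 : V →ₗ[F] V) ⊤) {v : V} (hv : Q v ≠ 0) (u : V) :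
    (refl Q v * g * refl Q v).1 u = g.1 u + (Q v)⁻¹ • (polar Q u (g.1 v) • v - polar Q u v • g.1 v) := by
  have hb : polar Q (g.1 v) v = 0 := polar_rot h2 hg (v := v) trivial
  have hs : g.1 (g.1 v) = -v := hg.sq v trivial
  have hgu : polar Q (g.1 u) v = -polar Q u (g.1 v) := by
    have e : v = -g.1 (g.1 v) := by rw [hs, neg_neg]
    conv_lhs => rw [e]
    rw [polar_neg_right, iso_B]
  show (refl Q v).1 (g.1 ((refl Q v).1 u)) = _
  rw [refl_apply hv u, map_sub, map_smul, refl_apply hv, polar_sub_left, polar_smul_left, hb, hgu]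
  simp only [smul_eq_mul, mul_zero, sub_zero]
  rw [smul_sub, smul_smul, smul_smul, neg_div, neg_smul, div_eq_inv_mul, div_eq_inv_mul]
  abel

theorem exists_sq_add_sq (h2 : (2 : F) ≠ 0) (c : F) : ∃ s t : F, s ^ 2 + t ^ 2 = c := by
  have hodd : Fintype.card F % 2 = 1 := by
    refine FiniteField.odd_card_of_char_ne_two fun h => ?_
    haveI := ringChar.of_eq h
    exact h2 CharTwo.two_eq_zero
  obtain ⟨s, t, hst⟩ := FiniteField.exists_root_sum_quadratic (f := (Polynomial.X ^ 2 : Polynomial F))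
    (g := (Polynomial.X ^ 2 - Polynomial.C c)) (Polynomial.degree_X_pow 2)
    (Polynomial.degree_X_pow_sub_C (by norm_num) c) hodd
  refine ⟨s, t, ?_⟩
  simp at hst
  linear_combination hst

/-- A commuting element of non-trivial spinor norm. -/
theorem exists_comm_spn [Finite V] (hQ : Nd Q) (h2 : (2 : F) ≠ 0) (hV : 0 < finrank F V) (g : isoG Q)
    (hg : Rot Q (g.1 : V →ₗ[F] V) ⊤) :
    ∃ k : isoG Q, k * g = g * k ∧ dick hQ k = 1 ∧ spn hQ k = -1 := by
  haveI : Nontrivial V := Module.nontrivial_of_finrank_pos hV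
  obtain ⟨v, hv⟩ := Nd.exists_nonsing hQ
  obtain ⟨ν, hν⟩ := FiniteField.exists_nonsquare (F := F) fun h => h2 (by
    haveI := ringChar.of_eq h; exact CharTwo.two_eq_zero)
  obtain ⟨a, t, hat⟩ := exists_sq_add_sq h2 ν
  have ht : t ≠ 0 := fun e => hν ⟨a, by rw [← hat, e]; ring⟩
  have hns : ¬ IsSquare (1 + (a / t) ^ 2) := fun ⟨z, hz⟩ => hν ⟨t * z, by
    rw [show t * z * (t * z) = t ^ 2 * (z * z) by ring, ← hz, ← hat]
    field_simp
    ring⟩
  set s := a / t
  have hb : polar Q (g.1 v) v = 0 := polar_rot h2 hg (v := v) trivial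
  have hs0 : 1 + s ^ 2 ≠ 0 := fun e => hns (e ▸ IsSquare.zero)
  set w := v + s • g.1 v with hw
  have hQw : Q w = (1 + s ^ 2) * Q v := by
    rw [hw, QuadraticMap.map_add ⇑Q, QuadraticMap.map_smul, polar_smul_right, polar_comm Q v, hb, iso_Q, smul_zero,
      smul_eq_mul]
    ring
  have hw0 : Q w ≠ 0 := by rw [hQw]; exact mul_ne_zero hs0 hv
  have hgw : g.1 w = g.1 v - s • v := by
    rw [hw, map_add, map_smul, show g.1 (g.1 v) = -v from hg.sq v trivial, smul_neg, sub_eq_add_neg]
  have hflip : refl Q w * g * refl Q w = refl Q v * g * refl Q v := iso_ext fun u => by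
    rw [flip_eq h2 g hg hw0, flip_eq h2 g hg hv, hQw, hgw, hw, polar_sub_right, polar_add_right, polar_smul_right,
      polar_smul_right]
    simp only [smul_eq_mul]
    match_scalars <;> field_simp <;> ring
  refine ⟨refl Q w * refl Q v, ?_, ?_, ?_⟩
  · calc refl Q w * refl Q v * g = refl Q w * (refl Q v * g * refl Q v) * refl Q v := by
          simp only [mul_assoc, refl_mul_self hv, mul_one]
      _ = g * (refl Q w * refl Q v) := by
          rw [← hflip]
          simp only [← mul_assoc, refl_mul_self hw0, one_mul]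
  · rw [map_mul, dick_refl hQ hw0, dick_refl hQ hv]; decide
  · rw [map_mul, spn_refl hQ h2 hw0, spn_refl hQ h2 hv, hQw, sqSign_mul hs0 hv, mul_assoc, Int.units_mul_self,
      mul_one, sqSign, if_neg hns]

/-- Elements commuting with an isometry that fixes a plane, with prescribed invariants. -/
theorem exists_comm_fix [Finite V] (hQ : Nd Q) (h2 : (2 : F) ≠ 0) (g : isoG Q) {W : Submodule F V} (hW : NdOn Q W)
    (hd : 2 ≤ finrank F W) (hfix : ∀ v ∈ W, g.1 v = v) (δ σ : ℤˣ) :
    ∃ k : isoG Q, k * g = g * k ∧ dick hQ k = δ ∧ spn hQ k = σ := by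
  obtain ⟨ν, hν⟩ := FiniteField.exists_nonsquare (F := F) fun h => h2 (by
    haveI := ringChar.of_eq h; exact CharTwo.two_eq_zero)
  have key : ∀ c : F, c ≠ 0 → ∃ k : isoG Q, k * g = g * k ∧ dick hQ k = -1 ∧ spn hQ k = sqSign c := by
    intro c hc
    obtain ⟨⟨v, hv⟩, hQv⟩ := Nd.exists_eq hW.res h2 hd c
    change Q v = c at hQv
    have hv0 : Q v ≠ 0 := by rw [hQv]; exact hc
    refine ⟨refl Q v, ?_, dick_refl hQ hv0, by rw [spn_refl hQ h2 hv0, hQv]⟩
    have := refl_conj hv0 g
    rw [hfix v hv, mul_inv_eq_iff_eq_mul] at this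
    exact this.symm
  obtain ⟨k₁, hk₁, hd₁, hs₁⟩ := key 1 one_ne_zero
  obtain ⟨k₂, hk₂, hd₂, hs₂⟩ := key ν fun e => hν (e ▸ IsSquare.zero)
  rw [sqSign_one] at hs₁
  rw [sqSign, if_neg hν] at hs₂
  rcases Int.units_eq_one_or δ with rfl | rfl <;> rcases Int.units_eq_one_or σ with rfl | rfl
  · exact ⟨1, by rw [one_mul, mul_one], map_one _, map_one _⟩
  · exact ⟨k₁ * k₂, by rw [mul_assoc, hk₂, ← mul_assoc, hk₁, mul_assoc], by rw [map_mul, hd₁, hd₂]; decide,
      by rw [map_mul, hs₁, hs₂, one_mul]⟩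
  · exact ⟨k₁, hk₁, hd₁, hs₁⟩
  · exact ⟨k₂, hk₂, hd₂, hs₂⟩

end Cfsg.Agent.Lib.Elusive.OrthRotConj
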