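import Cfsg.Agent.Lib.Elusive.OrthEven

/-!
Elements with scalar square of orthogonal groups in odd characteristic.
-/

set_option autoImplicit false
set_option maxHeartbeats 1000000

namespace Cfsg.Agent.Lib.Elusive.OrthInvol

open Module QuadraticMap
open scoped Matrix
open Cfsg.Agent.Lib.Classical.Quad Cfsg.Agent.Lib.Classical.QuadOmega
open Cfsg.Agent.Lib.Classical.QuadF2 Cfsg.Agent.Lib.Classical.OrthTorsion Cfsg.Agent.Lib.Elusive.OrthType
open Cfsg.Agent.Lib.Forms (isoMat isoMat_mulVec)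

universe u

variable {F : Type u} [Field F] {V : Type u} [AddCommGroup V] [Module F V] [FiniteDimensional F V]
variable {Q : QuadraticForm F V} {y : Module.End F V}

/-- `y` acts on `U` as an isometry with square minus one. -/
structure Rot (Q : QuadraticForm F V) (y : Module.End F V) (U : Submodule F V) : Prop where
  inv : Inv y U
  sq : ∀ v ∈ U, y (y v) = -v
  iso : ∀ v ∈ U, Q (y v) = Q v

theorem Rot.polar_eq {U : Submodule F V} (h : Rot Q y U) {v w : V} (hv : v ∈ U) (hw : w ∈ U) :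
    polar Q (y v) (y w) = polar Q v w := by
  simp [polar, ← map_add, h.iso _ (U.add_mem hv hw), h.iso v hv, h.iso w hw]

theorem Rot.perp (h2 : (2 : F) ≠ 0) {U K : Submodule F V} (h : Rot Q y U) (hKU : K ≤ U) (hK : Inv y K) :
    Rot Q y (OrthType.perp Q K U) := by
  have _ := h2
  refine ⟨fun v hv => mem_perp.2 ⟨h.inv v (mem_perp.1 hv).1, fun k hk => ?_⟩, fun v hv => h.sq v (mem_perp.1 hv).1,
    fun v hv => h.iso v (mem_perp.1 hv).1⟩
  have e : k = -y (y k) := by rw [h.sq k (hKU hk), neg_neg]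
  rw [e, polar_neg_left, h.polar_eq (h.inv k (hKU hk)) (mem_perp.1 hv).1, (mem_perp.1 hv).2 _ (hK k hk), neg_zero]

/-- An invariant plane with data. -/
theorem exists_plane (h2 : (2 : F) ≠ 0) {U : Submodule F V} (h : Rot Q y U) (hU : NdOn Q U) (hd : 0 < finrank F U) :
    ∃ v ∈ U, Q v ≠ 0 ∧ polar Q (y v) v = 0 ∧ ∃ P ≤ U, (∀ w, w ∈ P ↔ ∃ a b : F, a • v + b • y v = w) ∧ Inv y P ∧
      NdOn Q P ∧ finrank F P = 2 ∧ (Plus Q P ↔ IsSquare (-1 : F)) := by
  obtain ⟨v, hv, hQv⟩ : ∃ v ∈ U, Q v ≠ 0 := by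
    by_contra! hall
    have : U = ⊥ := eq_bot_iff.2 fun x hx => (Submodule.mem_bot F).2 <| hU x hx fun z hz => by
      rw [polar, hall _ (U.add_mem hx hz), hall _ hx, hall _ hz]; simp
    rw [this, finrank_bot] at hd
    omega
  have hb : polar Q (y v) v = 0 := by
    have e := h.polar_eq (h.inv v hv) hv
    rw [h.sq v hv, polar_neg_left, polar_comm Q v (y v)] at e
    have : (2 : F) * polar Q (y v) v = 0 := by linear_combination -e
    exact (mul_eq_zero.1 this).resolve_left h2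
  let L : (Fin 2 → F) →ₗ[F] V :=
    { toFun := fun c => c 0 • v + c 1 • y v
      map_add' := fun a b => by simp only [Pi.add_apply, add_smul]; abel
      map_smul' := fun t a => by simp only [Pi.smul_apply, smul_eq_mul, RingHom.id_apply, smul_add, smul_smul] }
  have hL : ∀ c, L c = c 0 • v + c 1 • y v := fun c => rfl
  have hQL : ∀ c, Q (L c) = (c 0 * c 0 + c 1 * c 1) * Q v := fun c => by
    rw [hL, QuadraticMap.map_add ⇑Q, QuadraticMap.map_smul, QuadraticMap.map_smul, h.iso v hv, polar_smul_left,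
      polar_smul_right, polar_comm Q v, hb]
    simp only [smul_eq_mul]
    ring
  have key : ∀ c, polar Q (L c) v = 0 → polar Q (L c) (y v) = 0 → c = 0 := by
    intro c h1 h3
    rw [hL, polar_add_left, polar_smul_left, polar_smul_left, hb, polar_self, smul_eq_mul, smul_eq_mul, mul_zero,
      add_zero, two_nsmul, ← two_mul] at h1
    rw [hL, polar_add_left, polar_smul_left, polar_smul_left, polar_comm Q v, hb, polar_self, h.iso v hv, smul_eq_mul,
      smul_eq_mul, mul_zero, zero_add, two_nsmul, ← two_mul] at h3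
    funext i
    fin_cases i
    · exact (mul_eq_zero.1 h1).resolve_right (mul_ne_zero h2 hQv)
    · exact (mul_eq_zero.1 h3).resolve_right (mul_ne_zero h2 hQv)
  have hLi : Function.Injective L := (injective_iff_map_eq_zero L).2 fun c hc =>
    key c (by rw [hc, polar_zero_left]) (by rw [hc, polar_zero_left])
  have hd2 : finrank F (LinearMap.range L) = 2 := by rw [LinearMap.finrank_range_of_inj hLi]; simp
  refine ⟨v, hv, hQv, hb, LinearMap.range L, ?_, fun w => ⟨?_, ?_⟩, ?_, ?_, hd2, ?_⟩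
  · rintro _ ⟨c, rfl⟩
    exact U.add_mem (U.smul_mem _ hv) (U.smul_mem _ (h.inv v hv))
  · rintro ⟨c, rfl⟩
    exact ⟨c 0, c 1, rfl⟩
  · rintro ⟨a, b, rfl⟩
    exact ⟨![a, b], by simp [hL]⟩
  · rintro _ ⟨c, rfl⟩
    refine ⟨![-c 1, c 0], ?_⟩
    rw [hL, hL, map_add, map_smul, map_smul, h.sq v hv]
    simp [add_comm]
  · rintro _ ⟨c, rfl⟩ hx
    rw [key c (hx v ⟨![1, 0], by simp [hL]⟩) (hx _ ⟨![0, 1], by simp [hL]⟩), map_zero]
  · constructor
    · rintro ⟨T, hT, hTS, hTd⟩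
      obtain ⟨x, hx, hx0⟩ : ∃ x ∈ T, x ≠ 0 := Submodule.exists_mem_ne_zero_of_ne_bot fun e => by
        rw [e, finrank_bot, hd2] at hTd; omega
      obtain ⟨c, rfl⟩ := hT hx
      have e := hTS _ hx
      rw [hQL] at e
      have e' := (mul_eq_zero.1 e).resolve_right hQv
      have hc1 : c 1 ≠ 0 := fun e1 => by
        rw [e1, mul_zero, add_zero] at e'
        refine hx0 ?_
        rw [hL, e1, mul_self_eq_zero.1 e', zero_smul, zero_smul, add_zero]
      refine ⟨c 0 / c 1, ?_⟩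
      field_simp
      linear_combination -e'
    · rintro ⟨t, ht⟩
      refine ⟨Submodule.span F {L ![t, 1]}, ?_, ?_, ?_⟩
      · rw [Submodule.span_singleton_le_iff_mem]; exact ⟨_, rfl⟩
      · intro x hx
        obtain ⟨s, rfl⟩ := Submodule.mem_span_singleton.1 hx
        rw [QuadraticMap.map_smul, hQL]
        simp [← ht]
      · rw [finrank_span_singleton fun e => one_ne_zero (congrFun (hLi (e.trans (map_zero L).symm)) 1), hd2]

variable [Fintype F]

/-- Type and dimension of a rotated space. -/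
theorem rot_type (h2 : (2 : F) ≠ 0) : ∀ (n : ℕ) {U : Submodule F V}, finrank F U = n → Rot Q y U → NdOn Q U →
    ∃ e, n = 2 * e ∧ (Plus Q U ↔ (IsSquare (-1 : F) ∨ Even e)) := by
  intro n
  induction n using Nat.strong_induction_on with
  | _ n ih =>
    intro U hd h hU
    rcases Nat.eq_zero_or_pos n with h0 | h0
    · exact ⟨0, by omega, iff_of_true (plus_of_finrank_zero (by omega)) (Or.inr Even.zero)⟩
    obtain ⟨v, -, -, -, P, hPU, -, hPi, hPn, hPd, hPp⟩ := exists_plane h2 h hU (by omega)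
    obtain ⟨hRn, hsup, hRd⟩ := ndOn_split hPn hU hPU
    obtain ⟨e, he, hp⟩ := ih (n - 2) (by omega) (U := OrthType.perp Q P U) (by omega) (h.perp h2 hPU hPi) hRn
    refine ⟨e + 1, by omega, ?_⟩
    conv_lhs => rw [← hsup]
    rw [plus_sup hPn hRn (orth_perp _ _) ⟨1, by omega⟩ ⟨e, by omega⟩, hPp, hp, Nat.even_add_one]
    tauto

/-- Rotated subspaces of every smaller even dimension. -/
theorem rot_sub (h2 : (2 : F) ≠ 0) : ∀ (a : ℕ) {U : Submodule F V}, 2 * a ≤ finrank F U → Rot Q y U → NdOn Q U →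
    ∃ W ≤ U, Inv y W ∧ NdOn Q W ∧ finrank F W = 2 * a := by
  intro a
  induction a with
  | zero =>
    intro U _ _ _
    exact ⟨⊥, bot_le, fun v hv => by rw [(Submodule.mem_bot F).1 hv, map_zero]; exact zero_mem _, ndOn_bot,
      by rw [finrank_bot]⟩
  | succ a ih =>
    intro U hd h hU
    obtain ⟨v, -, -, -, P, hPU, -, hPi, hPn, hPd, -⟩ := exists_plane h2 h hU (by omega)
    obtain ⟨hRn, -, hRd⟩ := ndOn_split hPn hU hPU
    obtain ⟨W, hW, hWi, hWn, hWd⟩ := ih (U := OrthType.perp Q P U) (by omega) (h.perp h2 hPU hPi) hRn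
    have o : Orth Q P W := (orth_perp (Q := Q) P U).mono le_rfl hW
    exact ⟨P ⊔ W, sup_le hPU (hW.trans inf_le_left), hPi.sup hWi, ndOn_sup hPn hWn o,
      by rw [finrank_sup hPn o, hPd, hWd]; omega⟩

/-- The invariants of a rotation. -/
theorem rot_invs [Finite V] (hQ : Nd Q) (h2 : (2 : F) ≠ 0) : ∀ (e : ℕ) {U : Submodule F V} (g : isoG Q),
    finrank F U = 2 * e → Rot Q (g.1 : V →ₗ[F] V) U → NdOn Q U → (∀ v ∈ OrthType.perp Q U ⊤, g.1 v = v) →
    dick hQ g = 1 ∧ spn hQ g = sqSign (2 : F) ^ e := by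
  intro e
  induction e with
  | zero =>
    intro U g hd _ _ hfix
    have hU : U = ⊥ := Submodule.finrank_eq_zero.1 (by omega)
    have hg : g = 1 := iso_ext fun v => hfix v (mem_perp.2 ⟨trivial, fun u hu => by
      rw [hU, Submodule.mem_bot] at hu; rw [hu, polar_zero_left]⟩)
    rw [hg, map_one, map_one, pow_zero]; exact ⟨rfl, rfl⟩
  | succ e ih =>
    intro U g hd h hU hfix
    obtain ⟨v, hv, hQv, hb, P, hPU, hP, hPi, hPn, hPd, -⟩ := exists_plane h2 h hU (by omega)
    have hgv : g.1 v ∈ U := h.inv v hv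
    have hQw : Q (v + g.1 v) = 2 * Q v := by
      rw [QuadraticMap.map_add ⇑Q, polar_comm Q v, show polar Q (g.1 v) v = 0 from hb, iso_Q]; ring
    have hw0 : Q (v + g.1 v) ≠ 0 := by rw [hQw]; exact mul_ne_zero h2 hQv
    set k := refl Q (v + g.1 v) * refl Q v with hk
    have hk_v : k.1 v = g.1 v := by
      show (refl Q (v + g.1 v)).1 ((refl Q v).1 v) = _
      rw [refl_apply hQv, polar_self, two_nsmul, ← two_mul, mul_div_assoc, div_self hQv, mul_one,
        two_smul, refl_apply hw0, sub_add_eq_sub_sub, sub_self, zero_sub, polar_neg_left, polar_add_right,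
        polar_self, two_nsmul, polar_comm Q v (g.1 v), show polar Q (g.1 v) v = 0 from hb, add_zero, hQw,
        ← two_mul, neg_div, div_self (mul_ne_zero h2 hQv), neg_smul, one_smul, sub_neg_eq_add, neg_add_cancel_left]
    have hk_gv : k.1 (g.1 v) = g.1 (g.1 v) := by
      show (refl Q (v + g.1 v)).1 ((refl Q v).1 (g.1 v)) = _
      rw [refl_apply hQv, show polar Q (g.1 v) v = 0 from hb, zero_div, zero_smul, sub_zero, refl_apply hw0,
        polar_add_right, show polar Q (g.1 v) v = 0 from hb, polar_self, iso_Q, zero_add, two_nsmul, ← two_mul, hQw,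
        div_self (mul_ne_zero h2 hQv), one_smul, show g.1 (g.1 v) = -v from h.sq v hv]
      abel
    have hk_perp : ∀ x, (∀ u ∈ P, polar Q u x = 0) → k.1 x = x := fun x hx => by
      show (refl Q (v + g.1 v)).1 ((refl Q v).1 x) = _
      rw [refl_apply_perp hQv (by rw [polar_comm]; exact hx v ((hP v).2 ⟨1, 0, by simp⟩)),
        refl_apply_perp hw0 (by rw [polar_comm]; exact hx _ ((hP _).2 ⟨1, 1, by simp⟩))]
    obtain ⟨hRn, hsup, hRd⟩ := ndOn_split hPn hU hPU
    set R := OrthType.perp Q P U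
    have hRrot : Rot Q (g.1 : V →ₗ[F] V) R := h.perp h2 hPU hPi
    set g' := k⁻¹ * g with hg'
    have hg'app : ∀ x y, k.1 y = g.1 x → g'.1 x = y := fun x y e => by
      show (k.1⁻¹ : V ≃ₗ[F] V) (g.1 x) = y
      rw [← e]
      exact k.1.symm_apply_apply y
    have hg'R : ∀ x ∈ R, g'.1 x = g.1 x := fun x hx =>
      hg'app x _ (hk_perp _ fun u hu => (mem_perp.1 (hRrot.inv x hx)).2 u hu)
    obtain ⟨h1, h3⟩ := ih (U := R) g' (by omega)
      ⟨fun x hx => by show g'.1 x ∈ R; rw [hg'R x hx]; exact hRrot.inv x hx,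
        fun x hx => by show g'.1 (g'.1 x) = -x; rw [hg'R x hx, hg'R (g.1 x) (hRrot.inv x hx)]; exact hRrot.sq x hx,
        fun x hx => iso_Q g' x⟩
      hRn fun x hx => by
        obtain ⟨hPn', hsupV, -⟩ := ndOn_split hU (ndOn_top hQ) le_top
        have hx' : x ∈ U ⊔ OrthType.perp Q U ⊤ := by rw [hsupV]; exact Submodule.mem_top
        obtain ⟨x₁, hx₁, x₂, hx₂, rfl⟩ := Submodule.mem_sup.1 hx'
        rw [← hsup] at hx₁
        obtain ⟨p, hp, r, hr, rfl⟩ := Submodule.mem_sup.1 hx₁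
        have hr0 : r = 0 := hRn r hr fun z hz => by
          have e := (mem_perp.1 hx).2 z hz
          rw [polar_add_right, polar_add_right, polar_comm Q z p, orth_perp P U p hp z hz, zero_add,
            (mem_perp.1 hx₂).2 z (mem_perp.1 hz).1, add_zero, polar_comm] at e
          exact e
        subst hr0
        refine hg'app _ _ ?_
        obtain ⟨a, b, rfl⟩ := (hP p).1 hp
        show k.1 (a • v + b • g.1 v + 0 + x₂) = g.1 (a • v + b • g.1 v + 0 + x₂)
        simp only [add_zero, map_add, map_smul, hk_v, hk_gv, hfix x₂ hx₂,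
          hk_perp x₂ fun u hu => (mem_perp.1 hx₂).2 u (hPU hu)]
    have hgk : g = k * g' := by rw [hg', mul_inv_cancel_left]
    rw [hgk, map_mul (dick hQ), map_mul (spn hQ), h1, h3, hk, map_mul (dick hQ), map_mul (spn hQ), dick_refl hQ hw0, dick_refl hQ hQv, spn_refl hQ h2 hw0,
      spn_refl hQ h2 hQv, hQw, sqSign_mul h2 hQv, pow_succ']
    refine ⟨by decide, ?_⟩
    rw [mul_assoc (sqSign (2 : F)), Int.units_mul_self, mul_one]

omit [FiniteDimensional F V] in
theorem exists_equiv_of_type {V' : Type u} [AddCommGroup V'] [Module F V'] [FiniteDimensional F V']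
    [FiniteDimensional F V] {R : QuadraticForm F V'} (hQ : Nd Q) (hR : Nd R) {k : ℕ}
    (hd : finrank F V = 2 * (k + 1)) (hd' : finrank F V' = 2 * (k + 1)) (hp : Plus Q ⊤ ↔ Plus R ⊤) :
    ∃ e : V' ≃ₗ[F] V, ∀ v, Q (e v) = R v := by
  rcases model_cases (ndOn_top hQ) (k := k) (by rw [finrank_top, hd]) with ⟨h1, e, he⟩ | ⟨h1, ζ, hζ, e, he⟩ <;>
    rcases model_cases (ndOn_top hR) (k := k) (by rw [finrank_top, hd']) with ⟨h2, e', he'⟩ | ⟨h2, ζ', hζ', e', he'⟩
  · refine ⟨Submodule.topEquiv.symm.trans (e'.symm.trans (e.trans Submodule.topEquiv)), fun v => ?_⟩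
    obtain ⟨w, hw⟩ := (e'.trans Submodule.topEquiv).surjective v
    rw [← hw]
    simp only [LinearEquiv.trans_apply, LinearEquiv.symm_apply_apply]
    exact (he w).trans (he' w).symm
  · exact absurd (hp.1 h1) h2
  · exact absurd (hp.2 h2) h1
  · obtain ⟨f, hf⟩ := AutOmega.exists_bin_equiv hζ hζ' k
    refine ⟨Submodule.topEquiv.symm.trans (e'.symm.trans (f.trans (e.trans Submodule.topEquiv))), fun v => ?_⟩
    obtain ⟨w, hw⟩ := (e'.trans Submodule.topEquiv).surjective v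
    rw [← hw]
    simp only [LinearEquiv.trans_apply, LinearEquiv.symm_apply_apply]
    exact ((he (f w)).trans (hf w)).trans (he' w).symm

/-- The sum of two squares in each coordinate pair. -/
noncomputable def sqSum (F : Type u) [Field F] (d : ℕ) : QuadraticForm F (Fin d ⊕ Fin d → F) :=
  QuadraticMap.weightedSumSquares F fun _ => (1 : F)

/-- A rotation of the whole space. -/
theorem exists_rot (hQ : Nd Q) (h2 : (2 : F) ≠ 0) {d : ℕ} (hd : 1 ≤ d) (hV : finrank F V = 2 * d)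
    (hp : Plus Q ⊤ ↔ (IsSquare (-1 : F) ∨ Even d)) :
    ∃ g : isoG Q, Rot Q (g.1 : V →ₗ[F] V) ⊤ := by
  let J : (Fin d ⊕ Fin d → F) →ₗ[F] (Fin d ⊕ Fin d → F) :=
    { toFun := fun v => Sum.elim (fun i => -v (.inr i)) fun i => v (.inl i)
      map_add' := fun a b => by ext (i | i) <;> simp [add_comm]
      map_smul' := fun t a => by ext (i | i) <;> simp }
  have hval : ∀ v, sqSum F d v = ∑ i, v (.inl i) * v (.inl i) + ∑ i, v (.inr i) * v (.inr i) := fun v => by
    simp [sqSum, weightedSumSquares_apply]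
  have hR : Nd (sqSum F d) := fun x hx => by
    funext s
    have := hx (Pi.single s 1)
    rcases s with i | i
    · simp [polar, hval, Pi.single_apply, add_mul, mul_add, Finset.sum_add_distrib] at this
      exact (mul_eq_zero.1 (show (2 : F) * x (.inl i) = 0 by linear_combination this)).resolve_left h2
    · simp [polar, hval, Pi.single_apply, add_mul, mul_add, Finset.sum_add_distrib] at this
      exact (mul_eq_zero.1 (show (2 : F) * x (.inr i) = 0 by linear_combination this)).resolve_left h2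
  have hJ : Rot (sqSum F d) J ⊤ := ⟨fun _ _ => trivial, fun v _ => by ext (i | i) <;> simp [J],
    fun v _ => by simp [hval, J, add_comm]⟩
  have hd' : finrank F (Fin d ⊕ Fin d → F) = 2 * d := by simp [two_mul]
  obtain ⟨e, he, hp'⟩ := rot_type h2 _ (U := ⊤) rfl hJ (ndOn_top hR)
  obtain rfl : e = d := by rw [finrank_top, hd'] at he; omega
  obtain ⟨k, rfl⟩ : ∃ k, e = k + 1 := ⟨e - 1, by omega⟩
  obtain ⟨φ, hφ⟩ := exists_equiv_of_type hQ hR hV hd' (hp.trans hp'.symm)
  have hJJ : ∀ v, J (J (J (J v))) = v := fun v => by ext (i | i) <;> simp [J]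
  let Je : (Fin (k + 1) ⊕ Fin (k + 1) → F) ≃ₗ[F] (Fin (k + 1) ⊕ Fin (k + 1) → F) :=
    { J with invFun := fun v => J (J (J v)), left_inv := hJJ, right_inv := hJJ }
  have hA : ∀ v, Q (φ (Je (φ.symm v))) = Q v := fun v => by
    rw [hφ]
    show sqSum F (k + 1) (J (φ.symm v)) = _
    rw [hJ.iso _ trivial, ← hφ, φ.apply_symm_apply]
  refine ⟨⟨φ.symm.trans (Je.trans φ), hA⟩, fun _ _ => trivial, fun v _ => ?_, fun v _ => hA v⟩
  show φ (J (φ.symm (φ (J (φ.symm v))))) = -v
  rw [φ.symm_apply_apply, hJ.sq _ trivial, map_neg, φ.apply_symm_apply]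

theorem spn_cond {d : ℕ} : sqSign (2 : F) ^ d = 1 ↔ (Even d ∨ IsSquare (2 : F)) := by
  rcases Nat.even_or_odd d with hd | hd
  · simp [hd, Int.units_pow_eq_pow_mod_two, Nat.even_iff.1 hd]
  · simp [Nat.not_even_iff_odd.2 hd, Int.units_pow_eq_pow_mod_two, Nat.odd_iff.1 hd, sqSign_eq_one_iff]

section matrices

variable {ι : Type} [Fintype ι] [DecidableEq ι] {R : QuadraticForm F (ι → F)}

/-- An element of Omega with square minus one, when the whole space allows it. -/
theorem exists_elt (hR : Nd R) (h2 : (2 : F) ≠ 0) {d : ℕ} (hd : 1 ≤ d) (hι : Fintype.card ι = 2 * d)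
    (hp : Plus R ⊤ ↔ (IsSquare (-1 : F) ∨ Even d)) (hs : Even d ∨ IsSquare (2 : F)) :
    ∃ x : GL ι F, x ∈ Cfsg.Geo.omegaGL ⇑R ∧ ((x ^ 2 : GL ι F) : Matrix ι ι F) = (-1 : F) • (1 : Matrix ι ι F) ∧
      (∀ z : F, (x : Matrix ι ι F) ≠ z • (1 : Matrix ι ι F)) ∧ Rot R (Matrix.toLin' (x : Matrix ι ι F)) ⊤ := by
  obtain ⟨g, hg⟩ := exists_rot hR h2 hd (by rw [finrank_pi, hι]) hp
  haveI : Finite (ι → F) := Pi.finite
  obtain ⟨h1, h3⟩ := rot_invs hR h2 d g (by rw [finrank_top, finrank_pi, hι]) hg (ndOn_top hR) fun v hv => by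
    have : v = 0 := hR v fun w => by rw [polar_comm]; exact (mem_perp.1 hv).2 w trivial
    rw [this, map_zero]
  have hgc : g ∈ commutator (isoG R) := (mem_commutator_iff hR h2 g).2 ⟨h1, h3.trans (spn_cond.2 hs)⟩
  have hx : Matrix.toLin' ((isoMat R g : GL ι F) : Matrix ι ι F) = g.1.toLinearMap :=
    LinearMap.ext fun v => by rw [Matrix.toLin'_apply, isoMat_mulVec]; rfl
  refine ⟨isoMat R g, isoMat_mem_omega hgc, ?_, fun z hz => ?_, by rw [hx]; exact hg⟩
  · apply Matrix.toLin'.injective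
    rw [Units.val_pow_eq_pow_val, Matrix.toLin'_pow, hx, map_smul, Matrix.toLin'_one, pow_two]
    exact LinearMap.ext fun v => (hg.sq v trivial).trans (neg_one_smul F v).symm
  · obtain ⟨v, -, hQv, hb, -⟩ := exists_plane h2 hg (ndOn_top hR) (by rw [finrank_top, finrank_pi, hι]; omega)
    have e : (g.1 : (ι → F) →ₗ[F] (ι → F)) v = z • v := by
      rw [← hx, Matrix.toLin'_apply, hz, Matrix.smul_mulVec, Matrix.one_mulVec]
    have e' := hg.sq v trivial
    rw [e, map_smul, e, smul_smul, ← neg_one_smul F v] at e'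
    rw [e, polar_smul_left, polar_self, smul_eq_mul, two_nsmul, ← two_mul] at hb
    have hz0 : z = 0 := (mul_eq_zero.1 hb).resolve_right (mul_ne_zero h2 hQv)
    rw [hz0, mul_zero, zero_smul, neg_one_smul, eq_comm, neg_eq_zero] at e'
    exact hQv (by rw [e', map_zero])

/-- What an element with scalar square looks like. -/
theorem sq_cases (hR : Nd R) (h2 : (2 : F) ≠ 0) {d : ℕ} (hd : 1 ≤ d) (hι : Fintype.card ι = 2 * d)
    {x : GL ι F} (hx : x ∈ Cfsg.Geo.omegaGL ⇑R) {z : F}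
    (hz : ((x ^ 2 : GL ι F) : Matrix ι ι F) = z • (1 : Matrix ι ι F)) :
    (∀ v, (Matrix.toLin' (x : Matrix ι ι F)) (Matrix.toLin' (x : Matrix ι ι F) v) = v) ∨
      (Rot R (Matrix.toLin' (x : Matrix ι ι F)) ⊤ ∧ (Even d ∨ IsSquare (2 : F)) ∧
        (Plus R ⊤ ↔ (IsSquare (-1 : F) ∨ Even d))) := by
  set X := Matrix.toLin' (x : Matrix ι ι F) with hXdef
  have hiso : ∀ v, R (X v) = R v := fun v => by rw [hXdef, Matrix.toLin'_apply]; exact OrthOdd.iso_of_omega hx v
  have hXX : ∀ v, X (X v) = z • v := fun v => by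
    rw [hXdef, Matrix.toLin'_apply, Matrix.toLin'_apply, Matrix.mulVec_mulVec, ← pow_two, ← Units.val_pow_eq_pow_val,
      hz, Matrix.smul_mulVec, Matrix.one_mulVec]
  obtain ⟨v₀, hv₀⟩ := OrthEven.exists_nonsing' hR (by omega)
  have hz2 : z * z = 1 := by
    have := (hiso (X v₀)).trans (hiso v₀)
    rw [hXX, QuadraticMap.map_smul, smul_eq_mul] at this
    exact mul_right_cancel₀ hv₀ (by rw [one_mul]; exact this)
  rcases mul_self_eq_one_iff.1 hz2 with rfl | rfl
  · exact Or.inl fun v => by rw [hXX, one_smul]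
  have hrot : Rot R X ⊤ := ⟨fun _ _ => trivial, fun v _ => by rw [hXX, neg_one_smul], fun v _ => hiso v⟩
  have hfin : finrank F (⊤ : Submodule F (ι → F)) = 2 * d := by rw [finrank_top, finrank_pi, hι]
  obtain ⟨e, he, hp⟩ := rot_type h2 _ (U := ⊤) rfl hrot (ndOn_top hR)
  obtain rfl : e = d := by rw [hfin] at he; omega
  refine Or.inr ⟨hrot, ?_, hp⟩
  haveI : Finite (ι → F) := Pi.finite
  obtain ⟨g, hg, hgx⟩ := Subgroup.mem_map.1 hx
  have hgc := (mem_omega_iff (Q := R) ⇑R (LinearEquiv.refl F _) (fun _ => rfl) g).1 hg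
  have hgv : ∀ v, (isoEquiv (Q := R) ⇑R (LinearEquiv.refl F _) (fun _ => rfl) g).1 v = X v := fun v => by
    show _ = Matrix.toLin' (x : Matrix ι ι F) v
    rw [Matrix.toLin'_apply, ← hgx]
    rfl
  obtain ⟨-, h3⟩ := rot_invs hR h2 e (U := ⊤) _ hfin
    ⟨fun _ _ => trivial, fun v _ => by
      show (isoEquiv (Q := R) ⇑R (LinearEquiv.refl F _) (fun _ => rfl) g).1 _ = _
      rw [LinearEquiv.coe_coe, hgv, hgv]; exact hrot.sq v trivial,
      fun v _ => iso_Q _ v⟩ (ndOn_top hR) fun v hv => by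
    have : v = 0 := hR v fun w => by rw [polar_comm]; exact (mem_perp.1 hv).2 w trivial
    rw [this, map_zero]
  exact spn_cond.1 (h3.symm.trans ((mem_commutator_iff hR h2 _).1 hgc).2)

/-- The condition for an element of Omega with square minus one. -/
def HasRot (R : QuadraticForm F (ι → F)) (d : ℕ) : Prop :=
  (Plus R ⊤ ↔ (IsSquare (-1 : F) ∨ Even d)) ∧ (Even d ∨ IsSquare (2 : F))

theorem card_facts (h2 : (2 : F) ≠ 0) : (IsSquare (-1 : F) ↔ Fintype.card F % 4 = 1) ∧
    (IsSquare (2 : F) ↔ (Fintype.card F % 8 = 1 ∨ Fintype.card F % 8 = 7)) := by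
  have hodd : Fintype.card F % 2 = 1 := FiniteField.odd_card_of_char_ne_two fun h => h2 (by
    haveI := ringChar.of_eq h; exact CharTwo.two_eq_zero)
  rw [FiniteField.isSquare_neg_one_iff, FiniteField.isSquare_two_iff]
  omega

/-- Elements with scalar square and even-dimensional subspaces of a given type. -/
theorem main_even (hR : Nd R) (h2 : (2 : F) ≠ 0) {d a : ℕ} (hι : Fintype.card ι = 2 * d) (ha : 1 ≤ a) (had : a < d)
    (b : Prop) :
    (∀ x : GL ι F, x ∈ Cfsg.Geo.omegaGL ⇑R →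
      (∃ z : F, ((x ^ 2 : GL ι F) : Matrix ι ι F) = z • (1 : Matrix ι ι F)) →
      (∀ z : F, (x : Matrix ι ι F) ≠ z • (1 : Matrix ι ι F)) →
      ∃ W : Submodule F (ι → F), (finrank F W = 2 * a ∧ NdOn R W ∧ (Plus R W ↔ b)) ∧
        Inv (Matrix.toLin' (x : Matrix ι ι F)) W) ↔
    (HasRot R d → (b ↔ (IsSquare (-1 : F) ∨ Even a))) := by
  constructor
  · rintro hall ⟨hp, hs⟩
    obtain ⟨x, hx, hx2, hne, hrot⟩ := exists_elt hR h2 (by omega) hι hp hs
    obtain ⟨W, ⟨hWd, hWn, hWp⟩, hWi⟩ := hall x hx ⟨_, hx2⟩ hne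
    obtain ⟨e, he, hpe⟩ := rot_type h2 _ hWd
      ⟨hWi, fun v _ => hrot.sq v trivial, fun v _ => hrot.iso v trivial⟩ hWn
    obtain rfl : e = a := by omega
    exact hWp.symm.trans hpe
  · intro H x hx ⟨z, hz⟩ _
    rcases sq_cases hR h2 (by omega) hι hx hz with hsq | ⟨hrot, hs, hp⟩
    · obtain ⟨W₁, W₂, i₁, i₂, n₁, n₂, d₁, d₂, hne⟩ := OrthClasses.invol_two hR h2
        (fun v => by rw [Matrix.toLin'_apply]; exact OrthOdd.iso_of_omega hx v) hsq (m := 2 * a) (by omega)
        (by rw [finrank_pi, hι]; omega) (Or.inl (by omega))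
      have h := plus_iff_not_of_not_isom n₁ n₂ (by rw [d₁]; exact even_two_mul a) (by rw [d₁, d₂]) hne
      by_cases hb : Plus R W₁ ↔ b
      · exact ⟨W₁, ⟨d₁, n₁, hb⟩, i₁⟩
      · exact ⟨W₂, ⟨d₂, n₂, by tauto⟩, i₂⟩
    · obtain ⟨W, -, hi, hn, hd⟩ := rot_sub h2 a (by rw [finrank_top, finrank_pi, hι]; omega) hrot (ndOn_top hR)
      obtain ⟨e, he, hpe⟩ := rot_type h2 _ hd ⟨hi, fun v _ => hrot.sq v trivial, fun v _ => hrot.iso v trivial⟩ hn
      obtain rfl : e = a := by omega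
      exact ⟨W, ⟨hd, hn, hpe.trans (H ⟨hp, hs⟩).symm⟩, hi⟩

/-- Elements with scalar square and odd-dimensional subspaces of a given class. -/
theorem main_odd (hR : Nd R) (h2 : (2 : F) ≠ 0) {d m : ℕ} (hι : Fintype.card ι = 2 * d) (hm : Odd m) (hmd : m < d)
    {W₀ : Submodule F (ι → F)} (hW₀ : finrank F W₀ = m) (hn₀ : NdOn R W₀) :
    (∀ x : GL ι F, x ∈ Cfsg.Geo.omegaGL ⇑R →
      (∃ z : F, ((x ^ 2 : GL ι F) : Matrix ι ι F) = z • (1 : Matrix ι ι F)) →
      (∀ z : F, (x : Matrix ι ι F) ≠ z • (1 : Matrix ι ι F)) →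
      ∃ W : Submodule F (ι → F), (finrank F W = m ∧ NdOn R W ∧ IsomOn R W W₀) ∧
        Inv (Matrix.toLin' (x : Matrix ι ι F)) W) ↔ ¬ HasRot R d := by
  have hm0 := hm.pos
  constructor
  · rintro hall ⟨hp, hs⟩
    obtain ⟨x, hx, hx2, hne, hrot⟩ := exists_elt hR h2 (by omega) hι hp hs
    obtain ⟨W, ⟨hWd, hWn, -⟩, hWi⟩ := hall x hx ⟨_, hx2⟩ hne
    obtain ⟨e, he, -⟩ := rot_type h2 _ hWd ⟨hWi, fun v _ => hrot.sq v trivial, fun v _ => hrot.iso v trivial⟩ hWn
    rw [he] at hm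
    exact Nat.not_even_iff_odd.2 hm (even_two_mul e)
  · intro H x hx ⟨z, hz⟩ _
    rcases sq_cases hR h2 (by omega) hι hx hz with hsq | ⟨-, hs, hp⟩
    swap
    · exact absurd ⟨hp, hs⟩ H
    set X := Matrix.toLin' (x : Matrix ι ι F) with hXdef
    have hiso : ∀ v, R (X v) = R v := fun v => by rw [hXdef, Matrix.toLin'_apply]; exact OrthOdd.iso_of_omega hx v
    obtain ⟨X', hX'i, hX'2, hX'c, hX'inv⟩ : ∃ X' : Module.End F (ι → F), (∀ v, R (X' v) = R v) ∧ (∀ v, X' (X' v) = v) ∧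
        (2 ≤ m ∨ finrank F (LinearMap.ker (X' + (1 : F) • LinearMap.id)) ≠ m) ∧ ∀ W, Inv X' W → Inv X W := by
      by_cases hc : 2 ≤ m ∨ finrank F (LinearMap.ker (X + (1 : F) • LinearMap.id)) ≠ m
      · exact ⟨X, hiso, hsq, hc, fun _ h => h⟩
      rw [not_or, not_not] at hc
      refine ⟨-X, fun v => by rw [LinearMap.neg_apply, QuadraticMap.map_neg, hiso],
        fun v => by rw [LinearMap.neg_apply, LinearMap.neg_apply, map_neg, neg_neg, hsq], Or.inr fun h => ?_,
        fun W h v hv => by have := h v hv; rwa [LinearMap.neg_apply, neg_mem_iff] at this⟩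
      have hdec : (⊤ : Submodule F (ι → F)) ≤
          LinearMap.ker (X + (1 : F) • LinearMap.id) ⊔ LinearMap.ker (-X + (1 : F) • LinearMap.id) := fun v _ => by
        refine Submodule.mem_sup.2 ⟨(2 : F)⁻¹ • (v - X v), ?_, (2 : F)⁻¹ • (v + X v), ?_, ?_⟩
        · simp [map_sub, hsq]
          exact Or.inr (by abel)
        · simp [map_add, hsq, add_comm]
          abel
        · rw [← smul_add, show (v - X v) + (v + X v) = (2 : F) • v by rw [two_smul]; abel, smul_smul,
            inv_mul_cancel₀ h2, one_smul]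
      have h1 := Submodule.finrank_mono hdec
      have h3 := Submodule.finrank_add_le_finrank_add_finrank (LinearMap.ker (X + (1 : F) • LinearMap.id))
        (LinearMap.ker (-X + (1 : F) • LinearMap.id))
      rw [finrank_top, finrank_pi, hι] at h1
      omega
    obtain ⟨W₁, W₂, i₁, i₂, n₁, n₂, d₁, d₂, hne⟩ := OrthClasses.invol_two hR h2 hX'i hX'2 (m := m) hm0
      (by rw [finrank_pi, hι]; omega) hX'c
    rcases OrthClasses.two_classes n₁ n₂ hn₀ (by omega) (by omega) hne with h | h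
    · exact ⟨W₁, ⟨d₁, n₁, h.symm⟩, hX'inv _ i₁⟩
    · exact ⟨W₂, ⟨d₂, n₂, h.symm⟩, hX'inv _ i₂⟩

end matrices

end Cfsg.Agent.Lib.Elusive.OrthInvol
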