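import Cfsg.Agent.Lib.Elusive.OrthEven

/-!
Involutions of orthogonal groups in characteristic two and their invariant non-degenerate subspaces.
-/

set_option autoImplicit false
set_option maxHeartbeats 1000000

namespace Cfsg.Agent.Lib.Elusive.OrthInvolTwo

open Module QuadraticMap
open scoped Matrix
open Cfsg.Agent.Lib.Classical.Quad Cfsg.Agent.Lib.Classical.QuadOmega
open Cfsg.Agent.Lib.Classical.QuadF2 Cfsg.Agent.Lib.Classical.OrthTorsion Cfsg.Agent.Lib.Elusive.OrthType
open Cfsg.Agent.Lib.Forms (isoMat isoMat_mulVec)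

universe u

variable {F : Type u} [Field F] {V : Type u} [AddCommGroup V] [Module F V] [FiniteDimensional F V]
variable {Q : QuadraticForm F V} {y : Module.End F V}

/-- An involutory isometry in characteristic two. -/
structure Setting2 (Q : QuadraticForm F V) (y : Module.End F V) : Prop where
  two : (2 : F) = 0
  iso : ∀ v, Q (y v) = Q v
  sq : ∀ v, y (y v) = v

/-- `x ↦ polar (y x, x)` vanishes on `U`. -/
def Alt (Q : QuadraticForm F V) (y : Module.End F V) (U : Submodule F V) : Prop := ∀ v ∈ U, polar Q (y v) v = 0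

theorem Alt.mono {U U' : Submodule F V} (h : Alt Q y U) (hle : U' ≤ U) : Alt Q y U' := fun v hv => h v (hle hv)

theorem polar_y (S : Setting2 Q y) (u w : V) : polar Q (y u) (y w) = polar Q u w := by
  simp [polar, ← map_add, S.iso]

theorem polar_adj (S : Setting2 Q y) (u w : V) : polar Q (y u) w = polar Q u (y w) := by
  conv_rhs => rw [← polar_y S, S.sq]

theorem polar_same (S : Setting2 Q y) (u : V) : polar Q u u = 0 := by
  rw [polar_self, two_nsmul, ← two_mul, S.two, zero_mul]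

theorem twice (S : Setting2 Q y) (v : V) : v + v = 0 := by rw [← two_smul F v, S.two, zero_smul]

theorem inv_perp (S : Setting2 Q y) {K U : Submodule F V} (hK : Inv y K) (hU : Inv y U) :
    Inv y (perp Q K U) := fun v hv => mem_perp.2
  ⟨hU v (mem_perp.1 hv).1, fun k hk => by rw [← polar_adj S]; exact (mem_perp.1 hv).2 _ (hK k hk)⟩

/-- A moved vector of an alternating part lies in an invariant space of dimension four and plus type. -/
theorem exists_quad (S : Setting2 Q y) {U : Submodule F V} (hU : NdOn Q U) (hUi : Inv y U) (ha : Alt Q y U)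
    {v : V} (hv : v ∈ U) (hne : y v + v ≠ 0) :
    ∃ K ≤ U, Inv y K ∧ NdOn Q K ∧ finrank F K = 4 ∧ Plus Q K ∧ finrank F (K.map (y + 1)) = 2 := by
  obtain ⟨w, hw, hβ⟩ : ∃ w ∈ U, polar Q (y v + v) w ≠ 0 := by
    by_contra! h
    exact hne (hU _ (U.add_mem (hUi v hv) hv) h)
  set u := y v + v with hu
  set z := y w + w with hz
  set β := polar Q u w with hβd
  have s := polar_same S
  have huv : polar Q u v = 0 := by rw [hu, polar_add_left, ha v hv, s, add_zero]
  have hzw : polar Q z w = 0 := by rw [hz, polar_add_left, ha w hw, s, add_zero]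
  have hzv : polar Q z v = β := by
    rw [hβd, hz, hu, polar_add_left, polar_add_left, polar_adj S w v, polar_comm Q w (y v), polar_comm Q w v]
  have hQu : Q u = 0 := by
    rw [hu, QuadraticMap.map_add ⇑Q, S.iso, ha v hv, add_zero, ← two_mul, S.two, zero_mul]
  have hQz : Q z = 0 := by
    rw [hz, QuadraticMap.map_add ⇑Q, S.iso, ha w hw, add_zero, ← two_mul, S.two, zero_mul]
  have hyu : y u = u := by rw [hu, map_add, S.sq, add_comm]
  have hyz : y z = z := by rw [hz, map_add, S.sq, add_comm]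
  have huz : polar Q u z = 0 := by
    rw [hz, polar_add_right, ← polar_adj S, hyu]
    exact (show β + β = 0 by rw [← two_mul, S.two, zero_mul])
  let L : (Fin 4 → F) →ₗ[F] V :=
    { toFun := fun c => c 0 • u + c 1 • z + c 2 • v + c 3 • w
      map_add' := fun a b => by simp only [Pi.add_apply, add_smul]; abel
      map_smul' := fun t a => by simp only [Pi.smul_apply, smul_eq_mul, RingHom.id_apply, smul_add, smul_smul] }
  have hL : ∀ c, L c = c 0 • u + c 1 • z + c 2 • v + c 3 • w := fun c => rfl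
  have key : ∀ c, polar Q (L c) u = 0 → polar Q (L c) z = 0 → polar Q (L c) v = 0 → polar Q (L c) w = 0 → c = 0 := by
    intro c h1 h2 h3 h4
    simp only [hL, polar_add_left, polar_smul_left, smul_eq_mul, s, huz, polar_comm Q z u, polar_comm Q v u, huv,
      polar_comm Q w u, ← hβd, polar_comm Q v z, hzv, polar_comm Q w z, hzw, mul_zero, add_zero, zero_add] at h1 h2 h3 h4
    have c3 := (mul_eq_zero.1 h1).resolve_right hβ
    have c2 := (mul_eq_zero.1 h2).resolve_right hβ
    rw [c3, zero_mul, add_zero] at h3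
    rw [c2, zero_mul, add_zero] at h4
    funext i
    fin_cases i
    · exact (mul_eq_zero.1 h4).resolve_right hβ
    · exact (mul_eq_zero.1 h3).resolve_right hβ
    · exact c2
    · exact c3
  have hLi : Function.Injective L := (injective_iff_map_eq_zero L).2 fun c hc =>
    key c (by rw [hc, polar_zero_left]) (by rw [hc, polar_zero_left]) (by rw [hc, polar_zero_left])
      (by rw [hc, polar_zero_left])
  let L' : (Fin 2 → F) →ₗ[F] V :=
    { toFun := fun c => c 0 • u + c 1 • z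
      map_add' := fun a b => by simp only [Pi.add_apply, add_smul]; abel
      map_smul' := fun t a => by simp only [Pi.smul_apply, smul_eq_mul, RingHom.id_apply, smul_add, smul_smul] }
  have hL' : ∀ c, L' c = c 0 • u + c 1 • z := fun c => rfl
  have hLL : ∀ c, L' c = L ![c 0, c 1, 0, 0] := fun c => by simp [hL, hL']
  have hL'i : Function.Injective L' := (injective_iff_map_eq_zero L').2 fun c hc => by
    rw [hLL] at hc
    have h := hLi (hc.trans (map_zero L).symm)
    funext i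
    fin_cases i
    · exact congrFun h 0
    · exact congrFun h 1
  have hd : finrank F (LinearMap.range L) = 4 := by rw [LinearMap.finrank_range_of_inj hLi]; simp
  have hd' : finrank F (LinearMap.range L') = 2 := by rw [LinearMap.finrank_range_of_inj hL'i]; simp
  have hNL : ∀ c, (y + 1) (L c) = L' ![c 2, c 3] := fun c => by
    simp only [LinearMap.add_apply, Module.End.one_apply, hL, hL', map_add, map_smul, hyu, hyz, Matrix.cons_val_zero,
      Matrix.cons_val_one]
    rw [show y v = u + v by rw [hu, add_assoc, twice S, add_zero], show y w = z + w by rw [hz, add_assoc, twice S, add_zero],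
      twice S u, twice S z, add_assoc u, twice S v, add_assoc z, twice S w]
    simp
  refine ⟨LinearMap.range L, ?_, ?_, ?_, hd, ⟨LinearMap.range L', ?_, ?_, by rw [hd, hd']⟩, ?_⟩
  · rintro _ ⟨c, rfl⟩
    rw [hL]
    exact U.add_mem (U.add_mem (U.add_mem (U.smul_mem _ (U.add_mem (hUi v hv) hv))
      (U.smul_mem _ (U.add_mem (hUi w hw) hw))) (U.smul_mem _ hv)) (U.smul_mem _ hw)
  · rintro _ ⟨c, rfl⟩
    refine ⟨![c 2, c 3, 0, 0] + c, ?_⟩
    have h := hNL c
    rw [hLL, LinearMap.add_apply, Module.End.one_apply] at h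
    simp only [Matrix.cons_val_zero, Matrix.cons_val_one] at h
    rw [map_add, ← h, add_assoc, twice S, add_zero]
  · rintro _ ⟨c, rfl⟩ hx
    rw [key c (hx u ⟨![1, 0, 0, 0], by simp [hL]⟩) (hx z ⟨![0, 1, 0, 0], by simp [hL]⟩)
      (hx v ⟨![0, 0, 1, 0], by simp [hL]⟩) (hx w ⟨![0, 0, 0, 1], by simp [hL]⟩), map_zero]
  · rintro _ ⟨c, rfl⟩
    exact ⟨![c 0, c 1, 0, 0], (hLL c).symm⟩
  · rintro _ ⟨c, rfl⟩
    rw [hL', QuadraticMap.map_add ⇑Q, QuadraticMap.map_smul, QuadraticMap.map_smul, hQu, hQz, polar_smul_left,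
      polar_smul_right, huz]
    simp
  · rw [show (LinearMap.range L).map (y + 1) = LinearMap.range L' from le_antisymm
      (by rintro _ ⟨_, ⟨c, rfl⟩, rfl⟩; exact ⟨_, (hNL c).symm⟩)
      (by rintro _ ⟨c, rfl⟩; exact ⟨L ![0, 0, c 0, c 1], ⟨_, rfl⟩, (hNL _).trans (by simp [hL'])⟩), hd']

theorem map_eq_bot {U : Submodule F V} (h : ∀ v ∈ U, y v + v = 0) : U.map (y + 1) = ⊥ :=
  eq_bot_iff.2 (by rintro _ ⟨v, hv, rfl⟩; exact h v hv)

variable [Fintype F]

/-- The moved part of an alternating space is even, at most half, and half only in plus type. -/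
theorem alt_rank (S : Setting2 Q y) : ∀ (n : ℕ) {U : Submodule F V}, finrank F U = 2 * n → NdOn Q U → Inv y U →
    Alt Q y U → Even (finrank F (U.map (y + 1))) ∧ finrank F (U.map (y + 1)) ≤ n ∧
      (finrank F (U.map (y + 1)) = n → Plus Q U) := by
  intro n
  induction n using Nat.strong_induction_on with
  | _ n ih =>
    intro U hd hU hUi ha
    by_cases h : ∀ v ∈ U, y v + v = 0
    · rw [map_eq_bot h, finrank_bot]
      exact ⟨Even.zero, Nat.zero_le _, fun hn => plus_of_finrank_zero (by omega)⟩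
    push Not at h
    obtain ⟨v, hv, hne⟩ := h
    obtain ⟨K, hKU, hKi, hKn, hKd, hKp, hKm⟩ := exists_quad S hU hUi ha hv hne
    obtain ⟨hRn, hsup, hRd⟩ := ndOn_split hKn hU hKU
    have hRU : perp Q K U ≤ U := inf_le_left
    obtain ⟨h1, h2, h3⟩ := ih (n - 2) (by omega) (U := perp Q K U) (by omega) hRn (inv_perp S hKi hUi) (ha.mono hRU)
    have hm : finrank F (U.map (y + 1)) = 2 + finrank F ((perp Q K U).map (y + 1)) := by
      conv_lhs => rw [← hsup, Submodule.map_sup]
      have hd := Submodule.finrank_sup_add_finrank_inf_eq (K.map (y + 1)) ((perp Q K U).map (y + 1))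
      have hb : K.map (y + 1) ⊓ (perp Q K U).map (y + 1) = ⊥ := by
        rw [eq_bot_iff, ← inf_eq_bot hKn (orth_perp (Q := Q) K U)]
        refine inf_le_inf ?_ ?_
        · rintro _ ⟨x, hx, rfl⟩; exact K.add_mem (hKi x hx) hx
        · rintro _ ⟨x, hx, rfl⟩; exact Submodule.add_mem _ (inv_perp S hKi hUi x hx) hx
      rw [hb, finrank_bot, hKm, add_zero] at hd
      exact hd
    rw [hm]
    refine ⟨even_two.add h1, by omega, fun hn => ?_⟩
    rw [← hsup, plus_sup hKn hRn (orth_perp _ _) (by rw [hKd]; decide) ⟨n - 2, by omega⟩]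
    exact iff_of_true hKp (h3 (by omega))

theorem sup_plus (S : Setting2 Q y) {K U W : Submodule F V} (hK : NdOn Q K) (hKi : Inv y K) (hKU : K ≤ U)
    (hKe : Even (finrank F K)) (hKp : Plus Q K) {b : ℕ} (hWR : W ≤ perp Q K U) (hW : NdOn Q W) (hWi : Inv y W)
    (hWd : finrank F W = 2 * b) (hWp : Plus Q W) :
    ∃ W' ≤ U, Inv y W' ∧ NdOn Q W' ∧ finrank F W' = finrank F K + 2 * b ∧ Plus Q W' := by
  have _ := S.two
  have o : Orth Q K W := (orth_perp (Q := Q) K U).mono le_rfl hWR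
  exact ⟨K ⊔ W, sup_le hKU (hWR.trans inf_le_left), hKi.sup hWi, ndOn_sup hK hW o, by rw [finrank_sup hK o, hWd],
    (plus_sup hK hW o hKe ⟨b, by omega⟩).2 (iff_of_true hKp hWp)⟩

/-- Plus subspaces of an alternating space. -/
theorem alt_plus (S : Setting2 Q y) : ∀ (n : ℕ) {U : Submodule F V}, finrank F U = 2 * n → NdOn Q U → Inv y U →
    Alt Q y U → ∀ b, b < n → (Even b ∨ (Even n ∧ ¬ Plus Q U)) →
      ∃ W ≤ U, Inv y W ∧ NdOn Q W ∧ finrank F W = 2 * b ∧ Plus Q W := by
  intro n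
  induction n using Nat.strong_induction_on with
  | _ n ih =>
    intro U hd hU hUi ha b hbn hb
    rcases Nat.eq_zero_or_pos b with rfl | hb0
    · exact ⟨⊥, bot_le, fun v hv => by rw [(Submodule.mem_bot F).1 hv, map_zero]; exact zero_mem _, ndOn_bot,
        by rw [finrank_bot], plus_of_finrank_zero (finrank_bot F V)⟩
    by_cases h : ∀ v ∈ U, y v + v = 0
    · obtain ⟨W, hWU, hWn, hWd, hWp⟩ := exists_sub hU hb0 (by omega) True
      exact ⟨W, hWU, fun v hv => by rw [eq_neg_of_add_eq_zero_left (h v (hWU hv))]; exact W.neg_mem hv, hWn, hWd,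
        hWp.2 trivial⟩
    push Not at h
    obtain ⟨v, hv, hne⟩ := h
    obtain ⟨K, hKU, hKi, hKn, hKd, hKp, -⟩ := exists_quad S hU hUi ha hv hne
    obtain ⟨hRn, hsup, hRd⟩ := ndOn_split hKn hU hKU
    have hRe : Even (finrank F (perp Q K U)) := ⟨n - 2, by omega⟩
    have hRp : Plus Q U ↔ Plus Q (perp Q K U) := by
      conv_lhs => rw [← hsup]
      rw [plus_sup hKn hRn (orth_perp _ _) (by rw [hKd]; decide) hRe]
      simp [hKp]
    have hn2 : 2 ≤ n := by omega
    have hRU : perp Q K U ≤ U := inf_le_left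
    have hR := ih (n - 2) (by omega) (U := perp Q K U) (by omega) hRn (inv_perp S hKi hUi) (ha.mono hRU)
    rcases Nat.lt_or_ge b 2 with h1 | h1
    · have hb1 : b = 1 := by omega
      obtain ⟨hne', hnp⟩ := hb.resolve_left (by rw [hb1]; decide)
      have hn4 : n ≠ 2 := fun e => by
        subst e
        exact hnp (hRp.2 (plus_of_finrank_zero (by omega)))
      obtain ⟨W, hW, rest⟩ := hR b (by rw [Nat.even_iff] at hne'; omega)
        (Or.inr ⟨(Nat.even_sub hn2).2 (iff_of_true hne' even_two), fun e => hnp (hRp.2 e)⟩)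
      exact ⟨W, hW.trans hRU, rest⟩
    · obtain ⟨W, hW, hWi, hWn, hWd, hWp⟩ := hR (b - 2) (by omega) (hb.imp (fun e => (Nat.even_sub h1).2
        (iff_of_true e even_two)) fun e => ⟨(Nat.even_sub hn2).2 (iff_of_true e.1 even_two), fun e' => e.2 (hRp.2 e')⟩)
      obtain ⟨W', a, b', c, d, e⟩ := sup_plus S hKn hKi hKU (by rw [hKd]; decide) hKp hW hWn hWi hWd hWp
      exact ⟨W', a, b', c, by rw [d, hKd]; omega, e⟩

theorem exists_sqrt (h2 : (2 : F) = 0) (a : F) : ∃ c : F, c ^ 2 = a := by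
  haveI : CharP F 2 := CharTwo.of_one_ne_zero_of_two_eq_zero one_ne_zero h2
  obtain ⟨c, hc⟩ := FiniteField.isSquare_of_char_two (ringChar.eq F 2) a
  exact ⟨c, by rw [pow_two, hc]⟩

/-- A non-alternating part contains invariant planes of both types. -/
theorem exists_plane (S : Setting2 Q y) {U : Submodule F V} (hU : NdOn Q U) (hUi : Inv y U) (ha : ¬ Alt Q y U)
    {n : ℕ} (hd : finrank F U = 2 * n) (hn : 3 ≤ n) (π : Prop) :
    ∃ P ≤ U, Inv y P ∧ NdOn Q P ∧ finrank F P = 2 ∧ (Plus Q P ↔ π) := by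
  rw [Alt] at ha
  push Not at ha
  obtain ⟨v, hv, hβ⟩ := ha
  set β := polar Q (y v) v with hβd
  have s := polar_same S
  -- planes through vectors of the same value
  have plane : ∀ v' ∈ U, polar Q (y v') v' = β → ∃ (L : (Fin 2 → F) →ₗ[F] V),
      (∀ c, L c = c 0 • (y v' + v') + c 1 • v') ∧ Function.Injective L ∧ LinearMap.range L ≤ U ∧
      Inv y (LinearMap.range L) ∧ NdOn Q (LinearMap.range L) ∧ finrank F (LinearMap.range L) = 2 ∧
      ∀ c, Q (L c) = β * (c 0 * c 0) + c 1 * c 1 * Q v' + c 0 * c 1 * β := by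
    intro v' hv' hb
    let L : (Fin 2 → F) →ₗ[F] V :=
      { toFun := fun c => c 0 • (y v' + v') + c 1 • v'
        map_add' := fun a b => by simp only [Pi.add_apply, add_smul]; abel
        map_smul' := fun t a => by simp only [Pi.smul_apply, smul_eq_mul, RingHom.id_apply, smul_add, smul_smul] }
    have hL : ∀ c, L c = c 0 • (y v' + v') + c 1 • v' := fun c => rfl
    have hu : polar Q (y v' + v') v' = β := by rw [polar_add_left, hb, s, add_zero]
    have key : ∀ c, polar Q (L c) (y v' + v') = 0 → polar Q (L c) v' = 0 → c = 0 := by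
      intro c h1 h2
      rw [hL, polar_add_left, polar_smul_left, polar_smul_left, polar_comm Q v', hu, s, smul_eq_mul, smul_eq_mul,
        mul_zero, zero_add] at h1
      rw [hL, polar_add_left, polar_smul_left, polar_smul_left, hu, s, smul_eq_mul, smul_eq_mul, mul_zero,
        add_zero] at h2
      funext i
      fin_cases i
      · exact (mul_eq_zero.1 h2).resolve_right hβ
      · exact (mul_eq_zero.1 h1).resolve_right hβ
    have hLi : Function.Injective L := (injective_iff_map_eq_zero L).2 fun c hc =>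
      key c (by rw [hc, polar_zero_left]) (by rw [hc, polar_zero_left])
    refine ⟨L, hL, hLi, ?_, ?_, ?_, by rw [LinearMap.finrank_range_of_inj hLi]; simp, fun c => ?_⟩
    · rintro _ ⟨c, rfl⟩
      exact U.add_mem (U.smul_mem _ (U.add_mem (hUi v' hv') hv')) (U.smul_mem _ hv')
    · rintro _ ⟨c, rfl⟩
      refine ⟨![c 0 + c 1, c 1], ?_⟩
      simp only [hL, Matrix.cons_val_zero, Matrix.cons_val_one, map_add, map_smul, S.sq, add_smul, smul_add]
      rw [add_assoc _ (c 0 • v' + c 1 • v'), add_assoc (c 0 • v'), twice S, add_zero]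
      abel
    · rintro _ ⟨c, rfl⟩ hx
      rw [key c (hx _ ⟨![1, 0], by simp [hL]⟩) (hx _ ⟨![0, 1], by simp [hL]⟩), map_zero]
    · rw [hL, QuadraticMap.map_add ⇑Q, QuadraticMap.map_smul, QuadraticMap.map_smul, QuadraticMap.map_add ⇑Q (y v'),
        S.iso, hb, polar_smul_left, polar_smul_right, hu]
      simp only [smul_eq_mul]
      linear_combination (c 0 * c 0 * Q v') * S.two
  obtain ⟨L₀, hL₀, -, hPU, hPi, hPn, hPd, -⟩ := plane v hv rfl
  set P₀ := LinearMap.range L₀
  obtain ⟨hRn, -, hRd⟩ := ndOn_split hPn hU hPU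
  set R := perp Q P₀ U
  let Z : Submodule F V :=
    { carrier := {x | x ∈ R ∧ polar Q (y x) x = 0}
      zero_mem' := ⟨zero_mem _, by simp⟩
      add_mem' := fun {a b} ha hb => ⟨R.add_mem ha.1 hb.1, by
        rw [map_add, polar_add_left, polar_add_right, polar_add_right, ha.2, hb.2, polar_adj S b a, polar_comm Q b,
          zero_add, add_zero, ← two_mul, S.two, zero_mul]⟩
      smul_mem' := fun t a ha => ⟨R.smul_mem t ha.1, by
        rw [map_smul, polar_smul_left, polar_smul_right, ha.2, smul_zero, smul_zero]⟩ }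
  obtain ⟨u₀, hu₀, hQu₀⟩ : ∃ u₀ ∈ Z, Q u₀ ≠ 0 := by
    by_contra! hall
    have hle : 2 * finrank F Z ≤ finrank F R := by
      have hZR : Z ≤ R := fun x hx => hx.1
      have h := hRn.res.two_mul_finrank_le (Z.comap R.subtype) fun a ha b hb => by
        have e1 : Q (a : V) = 0 := hall _ ha
        have e2 : Q (b : V) = 0 := hall _ hb
        have e3 : Q ((a : V) + b) = 0 := hall _ (Z.add_mem ha hb)
        rw [polar_res, polar, e1, e2, e3]
        simp
      rwa [(Submodule.comapSubtypeEquivOfLe hZR).finrank_eq] at h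
    by_cases hR0 : ∀ x ∈ R, polar Q (y x) x = 0
    · have : R ≤ Z := fun x hx => ⟨hx, hR0 x hx⟩
      have := Submodule.finrank_mono this
      omega
    push Not at hR0
    obtain ⟨v₁, hv₁, hb₁⟩ := hR0
    have : R ≤ Z ⊔ Submodule.span F {v₁} := fun x hx => by
      obtain ⟨c, hc⟩ := exists_sqrt S.two (polar Q (y x) x / polar Q (y v₁) v₁)
      refine Submodule.mem_sup.2 ⟨x + c • v₁, ⟨R.add_mem hx (R.smul_mem c hv₁), ?_⟩, c • v₁,
        Submodule.smul_mem _ _ (Submodule.mem_span_singleton_self v₁), by rw [add_assoc, twice S, add_zero]⟩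
      have e : polar Q (y v₁) x = polar Q (y x) v₁ := by rw [polar_adj S, polar_comm]
      rw [map_add, map_smul, polar_add_left, polar_add_right, polar_add_right, polar_smul_left, polar_smul_left,
        polar_smul_right, polar_smul_right, smul_eq_mul, smul_eq_mul, smul_eq_mul, e]
      rw [eq_div_iff hb₁] at hc
      linear_combination hc + (polar Q (y x) x + c * polar Q (y x) v₁) * S.two
    have h1 := Submodule.finrank_mono this
    have h2 := Submodule.finrank_sup_add_finrank_inf_eq Z (Submodule.span F {v₁})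
    have h3 : finrank F (Submodule.span F {v₁}) = 1 :=
      finrank_span_singleton fun e => hb₁ (by rw [e, map_zero, polar_zero_left])
    omega
  have hort : ∀ x ∈ P₀, polar Q x u₀ = 0 := (mem_perp.1 hu₀.1).2
  have mk : ∀ t : F, ∃ v' ∈ U, polar Q (y v') v' = β ∧ Q v' = t := fun t => by
    obtain ⟨c, hc⟩ := exists_sqrt S.two ((t + Q v) / Q u₀)
    have e0 : polar Q v u₀ = 0 := hort v ⟨![0, 1], by simp [hL₀]⟩
    have e1 : polar Q (y v) u₀ = 0 := hort (y v) ⟨![1, 1], by simp [hL₀, add_assoc, twice S]⟩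
    refine ⟨v + c • u₀, U.add_mem hv (U.smul_mem c (mem_perp.1 hu₀.1).1), ?_, ?_⟩
    · rw [map_add, map_smul, polar_add_left, polar_add_right, polar_add_right, polar_smul_left, polar_smul_left,
        polar_smul_right, polar_smul_right, hu₀.2, e1, polar_adj S u₀ v, polar_comm Q u₀ (y v), e1, ← hβd]
      simp
    · rw [QuadraticMap.map_add ⇑Q, QuadraticMap.map_smul, polar_smul_right, e0, smul_zero, add_zero, smul_eq_mul]
      rw [eq_div_iff hQu₀] at hc
      linear_combination hc + Q v * S.two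
  by_cases hπ : π
  · obtain ⟨v', hv', hb, ht⟩ := mk 0
    obtain ⟨L, hL, hLi, h1, h2, h3, h4, h5⟩ := plane v' hv' hb
    refine ⟨_, h1, h2, h3, h4, iff_of_true ⟨Submodule.span F {v'}, ?_, ?_, ?_⟩ hπ⟩
    · rw [Submodule.span_singleton_le_iff_mem]; exact ⟨![0, 1], by simp [hL]⟩
    · intro x hx
      obtain ⟨t, rfl⟩ := Submodule.mem_span_singleton.1 hx
      rw [QuadraticMap.map_smul, ht, smul_zero]
    · rw [finrank_span_singleton fun e => hβ (by rw [← hb, e, map_zero, polar_zero_left]), h4]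
  · obtain ⟨ζ, hζ⟩ := Classical.UnitaryFlat.exists_aniso F
    obtain ⟨v', hv', hb, ht⟩ := mk (β * ζ)
    obtain ⟨L, hL, hLi, h1, h2, h3, h4, h5⟩ := plane v' hv' hb
    refine ⟨_, h1, h2, h3, h4, iff_of_false ?_ hπ⟩
    rintro ⟨T, hT, hTS, hTd⟩
    have hT0 : T = ⊥ := eq_bot_iff.2 fun x hx => by
      obtain ⟨c, rfl⟩ := hT hx
      have h := hTS _ hx
      rw [h5, ht] at h
      have h' : c 0 ^ 2 + 1 * c 0 * c 1 + ζ * c 1 ^ 2 = 0 :=
        mul_left_cancel₀ hβ (by rw [mul_zero]; linear_combination h)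
      obtain ⟨e0, e1⟩ := hζ _ _ h'
      rw [Submodule.mem_bot, hL, e0, e1, zero_smul, zero_smul, add_zero]
    rw [hT0, finrank_bot, h4] at hTd
    omega

/-- Plus subspaces of a non-alternating space. -/
theorem nonalt_plus (S : Setting2 Q y) : ∀ (n : ℕ) {U : Submodule F V}, finrank F U = 2 * n → NdOn Q U → Inv y U →
    ¬ Alt Q y U → 3 ≤ n → ∀ b, 1 ≤ b → b < n → ∃ W ≤ U, Inv y W ∧ NdOn Q W ∧ finrank F W = 2 * b ∧ Plus Q W := by
  intro n
  induction n using Nat.strong_induction_on with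
  | _ n ih =>
    intro U hd hU hUi ha hn b hb hbn
    rcases Nat.eq_or_lt_of_le hb with hb1 | hb1
    · obtain ⟨P, a, b', c, d, e⟩ := exists_plane S hU hUi ha hd hn True
      exact ⟨P, a, b', c, by omega, e.2 trivial⟩
    by_cases hbl : b + 1 = n
    · obtain ⟨P, hPU, hPi, hPn, hPd, hPp⟩ := exists_plane S hU hUi ha hd hn (Plus Q U)
      obtain ⟨hRn, hsup, hRd⟩ := ndOn_split hPn hU hPU
      refine ⟨perp Q P U, inf_le_left, inv_perp S hPi hUi, hRn, by omega, ?_⟩
      have h := hPp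
      conv_rhs at h => rw [← hsup, plus_sup hPn hRn (orth_perp _ _) ⟨1, by omega⟩ ⟨n - 1, by omega⟩]
      tauto
    obtain ⟨P, hPU, hPi, hPn, hPd, hPp⟩ := exists_plane S hU hUi ha hd hn True
    obtain ⟨hRn, hsup, hRd⟩ := ndOn_split hPn hU hPU
    have hRi := inv_perp S hPi hUi
    have hRd' : finrank F (perp Q P U) = 2 * (n - 1) := by omega
    have add : ∀ {W : Submodule F V}, W ≤ perp Q P U → Inv y W → NdOn Q W → finrank F W = 2 * (b - 1) → Plus Q W →
        ∃ W' ≤ U, Inv y W' ∧ NdOn Q W' ∧ finrank F W' = 2 * b ∧ Plus Q W' := fun hW hWi hWn hWd hWp => by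
      obtain ⟨W', a, b', c, d, e⟩ := sup_plus S hPn hPi hPU ⟨1, by omega⟩ (hPp.2 trivial) hW hWn hWi hWd hWp
      exact ⟨W', a, b', c, by omega, e⟩
    by_cases hRa : Alt Q y (perp Q P U)
    · rcases Nat.even_or_odd b with hbe | hbo
      · obtain ⟨W, hW, rest⟩ := alt_plus S (n - 1) hRd' hRn hRi hRa b (by omega) (Or.inl hbe)
        exact ⟨W, hW.trans inf_le_left, rest⟩
      · obtain ⟨W, hW, h1, h2, h3, h4⟩ :=
          alt_plus S (n - 1) hRd' hRn hRi hRa (b - 1) (by omega) (Or.inl (Nat.Odd.sub_odd hbo odd_one))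
        exact add hW h1 h2 h3 h4
    · obtain ⟨W, hW, h1, h2, h3, h4⟩ := ih (n - 1) (by omega) hRd' hRn hRi hRa (by omega) (b - 1) (by omega) (by omega)
      exact add hW h1 h2 h3 h4


/-- Subspaces of the type of the whole space. -/
theorem exists_type_top (S : Setting2 Q y) (hQ : Nd Q) {d a : ℕ} (hV : finrank F V = 2 * d) (hd : 3 ≤ d) (ha : 1 ≤ a)
    (had : a < d) (hcond : (Even a ∧ Plus Q ⊤) ∨ Even (d - a) ∨ (Even d ∧ ¬ Plus Q ⊤)) :
    ∃ W : Submodule F V, (finrank F W = 2 * a ∧ NdOn Q W ∧ (Plus Q W ↔ Plus Q ⊤)) ∧ Inv y W := by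
  have hUd : finrank F (⊤ : Submodule F V) = 2 * d := by rw [finrank_top, hV]
  have hUi : Inv y (⊤ : Submodule F V) := fun _ _ => trivial
  have get : ∀ b, 1 ≤ b → b < d → (Even b ∨ (Even d ∧ ¬ Plus Q ⊤)) →
      ∃ W ≤ (⊤ : Submodule F V), Inv y W ∧ NdOn Q W ∧ finrank F W = 2 * b ∧ Plus Q W := fun b h1 h2 h3 => by
    by_cases hal : Alt Q y (⊤ : Submodule F V)
    · exact alt_plus S d hUd (ndOn_top hQ) hUi hal b h2 h3
    · exact nonalt_plus S d hUd (ndOn_top hQ) hUi hal hd b h1 h2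
  by_cases h1 : Even a ∧ Plus Q ⊤
  · obtain ⟨W, -, hi, hn, hd', hp⟩ := get a ha had (Or.inl h1.1)
    exact ⟨W, ⟨hd', hn, iff_of_true hp h1.2⟩, hi⟩
  obtain ⟨W, -, hi, hn, hd', hp⟩ := get (d - a) (by omega) (by omega) (hcond.resolve_left h1)
  obtain ⟨hRn, hsup, hRd⟩ := ndOn_split hn (ndOn_top hQ) le_top
  refine ⟨perp Q W ⊤, ⟨by omega, hRn, ?_⟩, inv_perp S hi hUi⟩
  conv_rhs => rw [← hsup]
  rw [plus_sup hn hRn (orth_perp _ _) ⟨d - a, by omega⟩ ⟨a, by omega⟩]
  simp [hp]

/-- An invariant subspace of an alternating space shares the moved part with its orthogonal. -/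
theorem alt_split (S : Setting2 Q y) (hQ : Nd Q) (hal : Alt Q y (⊤ : Submodule F V)) {d a : ℕ}
    (hV : finrank F V = 2 * d) {W : Submodule F V} (hW : NdOn Q W) (hi : Inv y W) (hWd : finrank F W = 2 * a) :
    ∃ r₁ r₂ : ℕ, finrank F ((⊤ : Submodule F V).map (y + 1)) = r₁ + r₂ ∧ Even r₁ ∧ Even r₂ ∧ r₁ ≤ a ∧ r₂ ≤ d - a ∧
      (r₁ = a → Plus Q W) ∧ (r₂ = d - a → (Plus Q ⊤ ↔ Plus Q W)) := by
  have hUi : Inv y (⊤ : Submodule F V) := fun _ _ => trivial
  obtain ⟨hRn, hsup, hRd⟩ := ndOn_split hW (ndOn_top hQ) le_top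
  rw [finrank_top, hV, hWd] at hRd
  obtain ⟨a1, a2, a3⟩ := alt_rank S a hWd hW hi (hal.mono le_top)
  obtain ⟨b1, b2, b3⟩ := alt_rank S (d - a) (U := perp Q W ⊤) (by omega) hRn (inv_perp S hi hUi) (hal.mono le_top)
  refine ⟨_, _, ?_, a1, b1, a2, b2, a3, fun h => ?_⟩
  · conv_lhs => rw [← hsup, Submodule.map_sup]
    have hd := Submodule.finrank_sup_add_finrank_inf_eq (W.map (y + 1)) ((perp Q W ⊤).map (y + 1))
    have hb : W.map (y + 1) ⊓ (perp Q W ⊤).map (y + 1) = ⊥ := by
      rw [eq_bot_iff, ← inf_eq_bot hW (orth_perp (Q := Q) W ⊤)]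
      refine inf_le_inf ?_ ?_
      · rintro _ ⟨x, hx, rfl⟩; exact W.add_mem (hi x hx) hx
      · rintro _ ⟨x, hx, rfl⟩; exact Submodule.add_mem _ (inv_perp S hi hUi x hx) hx
    rw [hb, finrank_bot, add_zero] at hd
    exact hd
  · conv_lhs => rw [← hsup]
    rw [plus_sup hW hRn (orth_perp _ _) ⟨a, by omega⟩ ⟨d - a, by omega⟩]
    simp [b3 h]

/-- The setting of an element with scalar square. -/
theorem setting_of {ι : Type} [Fintype ι] [DecidableEq ι] {Q : QuadraticForm F (ι → F)} (h2 : (2 : F) = 0) (hQ : Nd Q)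
    (hι : 0 < Fintype.card ι) {x : GL ι F} (hiso : ∀ v, Q ((x : Matrix ι ι F) *ᵥ v) = Q v) {z : F}
    (hz : ((x ^ 2 : GL ι F) : Matrix ι ι F) = z • (1 : Matrix ι ι F)) :
    Setting2 Q (Matrix.toLin' (x : Matrix ι ι F)) := by
  obtain ⟨v, hv⟩ := OrthEven.exists_nonsing' hQ hι
  haveI : CharP F 2 := CharTwo.of_one_ne_zero_of_two_eq_zero one_ne_zero h2
  have hxx : ∀ w, (x : Matrix ι ι F) *ᵥ ((x : Matrix ι ι F) *ᵥ w) = z • w := fun w => by
    rw [Matrix.mulVec_mulVec, ← pow_two, ← Units.val_pow_eq_pow_val, hz, Matrix.smul_mulVec, Matrix.one_mulVec]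
  have hz2 : z * z = 1 := by
    have := hxx v ▸ (hiso ((x : Matrix ι ι F) *ᵥ v)).trans (hiso v)
    rw [QuadraticMap.map_smul, smul_eq_mul] at this
    exact mul_right_cancel₀ hv (by rw [one_mul]; exact this)
  have hz1 : z = 1 := CharTwo.sq_injective (by simpa [pow_two] using hz2)
  refine ⟨h2, fun w => by rw [Matrix.toLin'_apply]; exact hiso w, fun w => ?_⟩
  rw [Matrix.toLin'_apply, Matrix.toLin'_apply, hxx, hz1, one_smul]

/-! ### Elements without suitable subspaces -/

/-- An alternating involution with moved part of dimension `2 j` inside a plus part. -/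
theorem exists_alt_elt {ι : Type} [Fintype ι] [DecidableEq ι] {Q : QuadraticForm F (ι → F)} (h2 : (2 : F) = 0)
    (hQ : Nd Q) (hreg : Reg F (ι → F)) {d j : ℕ} (hι : Fintype.card ι = 2 * d) (hj : 1 ≤ j)
    (hjd : 2 * j < d ∨ (2 * j = d ∧ Plus Q ⊤)) :
    ∃ x : GL ι F, x ∈ Cfsg.Geo.omegaGL ⇑Q ∧ ((x ^ 2 : GL ι F) : Matrix ι ι F) = (1 : F) • (1 : Matrix ι ι F) ∧
      (∀ z : F, (x : Matrix ι ι F) ≠ z • (1 : Matrix ι ι F)) ∧ Setting2 Q (Matrix.toLin' (x : Matrix ι ι F)) ∧
      Alt Q (Matrix.toLin' (x : Matrix ι ι F)) ⊤ ∧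
      finrank F ((⊤ : Submodule F (ι → F)).map (Matrix.toLin' (x : Matrix ι ι F) + 1)) = 2 * j := by
  have hfin : finrank F (⊤ : Submodule F (ι → F)) = 2 * d := by rw [finrank_top, finrank_pi, hι]
  obtain ⟨P, hPn, hPd, hPp⟩ : ∃ P : Submodule F (ι → F), NdOn Q P ∧ finrank F P = 2 * (2 * j) ∧ Plus Q P := by
    rcases hjd with h | ⟨h, hp⟩
    · obtain ⟨P, -, a, b, c⟩ := exists_sub (ndOn_top hQ) (a := 2 * j) (by omega) (by rw [hfin]; omega) True
      exact ⟨P, a, b, c.2 trivial⟩
    · exact ⟨⊤, ndOn_top hQ, by rw [hfin, h], hp⟩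
  obtain ⟨k, hk⟩ : ∃ k, 2 * j = k + 1 := ⟨2 * j - 1, by omega⟩
  obtain ⟨e, he⟩ : ∃ e : (Fin (j + j) ⊕ Fin (j + j) → F) ≃ₗ[F] P,
      ∀ v, Q (e v : ι → F) = plusQ (j + j) F v := by
    rw [show j + j = k + 1 by omega]
    rcases model_cases hPn (k := k) (by omega) with ⟨-, h⟩ | ⟨h, -⟩
    · exact h
    · exact absurd hPp h
  obtain ⟨f, hf⟩ := exists_plus_plus (F := F) j j
  -- the swap on the model
  let M₁ : (Fin j ⊕ Fin j → F) × (Fin j ⊕ Fin j → F) →ₗ[F] (Fin j ⊕ Fin j → F) × (Fin j ⊕ Fin j → F) :=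
    { toFun := fun p => (Sum.elim (fun i => p.1 (.inl i) + p.2 (.inl i)) fun i => p.1 (.inr i),
        Sum.elim (fun i => p.2 (.inl i)) fun i => p.2 (.inr i) + p.1 (.inr i))
      map_add' := fun a b => Prod.ext (by ext (i | i) <;> simp [add_add_add_comm]) (by ext (i | i) <;> simp [add_add_add_comm])
      map_smul' := fun t a => Prod.ext (by ext (i | i) <;> simp [mul_add]) (by ext (i | i) <;> simp [mul_add]) }
  haveI : CharP F 2 := CharTwo.of_one_ne_zero_of_two_eq_zero one_ne_zero h2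
  have hM₁ : ∀ p, M₁ (M₁ p) = p := fun p => Prod.ext
    (by ext (i | i) <;> simp [M₁, add_assoc, CharTwo.add_self_eq_zero])
    (by ext (i | i) <;> simp [M₁, add_assoc, CharTwo.add_self_eq_zero])
  have hM₁Q : ∀ p, (plusQ j F).prod (plusQ j F) (M₁ p) = (plusQ j F).prod (plusQ j F) p := fun p => by
    simp only [QuadraticMap.prod_apply, plusQ_apply, Cfsg.quadFormPlus, M₁, LinearMap.coe_mk, AddHom.coe_mk,
      Sum.elim_inl, Sum.elim_inr]
    rw [← Finset.sum_add_distrib, ← Finset.sum_add_distrib]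
    refine Finset.sum_congr rfl fun i _ => ?_
    linear_combination (p.2 (.inl i) * p.1 (.inr i)) * h2
  obtain ⟨hCn, hsup, hCd⟩ := ndOn_split hPn (ndOn_top hQ) le_top
  set C := perp Q P ⊤
  obtain ⟨s₀, hs₀, hsQ⟩ := exists_sum_equiv hPn (orth_perp (Q := Q) P ⊤)
  let s : (((Fin j ⊕ Fin j → F) × (Fin j ⊕ Fin j → F)) × C) ≃ₗ[F] (ι → F) :=
    ((f.trans e).prodCongr (LinearEquiv.refl F C)).trans (s₀.trans ((LinearEquiv.ofEq _ _ hsup).trans Submodule.topEquiv))
  have hs : ∀ p, Q (s p) = (plusQ j F).prod (plusQ j F) p.1 + Q (p.2 : ι → F) := fun p =>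
    (hsQ _).trans (by rw [← hf, ← he]; rfl)
  let T : ((Fin j ⊕ Fin j → F) × (Fin j ⊕ Fin j → F)) × C →ₗ[F] ((Fin j ⊕ Fin j → F) × (Fin j ⊕ Fin j → F)) × C :=
    M₁.prodMap LinearMap.id
  let Y : (ι → F) →ₗ[F] (ι → F) := s.toLinearMap ∘ₗ T ∘ₗ s.symm.toLinearMap
  have hY : ∀ p, Y (s p) = s (M₁ p.1, p.2) := fun p => by simp [Y, T]
  have hY2 : ∀ v, Y (Y v) = v := fun v => by
    obtain ⟨p, rfl⟩ := s.surjective v
    rw [hY, hY, hM₁]
  have hYQ : ∀ v, Q (Y v) = Q v := fun v => by
    obtain ⟨p, rfl⟩ := s.surjective v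
    rw [hY, hs, hs, hM₁Q]
  let g : isoG Q := ⟨{ Y with invFun := Y, left_inv := hY2, right_inv := hY2 }, hYQ⟩
  have hg : ∀ v, g.1 v = Y v := fun v => rfl
  -- the image of `Y + 1`
  have haux : ∀ a b : F, a + b + a = b := fun a b => by linear_combination a * h2
  let L : (Fin j → F) × (Fin j → F) →ₗ[F] (ι → F) := s.toLinearMap ∘ₗ
    { toFun := fun c => ((Sum.elim c.1 0, Sum.elim 0 c.2), 0)
      map_add' := fun a b => by
        refine Prod.ext (Prod.ext ?_ ?_) (by simp) <;> ext (i | i) <;> simp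
      map_smul' := fun t a => by
        refine Prod.ext (Prod.ext ?_ ?_) (by simp) <;> ext (i | i) <;> simp }
  have hrange : LinearMap.range (Y + 1) = LinearMap.range L := by
    refine le_antisymm ?_ ?_
    · rintro _ ⟨v, rfl⟩
      obtain ⟨p, rfl⟩ := s.surjective v
      refine ⟨(fun i => p.1.2 (.inl i), fun i => p.1.1 (.inr i)), ?_⟩
      rw [LinearMap.add_apply, Module.End.one_apply, hY, ← map_add]
      refine congrArg s (Prod.ext (Prod.ext ?_ ?_) (Subtype.ext ?_)) <;> first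
        | (ext (i | i) <;> simp [M₁, haux, CharTwo.add_self_eq_zero])
        | simp [← two_smul F, h2]
    · rintro _ ⟨c, rfl⟩
      refine ⟨s ((Sum.elim 0 c.2, Sum.elim c.1 0), 0), ?_⟩
      rw [LinearMap.add_apply, Module.End.one_apply, hY, ← map_add]
      refine congrArg s (Prod.ext (Prod.ext ?_ ?_) (by simp)) <;> ext (i | i) <;>
        simp [M₁, CharTwo.add_self_eq_zero]
  have hLi : Function.Injective L := fun a b h => by
    have h := s.injective h
    simp only [LinearMap.coe_mk, AddHom.coe_mk, Prod.mk.injEq] at h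
    exact Prod.ext (funext fun i => congrFun h.1.1 (.inl i)) (funext fun i => congrFun h.1.2 (.inr i))
  have hrk : finrank F (LinearMap.range (Y + 1)) = 2 * j := by
    rw [hrange, LinearMap.finrank_range_of_inj hLi]; simp [two_mul]
  haveI : Finite (ι → F) := Pi.finite
  have hgc : g ∈ commutator (isoG Q) := by
    rw [mem_commutator_iff_two hQ hreg h2, dick_eq]
    have hfix : fixS g = LinearMap.ker (Y + 1) := by
      ext v
      rw [mem_fixS, LinearMap.mem_ker, LinearMap.add_apply, Module.End.one_apply, hg]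
      exact ⟨fun h => by rw [h, ← two_smul F v, h2, zero_smul],
        fun h => by rw [eq_neg_of_add_eq_zero_left h, ← sub_eq_zero, sub_eq_add_neg, ← neg_add, ← two_smul F v, h2,
          zero_smul, neg_zero]⟩
    have h1 := LinearMap.finrank_range_add_finrank_ker (Y + 1)
    have he2 : finrank F (ι → F) = 2 * d := by rw [finrank_pi, hι]
    rw [hrk, he2] at h1
    rw [hfix, he2]
    exact Even.neg_one_pow ⟨2 * d - j, by omega⟩
  refine ⟨isoMat Q g, isoMat_mem_omega hgc, ?_, ?_, ?_⟩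
  · rw [isoMat_pow, show g ^ 2 = 1 from iso_ext fun v => by rw [pow_two]; exact hY2 v, isoMat_one, one_smul, Units.val_one]
  · intro z hz
    obtain ⟨v, hv⟩ : ∃ v, Y v + v ≠ 0 := by
      by_contra! h
      have : LinearMap.range (Y + 1) = ⊥ := eq_bot_iff.2 (by rintro _ ⟨v, rfl⟩; exact h v)
      rw [this, finrank_bot] at hrk
      omega
    have hzv : ∀ w, Y w = z • w := fun w => by
      have := isoMat_mulVec (Q := Q) g w
      rw [hz, Matrix.smul_mulVec, Matrix.one_mulVec] at this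
      exact this.symm
    obtain ⟨w, hw⟩ : ∃ w, Q w ≠ 0 := by
      haveI : Nontrivial (ι → F) := nontrivial_of_ne v 0 fun e => hv (by rw [e, map_zero, add_zero])
      exact hQ.exists_nonsing
    have hz1 : z * z = 1 := by
      have := hYQ w
      rw [hzv, QuadraticMap.map_smul, smul_eq_mul] at this
      exact mul_right_cancel₀ hw (by rw [one_mul]; exact this)
    have : z = 1 := CharTwo.sq_injective (by simpa [pow_two] using hz1)
    exact hv (by rw [hzv, this, one_smul, ← two_smul F v, h2, zero_smul])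
  · have hx : Matrix.toLin' ((isoMat Q g : GL ι F) : Matrix ι ι F) = Y :=
      LinearMap.ext fun v => by rw [Matrix.toLin'_apply, isoMat_mulVec]; rfl
    rw [hx]
    refine ⟨⟨h2, hYQ, hY2⟩, fun v _ => ?_, by rw [Submodule.map_top]; exact hrk⟩
    obtain ⟨p, rfl⟩ := s.surjective v
    have h0 : (plusQ j F).prod (plusQ j F) (M₁ p.1 + p.1) = 0 := by
      simp only [QuadraticMap.prod_apply, plusQ_apply, Cfsg.quadFormPlus, M₁, LinearMap.coe_mk, AddHom.coe_mk,
        Sum.elim_inl, Sum.elim_inr, Prod.fst_add, Prod.snd_add, Pi.add_apply, haux, CharTwo.add_self_eq_zero,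
        mul_zero, zero_mul, Finset.sum_const_zero, add_zero]
    have hC : Q ((p.2 : ι → F) + p.2) = 0 := by rw [← two_smul F (p.2 : ι → F), h2, zero_smul, map_zero]
    rw [hY, polar, ← map_add, hs, hs, hs, Prod.fst_add, Prod.snd_add, h0, Submodule.coe_add, hC, hM₁Q]
    linear_combination (-(((plusQ j F).prod (plusQ j F)) p.1) - Q (p.2 : ι → F)) * h2

end Cfsg.Agent.Lib.Elusive.OrthInvolTwo
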