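import Cfsg.Agent.Lib.Elusive.OrthUnipotent
import Cfsg.Agent.Lib.Elusive.OrthEven

/-!
Elements of order `p` (odd) of even-dimensional orthogonal groups without suitable invariant subspaces.
-/

set_option autoImplicit false
set_option maxHeartbeats 1000000

namespace Cfsg.Agent.Lib.Elusive.OrthUnipEven

open Module QuadraticMap
open scoped Matrix
open Cfsg.Agent.Lib.Jordan Cfsg.Agent.Lib.Classical.Quad Cfsg.Agent.Lib.Classical.QuadOmega
open Cfsg.Agent.Lib.Classical.QuadF2 Cfsg.Agent.Lib.Classical.OrthTorsion Cfsg.Agent.Lib.Elusive.OrthType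
open Cfsg.Agent.Lib.Forms (isoMat isoMat_mulVec)

universe u

variable {F : Type u} [Field F] {V : Type u} [AddCommGroup V] [Module F V] [FiniteDimensional F V]
variable {Q : QuadraticForm F V}

/-- The Jordan type of `X - 1` on an invariant subspace. -/
def TypeOn (X : Module.End F V) (A : Submodule F V) (τ : Multiset ℕ) : Prop :=
  ∃ h : ∀ v ∈ A, (X - 1) v ∈ A, HasType ((X - 1).restrict h) τ

omit [FiniteDimensional F V] in
theorem sub_one_mem {X : Module.End F V} {A : Submodule F V} (h : Inv X A) :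
    ∀ v ∈ A, (X - 1) v ∈ A := fun v hv => A.sub_mem (h v hv) hv

theorem exists_typeOn {X : Module.End F V} (hn : IsNilpotent (X - 1)) {A : Submodule F V} (hA : Inv X A) :
    ∃ τ, TypeOn X A τ := by
  obtain ⟨n, hn⟩ := hn
  obtain ⟨τ, hτ⟩ := exists_type (f := (X - 1).restrict (sub_one_mem hA)) ⟨n, LinearMap.ext fun v => Subtype.ext (by
    rw [Module.End.pow_restrict n (sub_one_mem hA), LinearMap.restrict_apply]; simp [hn])⟩
  exact ⟨τ, _, hτ⟩

theorem TypeOn.sum_eq {X : Module.End F V} {A : Submodule F V} {τ : Multiset ℕ} (h : TypeOn X A τ) :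
    τ.sum = finrank F A := h.2.sum_eq

theorem TypeOn.unique {X : Module.End F V} {A : Submodule F V} {τ τ' : Multiset ℕ} (h : TypeOn X A τ)
    (h' : TypeOn X A τ') : τ = τ' := h.2.unique h'.2

theorem typeOn_top {X : Module.End F V} {μ : Multiset ℕ} (h : HasType (X - 1) μ) : TypeOn X ⊤ μ :=
  ⟨fun _ _ => trivial, h.transport Submodule.topEquiv.symm fun _ => rfl⟩

theorem typeOn_line {X : Module.End F V} {w : V} (hw : w ≠ 0) (hX : X w = w) :
    TypeOn X (Submodule.span F {w}) {1} := by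
  have hi : Inv X (Submodule.span F {w}) := fun v hv => by
    obtain ⟨t, rfl⟩ := Submodule.mem_span_singleton.1 hv
    rw [map_smul, hX]; exact hv
  have h0 : (X - 1).restrict (sub_one_mem hi) = 0 := LinearMap.ext fun v => Subtype.ext (by
    obtain ⟨t, ht⟩ := Submodule.mem_span_singleton.1 v.2
    show (X - 1) (v : V) = 0
    rw [← ht, map_smul, LinearMap.sub_apply, Module.End.one_apply, hX, sub_self, smul_zero])
  obtain ⟨τ, hτ⟩ := exists_type (f := (0 : Module.End F (Submodule.span F {w}))) ⟨1, pow_one 0⟩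
  have hone := hτ.eq_zero_iff.1 rfl
  have hs := hτ.sum_eq
  rw [finrank_span_singleton hw] at hs
  have he : τ = Multiset.replicate (Multiset.card τ) 1 := Multiset.eq_replicate_card.2 hone
  rw [he, Multiset.sum_replicate, smul_eq_mul, mul_one] at hs
  rw [hs, Multiset.replicate_one] at he
  exact ⟨sub_one_mem hi, h0.symm ▸ he ▸ hτ⟩

theorem typeOn_sup {X : Module.End F V} {A B : Submodule F V} {α β : Multiset ℕ} (hA : NdOn Q A)
    (ho : Orth Q A B) (ha : TypeOn X A α) (hb : TypeOn X B β) : TypeOn X (A ⊔ B) (α + β) := by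
  obtain ⟨s, hs, -⟩ := exists_sum_equiv hA ho
  obtain ⟨ha, ha'⟩ := ha
  obtain ⟨hb, hb'⟩ := hb
  refine ⟨fun v hv => ?_, (ha'.prod hb').transport s fun x => Subtype.ext ?_⟩
  · obtain ⟨a, h1, b, h2, rfl⟩ := Submodule.mem_sup.1 hv
    rw [map_add]
    exact Submodule.add_mem_sup (ha a h1) (hb b h2)
  · rw [hs, LinearMap.restrict_apply]
    show _ = (X - 1) (s x : V)
    rw [hs, map_add]
    rfl

/-- The constraints on the type of a non-degenerate invariant subspace. -/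
theorem TypeOn.facts (h2 : (2 : F) ≠ 0) {X : Module.End F V} (hiso : ∀ v, Q (X v) = Q v)
    (hXi : Function.Injective X) {A : Submodule F V} {τ : Multiset ℕ} (hA : NdOn Q A) (hτ : TypeOn X A τ) :
    (∀ e : ℕ, Even e → Even (τ.count e)) ∧ ((∀ a ∈ τ, Even a) → Plus Q A) := by
  obtain ⟨h, hτ⟩ := hτ
  have hXA : ∀ v ∈ A, X v ∈ A := fun v hv => by
    have := A.add_mem (h v hv) hv
    simpa using this
  let XA : Module.End F A := X.restrict hXA
  let BA : LinearMap.BilinForm F A := (polarBilin Q).compl₁₂ A.subtype A.subtype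
  have hτ' : HasType (XA - 1) τ := by
    rwa [show XA - 1 = (X - 1).restrict h from LinearMap.ext fun v => Subtype.ext rfl]
  have hsymm : ∀ u v, BA u v = BA v u := fun u v => polar_comm _ _ _
  have hBX : ∀ u v, BA (XA u) (XA v) = BA u v := fun u v => by
    show polar Q (X u) (X v) = polar Q (u : V) (v : V)
    simp [polar, ← map_add, hiso]
  refine ⟨OrthUnipotent.even_counts (B := BA) h2 hsymm
    (fun u hu => Subtype.ext (hA u u.2 fun w hw => hu ⟨w, hw⟩)) hBX hτ', fun hall => ?_⟩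
  obtain ⟨U, hU, hU0⟩ := OrthUnipotent.exists_half (B := BA) hsymm hBX
    (fun a b h => Subtype.ext (hXi (congrArg Subtype.val h))) hτ' hall
  refine ⟨U.map A.subtype, Submodule.map_subtype_le A U, ?_, by rw [Submodule.finrank_map_subtype_eq, hU]⟩
  rintro _ ⟨u, hu, rfl⟩
  have e : polar Q (u : V) u = 0 := hU0 u hu u hu
  rw [polar_self, two_nsmul, ← two_mul] at e
  exact (mul_eq_zero.1 e).resolve_left h2

/-- An invariant non-degenerate subspace and its orthogonal share the type. -/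
theorem split_type {X : Module.End F V} (hiso : ∀ v, Q (X v) = Q v) (hX : Function.Injective X)
    (hn : IsNilpotent (X - 1)) {A W : Submodule F V} (hA : NdOn Q A) (hAi : Inv X A) (hW : NdOn Q W)
    (hWi : Inv X W) (hWA : W ≤ A) {μ : Multiset ℕ} (hμ : TypeOn X A μ) :
    ∃ ν ρ, TypeOn X W ν ∧ TypeOn X (perp Q W A) ρ ∧ μ = ν + ρ ∧ Inv X (perp Q W A) := by
  have hPi : Inv X (perp Q W A) := fun v hv => mem_perp.2 ⟨hAi v (mem_perp.1 hv).1, fun w hw => by
    have he : W.map X = W := Submodule.eq_of_le_of_finrank_eq (inv_iff_map_le.1 hWi)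
      (LinearEquiv.finrank_eq (Submodule.equivMapOfInjective X hX W).symm)
    rw [← he] at hw
    obtain ⟨w', hw', rfl⟩ := hw
    have := (mem_perp.1 hv).2 w' hw'
    simpa [polar, ← map_add, hiso] using this⟩
  obtain ⟨ν, hν⟩ := exists_typeOn hn hWi
  obtain ⟨ρ, hρ⟩ := exists_typeOn hn hPi
  obtain ⟨hn', hsup, -⟩ := ndOn_split hW hA hWA
  have h := typeOn_sup hW (orth_perp (Q := Q) W A) hν hρ
  rw [hsup] at h
  exact ⟨ν, ρ, hν, hρ, hμ.unique h, hPi⟩

theorem dvd_four {τ : Multiset ℕ} (h : ∀ e : ℕ, Even e → Even (τ.count e)) (hall : ∀ a ∈ τ, Even a) : 4 ∣ τ.sum := by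
  classical
  rw [Finset.sum_multiset_count]
  refine Finset.dvd_sum fun e he => ?_
  rw [smul_eq_mul]
  exact mul_dvd_mul (h e (hall e (Multiset.mem_toFinset.1 he))).two_dvd (hall e (Multiset.mem_toFinset.1 he)).two_dvd

/-- Types built from two odd parts and even parts. -/
theorem two_odd {o₁ o₂ : ℕ} {E ν ρ : Multiset ℕ} (hE : ∀ a ∈ E, Even a) (h : o₁ ::ₘ o₂ ::ₘ E = ν + ρ) :
    (∀ a ∈ ν, Even a) ∨ (∀ a ∈ ρ, Even a) ∨
      (∃ ν', ν = o₁ ::ₘ ν' ∧ (∀ a ∈ ν', Even a) ∧ ∃ ρ', ρ = o₂ ::ₘ ρ' ∧ ∀ a ∈ ρ', Even a) ∨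
      (∃ ν', ν = o₂ ::ₘ ν' ∧ (∀ a ∈ ν', Even a) ∧ ∃ ρ', ρ = o₁ ::ₘ ρ' ∧ ∀ a ∈ ρ', Even a) := by
  classical
  have hev : ∀ {ν' ρ' : Multiset ℕ}, E = ν' + ρ' → (∀ a ∈ ν', Even a) ∧ (∀ a ∈ ρ', Even a) := fun e =>
    ⟨fun a ha => hE a (e ▸ Multiset.mem_add.2 (Or.inl ha)), fun a ha => hE a (e ▸ Multiset.mem_add.2 (Or.inr ha))⟩
  rcases Multiset.mem_add.1 (h ▸ Multiset.mem_cons_self o₁ _) with h₁ | h₁ <;>
    obtain ⟨t, rfl⟩ := Multiset.exists_cons_of_mem h₁
  · rw [Multiset.cons_add, Multiset.cons_inj_right] at h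
    rcases Multiset.mem_add.1 (h ▸ Multiset.mem_cons_self o₂ _) with h₂ | h₂ <;>
      obtain ⟨s, rfl⟩ := Multiset.exists_cons_of_mem h₂
    · rw [Multiset.cons_add, Multiset.cons_inj_right] at h
      exact Or.inr (Or.inl (hev h).2)
    · rw [Multiset.add_cons, Multiset.cons_inj_right] at h
      exact Or.inr (Or.inr (Or.inl ⟨t, rfl, (hev h).1, s, rfl, (hev h).2⟩))
  · rw [Multiset.add_cons, Multiset.cons_inj_right] at h
    rcases Multiset.mem_add.1 (h ▸ Multiset.mem_cons_self o₂ _) with h₂ | h₂ <;>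
      obtain ⟨s, rfl⟩ := Multiset.exists_cons_of_mem h₂
    · rw [Multiset.cons_add, Multiset.cons_inj_right] at h
      exact Or.inr (Or.inr (Or.inr ⟨s, rfl, (hev h).1, t, rfl, (hev h).2⟩))
    · rw [Multiset.add_cons, Multiset.cons_inj_right] at h
      exact Or.inl (hev h).1

theorem ndOn_line (h2 : (2 : F) ≠ 0) {w : V} (hw : Q w ≠ 0) : NdOn Q (Submodule.span F {w}) := fun x hx h => by
  obtain ⟨t, rfl⟩ := Submodule.mem_span_singleton.1 hx
  have := h w (Submodule.mem_span_singleton_self w)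
  rw [polar_smul_left, polar_self, two_nsmul, smul_eq_mul, ← two_mul] at this
  rw [(mul_eq_zero.1 this).resolve_right (mul_ne_zero h2 hw), zero_smul]

variable [Fintype F]

section matrices

variable {ι : Type} [Fintype ι] [DecidableEq ι] {R : QuadraticForm F (ι → F)} {p : ℕ} [Fact p.Prime] [CharP F p]

theorem two_ne (hp : Odd p) : (2 : F) ≠ 0 := fun h => by
  have : p ∣ 2 := (CharP.cast_eq_zero_iff F p 2).1 (by exact_mod_cast h)
  obtain rfl := (Nat.prime_dvd_prime_iff_eq Fact.out Nat.prime_two).1 this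
  exact Nat.not_odd_iff_even.2 even_two hp

/-- What a unipotent witness provides. -/
theorem witness_props (hι : 0 < Fintype.card ι) {x : GL ι F} (hx : x ∈ Cfsg.Geo.omegaGL ⇑R)
    (hxp : (x : Matrix ι ι F) ^ p = 1) {μ : Multiset ℕ} (hμ : MType ((x : Matrix ι ι F) - 1) μ) (hne : ∃ a ∈ μ, a ≠ 1) :
    (∃ z : F, ((x ^ p : GL ι F) : Matrix ι ι F) = z • (1 : Matrix ι ι F)) ∧
      (∀ z : F, (x : Matrix ι ι F) ≠ z • (1 : Matrix ι ι F)) ∧
      (∀ v, R (Matrix.toLin' (x : Matrix ι ι F) v) = R v) ∧ Function.Injective (Matrix.toLin' (x : Matrix ι ι F)) ∧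
      IsNilpotent (Matrix.toLin' (x : Matrix ι ι F) - 1) ∧ TypeOn (Matrix.toLin' (x : Matrix ι ι F)) ⊤ μ := by
  have ht : HasType (Matrix.toLin' (x : Matrix ι ι F) - 1) μ := by
    have := hμ
    rw [MType, map_sub, Matrix.toLin'_one] at this
    exact this
  refine ⟨⟨1, by rw [Units.val_pow_eq_pow_val, hxp, one_smul]⟩, fun z hz => ?_,
    fun v => by rw [Matrix.toLin'_apply]; exact OrthOdd.iso_of_omega hx v,
    fun a b h => by
      have := congrArg (fun w => ((x⁻¹ : GL ι F) : Matrix ι ι F) *ᵥ w) h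
      simpa [Matrix.mulVec_mulVec] using this,
    ht.isNilpotent, typeOn_top ht⟩
  haveI : Nonempty ι := Fintype.card_pos_iff.1 hι
  have hz1 : z = 1 := by
    rw [hz, smul_pow, one_pow] at hxp
    have h1 : z ^ p = 1 := by
      have := congrFun (congrFun hxp (Classical.arbitrary ι)) (Classical.arbitrary ι)
      simpa using this
    exact frobenius_inj F p (by simp [frobenius_def, h1])
  obtain ⟨a, ha, ha1⟩ := hne
  exact ha1 (hμ.eq_zero_iff.1 (by rw [hz, hz1, one_smul, sub_self]) a ha)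

theorem three_le (hp : Odd p) : 3 ≤ p := by
  obtain ⟨k, rfl⟩ := hp
  have := (Fact.out : (2 * k + 1).Prime).two_le
  omega

theorem exists_two_odd (hR : Nd R) (hp : Odd p) {d o₁ o₂ k : ℕ} (hι : Fintype.card ι = 2 * d) (ho₁ : Odd o₁)
    (ho₂ : Odd o₂) (h₁ : o₁ ≤ 3) (h₂ : o₂ ≤ 3) (hk : Even k) (hk1 : 1 ≤ k) (hsum : o₁ + o₂ + 2 * k = 2 * d) :
    ∃ x : GL ι F, x ∈ Cfsg.Geo.omegaGL ⇑R ∧ (x : Matrix ι ι F) ^ p = 1 ∧
      MType ((x : Matrix ι ι F) - 1) (o₁ ::ₘ o₂ ::ₘ Multiset.replicate k 2) := by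
  have h3 := three_le (p := p) hp
  refine OrthUnipotent.exists_unipotent hR hp (fun a ha => ?_) (fun e he => ?_) ⟨o₁, by simp, ho₁⟩ (by simp; omega)
  · rcases Multiset.mem_cons.1 ha with rfl | ha
    · exact ⟨ho₁.pos, by omega⟩
    rcases Multiset.mem_cons.1 ha with rfl | ha
    · exact ⟨ho₂.pos, by omega⟩
    rw [Multiset.eq_of_mem_replicate ha]; omega
  · rw [Multiset.count_cons_of_ne (fun h => Nat.not_even_iff_odd.2 ho₁ (by rw [← h]; exact he)),
      Multiset.count_cons_of_ne (fun h => Nat.not_even_iff_odd.2 ho₂ (by rw [← h]; exact he)), Multiset.count_replicate]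
    split_ifs
    · exact hk
    · exact Even.zero

theorem even_rep {k : ℕ} : ∀ a ∈ Multiset.replicate k 2, Even a := fun a ha =>
  (Multiset.eq_of_mem_replicate ha).symm ▸ even_two

/-- An element fixing no space of minus type in a space of plus type. -/
theorem no_minus (hR : Nd R) (hp : Odd p) {d a : ℕ} (hι : Fintype.card ι = 2 * d) (hd : 4 ≤ d) (hV : Plus R ⊤) :
    ∃ x : GL ι F, x ∈ Cfsg.Geo.omegaGL ⇑R ∧ (∃ z : F, ((x ^ p : GL ι F) : Matrix ι ι F) = z • (1 : Matrix ι ι F)) ∧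
      (∀ z : F, (x : Matrix ι ι F) ≠ z • (1 : Matrix ι ι F)) ∧
      ∀ W : Submodule F (ι → F), finrank F W = 2 * a → NdOn R W → Inv (Matrix.toLin' (x : Matrix ι ι F)) W → Plus R W := by
  obtain ⟨o, ho, ho3, k, hk, hk1, hsum⟩ : ∃ o, Odd o ∧ o ≤ 3 ∧ ∃ k, Even k ∧ 1 ≤ k ∧ 1 + o + 2 * k = 2 * d := by
    rcases Nat.even_or_odd d with hd' | hd'
    · exact ⟨3, by decide, le_rfl, d - 2, (Nat.even_sub (by omega)).2 (iff_of_true hd' even_two), by omega, by omega⟩
    · exact ⟨1, by decide, by omega, d - 1, Nat.Odd.sub_odd hd' odd_one, by omega, by omega⟩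
  obtain ⟨x, hx, hxp, hμ⟩ := exists_two_odd hR hp hι odd_one ho (by omega) ho3 hk hk1 (by omega)
  obtain ⟨hz, hns, hiso, hinj, hnil, htop⟩ := witness_props (by omega) hx hxp hμ ⟨2, Multiset.mem_cons_of_mem (Multiset.mem_cons_of_mem (Multiset.mem_replicate.2 ⟨by omega, rfl⟩)), by omega⟩
  refine ⟨x, hx, hz, hns, fun W hWd hW hWi => ?_⟩
  obtain ⟨ν, ρ, hν, hρ, he, -⟩ := split_type hiso hinj hnil (ndOn_top hR) (fun _ _ => trivial) hW hWi le_top htop
  obtain ⟨hWe, hWp⟩ := hν.facts (two_ne (p := p) hp) hiso hinj hW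
  obtain ⟨hPn, hsup, hPd⟩ := ndOn_split hW (ndOn_top hR) le_top
  obtain ⟨hPe, hPp⟩ := hρ.facts (two_ne (p := p) hp) hiso hinj hPn
  rcases two_odd even_rep he with h | h | ⟨t, rfl, ht, -⟩ | ⟨t, rfl, ht, -⟩
  · exact hWp h
  · rw [finrank_top, finrank_pi, hι] at hPd
    rw [← hsup, plus_sup hW hPn (orth_perp _ _) ⟨a, by omega⟩ ⟨d - a, by omega⟩] at hV
    exact hV.2 (hPp h)
  all_goals
    exfalso
    have hs := hν.sum_eq
    have hte : Even t.sum := Multiset.sum_induction (p := Even) _ (fun _ _ h h' => h.add h') Even.zero ht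
    rw [Multiset.sum_cons, hWd] at hs
    rw [Nat.even_iff] at hte
    rw [Nat.odd_iff] at ho
    omega

/-- An element fixing no space of the given odd dimension. -/
theorem no_odd (hR : Nd R) (hp : Odd p) {d m : ℕ} (hι : Fintype.card ι = 2 * d) (hd : 4 ≤ d) (hdo : Odd d)
    (hm : Odd m) :
    ∃ x : GL ι F, x ∈ Cfsg.Geo.omegaGL ⇑R ∧ (∃ z : F, ((x ^ p : GL ι F) : Matrix ι ι F) = z • (1 : Matrix ι ι F)) ∧
      (∀ z : F, (x : Matrix ι ι F) ≠ z • (1 : Matrix ι ι F)) ∧
      ∀ W : Submodule F (ι → F), finrank F W = m → NdOn R W → ¬ Inv (Matrix.toLin' (x : Matrix ι ι F)) W := by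
  rw [Nat.odd_iff] at hdo hm
  obtain ⟨o, ho, ho3, hom⟩ : ∃ o, Odd o ∧ o ≤ 3 ∧ o % 4 ≠ m % 4 := by
    rcases (show m % 4 = 1 ∨ m % 4 = 3 by omega) with h | h
    · exact ⟨3, by decide, le_rfl, by omega⟩
    · exact ⟨1, by decide, by omega, by omega⟩
  obtain ⟨x, hx, hxp, hμ⟩ := exists_two_odd hR hp hι ho ho ho3 ho3 (k := d - o) (by
    rw [Nat.even_iff]; rw [Nat.odd_iff] at ho; omega) (by omega) (by omega)
  obtain ⟨hz, hns, hiso, hinj, hnil, htop⟩ := witness_props (by omega) hx hxp hμ ⟨2, Multiset.mem_cons_of_mem (Multiset.mem_cons_of_mem (Multiset.mem_replicate.2 ⟨by omega, rfl⟩)), by omega⟩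
  refine ⟨x, hx, hz, hns, fun W hWd hW hWi => ?_⟩
  obtain ⟨ν, ρ, hν, hρ, he, -⟩ := split_type hiso hinj hnil (ndOn_top hR) (fun _ _ => trivial) hW hWi le_top htop
  obtain ⟨hWe, -⟩ := hν.facts (two_ne (p := p) hp) hiso hinj hW
  obtain ⟨hPn, -, hPd⟩ := ndOn_split hW (ndOn_top hR) le_top
  obtain ⟨hPe, -⟩ := hρ.facts (two_ne (p := p) hp) hiso hinj hPn
  rw [finrank_top, finrank_pi, hι] at hPd
  have hone : ∀ t : Multiset ℕ, ν = o ::ₘ t → (∀ a ∈ t, Even a) → False := fun t e ht => by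
    subst e
    have hd4 := dvd_four (τ := t) (fun e he => by
      have := hWe e he
      rwa [Multiset.count_cons_of_ne (fun h => Nat.not_even_iff_odd.2 ho (by rw [← h]; exact he))] at this) ht
    have hs := hν.sum_eq
    rw [Multiset.sum_cons, hWd] at hs
    omega
  rcases two_odd even_rep he with h | h | ⟨t, e, ht, -⟩ | ⟨t, e, ht, -⟩
  · have := dvd_four hWe h
    rw [hν.sum_eq, hWd] at this
    omega
  · have := dvd_four hPe h
    rw [hρ.sum_eq] at this
    omega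
  · exact hone t e ht
  · exact hone t e ht

/-- A unipotent element with a fixed vector of given value. -/
theorem exists_fixing (hR : Nd R) (hp : Odd p) {d : ℕ} (hι : Fintype.card ι = 2 * d) (hd : 4 ≤ d) (hde : Even d)
    {u : ι → F} (hu : R u ≠ 0) :
    ∃ x : GL ι F, x ∈ Cfsg.Geo.omegaGL ⇑R ∧ (x : Matrix ι ι F) ^ p = 1 ∧
      MType ((x : Matrix ι ι F) - 1) (1 ::ₘ 3 ::ₘ Multiset.replicate (d - 2) 2) ∧
      Matrix.toLin' (x : Matrix ι ι F) u = u := by
  have h2 := two_ne (F := F) (p := p) hp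
  have hu0 : u ≠ 0 := fun h => hu (by rw [h, map_zero])
  obtain ⟨hUn, hsup, hUd⟩ := ndOn_split (ndOn_line h2 hu) (ndOn_top hR) le_top
  set U := OrthType.perp R (Submodule.span F {u}) ⊤
  rw [finrank_top, finrank_pi, hι, finrank_span_singleton hu0] at hUd
  let e : (Fin (2 * d - 1) → F) ≃ₗ[F] U := LinearEquiv.ofFinrankEq _ _ (by rw [finrank_fin_fun]; omega)
  let R' : QuadraticForm F (Fin (2 * d - 1) → F) := R.comp (U.subtype ∘ₗ e.toLinearMap)
  have hR' : Nd R' := fun v hv => e.injective ((Subtype.ext (hUn _ (e v).2 fun w hw => by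
    have e0 := hv (e.symm ⟨w, hw⟩)
    simp only [R', polar, QuadraticMap.comp_apply, LinearMap.comp_apply, LinearEquiv.coe_coe, map_add,
      LinearEquiv.apply_symm_apply, Submodule.subtype_apply] at e0
    exact e0)).trans (map_zero e).symm)
  have h3 := three_le (p := p) hp
  obtain ⟨x', hx', hxp', hμ'⟩ := OrthUnipotent.exists_unipotent hR' hp
    (μ := 3 ::ₘ Multiset.replicate (d - 2) 2) (fun a ha => by
      rcases Multiset.mem_cons.1 ha with rfl | ha
      · omega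
      · rw [Multiset.eq_of_mem_replicate ha]; omega)
    (fun j hj => by
      rw [Multiset.count_cons_of_ne (fun h => Nat.not_even_iff_odd.2 (by decide : Odd 3) (by rw [← h]; exact hj)), Multiset.count_replicate]
      split_ifs
      · exact (Nat.even_sub (by omega)).2 (iff_of_true hde even_two)
      · exact Even.zero)
    ⟨3, by simp, by decide⟩ (by simp; omega)
  obtain ⟨s₀, hs₀, hsQ⟩ := exists_sum_equiv (ndOn_line h2 hu) (orth_perp (Q := R) (Submodule.span F {u}) ⊤)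
  let s : (Submodule.span F {u} × U) ≃ₗ[F] (ι → F) :=
    s₀.trans ((LinearEquiv.ofEq _ _ hsup).trans Submodule.topEquiv)
  let T : Submodule.span F {u} × U →ₗ[F] Submodule.span F {u} × U :=
    LinearMap.id.prodMap (e.toLinearMap ∘ₗ Matrix.toLin' (x' : Matrix (Fin (2 * d - 1)) (Fin (2 * d - 1)) F) ∘ₗ e.symm.toLinearMap)
  have hpow : ∀ (k : ℕ) q, (T ^ k) q = (q.1, e (((x' : Matrix (Fin (2 * d - 1)) (Fin (2 * d - 1)) F) ^ k) *ᵥ e.symm q.2)) := by
    intro k
    induction k with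
    | zero => intro q; simp
    | succ k ih =>
      intro q
      rw [pow_succ', Module.End.mul_apply, ih, pow_succ', ← Matrix.mulVec_mulVec]
      simp [T]
  have hTp : ∀ q, (T ^ p) q = q := fun q => by
    rw [hpow, hxp', Matrix.one_mulVec, e.apply_symm_apply]
  have hp1 : p - 1 + 1 = p := by omega
  let Te : (Submodule.span F {u} × U) ≃ₗ[F] (Submodule.span F {u} × U) :=
    { T with
      invFun := ⇑(T ^ (p - 1) : Module.End F (Submodule.span F {u} × U))
      left_inv := fun q => by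
        show (T ^ (p - 1)) (T q) = q
        rw [← Module.End.mul_apply, ← pow_succ, hp1, hTp]
      right_inv := fun q => by
        show T ((T ^ (p - 1)) q) = q
        rw [← Module.End.mul_apply, ← pow_succ', hp1, hTp] }
  have hgQ : ∀ v, R ((s.symm.trans (Te.trans s)) v) = R v := fun v => by
    obtain ⟨q, rfl⟩ := s.surjective v
    rw [LinearEquiv.trans_apply, LinearEquiv.trans_apply, s.symm_apply_apply]
    refine (hsQ _).trans (Eq.trans ?_ (hsQ _).symm)
    refine congrArg (R (q.1 : ι → F) + ·) ?_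
    have e0 := OrthOdd.iso_of_omega hx' (e.symm q.2)
    simp only [R', QuadraticMap.comp_apply, LinearMap.comp_apply, LinearEquiv.coe_coe, e.apply_symm_apply,
      Submodule.subtype_apply] at e0
    exact e0
  let g : isoG R := ⟨s.symm.trans (Te.trans s), hgQ⟩
  have hgs : ∀ (k : ℕ) q, (g.1 ^ k) (s q) = s ((T ^ k) q) := by
    intro k
    induction k with
    | zero => intro q; rfl
    | succ k ih =>
      intro q
      rw [pow_succ', LinearEquiv.mul_apply, ih, pow_succ', Module.End.mul_apply]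
      show s (Te (s.symm (s _))) = _
      rw [s.symm_apply_apply]; rfl
  have hgp : g ^ p = 1 := iso_ext fun v => by
    obtain ⟨q, rfl⟩ := s.surjective v
    rw [Subgroup.coe_pow, hgs, hTp]; rfl
  haveI : Finite (ι → F) := Pi.finite
  have hxv : ∀ q, Matrix.toLin' ((isoMat R g : GL ι F) : Matrix ι ι F) (s q) = s (T q) := fun q => by
    rw [Matrix.toLin'_apply, isoMat_mulVec]
    show s (Te (s.symm (s q))) = _
    rw [s.symm_apply_apply]; rfl
  refine ⟨isoMat R g, isoMat_mem_omega (mem_commutator_of_pow hR (reg_of_two_ne_zero h2) hp hgp), ?_, ?_, ?_⟩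
  · rw [← Units.val_pow_eq_pow_val, isoMat_pow, hgp, isoMat_one, Units.val_one]
  · rw [MType, map_sub, Matrix.toLin'_one]
    have hline : HasType (0 : Module.End F (Submodule.span F {u})) {1} := by
      obtain ⟨τ, hτ⟩ := exists_type (f := (0 : Module.End F (Submodule.span F {u}))) ⟨1, pow_one 0⟩
      have hs := hτ.sum_eq
      rw [finrank_span_singleton hu0] at hs
      have he : τ = Multiset.replicate (Multiset.card τ) 1 := Multiset.eq_replicate_card.2 (hτ.eq_zero_iff.1 rfl)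
      rw [he, Multiset.sum_replicate, smul_eq_mul, mul_one] at hs
      rw [hs, Multiset.replicate_one] at he
      exact he ▸ hτ
    have hU : HasType (e.toLinearMap ∘ₗ (Matrix.toLin' ((x' : Matrix (Fin (2 * d - 1)) (Fin (2 * d - 1)) F) - 1)) ∘ₗ
        e.symm.toLinearMap) (3 ::ₘ Multiset.replicate (d - 2) 2) :=
      (show HasType (Matrix.toLin' ((x' : Matrix (Fin (2 * d - 1)) (Fin (2 * d - 1)) F) - 1)) _ from hμ').transport e
        fun v => by simp
    have h := (hline.prod hU).transport (f' := Matrix.toLin' ((isoMat R g : GL ι F) : Matrix ι ι F) - 1) s fun q => by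
      rw [LinearMap.sub_apply, Module.End.one_apply, hxv, ← map_sub]
      congr 1
      refine Prod.ext ?_ ?_
      · simp [T]
      · simp [T, Matrix.sub_mulVec]
    rwa [Multiset.singleton_add] at h
  · have he : u = s (⟨u, Submodule.mem_span_singleton_self u⟩, 0) := by
      show u = ((s₀ (⟨u, Submodule.mem_span_singleton_self u⟩, 0) : _) : ι → F)
      rw [hs₀]; simp
    conv_lhs => rw [he]
    rw [hxv]
    conv_rhs => rw [he]
    simp [T]

/-- An element fixing no member of the given class. -/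
theorem no_class (hR : Nd R) (hp : Odd p) {d m : ℕ} (hι : Fintype.card ι = 2 * d) (hd : 4 ≤ d) (hde : Even d)
    (hm : Odd m) (hmd : m < 2 * d) {W₀ : Submodule F (ι → F)} (hW₀ : finrank F W₀ = m) (hn₀ : NdOn R W₀) :
    ∃ x : GL ι F, x ∈ Cfsg.Geo.omegaGL ⇑R ∧ (∃ z : F, ((x ^ p : GL ι F) : Matrix ι ι F) = z • (1 : Matrix ι ι F)) ∧
      (∀ z : F, (x : Matrix ι ι F) ≠ z • (1 : Matrix ι ι F)) ∧
      ∀ W : Submodule F (ι → F), finrank F W = m → NdOn R W → IsomOn R W W₀ →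
        ¬ Inv (Matrix.toLin' (x : Matrix ι ι F)) W := by
  have h2 := two_ne (F := F) (p := p) hp
  rw [Nat.odd_iff] at hm
  rw [Nat.even_iff] at hde
  obtain ⟨hP₀n, -, hP₀d⟩ := ndOn_split hn₀ (ndOn_top hR) le_top
  rw [finrank_top, finrank_pi, hι, hW₀] at hP₀d
  -- the member of dimension 1 mod 4
  obtain ⟨A₀, hA₀, hA₀d, hA₀eq⟩ : ∃ A₀, NdOn R A₀ ∧ finrank F A₀ % 4 = 1 ∧
      ((m % 4 = 1 ∧ A₀ = W₀) ∨ (m % 4 = 3 ∧ A₀ = OrthType.perp R W₀ ⊤)) := by
    rcases (show m % 4 = 1 ∨ m % 4 = 3 by omega) with h | h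
    · exact ⟨W₀, hn₀, by omega, Or.inl ⟨h, rfl⟩⟩
    · exact ⟨_, hP₀n, by omega, Or.inr ⟨h, rfl⟩⟩
  obtain ⟨H₀, hH₀, hH₀n, hH₀d, hH₀p⟩ : ∃ H₀ ≤ A₀, NdOn R H₀ ∧ finrank F H₀ + 1 = finrank F A₀ ∧ Plus R H₀ := by
    rcases Nat.eq_zero_or_pos (finrank F A₀ / 2) with h | h
    · exact ⟨⊥, bot_le, ndOn_bot, by rw [finrank_bot]; omega, plus_of_finrank_zero (finrank_bot F _)⟩
    · obtain ⟨H, a, b, c, e⟩ := exists_sub hA₀ h (by omega) True
      exact ⟨H, a, b, by omega, e.2 trivial⟩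
  obtain ⟨hLn, -, hLd⟩ := ndOn_split hH₀n hA₀ hH₀
  obtain ⟨w₀, hw₀, hw₀0⟩ : ∃ w ∈ OrthType.perp R H₀ A₀, w ≠ 0 :=
    Submodule.exists_mem_ne_zero_of_ne_bot fun e => by rw [e, finrank_bot] at hLd; omega
  have hline : OrthType.perp R H₀ A₀ = Submodule.span F {w₀} :=
    (Submodule.eq_of_le_of_finrank_le ((Submodule.span_singleton_le_iff_mem _ _).2 hw₀)
      (by rw [finrank_span_singleton hw₀0]; omega)).symm
  have hQw₀ : R w₀ ≠ 0 := fun h => hw₀0 (hLn w₀ hw₀ fun z hz => by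
    rw [hline] at hz
    obtain ⟨t, rfl⟩ := Submodule.mem_span_singleton.1 hz
    rw [polar_smul_right, polar_self, h, smul_zero, smul_zero])
  obtain ⟨α, hα⟩ : ∃ a : F, ¬ IsSquare a :=
    FiniteField.exists_nonsquare fun h => h2 (by haveI := ringChar.of_eq h; exact CharTwo.two_eq_zero)
  obtain ⟨u, hu⟩ := Nd.exists_eq hR h2 (by rw [finrank_pi, hι]; omega) (α * R w₀)
  have hu0 : R u ≠ 0 := by rw [hu]; exact mul_ne_zero (fun h => hα (h ▸ IsSquare.zero)) hQw₀
  obtain ⟨x, hx, hxp, hμ, hxu⟩ := exists_fixing hR hp hι hd (Nat.even_iff.2 hde) hu0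
  obtain ⟨hz, hns, hiso, hinj, hnil, htop⟩ := witness_props (by omega) hx hxp hμ ⟨3, by simp, by omega⟩
  refine ⟨x, hx, hz, hns, fun W hWd hW hWiso hWi => ?_⟩
  set X := Matrix.toLin' (x : Matrix ι ι F)
  -- pass to the member of dimension 1 mod 4
  obtain ⟨A, hA, hAi, hAd, hAiso⟩ : ∃ A, NdOn R A ∧ Inv X A ∧ finrank F A % 4 = 1 ∧ IsomOn R A A₀ := by
    rcases hA₀eq with ⟨hm4, rfl⟩ | ⟨hm4, rfl⟩
    · exact ⟨W, hW, hWi, by omega, hWiso⟩
    · obtain ⟨-, -, -, -, -, hPi⟩ := split_type hiso hinj hnil (ndOn_top hR) (fun _ _ => trivial) hW hWi le_top htop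
      obtain ⟨hPn, -, hPd⟩ := ndOn_split hW (ndOn_top hR) le_top
      rw [finrank_top, finrank_pi, hι] at hPd
      exact ⟨_, hPn, hPi, by omega, hWiso.cancel (ndOn_top hR) hW hn₀ le_top le_top⟩
  obtain ⟨ν, ρ, hν, hρ, he, hBi⟩ := split_type hiso hinj hnil (ndOn_top hR) (fun _ _ => trivial) hA hAi le_top htop
  obtain ⟨hBn, hsup, hBd⟩ := ndOn_split hA (ndOn_top hR) le_top
  rw [finrank_top, finrank_pi, hι] at hBd
  set B := OrthType.perp R A ⊤
  obtain ⟨hAe, -⟩ := hν.facts h2 hiso hinj hA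
  obtain ⟨hBe, -⟩ := hρ.facts h2 hiso hinj hBn
  obtain ⟨t, rfl, ht, t', rfl, ht'⟩ : ∃ t, ν = 1 ::ₘ t ∧ (∀ a ∈ t, Even a) ∧
      ∃ t', ρ = 3 ::ₘ t' ∧ ∀ a ∈ t', Even a := by
    rcases two_odd even_rep he with h | h | h | ⟨t, rfl, ht, -⟩
    · have := dvd_four hAe h; rw [hν.sum_eq] at this; omega
    · have := dvd_four hBe h; rw [hρ.sum_eq] at this; omega
    · exact h
    · have h4 := dvd_four (τ := t) (fun j hj => by
        have := hAe j hj
        rwa [Multiset.count_cons_of_ne (fun h => Nat.not_even_iff_odd.2 (by decide : Odd 3) (by rw [← h]; exact hj))] at this) ht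
      have := hν.sum_eq
      rw [Multiset.sum_cons] at this
      omega
  -- the fixed vector lies in `A` up to a singular part
  have hu' : u ∈ A ⊔ B := by rw [hsup]; exact Submodule.mem_top
  obtain ⟨a, ha, b, hb, hab⟩ := Submodule.mem_sup.1 hu'
  have hfix : X a = a ∧ X b = b := by
    have h : X a - a = b - X b := by
      have := hxu
      rw [← hab, map_add] at this
      linear_combination (norm := module) this
    have h0 : X a - a = 0 := by
      have hm' : X a - a ∈ A ⊓ B := ⟨A.sub_mem (hAi a ha) ha, h ▸ B.sub_mem hb (hBi b hb)⟩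
      rw [inf_eq_bot hA (orth_perp A ⊤)] at hm'
      exact (Submodule.mem_bot F).1 hm'
    exact ⟨sub_eq_zero.1 h0, (sub_eq_zero.1 (h.symm.trans h0)).symm⟩
  have hQb : R b = 0 := by
    by_contra h
    have hline' := ndOn_line h2 h
    obtain ⟨τ, σ, hτ, -, e, -⟩ := split_type hiso hinj hnil hBn hBi hline' (fun v hv => by
      obtain ⟨c, rfl⟩ := Submodule.mem_span_singleton.1 hv
      rw [map_smul, hfix.2]; exact hv) ((Submodule.span_singleton_le_iff_mem _ _).2 hb) hρ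
    rw [hτ.unique (typeOn_line (fun h0 => h (by rw [h0, map_zero])) hfix.2), Multiset.singleton_add] at e
    have h1 : 1 ∈ 3 ::ₘ t' := e ▸ Multiset.mem_cons_self 1 _
    rcases Multiset.mem_cons.1 h1 with h1 | h1
    · omega
    · exact Nat.not_even_one (ht' 1 h1)
  have hQa : R a = α * R w₀ := by
    rw [← hu, ← hab, QuadraticMap.map_add ⇑R, hQb, orth_perp A ⊤ a ha b hb, add_zero, add_zero]
  have hQa0 : R a ≠ 0 := by rw [hQa, ← hu]; exact hu0
  have hla : Submodule.span F {a} ≤ A := (Submodule.span_singleton_le_iff_mem _ _).2 ha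
  obtain ⟨τ, σ, hτ, hσ, e, -⟩ := split_type hiso hinj hnil hA hAi (ndOn_line h2 hQa0) (fun v hv => by
    obtain ⟨c, rfl⟩ := Submodule.mem_span_singleton.1 hv
    rw [map_smul, hfix.1]; exact hv) hla hν
  rw [hτ.unique (typeOn_line (fun h0 => hQa0 (by rw [h0, map_zero])) hfix.1), Multiset.singleton_add,
    Multiset.cons_inj_right] at e
  subst e
  obtain ⟨hHn, hHsup, hHd⟩ := ndOn_split (ndOn_line h2 hQa0) hA hla
  have hHp : Plus R (OrthType.perp R (Submodule.span F {a}) A) := (hσ.facts h2 hiso hinj hHn).2 ht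
  -- compare with the reference
  obtain ⟨φ, hφ⟩ := hAiso
  obtain ⟨H', f, hH', hf, hfv⟩ := OrthClasses.exists_img (W₁ := A) (W₂ := A₀) φ hφ
    (inf_le_left : OrthType.perp R (Submodule.span F {a}) A ≤ A)
  have hH'i : IsomOn R (OrthType.perp R (Submodule.span F {a}) A) H' := ⟨f, hf⟩
  have hH'n := OrthClasses.ndOn_isom hHn hH'i
  have hAA : finrank F A = finrank F A₀ := φ.finrank_eq
  rw [finrank_span_singleton fun h0 => hQa0 (by rw [h0, map_zero])] at hHd
  have hfd : finrank F (OrthType.perp R (Submodule.span F {a}) A) = finrank F H' := hH'i.finrank_eq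
  have hiso2 : IsomOn R H' H₀ := isomOn_of_plus_iff hH'n hH₀n ⟨(finrank F A - 1) / 2, by omega⟩
    (by omega) (iff_of_true (hH'i.plus hHp) hH₀p)
  obtain ⟨ψ, hψ⟩ := hiso2.cancel hA₀ hH'n hH₀n hH' hH₀
  have hφa : (φ ⟨a, ha⟩ : ι → F) ∈ OrthType.perp R H' A₀ := mem_perp.2 ⟨(φ _).2, fun h hh => by
    obtain ⟨h₁, rfl⟩ : ∃ h₁, (f h₁ : ι → F) = h := ⟨f.symm ⟨h, hh⟩, by rw [f.apply_symm_apply]⟩
    have key : polar R (φ (Submodule.inclusion inf_le_left h₁) : ι → F) (φ ⟨a, ha⟩ : ι → F) = polar R (h₁ : ι → F) a := by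
      simp only [polar]
      rw [← Submodule.coe_add, ← map_add, hφ, hφ, hφ]
      rfl
    rw [hfv, key, polar_comm]
    exact (mem_perp.1 h₁.2).2 a (Submodule.mem_span_singleton_self a)⟩
  have h5 := hψ ⟨_, hφa⟩
  obtain ⟨c, hc⟩ : ∃ c : F, c • w₀ = (ψ ⟨_, hφa⟩ : ι → F) :=
    Submodule.mem_span_singleton.1 (hline ▸ (ψ ⟨_, hφa⟩).2)
  rw [← hc, hφ ⟨a, ha⟩, QuadraticMap.map_smul, smul_eq_mul] at h5
  exact hα ⟨c, mul_right_cancel₀ hQw₀ (by rw [← hQa]; exact h5.symm)⟩

end matrices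

end Cfsg.Agent.Lib.Elusive.OrthUnipEven
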