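import Cfsg.Agent.Lib.Elusive.OrthEven
import Cfsg.Agent.Lib.Elusive.OrthInvol
import Cfsg.Agent.Lib.Elusive.OrthInvolTwo
import Cfsg.Agent.Lib.Elusive.OrthUnipEven

/-!
Arithmetic and standard forms for the rows on even-dimensional orthogonal groups.
-/

set_option autoImplicit false

namespace Cfsg.Agent.Lib.Elusive.OrthRows

open Module QuadraticMap Cfsg.Agent.Lib.Classical.Quad Cfsg.Agent.Lib.Classical.QuadOmega
open Cfsg.Agent.Lib.Classical.QuadF2 Cfsg.Agent.Lib.Elusive.OrthType Cfsg.Agent.Lib.Elusive.OrthEven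

universe u

variable {F : Type u} [Field F]

theorem coe_plusQ (d : ℕ) : ⇑(plusQ d F) = Cfsg.quadFormPlus d F := funext (plusQ_apply d)

theorem coe_minusQ (d : ℕ) (a b : F) : ⇑(minusQ d a b) = Cfsg.quadFormMinus d F a b := funext (minusQ_apply d a b)

theorem plus_top (d : ℕ) : Plus (plusQ d F) ⊤ := plus_of_model Submodule.topEquiv.symm fun _ => rfl

theorem not_plus_top [Fintype F] {a b : F} (hab : Aniso a b) (d : ℕ) : ¬ Plus (minusQ d a b) ⊤ :=
  not_plus_of_model hab Submodule.topEquiv.symm fun _ => rfl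

theorem two_iff {p : ℕ} [Fact p.Prime] [CharP F p] : (2 : F) = 0 ↔ p = 2 := by
  constructor
  · intro h
    have : p ∣ 2 := (CharP.cast_eq_zero_iff F p 2).1 (by exact_mod_cast h)
    exact (Nat.prime_dvd_prime_iff_eq Fact.out Nat.prime_two).1 this
  · rintro rfl
    exact_mod_cast CharP.cast_eq_zero F 2

theorem odd_of_ne {p : ℕ} [hp : Fact p.Prime] (h : p ≠ 2) : Odd p := hp.out.odd_of_ne_two h

theorem sum_div {c d m : ℕ} (hc : 0 < c) (h : 2 * d % c = m % c) :
    (2 * d + m - 2 * (2 * d % c)) / c = 2 * d / c + m / c := by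
  have h1 := Nat.div_add_mod (2 * d) c
  have h2 := Nat.div_add_mod m c
  rw [show 2 * d + m - 2 * (2 * d % c) = c * (2 * d / c + m / c) by rw [Nat.mul_add]; omega, Nat.mul_div_cancel_left _ hc]

theorem rPlus_iff {i w : ℕ} (h : Even i) : RPlus i w ↔ Even w := or_iff_right (not_not.2 h)

theorem rPlus_odd {i w : ℕ} (h : ¬ Even i) : RPlus i w := Or.inl h

/-- The quantified condition depends only on the largest number of moved pieces. -/
theorem good_iff {i c d a : ℕ} (hc0 : 0 < c) (ha : 1 ≤ a) (had : a < d) (hcd : c ≤ 2 * d) (V b : Prop) :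
    (∀ u s, 1 ≤ u → 2 * d = u * c + s → (s = 0 → (V ↔ RPlus i u)) → Good i c (2 * a) s u V b) ↔
      (((2 * d) % c = 0 → (V ↔ RPlus i (2 * d / c)) → (2 * a % c = 0 ∧ (b ↔ RPlus i (2 * a / c)))) ∧
        (0 < (2 * d) % c → 2 * a % c ≤ (2 * d) % c ∧ (2 * a % c = 0 → (b ↔ RPlus i (2 * a / c))) ∧
          (2 * a % c = (2 * d) % c → (b ↔ (V ↔ RPlus i (2 * d / c - 2 * a / c)))))) := by
  have e1 := Nat.div_add_mod (2 * d) c
  have e2 := Nat.div_add_mod (2 * a) c
  have hl := Nat.mod_lt (2 * a) hc0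
  have hk := Nat.mod_lt (2 * d) hc0
  rw [Nat.mul_comm] at e1 e2
  generalize h_u₀ : 2 * d / c = u₀ at *
  generalize h_w₀ : 2 * a / c = w₀ at *
  generalize h_k : 2 * d % c = k at *
  generalize h_l : 2 * a % c = l at *
  have hu₀ : 1 ≤ u₀ := by
    by_contra h
    rw [show u₀ = 0 by omega, Nat.zero_mul] at e1
    omega
  constructor
  · intro H
    have get : (k = 0 → (V ↔ RPlus i u₀)) →
        l ≤ k ∧ (l = 0 → (b ↔ RPlus i w₀)) ∧ (l = k → (b ↔ (V ↔ RPlus i (u₀ - w₀)))) := fun hv => by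
      obtain ⟨w, ρ, -, hm, hρs, h0, hs⟩ := H u₀ k hu₀ (by omega) hv
      have hdm := (Nat.div_mod_unique (a := 2 * a) (d := w) (c := ρ) hc0).2
        ⟨by rw [Nat.mul_comm c w]; omega, by omega⟩
      obtain ⟨rfl, rfl⟩ : w = w₀ ∧ ρ = l := ⟨hdm.1.symm.trans h_w₀, hdm.2.symm.trans h_l⟩
      exact ⟨hρs, h0, hs⟩
    exact ⟨fun h0 hv => by
      obtain ⟨g1, g2, -⟩ := get fun _ => hv
      exact ⟨by omega, g2 (by omega)⟩, fun hpos => get fun h => absurd h (by omega)⟩
  · rintro ⟨H0, H1⟩ u s hu hsum hv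
    have hule : u ≤ u₀ := h_u₀ ▸ (Nat.le_div_iff_mul_le hc0).2 (by omega)
    rcases Nat.eq_or_lt_of_le hule with he | hlt
    · rw [he] at hu hsum hv ⊢
      have hsk : s = k := by omega
      rw [hsk] at hsum hv ⊢
      have hwu : w₀ ≤ u₀ := h_w₀ ▸ h_u₀ ▸ Nat.div_le_div_right (by omega)
      rcases Nat.eq_zero_or_pos k with h0 | hpos
      · obtain ⟨hl0, hb⟩ := H0 h0 (hv h0)
        refine ⟨w₀, l, hwu, by omega, by omega, fun _ => hb, fun _ => hb.trans ?_⟩
        rw [rPlus_sub hwu, hv h0]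
        by_cases h1 : RPlus i u₀ <;> simp [h1]
      · obtain ⟨g1, g2, g3⟩ := H1 hpos
        exact ⟨w₀, l, hwu, by omega, g1, g2, g3⟩
    · have hmul := Nat.mul_le_mul_right c (show u + 1 ≤ u₀ from hlt)
      rw [Nat.add_mul, Nat.one_mul] at hmul
      rcases Nat.lt_or_ge u w₀ with hw | hw
      · have hmul' := Nat.mul_le_mul_right c (show u + 1 ≤ w₀ from hw)
        rw [Nat.add_mul, Nat.one_mul] at hmul'
        exact ⟨u, 2 * a - u * c, le_rfl, by omega, by omega, fun h => by omega, fun h => by omega⟩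
      rcases Nat.eq_zero_or_pos l with hl0 | hlpos
      swap
      · exact ⟨w₀, l, hw, by omega, by omega, fun h => by omega, fun h => by omega⟩
      by_cases hb : b ↔ RPlus i w₀
      · exact ⟨w₀, 0, hw, by omega, by omega, fun _ => hb, fun h => by omega⟩
      have hw0 : 1 ≤ w₀ := by
        by_contra h
        rw [show w₀ = 0 by omega, Nat.zero_mul] at e2
        omega
      obtain ⟨w', hw'⟩ : ∃ w', w₀ = w' + 1 := ⟨w₀ - 1, by omega⟩
      have e2' : w' * c + c = w₀ * c := by rw [hw', Nat.add_mul, Nat.one_mul]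
      refine ⟨w', c, by omega, by omega, by omega, fun h => by omega, fun h => ?_⟩
      have hu1 : u + 1 = u₀ ∧ k = 0 := by
        by_cases h1 : u + 1 = u₀
        · rw [← h1, Nat.add_mul, Nat.one_mul] at e1
          exact ⟨h1, by omega⟩
        · have := Nat.mul_le_mul_right c (show u + 1 + 1 ≤ u₀ by omega)
          rw [Nat.add_mul, Nat.add_mul, Nat.one_mul] at this
          omega
      have hne : ¬ (V ↔ RPlus i u₀) := fun hv' => hb (H0 hu1.2 hv').2
      rw [show u - w' = u₀ - w₀ by omega, rPlus_sub (show w₀ ≤ u₀ by omega)]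
      tauto

/-- The odd-dimensional version. -/
theorem cls_iff {i c d m : ℕ} (hc0 : 0 < c) (hmd : m < 2 * d) (hcd : c ≤ 2 * d) (V : Prop) :
    (∀ u s, 1 ≤ u → 2 * d = u * c + s → (s = 0 → (V ↔ RPlus i u)) → ∃ w, w ≤ u ∧ w * c ≤ m ∧ m < w * c + s) ↔
      (((2 * d) % c = 0 → ¬ (V ↔ RPlus i (2 * d / c))) ∧ (0 < (2 * d) % c → m % c < (2 * d) % c)) := by
  have e1 := Nat.div_add_mod (2 * d) c
  have e2 := Nat.div_add_mod m c
  have hl := Nat.mod_lt m hc0
  have hk := Nat.mod_lt (2 * d) hc0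
  rw [Nat.mul_comm] at e1 e2
  generalize h_u₀ : 2 * d / c = u₀ at *
  generalize h_w₀ : m / c = w₀ at *
  generalize h_k : 2 * d % c = k at *
  generalize h_l : m % c = l at *
  have hu₀ : 1 ≤ u₀ := by
    by_contra h
    rw [show u₀ = 0 by omega, Nat.zero_mul] at e1
    omega
  constructor
  · intro H
    have get : (k = 0 → (V ↔ RPlus i u₀)) → l < k := fun hv => by
      obtain ⟨w, -, hwm, hms⟩ := H u₀ k hu₀ (by omega) hv
      have hdm := (Nat.div_mod_unique (a := m) (d := w) (c := m - w * c) hc0).2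
        ⟨by rw [Nat.mul_comm c w]; omega, by omega⟩
      have h2 : l = m - w * c := h_l.symm.trans hdm.2
      omega
    exact ⟨fun h0 hv => by have := get fun _ => hv; omega, fun hpos => get fun h => absurd h (by omega)⟩
  · rintro ⟨H0, H1⟩ u s hu hsum hv
    have hule : u ≤ u₀ := h_u₀ ▸ (Nat.le_div_iff_mul_le hc0).2 (by omega)
    rcases Nat.eq_or_lt_of_le hule with he | hlt
    · rw [he] at hu hsum hv ⊢
      have hsk : s = k := by omega
      rw [hsk] at hsum hv ⊢
      have hwu : w₀ ≤ u₀ := h_w₀ ▸ h_u₀ ▸ Nat.div_le_div_right (by omega)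
      rcases Nat.eq_zero_or_pos k with h0 | hpos
      · exact absurd (hv h0) (H0 h0)
      · have := H1 hpos
        exact ⟨w₀, hwu, by omega, by omega⟩
    · have hmul := Nat.mul_le_mul_right c (show u + 1 ≤ u₀ from hlt)
      rw [Nat.add_mul, Nat.one_mul] at hmul
      rcases Nat.lt_or_ge u w₀ with hw | hw
      · have hmul' := Nat.mul_le_mul_right c (show u + 1 ≤ w₀ from hw)
        rw [Nat.add_mul, Nat.one_mul] at hmul'
        exact ⟨u, le_rfl, by omega, by omega⟩
      · exact ⟨w₀, hw, by omega, by omega⟩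

end Cfsg.Agent.Lib.Elusive.OrthRows
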