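import Cfsg.Agent.Lib.Elusive.OrthFieldExtGeom
import Cfsg.Agent.Lib.Elusive.OrthRotConj
import Cfsg.Agent.Lib.Elusive.OrthRows

/-!
# Semilinear conjugates of elements of prime order over a quadratic extension
-/

set_option autoImplicit false
set_option maxHeartbeats 1000000

namespace Cfsg.Agent.Lib.Elusive.OrthFieldExt

open Module QuadraticMap
open Cfsg.Agent.Lib.Classical.Quad Cfsg.Agent.Lib.Classical.QuadOmega
open Cfsg.Agent.Lib.Classical.QuadF2 Cfsg.Agent.Lib.Classical.OrthTorsion Cfsg.Agent.Lib.Elusive.OrthType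
open Cfsg.Agent.Lib.Elusive.OrthInvol Cfsg.Agent.Lib.Elusive.OrthSingTwo Cfsg.Agent.Lib.Elusive.OrthRotConj
open Cfsg.Agent.Lib.Elusive.SympStep (fixedSpace mem_fixed cOf)

universe u

variable {F : Type u} [Field F] [Fintype F] {E : Type u} [Field E] [Fintype E] [Algebra F E]
variable {V : Type u} [AddCommGroup V] [Module F V] [FiniteDimensional F V] [Module E V] [IsScalarTower F E V]
  [FiniteDimensional E V]
variable {Q : QuadraticForm F V} {b : LinearMap.BilinForm E V}

/-- The element respects the scalars up to a permutation. -/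
def Semi (E : Type u) [Field E] [Module E V] (g : V → V) : Prop :=
  ∃ τ : E → E, ∀ (a : E) u, g (a • u) = τ a • g u

/-! ### Involutions -/

theorem invol_conj [Finite V] (h : Ext Q b) {d : ℕ} (hd : finrank E V = d) (x : isoG Q) {A B : Submodule F V}
    (hA : NdOn Q A) (hB : NdOn Q B) (ho : Orth Q A B) (htop : A ⊔ B = ⊤) (hxA : ∀ v ∈ A, x.1 v = v)
    (hxB : ∀ v ∈ B, x.1 v = -v) {β : ℕ} (hBd : finrank F B = 2 * β) (hA0 : 0 < finrank F A)
    (hBp : Plus Q B ↔ (IsSquare (-1 : F) ∨ Even β)) :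
    ∃ φ ∈ commutator (isoG Q), Semi E (φ * x * φ⁻¹).1 := by
  have hVd : finrank F V = 2 * d := by rw [← hd, ← h.deg, Module.finrank_mul_finrank]
  have hsum := sum_dims hA ho htop
  rw [hVd, hBd] at hsum
  obtain ⟨U, -, hUn, hUd, hUp⟩ := exists_sub_ns h β (W := ⊤) (ndOn_top (nd_qE h)) (by rw [finrank_top, hd]; omega)
  obtain ⟨hU'n, hUsup, hUdim⟩ := ndOn_split hUn (ndOn_top (nd_qE h)) le_top
  set U' := OrthType.perp (qE b) U ⊤
  have hUU' : Orth (qE b) U U' := orth_perp _ _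
  have hU'res : U'.restrictScalars F = OrthType.perp Q (U.restrictScalars F) ⊤ := perp_res h U ⊤
  have hiso : IsomOn Q B (U.restrictScalars F) := isomOn_of_plus_iff hB (ndOn_res h hUn)
    (by rw [hBd]; exact even_two_mul β) (by rw [hBd, finrank_res h, hUd]) (hBp.trans hUp.symm)
  have hAeq : OrthType.perp Q B ⊤ = A := by
    refine (Submodule.eq_of_le_of_finrank_le (fun a ha => (mem_perp (Q := Q) (U := B) (W := ⊤)).2 ⟨trivial, fun c hc => ?_⟩) ?_).symm
    · rw [polar_comm]; exact ho a ha c hc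
    · have := (ndOn_split hB (ndOn_top h.nd) le_top).2.2
      rw [finrank_top, hVd, hBd] at this
      omega
  have hiso' := hiso.cancel (ndOn_top h.nd) hB (ndOn_res h hUn) le_top le_top
  rw [hAeq, ← hU'res] at hiso'
  obtain ⟨eB, heB⟩ := hiso
  obtain ⟨eA, heA⟩ := hiso'
  obtain ⟨s₀, hs₀, hsQ⟩ := exists_sum_equiv hA ho
  obtain ⟨t₀, ht₀, htQ⟩ := exists_sum_equiv (ndOn_res h hU'n) (orth_res h hUU').symm
  have htop' : U'.restrictScalars F ⊔ U.restrictScalars F = ⊤ := by
    rw [sup_comm, ← sup_res, hUsup, Submodule.restrictScalars_top]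
  let s : (A × B) ≃ₗ[F] V := s₀.trans ((LinearEquiv.ofEq _ _ htop).trans Submodule.topEquiv)
  let t : (U'.restrictScalars F × U.restrictScalars F) ≃ₗ[F] V :=
    t₀.trans ((LinearEquiv.ofEq _ _ htop').trans Submodule.topEquiv)
  let f : V ≃ₗ[F] V := s.symm.trans ((eA.prodCongr eB).trans t)
  have hf : ∀ (a : A) (c : B), f ((a : V) + (c : V)) = (eA a : V) + (eB c : V) := fun a c => by
    have e : s (a, c) = (a : V) + (c : V) := hs₀ (a, c)
    show t ((eA.prodCongr eB) (s.symm ((a : V) + (c : V)))) = _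
    rw [← e, s.symm_apply_apply]
    exact ht₀ _
  have hfQ : ∀ v, Q (f v) = Q v := fun v => by
    obtain ⟨⟨a, c⟩, rfl⟩ := s.surjective v
    show Q (t ((eA.prodCongr eB) (s.symm (s (a, c))))) = _
    rw [s.symm_apply_apply]
    exact (htQ _).trans ((congrArg₂ (· + ·) (heA a) (heB c)).trans (hsQ (a, c)).symm)
  let φ₀ : isoG Q := ⟨f, hfQ⟩
  set y := φ₀ * x * φ₀⁻¹ with hy
  have hy' : ∀ v, y.1 (f v) = f (x.1 v) := fun v => by
    show f (x.1 (f.symm (f v))) = _
    rw [f.symm_apply_apply]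
  have hyU : ∀ (a : E) u, y.1 (a • u) = a • y.1 u := by
    have key : ∀ p ∈ U', ∀ q ∈ U, y.1 (p + q) = p - q := by
      intro p hp q hq
      obtain ⟨a, ha⟩ := eA.surjective ⟨p, hp⟩
      obtain ⟨c, hc⟩ := eB.surjective ⟨q, hq⟩
      have hp' : p = (eA a : V) := by rw [ha]
      have hq' : q = (eB c : V) := by rw [hc]
      rw [hp', hq', ← hf a c, hy', map_add, hxA _ a.2, hxB _ c.2]
      rw [show (a : V) + -(c : V) = (a : V) + ((-c : B) : V) by simp, hf, map_neg, sub_eq_add_neg]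
      rfl
    intro a u
    have hu : u ∈ U' ⊔ U := by rw [sup_comm, hUsup]; trivial
    obtain ⟨p, hp, q, hq, rfl⟩ := Submodule.mem_sup.1 hu
    rw [smul_add, key _ (U'.smul_mem a hp) _ (U.smul_mem a hq), key p hp q hq, smul_sub]
  obtain ⟨k, hk, hkd, hks⟩ := exists_comm_fix h.nd h.two x hA (by omega) hxA (dick h.nd φ₀) (spn h.nd φ₀)
  refine ⟨φ₀ * k, (mem_commutator_iff h.nd h.two _).2 ⟨?_, ?_⟩, id, fun a u => ?_⟩
  · rw [map_mul, hkd, Int.units_mul_self]
  · rw [map_mul, hks, Int.units_mul_self]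
  · rw [show φ₀ * k * x * (φ₀ * k)⁻¹ = y by rw [hy, mul_inv_rev, mul_assoc φ₀, hk]; group]
    exact hyU a u

/-! ### Rotations -/

omit [Fintype F] [FiniteDimensional F V] in
/-- A rotation of the whole space as an isometry. -/
theorem exists_iso_of_rot {y : Module.End F V} (hy : Rot Q y ⊤) : ∃ g : isoG Q, ∀ v, g.1 v = y v := by
  refine ⟨⟨{ y with invFun := fun v => -y v, left_inv := fun v => ?_, right_inv := fun v => ?_ },
    fun v => hy.iso v trivial⟩, fun v => rfl⟩
  · show -y (y v) = v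
    rw [hy.sq v trivial, neg_neg]
  · show y (-y v) = v
    rw [map_neg, hy.sq v trivial, neg_neg]

theorem rot_semi_conj [Finite V] (h : Ext Q b) {d : ℕ} (hd : finrank E V = d) (hd2 : 2 ≤ d) (x : isoG Q)
    (hx : Rot Q (x.1 : V →ₗ[F] V) ⊤) (hs : Even d ∨ IsSquare (2 : F))
    (hp : Plus Q ⊤ ↔ (IsSquare (-1 : F) ∨ Even d)) :
    ∃ φ ∈ commutator (isoG Q), Semi E (φ * x * φ⁻¹).1 := by
  have hVd : finrank F V = 2 * d := by rw [← hd, ← h.deg, Module.finrank_mul_finrank]
  obtain ⟨c, hc0, hc⟩ := exists_ns h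
  obtain ⟨v, -, hvc⟩ := exists_value h (ndOn_top (nd_qE h)) (by rw [finrank_top, hd]; omega) c
  have hv0 : b v v ≠ 0 := by rw [hvc]; exact hc0
  have hvns : ¬ IsSquare (b v v) := by rw [hvc]; exact hc
  obtain ⟨R, -, hRn, hRd, ho, hsup, hWp⟩ := peel_line h (ndOn_top (nd_qE h)) (v := v) trivial hv0
  rw [finrank_top, hd] at hRd
  rw [Submodule.restrictScalars_top, line_plus h hv0, hp, show d = finrank E R + 1 by omega,
    Nat.even_add_one] at hWp
  obtain ⟨y₁, hy₁⟩ := line_rot h hv0 hvns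
  obtain ⟨y₂, hy₂⟩ := exists_srot h _ (W := R) rfl hRn (by tauto)
  have hS := hy₁.add h hy₂ ho
  have hS' := hy₁.neg.add h hy₂ ho
  rw [hsup] at hS hS'
  obtain ⟨S, hSv⟩ := exists_iso_of_rot (by simpa using hS.rot)
  obtain ⟨S', hS'v⟩ := exists_iso_of_rot (by simpa using hS'.rot)
  have hSrot : Rot Q (S.1 : V →ₗ[F] V) ⊤ := by
    rw [show (S.1 : V →ₗ[F] V) = y₁ + y₂ from LinearMap.ext hSv]; simpa using hS.rot
  obtain ⟨hdS, hsS⟩ := rot_invs h.nd h.two d (U := ⊤) x (by rw [finrank_top, hVd]) hx (ndOn_top h.nd)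
    fun w hw => by
      have : w = 0 := h.nd w fun z => by rw [polar_comm]; exact (mem_perp.1 hw).2 z trivial
      rw [this, map_zero]
  obtain ⟨φ₀, hφ₀⟩ := rot_conj h.nd h.two x S hx hSrot
  -- a reflection exchanging the two rotations
  obtain ⟨u, hu, hQu⟩ : ∃ u ∈ (Submodule.span E {v}).restrictScalars F, Q u ≠ 0 := by
    by_contra! hall
    have hz : (Submodule.span E {v}).restrictScalars F = ⊥ := eq_bot_iff.2 fun z hz => (Submodule.mem_bot F).2 <|
      ndOn_res h (ndOn_line h hv0) z hz fun w hw => by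
        rw [polar, hall _ (Submodule.add_mem _ hz hw), hall _ hz, hall _ hw]; simp
    have := finrank_res h (Submodule.span E {v})
    rw [hz, finrank_bot, finrank_span_singleton (fun e : v = 0 => hv0 (by rw [e, map_zero]))] at this
    omega
  have hflip : refl Q u * S * refl Q u = S' := iso_ext fun w => by
    have hw : w ∈ Submodule.span E {v} ⊔ R := by rw [hsup]; trivial
    obtain ⟨p, hp', q, hq, rfl⟩ := Submodule.mem_sup.1 hw
    have hz₁ : y₁ q = 0 := hy₁.zero q fun z hz => by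
      have := ho z hz q hq
      rw [polar_qE h] at this
      exact (mul_eq_zero.1 this).resolve_left (two_ext h)
    have hz₂ : ∀ a ∈ Submodule.span E {v}, y₂ a = 0 := fun a ha => hy₂.zero a fun z hz => by
      have := ho a ha z hz
      rw [polar_qE h, h.symm] at this
      exact (mul_eq_zero.1 this).resolve_left (two_ext h)
    have hSu : S.1 u = y₁ u := by rw [hSv, LinearMap.add_apply, hz₂ u hu, add_zero]
    have hor := orth_res h ho
    have hou : polar Q (y₁ u) u = 0 := polar_rot h.two hy₁.rot hu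
    obtain ⟨hPn, hPd, -⟩ := plane_plus h.two (v := u) (w := y₁ u) hQu (by rw [hy₁.rot.iso u hu]; exact hQu)
      (by rw [polar_comm]; exact hou)
    have hPeq : Submodule.span F {u} ⊔ Submodule.span F {y₁ u} = (Submodule.span E {v}).restrictScalars F :=
      Submodule.eq_of_le_of_finrank_le (sup_le ((Submodule.span_singleton_le_iff_mem _ _).2 hu)
        ((Submodule.span_singleton_le_iff_mem _ _).2 (hy₁.rot.inv u hu)))
        (by rw [finrank_res h, finrank_span_singleton (fun e : v = 0 => hv0 (by rw [e, map_zero])), hPd])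
    obtain ⟨_, ha, _, hb', rfl⟩ := Submodule.mem_sup.1 (hPeq.symm ▸ (show p ∈ (Submodule.span E {v}).restrictScalars F from hp'))
    obtain ⟨α, rfl⟩ := Submodule.mem_span_singleton.1 ha
    obtain ⟨γ, rfl⟩ := Submodule.mem_span_singleton.1 hb'
    have hq1 : polar Q q u = 0 := by rw [polar_comm]; exact hor u hu q hq
    have hq2 : polar Q q (y₁ u) = 0 := by rw [polar_comm]; exact hor _ (hy₁.rot.inv u hu) q hq
    rw [flip_eq h.two S hSrot hQu, hS'v, hSv, hSu]
    simp only [LinearMap.add_apply, LinearMap.neg_apply, map_add, map_smul, hz₁, hz₂ u hu,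
      hz₂ _ (hy₁.rot.inv u hu), hy₁.rot.sq u hu, polar_add_left, polar_smul_left, hq1, hq2, polar_self,
      hy₁.rot.iso u hu, hou, polar_comm Q u (y₁ u), smul_eq_mul, nsmul_eq_mul, Nat.cast_ofNat, smul_neg,
      smul_zero, add_zero]
    match_scalars <;> field_simp <;> ring
  have hsemiS : Semi E S.1 := ⟨conj F E, fun a w => by rw [hSv, hSv]; exact hS.semi a w⟩
  have hsemiS' : Semi E S'.1 := ⟨conj F E, fun a w => by rw [hS'v, hS'v]; exact hS'.semi a w⟩
  obtain ⟨φ₁, hφ₁, hsemi⟩ : ∃ φ₁ : isoG Q, dick h.nd φ₁ = 1 ∧ Semi E (φ₁ * x * φ₁⁻¹).1 := by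
    have e₀ : φ₀ * x * φ₀⁻¹ = S := by rw [← hφ₀, mul_inv_cancel_right]
    rcases Int.units_eq_one_or (dick h.nd φ₀) with hd₀ | hd₀
    · exact ⟨φ₀, hd₀, by rw [e₀]; exact hsemiS⟩
    · refine ⟨refl Q u * φ₀, by rw [map_mul, hd₀, dick_refl h.nd hQu]; decide, ?_⟩
      rw [show refl Q u * φ₀ * x * (refl Q u * φ₀)⁻¹ = refl Q u * (φ₀ * x * φ₀⁻¹) * (refl Q u)⁻¹ by group, e₀,
        refl_inv hQu, hflip]
      exact hsemiS'
  rcases Int.units_eq_one_or (spn h.nd φ₁) with hs₁ | hs₁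
  · exact ⟨φ₁, (mem_commutator_iff h.nd h.two _).2 ⟨hφ₁, hs₁⟩, hsemi⟩
  · obtain ⟨k, hk, hkd, hks⟩ := exists_comm_spn h.nd h.two (by omega) x hx
    refine ⟨φ₁ * k, (mem_commutator_iff h.nd h.two _).2 ⟨by rw [map_mul, hφ₁, hkd, one_mul],
      by rw [map_mul, hs₁, hks]; decide⟩, ?_⟩
    rwa [show φ₁ * k * x * (φ₁ * k)⁻¹ = φ₁ * x * φ₁⁻¹ by rw [mul_inv_rev, mul_assoc φ₁, hk]; group]

/-! ### Linear elements of odd order -/

theorem b_iso (h : Ext Q b) (Y : V →ₗ[E] V) (hY : ∀ v, Q (Y v) = Q v) (u v : V) : b (Y u) (Y v) = b u v := by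
  refine sub_eq_zero.1 (eq_zero_of_trace h fun a => ?_)
  rw [mul_sub, map_sub, h.tr, h.tr, show a • Y u = Y (a • u) from (map_smul Y a u).symm, sub_eq_zero]
  simp only [polar, ← map_add, hY]

/-- A transvection-like linear isometry is trivial. -/
theorem unip_trivial (h : Ext Q b) {p : ℕ} [Fact p.Prime] [CharP E p] (Y : Module.End E V) (hY : ∀ v, Q (Y v) = Q v)
    (hp : Y ^ p = 1) (hr : finrank E (LinearMap.range (Y - 1)) ≤ 1) : Y = 1 := by
  rcases Nat.eq_zero_or_pos (finrank E (LinearMap.range (Y - 1))) with h0 | h0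
  · exact sub_eq_zero.1 (LinearMap.range_eq_bot.1 (Submodule.finrank_eq_zero.1 h0))
  obtain ⟨v, hv, hv0⟩ : ∃ v ∈ LinearMap.range (Y - 1), v ≠ 0 := Submodule.exists_mem_ne_zero_of_ne_bot fun e => by
    rw [e, finrank_bot] at h0; omega
  have heq : Submodule.span E {v} = LinearMap.range (Y - 1) := Submodule.eq_of_le_of_finrank_le
    ((Submodule.span_singleton_le_iff_mem _ _).2 hv) (by rw [finrank_span_singleton hv0]; exact hr)
  have hmem : ∀ u, ∃ k : E, Y u = u + k • v := fun u => by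
    obtain ⟨k, hk⟩ := Submodule.mem_span_singleton.1 (heq ▸ LinearMap.mem_range_self (Y - 1) u)
    exact ⟨k, by rw [hk, LinearMap.sub_apply, Module.End.one_apply, add_sub_cancel]⟩
  have hYv : Y v = v := by
    obtain ⟨k, hk⟩ := hmem v
    have e : Y v = (1 + k) • v := by rw [hk, add_smul, one_smul]
    have hpow : ∀ n : ℕ, (Y ^ n) v = (1 + k) ^ n • v := fun n => by
      induction n with
      | zero => simp
      | succ n ih => rw [pow_succ', Module.End.mul_apply, ih, map_smul, e, smul_smul, ← pow_succ]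
    have := hpow p
    rw [hp, Module.End.one_apply, add_pow_char, one_pow, add_smul, one_smul, eq_comm, add_eq_left] at this
    have hk0 : k = 0 := pow_eq_zero_iff (Fact.out : p.Prime).ne_zero |>.1 ((smul_eq_zero.1 this).resolve_right hv0)
    rw [hk, hk0, zero_smul, add_zero]
  have fix : ∀ u, b u v ≠ 0 → Y u = u := by
    intro u hu
    obtain ⟨k, hk⟩ := hmem u
    have e1 := b_iso h Y hY u v
    have e2 := b_iso h Y hY u u
    rw [hk, hYv, map_add, LinearMap.add_apply, map_smul, LinearMap.smul_apply, smul_eq_mul, add_eq_left] at e1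
    rw [hk] at e2
    simp only [map_add, LinearMap.add_apply, map_smul, LinearMap.smul_apply, smul_eq_mul, h.symm v u] at e2
    have e3 : (2 : E) * (k * b u v) = 0 := by linear_combination e2 - k * e1
    have hk0 : k = 0 := (mul_eq_zero.1 ((mul_eq_zero.1 e3).resolve_left (two_ext h))).resolve_right hu
    rw [hk, hk0, zero_smul, add_zero]
  obtain ⟨u₀, hu₀⟩ : ∃ u₀, b u₀ v ≠ 0 := by
    by_contra! hall
    exact hv0 (nd_qE h v fun w => by rw [polar_qE h, h.symm, hall, mul_zero])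
  refine LinearMap.ext fun u => ?_
  rw [Module.End.one_apply]
  by_cases hu : b u v = 0
  · have := fix (u + u₀) (by rw [map_add, LinearMap.add_apply, hu, zero_add]; exact hu₀)
    rwa [map_add, fix u₀ hu₀, add_left_inj] at this
  · exact fix u hu

/-- The moved space of a linear element of odd prime order has even dimension over the extension. -/
theorem fixed_dim (h : Ext Q b) {p r : ℕ} [Fact p.Prime] [CharP E p] [Fact r.Prime] (hrp : r ≠ p) (hr2 : r ≠ 2)
    (Y : Module.End E V) (hY : ∀ v, Q (Y v) = Q v) (hr : ∀ v, (Y ^ r) v = v) :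
    ∃ e, finrank E V = finrank E (fixedSpace Y) + 2 * e ∧
      finrank F ((fixedSpace Y).restrictScalars F) = 2 * finrank E (fixedSpace Y) := by
  have S : OrthStep.Setting (qE b) Y r p := ⟨fun v => b_iso h Y hY v v, hr, hrp, hr2⟩
  obtain ⟨-, h2, -, -, h5, h6, h7⟩ := OrthStep.split S (W := ⊤) (fun _ _ => trivial) (ndOn_top (nd_qE h))
  obtain ⟨w, hw, -⟩ := OrthStep.fpf_type S h5 h2 h6
  obtain ⟨c, hc⟩ := (SympStep.cOf_even (orderOf (Fintype.card E : ZMod r))).two_dvd
  rw [finrank_top, hw, hc, top_inf_eq] at h7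
  exact ⟨w * c, by rw [h7]; ring, finrank_res h _⟩

/-! ### Orders -/

omit [Fintype F] [FiniteDimensional F V] [FiniteDimensional E V] in
/-- Restriction of scalars on isometries. -/
theorem exists_scalarHom (h : ∀ v, ∀ g : isoG (qE b), Q (g.1 v) = Q v) :
    ∃ ψ : isoG (qE b) →* isoG Q, Function.Injective ψ ∧ ∀ g v, (ψ g).1 v = g.1 v :=
  ⟨{ toFun := fun g => ⟨g.1.restrictScalars F, fun v => h v g⟩
     map_one' := iso_ext fun v => rfl
     map_mul' := fun g g' => iso_ext fun v => rfl },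
   fun g g' e => iso_ext fun v => congrArg (fun z : isoG Q => z.1 v) e, fun g v => rfl⟩

theorem prod_split (a : ℕ → ℕ) : ∀ k : ℕ, ∏ i ∈ Finset.range (2 * k), a (i + 1) =
    (∏ i ∈ Finset.range k, a (2 * i + 1)) * ∏ i ∈ Finset.range k, a (2 * (i + 1))
  | 0 => by simp
  | k + 1 => by
    rw [show 2 * (k + 1) = 2 * k + 1 + 1 by ring, Finset.prod_range_succ, Finset.prod_range_succ, prod_split a k,
      Finset.prod_range_succ, Finset.prod_range_succ, show 2 * k + 1 + 1 = 2 * (k + 1) by ring]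
    ring

/-- The index of the isometries over the extension is prime to `r` when four divides the order of `q`. -/
theorem exists_index (h : Ext Q b) {d : ℕ} (hd : finrank E V = d) (hd1 : 1 ≤ d) {r : ℕ} [Fact r.Prime]
    (hrq : ¬ r ∣ Fintype.card F) (hi : 4 ∣ orderOf (Fintype.card F : ZMod r)) :
    ∃ m, Nat.card (isoG Q) = Nat.card (isoG (qE b)) * m ∧ ¬ r ∣ m := by
  have hr : r.Prime := Fact.out
  have hVd : finrank F V = 2 * d := by rw [← hd, ← h.deg, Module.finrank_mul_finrank]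
  set q := Fintype.card F with hq
  have hpow : ∀ n, ¬ r ∣ q ^ n := fun n e => hrq (hr.dvd_of_dvd_pow e)
  have hord : ∀ n, (q : ZMod r) ^ (2 * n) = 1 → Even n := fun n e => by
    obtain ⟨t, ht⟩ := hi.trans (orderOf_dvd_of_pow_eq_one e)
    exact ⟨t, by omega⟩
  have hfac : ∀ n, ¬ Even n → ¬ r ∣ q ^ (2 * n) - 1 := fun n hn e =>
    hn (hord n ((OrthEven.pow_sub_one_iff Fintype.card_pos).1 e))
  have hprod : ∀ k, ¬ r ∣ ∏ i ∈ Finset.range k, (q ^ (2 * (2 * i + 1)) - 1) := fun k e => by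
    obtain ⟨i, -, hi'⟩ := (Prime.dvd_finsetProd_iff (Nat.prime_iff.1 hr) _).1 e
    exact hfac _ (by simp [parity_simps]) hi'
  have hsplit : ∀ k, ∏ i ∈ Finset.range (2 * k), (q ^ (2 * (i + 1)) - 1) =
      (∏ i ∈ Finset.range k, (q ^ (2 * (2 * i + 1)) - 1)) * ∏ i ∈ Finset.range k, (q ^ (2 * (2 * (i + 1))) - 1) :=
    prod_split fun n => q ^ (2 * n) - 1
  have hpsq : ∀ k, ∏ i ∈ Finset.range k, (Fintype.card E ^ (2 * (i + 1)) - 1) =
      ∏ i ∈ Finset.range k, (q ^ (2 * (2 * (i + 1))) - 1) := fun k => by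
    simp only [card_ext h, ← hq, ← pow_mul]
  have hEcard : ∀ k, finrank E V = k →
      Nat.card (isoG (qE b)) = Nat.card (isoG ((qE b).comp (⊤ : Submodule E V).subtype)) := fun k _ =>
    (card_isoG_congr (Q := (qE b).comp (⊤ : Submodule E V).subtype) (R := qE b) Submodule.topEquiv fun v => rfl).symm
  have hFcard : Nat.card (isoG Q) = Nat.card (isoG (Q.comp (⊤ : Submodule F V).subtype)) :=
    (card_isoG_congr (Q := Q.comp (⊤ : Submodule F V).subtype) (R := Q) Submodule.topEquiv fun v => rfl).symm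
  rw [hEcard d hd, hFcard]
  have hF := OrthEven.card_iso_even (R := Q) (ndOn_top h.nd) (k := d - 1) (by rw [finrank_top, hVd]; omega)
  rcases Nat.even_or_odd' d with ⟨k, rfl | rfl⟩
  · obtain ⟨k, rfl⟩ : ∃ k', k = k' + 1 := ⟨k - 1, by omega⟩
    have hE := OrthEven.card_iso_even (R := qE b) (ndOn_top (nd_qE h)) (k := k) (by rw [finrank_top, hd])
    have htype : Plus (qE b) ⊤ ↔ Plus Q ⊤ := by
      refine ⟨fun hp => ?_, fun hp => plus_ext h (k + 1) (ndOn_top (nd_qE h)) (by rw [finrank_top, hd]) ?_⟩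
      · have := plus_res h hp
        rwa [Submodule.restrictScalars_top] at this
      · rwa [Submodule.restrictScalars_top]
    refine ⟨q ^ ((k + 1) * (2 * k + 2)) * ∏ i ∈ Finset.range (k + 1), (q ^ (2 * (2 * i + 1)) - 1), ?_,
      fun e => (hr.dvd_mul.1 e).elim (hpow _) (hprod _)⟩
    rw [show 2 * (k + 1) - 1 = 2 * k + 1 by omega] at hF
    have hP : ∏ i ∈ Finset.range (2 * k + 1), (q ^ (2 * (i + 1)) - 1) =
        (∏ i ∈ Finset.range (k + 1), (q ^ (2 * (2 * i + 1)) - 1)) *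
          ∏ i ∈ Finset.range k, (q ^ (2 * (2 * (i + 1))) - 1) := by
      rw [Finset.prod_range_succ, hsplit, Finset.prod_range_succ]
      ring
    rcases hE with ⟨he, hE⟩ | ⟨he, hE⟩ <;> rcases hF with ⟨hf, hF⟩ | ⟨hf, hF⟩
    · rw [hE, hF, hpsq, hP, card_ext h, ← hq, ← pow_mul, ← pow_mul,
        show 2 * k + 1 + 1 = 2 * (k + 1) by ring,
        show (2 * (k + 1)) * (2 * k + 1) = 2 * ((k + 1) * k) + (k + 1) * (2 * k + 2) by ring, pow_add]
      ring
    · exact absurd (htype.1 he) hf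
    · exact absurd (htype.2 hf) he
    · rw [hE, hF, hpsq, hP, card_ext h, ← hq, ← pow_mul, ← pow_mul,
        show 2 * k + 1 + 1 = 2 * (k + 1) by ring,
        show (2 * (k + 1)) * (2 * k + 1) = 2 * ((k + 1) * k) + (k + 1) * (2 * k + 2) by ring, pow_add]
      ring
  · have hE := OrthOdd.card_iso_odd (two_ext h) (Q := qE b) (ndOn_top (nd_qE h)) (k := k)
      (by rw [finrank_top, hd])
    rw [show 2 * k + 1 - 1 = 2 * k by omega] at hF
    obtain ⟨X, hX, hF⟩ : ∃ X, ¬ r ∣ X ∧ Nat.card (isoG (Q.comp (⊤ : Submodule F V).subtype)) =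
        2 * q ^ ((2 * k + 1) * (2 * k)) * X * ∏ i ∈ Finset.range (2 * k), (q ^ (2 * (i + 1)) - 1) := by
      have hno : ¬ Even (2 * k + 1) := by simp [parity_simps]
      rcases hF with ⟨-, hF⟩ | ⟨-, hF⟩
      · refine ⟨_, fun e => ?_, hF⟩
        have e' := (OrthEven.pow_sub_one_iff Fintype.card_pos).1 e
        exact hno (hord _ (by rw [mul_comm, pow_mul, e', one_pow]))
      · refine ⟨_, fun e => ?_, hF⟩
        have e' := OrthEven.pow_add_one_iff.1 e
        exact hno (hord _ (by rw [mul_comm, pow_mul, e', _root_.neg_one_sq]))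
    refine ⟨q ^ (2 * k * k + 2 * k) * X * ∏ i ∈ Finset.range k, (q ^ (2 * (2 * i + 1)) - 1), ?_,
      fun e => (hr.dvd_mul.1 e).elim (fun e => (hr.dvd_mul.1 e).elim (hpow _) hX) (hprod _)⟩
    rw [hF, hE, hpsq, hsplit, card_ext h, ← hq, ← pow_mul,
      show (2 * k + 1) * (2 * k) = 2 * k ^ 2 + (2 * k * k + 2 * k) by ring, pow_add]
    ring

end Cfsg.Agent.Lib.Elusive.OrthFieldExt
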