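import Cfsg.Agent.Lib.Elusive.OrthSingTwo

/-!
# Quadratic spaces with a self-adjoint quadratic field of scalars

The space is a space over the larger field with a symmetric bilinear form whose trace is the polar form.
Lines with non-square norm carry semilinear rotations.
-/

set_option autoImplicit false
set_option maxHeartbeats 1000000

namespace Cfsg.Agent.Lib.Elusive.OrthFieldExt

open Module QuadraticMap
open Cfsg.Agent.Lib.Classical.Quad Cfsg.Agent.Lib.Classical.QuadOmega
open Cfsg.Agent.Lib.Classical.QuadF2 Cfsg.Agent.Lib.Classical.OrthTorsion Cfsg.Agent.Lib.Elusive.OrthType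
open Cfsg.Agent.Lib.Elusive.OrthInvol Cfsg.Agent.Lib.Elusive.OrthSingTwo

universe u

variable {F : Type u} [Field F] [Fintype F] {E : Type u} [Field E] [Fintype E] [Algebra F E]
variable {V : Type u} [AddCommGroup V] [Module F V] [FiniteDimensional F V] [Module E V] [IsScalarTower F E V]
  [FiniteDimensional E V]

/-- A symmetric form over the quadratic extension whose trace is the polar form. -/
structure Ext (Q : QuadraticForm F V) (b : LinearMap.BilinForm E V) : Prop where
  symm : ∀ u v, b u v = b v u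
  tr : ∀ (a : E) u v, Algebra.trace F E (a * b u v) = polar Q (a • u) v
  two : (2 : F) ≠ 0
  deg : finrank F E = 2
  nd : Nd Q

/-- The quadratic form over the extension. -/
abbrev qE (b : LinearMap.BilinForm E V) : QuadraticForm E V := LinearMap.BilinMap.toQuadraticMap b

variable {Q : QuadraticForm F V} {b : LinearMap.BilinForm E V}

theorem card_ext (h : Ext Q b) : Fintype.card E = Fintype.card F ^ 2 := by
  rw [← h.deg]; exact Module.card_eq_pow_finrank

theorem two_ext (h : Ext Q b) : (2 : E) ≠ 0 := fun e => h.two ((algebraMap F E).injective (((map_ofNat (algebraMap F E) 2).trans e).trans (map_zero _).symm))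

theorem rchar_ext (h : Ext Q b) : ringChar E ≠ 2 := fun e => two_ext h (by
  haveI := ringChar.of_eq e; exact CharTwo.two_eq_zero)

theorem odd_card (h : Ext Q b) : ∃ m, Fintype.card F = 2 * m + 1 := by
  have := FiniteField.odd_card_of_char_ne_two (F := F) fun e => h.two (by
    haveI := ringChar.of_eq e; exact CharTwo.two_eq_zero)
  exact ⟨Fintype.card F / 2, by omega⟩

theorem half_card (h : Ext Q b) {m : ℕ} (hm : Fintype.card F = 2 * m + 1) :
    Fintype.card E / 2 = 2 * m * (m + 1) := by
  rw [card_ext h, hm, show (2 * m + 1) ^ 2 = 2 * (2 * m * (m + 1)) + 1 by ring]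
  omega

theorem neg_one_sq (h : Ext Q b) : IsSquare (-1 : E) := by
  obtain ⟨m, hm⟩ := odd_card h
  rw [FiniteField.isSquare_neg_one_iff, card_ext h, Nat.pow_mod]
  rcases (by omega : Fintype.card F % 4 = 1 ∨ Fintype.card F % 4 = 3) with e | e <;> rw [e] <;> norm_num

/-- The Galois conjugation. -/
noncomputable abbrev conj (F E : Type u) [Field F] [Fintype F] [Field E] [Fintype E] [Algebra F E] : E ≃ₐ[F] E :=
  FiniteField.frobeniusAlgEquivOfAlgebraic F E

theorem conj_apply (a : E) : conj F E a = a ^ Fintype.card F := by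
  simp [conj, FiniteField.coe_frobeniusAlgEquivOfAlgebraic]

theorem conj_conj (h : Ext Q b) (a : E) : conj F E (conj F E a) = a := by
  rw [conj_apply, conj_apply, ← pow_mul, ← pow_two, ← card_ext h, FiniteField.pow_card]

theorem trace_conj (a : E) : Algebra.trace F E (conj F E a) = Algebra.trace F E a :=
  Algebra.trace_eq_of_algEquiv (conj F E) a

theorem trace_eq (h : Ext Q b) (a : E) : algebraMap F E (Algebra.trace F E a) = a + conj F E a := by
  haveI : Finite E := Finite.of_fintype E
  rw [FiniteField.algebraMap_trace_eq_sum_pow, h.deg, conj_apply]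
  simp [Finset.sum_range_succ]

theorem exists_ns (h : Ext Q b) : ∃ c : E, c ≠ 0 ∧ ¬ IsSquare c := by
  obtain ⟨c, hc⟩ := FiniteField.exists_nonsquare (rchar_ext h)
  exact ⟨c, fun e => hc (e ▸ IsSquare.zero), hc⟩

theorem qE_apply (v : V) : qE b v = b v v := rfl

theorem polar_qE (h : Ext Q b) (u v : V) : polar (qE b) u v = 2 * b u v := by
  rw [LinearMap.BilinMap.polar_toQuadraticMap, h.symm v u]; ring

theorem polar_eq (h : Ext Q b) (u v : V) : polar Q u v = Algebra.trace F E (b u v) := by
  rw [← one_mul (b u v), h.tr, one_smul]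

theorem two_mul_Q (h : Ext Q b) (v : V) : 2 * Q v = Algebra.trace F E (b v v) := by
  rw [← polar_eq h, polar_self, two_nsmul, two_mul]

theorem eq_zero_of_trace (h : Ext Q b) {x : E} (hx : ∀ a, Algebra.trace F E (a * x) = 0) : x = 0 := by
  haveI : FiniteDimensional F E := Module.finite_of_finrank_pos (by rw [h.deg]; omega)
  refine (traceForm_nondegenerate F E).1 x fun a => ?_
  rw [Algebra.traceForm_apply, mul_comm]; exact hx a

theorem orth_iff (h : Ext Q b) (U : Submodule E V) (x : V) :
    (∀ u ∈ U, polar Q u x = 0) ↔ ∀ u ∈ U, b u x = 0 := by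
  refine ⟨fun hU u hu => eq_zero_of_trace h fun a => ?_, fun hU u hu => by rw [polar_eq h, hU u hu, map_zero]⟩
  rw [h.tr]; exact hU _ (U.smul_mem a hu)

theorem nd_qE (h : Ext Q b) : Nd (qE b) := fun x hx => h.nd x fun y => by
  have := hx y
  rw [polar_qE h] at this
  rw [polar_eq h, (mul_eq_zero.1 this).resolve_left (two_ext h), map_zero]

theorem mem_perp_E (h : Ext Q b) {U W : Submodule E V} {v : V} :
    v ∈ OrthType.perp (qE b) U W ↔ v ∈ W ∧ ∀ u ∈ U, b u v = 0 := by
  rw [mem_perp]
  refine and_congr_right fun _ => forall₂_congr fun u _ => ?_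
  rw [polar_qE h, mul_eq_zero]
  exact or_iff_right (two_ext h)

theorem perp_res (h : Ext Q b) (U W : Submodule E V) :
    (OrthType.perp (qE b) U W).restrictScalars F =
      OrthType.perp Q (U.restrictScalars F) (W.restrictScalars F) := by
  ext v
  rw [Submodule.restrictScalars_mem, mem_perp_E h, mem_perp, ← orth_iff h]
  rfl

theorem orth_res (h : Ext Q b) {A B : Submodule E V} (ho : Orth (qE b) A B) :
    Orth Q (A.restrictScalars F) (B.restrictScalars F) := fun a ha c hc => by
  have := ho a ha c hc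
  rw [polar_qE h] at this
  rw [polar_eq h, (mul_eq_zero.1 this).resolve_left (two_ext h), map_zero]

theorem ndOn_res (h : Ext Q b) {W : Submodule E V} (hW : NdOn (qE b) W) :
    NdOn Q (W.restrictScalars F) := fun x hx hall => by
  refine hW x hx fun y hy => ?_
  rw [polar_qE h, h.symm, (orth_iff h W x).1 (fun u hu => by rw [polar_comm]; exact hall u hu) y hy, mul_zero]

theorem finrank_res (h : Ext Q b) (W : Submodule E V) :
    finrank F (W.restrictScalars F) = 2 * finrank E W := by
  rw [← h.deg]; exact (Module.finrank_mul_finrank F E W).symm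

theorem sup_res (A B : Submodule E V) :
    (A ⊔ B).restrictScalars F = A.restrictScalars F ⊔ B.restrictScalars F := by
  ext x
  simp only [Submodule.restrictScalars_mem, Submodule.mem_sup]

theorem plus_res (h : Ext Q b) {W : Submodule E V} (hW : Plus (qE b) W) :
    Plus Q (W.restrictScalars F) := by
  obtain ⟨U, hUW, hU, hd⟩ := hW
  refine ⟨U.restrictScalars F, hUW, fun x hx => ?_, by rw [finrank_res h, finrank_res h, ← hd]⟩
  have := two_mul_Q h x
  rw [show b x x = 0 from hU x hx, map_zero] at this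
  exact (mul_eq_zero.1 this).resolve_left h.two

/-! ### Lines -/

/-- The class of the elements of trace zero. -/
theorem trZero_sq (h : Ext Q b) {a : E} (ha : a ≠ 0) (ht : Algebra.trace F E a = 0) :
    IsSquare a ↔ ¬ IsSquare (-1 : F) := by
  obtain ⟨m, hm⟩ := odd_card h
  have h1 : a + conj F E a = 0 := by rw [← trace_eq h, ht, map_zero]
  rw [conj_apply, hm, pow_succ] at h1
  have h3 : a ^ (2 * m) = -1 := mul_right_cancel₀ ha (by linear_combination h1)
  have hne : (-1 : E) ≠ 1 := fun e => two_ext h (by linear_combination -e)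
  rw [FiniteField.isSquare_iff (rchar_ext h) ha, half_card h hm, pow_mul, h3,
    neg_one_pow_eq_one_iff_even hne, FiniteField.isSquare_neg_one_iff, hm, Nat.even_iff]
  omega

theorem exists_trZero (h : Ext Q b) : ∃ a : E, a ≠ 0 ∧ Algebra.trace F E a = 0 := by
  by_contra! hall
  haveI : FiniteDimensional F E := Module.finite_of_finrank_pos (by rw [h.deg]; omega)
  have := LinearMap.finrank_le_finrank_of_injective (f := Algebra.trace F E) <|
    (injective_iff_map_eq_zero _).2 fun a ha => by_contra fun ha0 => hall a ha0 ha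
  rw [h.deg, finrank_self] at this
  omega

theorem mem_line {v x : V} :
    x ∈ (Submodule.span E {v}).restrictScalars F ↔ ∃ z : E, z • v = x :=
  Submodule.mem_span_singleton

theorem ndOn_line (h : Ext Q b) {v : V} (hv : b v v ≠ 0) : NdOn (qE b) (Submodule.span E {v}) :=
  fun x hx hall => by
    obtain ⟨t, rfl⟩ := Submodule.mem_span_singleton.1 hx
    have := hall v (Submodule.mem_span_singleton_self v)
    rw [polar_qE h, map_smul, LinearMap.smul_apply, smul_eq_mul] at this
    rw [(mul_eq_zero.1 ((mul_eq_zero.1 this).resolve_left (two_ext h))).resolve_right hv, zero_smul]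

/-- The type of a line. -/
theorem line_plus (h : Ext Q b) {v : V} (hv : b v v ≠ 0) :
    Plus Q ((Submodule.span E {v}).restrictScalars F) ↔ (IsSquare (b v v) ↔ ¬ IsSquare (-1 : F)) := by
  have hv0 : v ≠ 0 := fun e => hv (by rw [e, map_zero])
  have hd : finrank F ((Submodule.span E {v}).restrictScalars F) = 2 := by
    rw [finrank_res h, finrank_span_singleton hv0]
  have hQ : ∀ z : E, 2 * Q (z • v) = Algebra.trace F E (z * z * b v v) := fun z => by
    simp only [two_mul_Q h, map_smul, LinearMap.smul_apply, smul_eq_mul, mul_assoc]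
  constructor
  · rintro ⟨T, hT, hTS, hTd⟩
    obtain ⟨x, hx, hx0⟩ : ∃ x ∈ T, x ≠ 0 := Submodule.exists_mem_ne_zero_of_ne_bot fun e => by
      rw [e, finrank_bot, hd] at hTd; omega
    obtain ⟨z, rfl⟩ := mem_line.1 (hT hx)
    have hz : z ≠ 0 := fun e => hx0 (by rw [e, zero_smul])
    rw [← trZero_sq h (mul_ne_zero (mul_ne_zero hz hz) hv) (by rw [← hQ, hTS _ hx, mul_zero]),
      ← sqSign_eq_one_iff, ← sqSign_eq_one_iff, sqSign_mul (mul_ne_zero hz hz) hv,
      sqSign_eq_one_iff.2 ⟨z, rfl⟩, one_mul]
  · intro hiff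
    obtain ⟨a, ha, hat⟩ := exists_trZero h
    have hs : sqSign (b v v) = sqSign a := by
      have := hiff.trans (trZero_sq h ha hat).symm
      rw [← sqSign_eq_one_iff, ← sqSign_eq_one_iff] at this
      rcases Int.units_eq_one_or (sqSign (b v v)) with e | e <;>
        rcases Int.units_eq_one_or (sqSign a) with e' | e' <;> simp_all
    obtain ⟨z, hz, e⟩ := exists_sq_mul hv ha hs
    refine ⟨Submodule.span F {z • v}, ?_, fun x hx => ?_, ?_⟩
    · rw [Submodule.span_singleton_le_iff_mem]
      exact mem_line.2 ⟨z, rfl⟩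
    · obtain ⟨s, rfl⟩ := Submodule.mem_span_singleton.1 hx
      have := hQ z
      rw [← pow_two z, ← e, hat] at this
      rw [QuadraticMap.map_smul, (mul_eq_zero.1 this).resolve_left h.two, smul_zero]
    · rw [finrank_span_singleton (smul_ne_zero hz hv0), hd]

/-- Splitting off a line. -/
theorem peel_line (h : Ext Q b) {W : Submodule E V} (hW : NdOn (qE b) W) {v : V} (hv : v ∈ W) (hc : b v v ≠ 0) :
    ∃ R ≤ W, NdOn (qE b) R ∧ finrank E R + 1 = finrank E W ∧ Orth (qE b) (Submodule.span E {v}) R ∧
      Submodule.span E {v} ⊔ R = W ∧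
      (Plus Q (W.restrictScalars F) ↔
        (Plus Q ((Submodule.span E {v}).restrictScalars F) ↔ Plus Q (R.restrictScalars F))) := by
  have hLn := ndOn_line h hc
  obtain ⟨hRn, hsup, hd⟩ := ndOn_split hLn hW ((Submodule.span_singleton_le_iff_mem _ _).2 hv)
  rw [finrank_span_singleton (fun e : v = 0 => hc (by rw [e, map_zero]))] at hd
  refine ⟨_, inf_le_left, hRn, by rw [← hd]; exact add_comm _ _, orth_perp _ _, hsup, ?_⟩
  conv_lhs => rw [← hsup, sup_res]
  exact plus_sup (ndOn_res h hLn) (ndOn_res h hRn) (orth_res h (orth_perp _ _))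
    (by rw [finrank_res h]; exact even_two_mul _) (by rw [finrank_res h]; exact even_two_mul _)

theorem exists_value (h : Ext Q b) {W : Submodule E V} (hW : NdOn (qE b) W) (hd : 2 ≤ finrank E W) (c : E) :
    ∃ v ∈ W, b v v = c := by
  obtain ⟨⟨v, hv⟩, e⟩ := Nd.exists_eq hW.res (two_ext h) hd c
  exact ⟨v, hv, e⟩

/-- Subspaces spanned by lines with non-square norm. -/
theorem exists_sub_ns (h : Ext Q b) : ∀ (β : ℕ) {W : Submodule E V}, NdOn (qE b) W → β + 1 ≤ finrank E W →
    ∃ U ≤ W, NdOn (qE b) U ∧ finrank E U = β ∧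
      (Plus Q (U.restrictScalars F) ↔ (IsSquare (-1 : F) ∨ Even β)) := by
  intro β
  induction β with
  | zero =>
    intro W _ _
    exact ⟨⊥, bot_le, ndOn_bot, finrank_bot E V,
      iff_of_true (plus_of_finrank_zero (by rw [finrank_res h, finrank_bot])) (Or.inr Even.zero)⟩
  | succ β ih =>
    intro W hW hd
    obtain ⟨c, hc0, hc⟩ := exists_ns h
    obtain ⟨v, hv, hvc⟩ := exists_value h hW (by omega) c
    obtain ⟨R, hRW, hRn, hRd, ho, -, -⟩ := peel_line h hW hv (by rw [hvc]; exact hc0)
    obtain ⟨U, hU, hUn, hUd, hUp⟩ := ih hRn (by omega)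
    have hLn := ndOn_line h (v := v) (by rw [hvc]; exact hc0)
    have ho' : Orth (qE b) (Submodule.span E {v}) U := ho.mono le_rfl hU
    refine ⟨Submodule.span E {v} ⊔ U, sup_le ((Submodule.span_singleton_le_iff_mem _ _).2 hv) (hU.trans hRW),
      ndOn_sup hLn hUn ho', ?_, ?_⟩
    · rw [finrank_sup hLn ho', finrank_span_singleton (fun e : v = 0 => hc0 (by rw [← hvc, e, map_zero])), hUd,
        add_comm]
    · rw [sup_res, plus_sup (ndOn_res h hLn) (ndOn_res h hUn) (orth_res h ho')
        (by rw [finrank_res h]; exact even_two_mul _) (by rw [finrank_res h]; exact even_two_mul _),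
        line_plus h (by rw [hvc]; exact hc0), hUp, hvc, Nat.even_add_one]
      tauto

/-- An even-dimensional space of plus type over the small field is of plus type over the large one. -/
theorem plus_ext (h : Ext Q b) : ∀ (k : ℕ) {W : Submodule E V}, NdOn (qE b) W → finrank E W = 2 * k →
    Plus Q (W.restrictScalars F) → Plus (qE b) W := by
  intro k
  induction k with
  | zero => intro W _ hd _; exact plus_of_finrank_zero (by omega)
  | succ k ih =>
    intro W hW hd hp
    obtain ⟨c, hc0, hc⟩ := exists_ns h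
    obtain ⟨v, hv, hvc⟩ := exists_value h hW (by omega) c
    have hv' : b v v ≠ 0 := by rw [hvc]; exact hc0
    obtain ⟨R, hRW, hRn, hRd, ho, hsup, hWp⟩ := peel_line h hW hv hv'
    rw [line_plus h hv', hvc] at hWp
    obtain ⟨w, hw, hw0, hwns, R', hR'R, hR'n, hR'd, hwR, hsup', hR'p⟩ : ∃ w ∈ R, b w w ≠ 0 ∧ ¬ IsSquare (b w w) ∧
        ∃ R' ≤ R, NdOn (qE b) R' ∧ finrank E R' + 1 = finrank E R ∧ Orth (qE b) (Submodule.span E {w}) R' ∧
          Submodule.span E {w} ⊔ R' = R ∧ Plus Q (R'.restrictScalars F) := by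
      rcases Nat.eq_zero_or_pos k with hk | hk
      · obtain ⟨x, hx, hx0⟩ : ∃ x ∈ R, b x x ≠ 0 := by
          by_contra! hall
          have : R = ⊥ := eq_bot_iff.2 fun x hx => (Submodule.mem_bot E).2 <| hRn x hx fun y hy => by
            rw [polar, qE_apply, qE_apply, qE_apply, hall _ (R.add_mem hx hy), hall _ hx, hall _ hy]; simp
          rw [this, finrank_bot] at hRd
          omega
        obtain ⟨R', hR'R, hR'n, hR'd, hwR, hsup', hRp⟩ := peel_line h hRn hx hx0
        have hR'p : Plus Q (R'.restrictScalars F) :=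
          plus_of_finrank_zero (by rw [finrank_res h]; omega)
        rw [line_plus h hx0] at hRp
        exact ⟨x, hx, hx0, fun hs => by tauto, R', hR'R, hR'n, hR'd, hwR, hsup', hR'p⟩
      · obtain ⟨x, hx, hxc⟩ := exists_value h hRn (by omega) c
        have hx0 : b x x ≠ 0 := by rw [hxc]; exact hc0
        obtain ⟨R', hR'R, hR'n, hR'd, hwR, hsup', hRp⟩ := peel_line h hRn hx hx0
        rw [line_plus h hx0, hxc] at hRp
        exact ⟨x, hx, hx0, by rw [hxc]; exact hc, R', hR'R, hR'n, hR'd, hwR, hsup', by tauto⟩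
    obtain ⟨hPn, hPd, hPp⟩ := plane_plus (Q := qE b) (two_ext h) hv' hw0
      (ho v (Submodule.mem_span_singleton_self v) w hw)
    have hsq : sqSign (qE b v) * sqSign (qE b w) = 1 := by
      have e1 : sqSign (qE b v) = -1 := by rw [qE_apply, hvc, sqSign, if_neg hc]
      have e2 : sqSign (qE b w) = -1 := by rw [qE_apply, sqSign, if_neg hwns]
      rw [e1, e2]; decide
    have hP := hPp.2 (iff_of_true (neg_one_sq h) hsq)
    have hWe : W = (Submodule.span E {v} ⊔ Submodule.span E {w}) ⊔ R' := by rw [sup_assoc, hsup', hsup]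
    have hoP : Orth (qE b) (Submodule.span E {v} ⊔ Submodule.span E {w}) R' := by
      intro a ha c hc'
      obtain ⟨a₁, ha₁, a₂, ha₂, rfl⟩ := Submodule.mem_sup.1 ha
      rw [polar_add_left, ho a₁ ha₁ c (hR'R hc'), zero_add, hwR a₂ ha₂ c hc']
    rw [hWe, plus_sup hPn hR'n hoP ⟨1, hPd⟩ ⟨k, by omega⟩]
    exact iff_of_true hP (ih hR'n (by omega) hR'p)

/-! ### Semilinear rotations -/

/-- A semilinear rotation of `W` killing its orthogonal complement. -/
structure SRot (Q : QuadraticForm F V) (b : LinearMap.BilinForm E V) (y : Module.End F V) (W : Submodule E V) : Prop where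
  semi : ∀ (a : E) u, y (a • u) = conj F E a • y u
  zero : ∀ u, (∀ w ∈ W, b w u = 0) → y u = 0
  rng : ∀ u, y u ∈ W
  rot : Rot Q y (W.restrictScalars F)

theorem SRot.neg {y : Module.End F V} {W : Submodule E V} (hy : SRot Q b y W) : SRot Q b (-y) W where
  semi a u := by simp [hy.semi]
  zero u hu := by simp [hy.zero u hu]
  rng u := W.neg_mem (hy.rng u)
  rot := ⟨fun v _ => W.neg_mem (hy.rng v), fun v hv => by simp [hy.rot.sq v hv],
    fun v hv => by simp [hy.rot.iso v hv]⟩

theorem SRot.add (h : Ext Q b) {y z : Module.End F V} {A B : Submodule E V} (hy : SRot Q b y A) (hz : SRot Q b z B)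
    (ho : Orth (qE b) A B) : SRot Q b (y + z) (A ⊔ B) := by
  have hb : ∀ a ∈ A, ∀ c ∈ B, b a c = 0 := fun a ha c hc => by
    have := ho a ha c hc
    rw [polar_qE h] at this
    exact (mul_eq_zero.1 this).resolve_left (two_ext h)
  have hyB : ∀ c ∈ B, y c = 0 := fun c hc => hy.zero c fun a ha => hb a ha c hc
  have hzA : ∀ a ∈ A, z a = 0 := fun a ha => hz.zero a fun c hc => by rw [h.symm]; exact hb a ha c hc
  refine ⟨fun a u => by simp [hy.semi, hz.semi], fun u hu => ?_, fun u => Submodule.add_mem_sup (hy.rng u) (hz.rng u),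
    ⟨fun v _ => Submodule.add_mem_sup (hy.rng v) (hz.rng v), fun v hv => ?_, fun v hv => ?_⟩⟩
  · simp [hy.zero u fun w hw => hu w (Submodule.mem_sup_left hw),
      hz.zero u fun w hw => hu w (Submodule.mem_sup_right hw)]
  · obtain ⟨a, ha, c, hc, rfl⟩ := Submodule.mem_sup.1 (show v ∈ A ⊔ B from hv)
    simp only [LinearMap.add_apply, map_add, hyB c hc, hzA a ha, hyB _ (hz.rng c), hzA _ (hy.rng a), map_zero,
      add_zero, zero_add]
    rw [hy.rot.sq a ha, hz.rot.sq c hc, neg_add]
  · obtain ⟨a, ha, c, hc, rfl⟩ := Submodule.mem_sup.1 (show v ∈ A ⊔ B from hv)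
    simp only [LinearMap.add_apply, map_add, hyB c hc, hzA a ha, add_zero, zero_add]
    rw [QuadraticMap.map_add ⇑Q, QuadraticMap.map_add ⇑Q, hy.rot.iso a ha, hz.rot.iso c hc, polar_eq h,
      polar_eq h, hb _ (hy.rng a) _ (hz.rng c), hb a ha c hc]

/-- The rotation of a line with non-square norm. -/
theorem line_rot (h : Ext Q b) {v : V} (hv : b v v ≠ 0) (hns : ¬ IsSquare (b v v)) :
    ∃ y : Module.End F V, SRot Q b y (Submodule.span E {v}) := by
  set c := b v v with hc
  obtain ⟨m, hm⟩ := odd_card h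
  set γ := c ^ m with hγ
  have h1 : γ * γ * c = conj F E c := by rw [conj_apply, hm, hγ]; ring
  have h3 : γ * conj F E γ = -1 := by
    rw [conj_apply, hm, hγ, ← pow_mul, ← pow_add, show m + m * (2 * m + 1) = 2 * m * (m + 1) by ring,
      ← half_card h hm]
    exact (FiniteField.pow_dichotomy (rchar_ext h) hv).resolve_left fun e =>
      hns ((FiniteField.isSquare_iff (rchar_ext h) hv).2 e)
  let y : Module.End F V :=
    { toFun := fun u => (γ * conj F E (c⁻¹ * b v u)) • v
      map_add' := fun u w => by rw [map_add, mul_add, map_add, mul_add, add_smul]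
      map_smul' := fun t u => by
        rw [RingHom.id_apply, ← algebraMap_smul E t u, map_smul, smul_eq_mul, mul_left_comm, map_mul, AlgEquiv.commutes,
          mul_left_comm, ← smul_smul, algebraMap_smul] }
  have hy : ∀ u, y u = (γ * conj F E (c⁻¹ * b v u)) • v := fun u => rfl
  have hline : ∀ z : E, y (z • v) = (γ * conj F E z) • v := fun z => by
    rw [hy, map_smul, smul_eq_mul, ← hc, mul_left_comm, inv_mul_cancel₀ hv, mul_one]
  refine ⟨y, fun a u => ?_, fun u hu => ?_, fun u => Submodule.smul_mem _ _ (Submodule.mem_span_singleton_self v),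
    fun x _ => Submodule.smul_mem _ _ (Submodule.mem_span_singleton_self v), fun x hx => ?_, fun x hx => ?_⟩
  · rw [hy, hy, map_smul, smul_eq_mul, mul_left_comm, map_mul, smul_smul, mul_left_comm]
  · rw [hy, hu v (Submodule.mem_span_singleton_self v), mul_zero, map_zero, mul_zero, zero_smul]
  · obtain ⟨z, rfl⟩ := mem_line.1 hx
    rw [hline, hline, map_mul, conj_conj h, ← mul_assoc, h3, neg_one_mul, neg_smul]
  · obtain ⟨z, rfl⟩ := mem_line.1 hx
    refine mul_left_cancel₀ h.two ?_
    rw [two_mul_Q h, two_mul_Q h, hline]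
    simp only [map_smul, LinearMap.smul_apply, smul_eq_mul, ← hc]
    rw [show γ * conj F E z * (γ * conj F E z * c) = conj F E z * conj F E z * (γ * γ * c) by ring, h1, ← map_mul,
      ← map_mul, trace_conj, mul_assoc]

/-- Semilinear rotations of the spaces of the rotated type. -/
theorem exists_srot (h : Ext Q b) : ∀ (n : ℕ) {W : Submodule E V}, finrank E W = n → NdOn (qE b) W →
    (Plus Q (W.restrictScalars F) ↔ (IsSquare (-1 : F) ∨ Even n)) → ∃ y, SRot Q b y W := by
  intro n
  induction n with
  | zero =>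
    intro W hd _ _
    have hW : W = ⊥ := Submodule.finrank_eq_zero.1 hd
    refine ⟨0, fun a u => by simp, fun u _ => rfl, fun u => W.zero_mem, fun v _ => W.zero_mem,
      fun v hv => ?_, fun v hv => ?_⟩ <;>
    · rw [hW] at hv
      rw [(Submodule.mem_bot E).1 hv]
      simp
  | succ n ih =>
    intro W hd hW hp
    obtain ⟨c, hc0, hc⟩ := exists_ns h
    obtain ⟨v, hv, hv0, hvns⟩ : ∃ v ∈ W, b v v ≠ 0 ∧ ¬ IsSquare (b v v) := by
      rcases Nat.eq_zero_or_pos n with hn | hn
      · obtain ⟨x, hx, hx0⟩ : ∃ x ∈ W, b x x ≠ 0 := by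
          by_contra! hall
          have : W = ⊥ := eq_bot_iff.2 fun x hx => (Submodule.mem_bot E).2 <| hW x hx fun y hy => by
            rw [polar, qE_apply, qE_apply, qE_apply, hall _ (W.add_mem hx hy), hall _ hx, hall _ hy]; simp
          rw [this, finrank_bot] at hd
          omega
        obtain ⟨R, -, -, hRd, -, -, hWp⟩ := peel_line h hW hx hx0
        have hR : Plus Q (R.restrictScalars F) := plus_of_finrank_zero (by rw [finrank_res h]; omega)
        rw [line_plus h hx0, hp, Nat.even_add_one, hn] at hWp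
        exact ⟨x, hx, hx0, fun hs => by simp [hs, hR] at hWp⟩
      · obtain ⟨x, hx, hxc⟩ := exists_value h hW (by omega) c
        exact ⟨x, hx, by rw [hxc]; exact hc0, by rw [hxc]; exact hc⟩
    obtain ⟨R, hRW, hRn, hRd, ho, hsup, hWp⟩ := peel_line h hW hv hv0
    rw [line_plus h hv0, hp, Nat.even_add_one] at hWp
    obtain ⟨y₁, hy₁⟩ := line_rot h hv0 hvns
    obtain ⟨y₂, hy₂⟩ := ih (W := R) (by omega) hRn (by tauto)
    exact ⟨y₁ + y₂, hsup ▸ hy₁.add h hy₂ ho⟩

end Cfsg.Agent.Lib.Elusive.OrthFieldExt
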