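import Cfsg.Agent.Lib.Elusive.Models
import Cfsg.Agent.Lib.Forms.Alternating
import Cfsg.Agent.Lib.Forms.SympStd

/-!
Field extension structures on symplectic spaces.
-/

set_option autoImplicit false

namespace Cfsg.Agent.Lib.Elusive.SympField

open Module Cfsg.Agent.Lib.Forms

universe u

variable {F : Type u} [Field F] {E : Type u} [Field E] [Algebra F E]
  {V : Type u} [AddCommGroup V] [Module F V] [FiniteDimensional F V]

theorem eq_zero_of_apply {ρ : E →ₐ[F] Module.End F V} {a : E} {v : V} (h : ρ a v = 0) (hv : v ≠ 0) :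
    a = 0 := by
  by_contra ha
  refine hv ?_
  rw [← Module.End.one_apply (R := F) v, ← map_one ρ, ← inv_mul_cancel₀ ha, map_mul,
    Module.End.mul_apply, h, map_zero]

/-- The module structure of a field in the endomorphisms. -/
theorem finrank_dvd (ρ : E →ₐ[F] Module.End F V) [FiniteDimensional F E] {W : Submodule F V}
    (hW : ∀ a, ∀ v ∈ W, ρ a v ∈ W) : finrank F E ∣ finrank F W := by
  letI : Module E W := Module.compHom W
    (show E →+* Module.End F W from
      { toFun := fun a => (ρ a).restrict (hW a)
        map_one' := LinearMap.ext fun v => Subtype.ext (by simp [LinearMap.restrict_apply])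
        map_mul' := fun a b => LinearMap.ext fun v => Subtype.ext (by simp [LinearMap.restrict_apply])
        map_zero' := LinearMap.ext fun v => Subtype.ext (by simp [LinearMap.restrict_apply])
        map_add' := fun a b => LinearMap.ext fun v => Subtype.ext (by simp [LinearMap.restrict_apply]) })
  haveI : IsScalarTower F E W := IsScalarTower.of_algebraMap_smul fun a v => Subtype.ext (by
    show ρ (algebraMap F E a) v = a • (v : V)
    rw [AlgHom.commutes]; rfl)
  haveI : FiniteDimensional E W := Module.Finite.of_restrictScalars_finite F _ _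
  exact Dvd.intro _ (Module.finrank_mul_finrank F E W)

/-- The trace description: coordinates in which `B` is the trace of the standard form over `E`. -/
theorem exists_std [FiniteDimensional F E] [Algebra.IsSeparable F E] {B : LinearMap.BilinForm F V}
    (hA : B.IsAlt) (hB : B.SeparatingLeft) (ρ : E →ₐ[F] Module.End F V)
    (hsa : ∀ a u v, B (ρ a u) v = B u (ρ a v)) (halt : ∀ a v, B (ρ a v) v = 0) :
    ∃ (d' : ℕ) (e : (Fin d' ⊕ Fin d' → E) ≃ₗ[F] V), (∀ a v, ρ a (e v) = e (a • v)) ∧
      ∀ u v, B (e u) (e v) = Algebra.trace F E (stdB d' E u v) := by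
  classical
  letI : Module E V := Module.compHom V ρ.toRingHom
  have hsmul : ∀ (a : E) (v : V), a • v = ρ a v := fun _ _ => rfl
  haveI : IsScalarTower F E V := IsScalarTower.of_algebraMap_smul fun a v => by
    show ρ (algebraMap F E a) v = a • v
    rw [AlgHom.commutes]; rfl
  haveI : FiniteDimensional E V := Module.Finite.of_restrictScalars_finite F _ _
  have hnd := traceForm_nondegenerate F E
  let φ : V → V → Module.Dual F E := fun u v =>
    { toFun := fun a => B (ρ a u) v
      map_add' := fun a b => by simp
      map_smul' := fun c a => by simp }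
  have hφ : ∀ u v a, φ u v a = B (ρ a u) v := fun _ _ _ => rfl
  let T := LinearMap.BilinForm.toDual (Algebra.traceForm F E) hnd
  let b : V → V → E := fun u v => T.symm (φ u v)
  have hb : ∀ u v a, Algebra.trace F E (a * b u v) = B (ρ a u) v := fun u v a => by
    rw [mul_comm, ← Algebra.traceForm_apply, ← hφ]
    exact LinearMap.BilinForm.apply_toDual_symm_apply (φ u v) a
  have huniq : ∀ {x y : E}, (∀ a, Algebra.trace F E (a * x) = Algebra.trace F E (a * y)) → x = y := by
    intro x y h
    refine sub_eq_zero.1 (hnd.1 _ fun a => ?_)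
    rw [Algebra.traceForm_apply, mul_comm, mul_sub, map_sub, h a, sub_self]
  let BE : LinearMap.BilinForm E V := LinearMap.mk₂ E b
    (fun x y v => huniq fun a => by simp [mul_add, hb])
    (fun c x v => huniq fun a => by
      rw [hb, smul_eq_mul, ← mul_assoc, hb, hsmul, ← Module.End.mul_apply, ← map_mul])
    (fun u x y => huniq fun a => by simp [mul_add, hb])
    (fun c u x => huniq fun a => by
      rw [hb, smul_eq_mul, ← mul_assoc, hb, hsmul, ← hsa, ← Module.End.mul_apply, ← map_mul, mul_comm])
  have hBE : ∀ u v a, Algebra.trace F E (a * BE u v) = B (ρ a u) v := hb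
  have hBEA : BE.IsAlt := fun v => huniq fun a => by rw [hBE, halt, mul_zero, map_zero]
  have hBES : BE.SeparatingLeft := fun v hv => hB v fun w => by
    have := hBE v w 1
    rwa [hv, mul_zero, map_zero, map_one, Module.End.one_apply, eq_comm] at this
  obtain ⟨m, k, bs, -, -, -, h4⟩ := exists_altBasis BE hBEA
  obtain rfl : k = 0 := by
    by_contra hk
    exact bs.ne_zero (Sum.inr ⟨0, Nat.pos_of_ne_zero hk⟩) (hBES _ fun v => h4 _ v)
  have hfin : finrank E (Fin m ⊕ Fin m → E) = finrank E V := by
    rw [Module.finrank_eq_card_basis bs, Module.finrank_pi]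
    simp
  obtain ⟨e, he⟩ := exists_alt_isometry (stdB m E) (stdB_isAlt m) (stdB_nondegenerate m).1 BE hBEA hBES hfin
  refine ⟨m, e.restrictScalars F, fun a v => (e.map_smul a v).symm, fun u v => ?_⟩
  show B (e u) (e v) = _
  rw [← he u v, ← one_mul (BE (e u) (e v)), hBE, map_one, Module.End.one_apply]

/-- An element normalising `E` centralises it when it has order prime to `[E : F]` modulo scalars
or an eigenspace of dimension more than half. -/
theorem commute_of_normalize [FiniteDimensional F E] [IsGalois F E] [Nontrivial V] (ρ : E →ₐ[F] Module.End F V)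
    {X : Module.End F V} (hX : Function.Injective X) (hnorm : ∀ a, ∃ b, X * ρ a = ρ b * X)
    (h : (∃ r, r.Coprime (finrank F E) ∧ ∃ c : F, c ≠ 0 ∧ ∀ v, (X ^ r) v = c • v) ∨
      ∃ (W : Submodule F V) (μ : F), (∀ v ∈ W, X v = μ • v) ∧ finrank F V < 2 * finrank F W) (a : E) :
    X * ρ a = ρ a * X := by
  classical
  choose τ hτ using hnorm
  have hXs : Function.Surjective X := LinearMap.injective_iff_surjective.1 hX
  have huniq : ∀ {b b' : E}, ρ b * X = ρ b' * X → b = b' := fun {b b'} hbb => by
    obtain ⟨v, hv⟩ := exists_ne (0 : V)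
    obtain ⟨w, rfl⟩ := hXs v
    refine sub_eq_zero.1 (eq_zero_of_apply (ρ := ρ) (v := X w) ?_ hv)
    rw [map_sub, LinearMap.sub_apply, ← Module.End.mul_apply, ← Module.End.mul_apply, hbb, sub_self]
  rcases h with ⟨r, hr, c, hc, hXr⟩ | ⟨W, μ, hW, hdim⟩
  · let T : E →ₐ[F] E :=
      { toFun := τ
        map_one' := huniq (by rw [← hτ, map_one, one_mul, mul_one])
        map_mul' := fun x y => huniq (by
          rw [← hτ, map_mul ρ, ← mul_assoc, hτ x, mul_assoc, hτ y, ← mul_assoc, ← map_mul])
        map_zero' := huniq (by rw [← hτ, map_zero, mul_zero, zero_mul])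
        map_add' := fun x y => huniq (by rw [← hτ, map_add ρ, mul_add, hτ, hτ, ← add_mul, ← map_add])
        commutes' := fun s => huniq (by
          rw [← hτ, AlgHom.commutes]; exact (Algebra.commutes s X).symm) }
    let Te : E ≃ₐ[F] E := AlgEquiv.ofBijective T
      ⟨T.toRingHom.injective, LinearMap.injective_iff_surjective.1 (show Function.Injective T.toLinearMap from T.toRingHom.injective)⟩
    have hpow : ∀ (j : ℕ) x, X ^ j * ρ x = ρ ((Te ^ j) x) * X ^ j := by
      intro j
      induction j with
      | zero => simp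
      | succ j ih =>
        intro x
        rw [pow_succ', mul_assoc, ih, ← mul_assoc, hτ, pow_succ', AlgEquiv.mul_apply, mul_assoc]
        rfl
    have hr1 : Te ^ r = 1 := AlgEquiv.ext fun x => by
      rw [AlgEquiv.one_apply]
      obtain ⟨v, hv⟩ := exists_ne (0 : V)
      refine sub_eq_zero.1 (eq_zero_of_apply (ρ := ρ) (v := v) ?_ hv)
      have := LinearMap.congr_fun (hpow r x) v
      rw [Module.End.mul_apply, Module.End.mul_apply, hXr, hXr, map_smul] at this
      rw [map_sub, LinearMap.sub_apply, smul_right_injective V hc this, sub_self]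
    have hk1 : Te ^ finrank F E = 1 := by
      rw [← IsGalois.card_aut_eq_finrank F E]; exact pow_card_eq_one'
    have h1 := pow_gcd_eq_one.2 ⟨hr1, hk1⟩
    rw [hr.gcd_eq_one, pow_one] at h1
    rw [hτ a, show τ a = a from DFunLike.congr_fun h1 a]
  · rcases eq_or_ne a 0 with rfl | ha
    · simp
    have hinj : Function.Injective (ρ a) := (injective_iff_map_eq_zero _).2 fun v hv => by
      by_contra hne
      exact ha (eq_zero_of_apply hv hne)
    obtain ⟨z, hz, hz0⟩ := Submodule.exists_mem_ne_zero_of_ne_bot
      (p := W.map (ρ a) ⊓ W) (fun h0 => by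
        have h1 := Submodule.finrank_sup_add_finrank_inf_eq (W.map (ρ a)) W
        have h2 := Submodule.finrank_le (W.map (ρ a) ⊔ W)
        rw [h0, finrank_bot, ← (Submodule.equivMapOfInjective (ρ a) hinj W).finrank_eq] at h1
        omega)
    obtain ⟨⟨w, hw, rfl⟩, hz'⟩ := hz
    have hμ : μ ≠ 0 := fun h0 => hz0 (hX (by rw [hW _ hz', h0, zero_smul, map_zero]))
    have h1 := LinearMap.congr_fun (hτ a) w
    rw [Module.End.mul_apply, Module.End.mul_apply, hW _ hz', hW _ hw, map_smul] at h1
    rw [hτ a, ← sub_eq_zero.1 (eq_zero_of_apply (ρ := ρ) (a := a - τ a) (v := w) (by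
      rw [map_sub, LinearMap.sub_apply, smul_right_injective V hμ h1, sub_self])
      (fun h0 => hz0 (by rw [h0, map_zero])))]

end Cfsg.Agent.Lib.Elusive.SympField
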