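import Cfsg.Agent.Lib.Elusive.OrthFieldExtCases
import Cfsg.Agent.Lib.Elusive.SympField
import Cfsg.Agent.Lib.Forms.FieldSubalg

/-!
# Elements of prime order and the normaliser of a quadratic field of self-adjoint scalars
-/

set_option autoImplicit false
set_option maxHeartbeats 1000000

namespace Cfsg.Agent.Lib.Elusive.OrthFieldExt

open Module QuadraticMap
open scoped MatrixGroups
open scoped Matrix
open Cfsg.Agent.Lib.Classical.Quad Cfsg.Agent.Lib.Classical.QuadOmega
open Cfsg.Agent.Lib.Classical.QuadF2 Cfsg.Agent.Lib.Classical.OrthTorsion Cfsg.Agent.Lib.Elusive.OrthType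
open Cfsg.Agent.Lib.Elusive.OrthInvol Cfsg.Agent.Lib.Elusive.OrthSingTwo Cfsg.Agent.Lib.Elusive.OrthRotConj
open Cfsg.Agent.Lib.Forms (isoMat isoMat_mulVec isField_fieldSubalg)
open Cfsg.Agent.Lib.Elusive.SympStep (fixedSpace mem_fixed cOf)

universe u

variable {F : Type u} [Field F] [Fintype F] {V : Type u} [AddCommGroup V] [Module F V] [FiniteDimensional F V]
variable {Q : QuadraticForm F V}

/-- A non-trivial element of order `p` of the commutator subgroup moving only a plane. -/
theorem exists_unip (hQ : Nd Q) (h2 : (2 : F) ≠ 0) {d : ℕ} (hV : finrank F V = 2 * d) (hd : 4 ≤ d)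
    {p : ℕ} [CharP F p] :
    ∃ x ∈ commutator (isoG Q), x ^ p = 1 ∧ x ≠ 1 ∧
      finrank F (LinearMap.range ((x.1 : V →ₗ[F] V) - 1)) ≤ 2 := by
  haveI : Finite V := Module.finite_of_finite F
  obtain ⟨U, -, hUt, hUd⟩ := OrthSingTS.exists_ts_sub (ndOn_top hQ) (s := 1) (by rw [finrank_top, hV]; omega)
    (fun e => by rw [finrank_top, hV] at e; omega)
  obtain ⟨x₀, hx₀, hx₀0⟩ := Submodule.exists_mem_ne_zero_of_ne_bot (p := U) fun e => by
    rw [e, finrank_bot] at hUd; omega
  have hQx : Q x₀ = 0 := hUt x₀ hx₀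
  obtain ⟨u, hu, hQu⟩ : ∃ u ∈ LinearMap.ker (polarBilin Q x₀), Q u ≠ 0 := by
    by_contra! hall
    have h1 := OrthSingCount.tsing_dim (ndOn_top hQ) (U := LinearMap.ker (polarBilin Q x₀)) le_top
      (fun z hz => hall z hz)
    have h3 := LinearMap.finrank_range_add_finrank_ker (polarBilin Q x₀)
    have h4 := Submodule.finrank_le (LinearMap.range (polarBilin Q x₀))
    rw [finrank_self] at h4
    rw [finrank_top, hV] at h1
    change 2 * finrank F (LinearMap.ker (polarBilin Q x₀)) ≤ 2 * d at h1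
    change _ + finrank F (LinearMap.ker (polarBilin Q x₀)) = _ at h3
    omega
  have hxu : polar Q x₀ u = 0 := hu
  have hG : Good Q := good_of_nd hQ h2 (by omega)
  have hpow : ∀ n : ℕ, sie Q x₀ u ^ n = sie Q x₀ ((n : F) • u) := by
    intro n
    induction n with
    | zero => rw [pow_zero, Nat.cast_zero, zero_smul, sie_zero hQx]
    | succ n ih =>
      rw [pow_succ, ih, ← sie_add hQx (by rw [polar_smul_right, hxu, smul_zero]) hxu, Nat.cast_succ, add_smul,
        one_smul]
  refine ⟨sie Q x₀ u, siegelGroup_le_commutator hG (sie_mem hQx hxu), by rw [hpow, CharP.cast_eq_zero, zero_smul,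
    sie_zero hQx], fun e => ?_, ?_⟩
  · have h1 : (sie Q x₀ u).1 u = u := by rw [e]; rfl
    rw [sie_apply hQx hxu, polar_comm Q u x₀, hxu, zero_smul, mul_zero, zero_smul, add_zero, sub_zero, polar_self,
      sub_eq_self, smul_eq_zero] at h1
    rw [two_nsmul, ← two_mul] at h1
    exact h1.elim (fun h => mul_ne_zero h2 hQu h) hx₀0
  · refine le_trans (Submodule.finrank_mono (t := Submodule.span F {u} ⊔ Submodule.span F {x₀}) ?_) ?_
    · rintro _ ⟨v, rfl⟩
      rw [LinearMap.sub_apply, Module.End.one_apply]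
      show (sie Q x₀ u).1 v - v ∈ _
      rw [sie_apply hQx hxu, show (v + polar Q v x₀ • u - polar Q v u • x₀ - (Q u * polar Q v x₀) • x₀ - v) = polar Q v x₀ • u + (-polar Q v u - Q u * polar Q v x₀) • x₀ by module]
      exact Submodule.add_mem_sup (Submodule.smul_mem _ _ (Submodule.mem_span_singleton_self u))
        (Submodule.smul_mem _ _ (Submodule.mem_span_singleton_self x₀))
    · have hspan : ∀ z : V, finrank F (Submodule.span F {z}) ≤ 1 := fun z => (finrank_span_le_card {z}).trans (by simp)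
      exact (Submodule.finrank_add_le_finrank_add_finrank _ _).trans (Nat.add_le_add (hspan u) (hspan x₀))

section matrices

variable {ι : Type} [Fintype ι] [DecidableEq ι] {R : QuadraticForm F (ι → F)}

/-- The isometries as matrices. -/
noncomputable def isoHom (R : QuadraticForm F (ι → F)) : isoG R →* GL ι F :=
  (Cfsg.isometryGroup F ⇑R).subtype.comp
    (isoEquiv (Q := R) ⇑R (LinearEquiv.refl F _) fun _ => rfl).symm.toMonoidHom

theorem isoHom_apply (R : QuadraticForm F (ι → F)) (g : isoG R) : isoHom R g = isoMat R g := rfl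

theorem omega_eq (R : QuadraticForm F (ι → F)) :
    Cfsg.Geo.omegaGL ⇑R = (commutator (isoG R)).map (isoHom R) := by
  ext x
  constructor
  · intro hx
    obtain ⟨g, hg, rfl⟩ := Subgroup.mem_map.1 hx
    refine Subgroup.mem_map.2 ⟨_, (mem_omega_iff (Q := R) ⇑R (LinearEquiv.refl F _) (fun _ => rfl) g).1 hg, ?_⟩
    show ((isoEquiv (Q := R) ⇑R (LinearEquiv.refl F _) fun _ => rfl).symm (isoEquiv (Q := R) ⇑R (LinearEquiv.refl F _) (fun _ => rfl) g)).1 = _
    rw [MulEquiv.symm_apply_apply]
    rfl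
  · rintro ⟨g, hg, rfl⟩
    exact isoMat_mem_omega hg

theorem main_aux {E : Type u} [Field E] [Fintype E] [Algebra F E] (hdeg : finrank F E = 2)
    (ρ : E →ₐ[F] Module.End F (ι → F))
    (h2 : (2 : F) ≠ 0) {d : ℕ} (hι : Fintype.card ι = 2 * d) (hd : 4 ≤ d) (hR : Nd R)
    {K : Subalgebra F (Matrix ι ι F)} (hKρ : ∀ k, k ∈ K ↔ ∃ a, LinearMap.toMatrix' (ρ a) = k)
    (hKf : Cfsg.Geo.IsSelfAdjointFor (polar ⇑R) K) {p : ℕ} [Fact p.Prime] [CharP F p] {r : ℕ} [Fact r.Prime]
    (hΩ : r ∣ (Cfsg.Geo.subalgebraNormalizer K).relIndex (Cfsg.Geo.omegaGL ⇑R)) :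
    (∀ x ∈ Cfsg.Geo.omegaGL ⇑R, (∃ z : F, ((x ^ r : GL ι F) : Matrix ι ι F) = z • (1 : Matrix ι ι F)) →
      (∀ z : F, (x : Matrix ι ι F) ≠ z • (1 : Matrix ι ι F)) →
      ∃ g ∈ Cfsg.Geo.omegaGL ⇑R, g⁻¹ * x * g ∈ Cfsg.Geo.subalgebraNormalizer K) ↔ r = 2 := by
  classical
  haveI : Nonempty ι := Fintype.card_pos_iff.1 (by omega)
  haveI : Finite (ι → F) := Pi.finite
  haveI : FiniteDimensional F E := Module.finite_of_finrank_pos (by rw [hdeg]; omega)
  letI : Module E (ι → F) := Module.compHom (ι → F) ρ.toRingHom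
  have hρsmul : ∀ (a : E) (v : ι → F), a • v = ρ a v := fun _ _ => rfl
  have hsmul : ∀ (a : E) (v : ι → F), a • v = LinearMap.toMatrix' (ρ a) *ᵥ v := fun a v => by
    rw [LinearMap.toMatrix'_mulVec, hρsmul]
  haveI : IsScalarTower F E (ι → F) := IsScalarTower.of_algebraMap_smul fun a v => by
    rw [hρsmul, AlgHom.commutes]; rfl
  haveI : FiniteDimensional E (ι → F) := Module.Finite.of_restrictScalars_finite F _ _
  haveI : Nontrivial (ι → F) := Function.nontrivial
  have hfinV : finrank F (ι → F) = 2 * d := by rw [finrank_pi, hι]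
  have hdK : finrank E (ι → F) = d := by
    have := Module.finrank_mul_finrank F E (ι → F)
    rw [hfinV, hdeg] at this
    omega
  -- the form over the extension
  have hsa : ∀ (a : E) u v, polar R (a • u) v = polar R u (a • v) := fun a u v => by
    rw [hsmul, hsmul]; exact hKf _ ((hKρ _).2 ⟨a, rfl⟩) u v
  have hnd := traceForm_nondegenerate F E
  let φ : (ι → F) → (ι → F) → Module.Dual F E := fun u v =>
    { toFun := fun a => polar R (a • u) v
      map_add' := fun a c => by rw [add_smul, polar_add_left]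
      map_smul' := fun c a => by rw [smul_assoc, polar_smul_left, RingHom.id_apply] }
  let T := LinearMap.BilinForm.toDual (Algebra.traceForm F E) hnd
  let β : (ι → F) → (ι → F) → E := fun u v => T.symm (φ u v)
  have hβ : ∀ u v a, Algebra.trace F E (a * β u v) = polar R (a • u) v := fun u v a => by
    rw [mul_comm, ← Algebra.traceForm_apply]
    exact LinearMap.BilinForm.apply_toDual_symm_apply (φ u v) a
  have huniq : ∀ {x y : E}, (∀ a, Algebra.trace F E (a * x) = Algebra.trace F E (a * y)) → x = y := by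
    intro x y h
    refine sub_eq_zero.1 (hnd.1 _ fun a => ?_)
    rw [Algebra.traceForm_apply, mul_comm, mul_sub, map_sub, h a, sub_self]
  let b : LinearMap.BilinForm E (ι → F) := LinearMap.mk₂ E β
    (fun x y v => huniq fun a => by rw [mul_add, map_add, hβ, hβ, hβ, smul_add, polar_add_left])
    (fun c x v => huniq fun a => by rw [hβ, smul_eq_mul, ← mul_assoc, hβ, smul_smul])
    (fun u x y => huniq fun a => by rw [mul_add, map_add, hβ, hβ, hβ, polar_add_right])
    (fun c u x => huniq fun a => by rw [hβ, smul_eq_mul, ← mul_assoc, hβ, ← hsa, smul_smul, mul_comm c])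
  have h : Ext R b :=
    ⟨fun u v => huniq fun a => by
      show Algebra.trace F E (a * β u v) = Algebra.trace F E (a * β v u)
      rw [hβ, hβ, hsa, polar_comm],
    fun a u v => hβ u v a, h2, hdeg, hR⟩
  haveI : CharP E p := charP_of_injective_algebraMap (algebraMap F E).injective p
  have hr : r.Prime := Fact.out
  -- membership in the normaliser
  have hsemi : ∀ g : isoG R, Semi E g.1 → isoHom R g ∈ Cfsg.Geo.subalgebraNormalizer K := by
    rintro g ⟨τ, hτ⟩
    have into : ∀ k ∈ K, ((isoHom R g : GL ι F) : Matrix ι ι F) * k * (((isoHom R g)⁻¹ : GL ι F) : Matrix ι ι F) ∈ K := by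
      intro k hk
      obtain ⟨a, rfl⟩ := (hKρ k).1 hk
      refine (hKρ _).2 ⟨τ a, Matrix.ext_of_mulVec_single fun i => ?_⟩
      rw [isoHom_apply, ← Matrix.mulVec_mulVec, ← Matrix.mulVec_mulVec, isoMat_mulVec, ← hsmul, ← hsmul, hτ,
        ← isoMat_mulVec g, Matrix.mulVec_mulVec _ (isoMat R g : Matrix ι ι F), Units.mul_inv, Matrix.one_mulVec]
    intro k
    refine ⟨into k, fun hk => ?_⟩
    let φ : K → K := fun x => ⟨_, into x x.2⟩
    have hφ : Function.Injective φ := fun x y hxy => Subtype.ext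
      ((Units.mul_right_inj (isoHom R g)).1 ((Units.mul_left_inj (isoHom R g)⁻¹).1 (congrArg Subtype.val hxy)))
    obtain ⟨x, hx⟩ := Finite.surjective_of_injective hφ ⟨_, hk⟩
    have := (Units.mul_right_inj (isoHom R g)).1 ((Units.mul_left_inj (isoHom R g)⁻¹).1 (congrArg Subtype.val hx))
    exact this ▸ x.2
  -- conjugating inside the commutator subgroup
  have hback : ∀ x : isoG R, (∃ φ ∈ commutator (isoG R), Semi E (φ * x * φ⁻¹).1) →
      ∃ g ∈ Cfsg.Geo.omegaGL ⇑R, g⁻¹ * isoHom R x * g ∈ Cfsg.Geo.subalgebraNormalizer K := by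
    rintro x ⟨φ, hφ, hs⟩
    refine ⟨isoHom R φ⁻¹, by rw [omega_eq]; exact Subgroup.mem_map_of_mem _ (inv_mem hφ), ?_⟩
    rw [← map_inv, inv_inv, ← map_mul, ← map_mul]
    exact hsemi _ hs
  -- elements of odd order in the normaliser are linear
  have hlin : r ≠ 2 → ∀ y : isoG R, y ^ r = 1 → isoHom R y ∈ Cfsg.Geo.subalgebraNormalizer K →
      ∀ (a : E) v, y.1 (a • v) = a • y.1 v := by
    intro hr2 y hyr hy a v
    set X := (y.1 : (ι → F) →ₗ[F] (ι → F))
    have hXr : ∀ w, (X ^ r) w = w := fun w => by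
      have hpow : ∀ (n : ℕ) w, (X ^ n) w = ((y ^ n : isoG R).1) w := fun n => by
        induction n with
        | zero => exact fun w => rfl
        | succ n ih => intro w; rw [pow_succ', Module.End.mul_apply, ih, pow_succ']; rfl
      rw [hpow, hyr]; rfl
    have hXY : ∀ w, X w = ((isoHom R y : GL ι F) : Matrix ι ι F) *ᵥ w := fun w => (isoMat_mulVec y w).symm
    have hn : ∀ c : E, ∃ c' : E, X * ρ c = ρ c' * X := fun c => by
      obtain ⟨c', hc'⟩ := (hKρ _).1 ((hy (LinearMap.toMatrix' (ρ c))).1 ((hKρ _).2 ⟨c, rfl⟩))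
      refine ⟨c', LinearMap.ext fun w => ?_⟩
      rw [Module.End.mul_apply, Module.End.mul_apply, ← hρsmul, ← hρsmul, hsmul, hsmul, hc', hXY, hXY,
        Matrix.mulVec_mulVec, Matrix.mulVec_mulVec, mul_assoc, Units.inv_mul, mul_one]
    exact LinearMap.congr_fun (SympField.commute_of_normalize ρ (fun _ _ e => y.1.injective e) hn
      (Or.inl ⟨r, by rw [hdeg]; exact (Nat.coprime_primes hr Nat.prime_two).2 hr2, 1, one_ne_zero,
        fun w => by rw [one_smul]; exact hXr w⟩) a) v
  constructor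
  · intro hall
    by_contra hr2
    -- an element of odd order gives a linear conjugate
    have hconj : ∀ x : isoG R, x ∈ commutator (isoG R) → x ^ r = 1 → x ≠ 1 →
        ∃ g : isoG R, ∀ (a : E) v, (g⁻¹ * x * g).1 (a • v) = a • (g⁻¹ * x * g).1 v := by
      intro x hx hxr hx1
      have hxr' : ((isoHom R x) ^ r : GL ι F) = 1 := by rw [← map_pow, hxr, map_one]
      obtain ⟨g₀, hg₀, hgx⟩ := hall (isoHom R x) (by rw [omega_eq]; exact Subgroup.mem_map_of_mem _ hx)
        ⟨1, by rw [hxr', one_smul, Units.val_one]⟩ fun z hz => by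
          refine hx1 ?_
          obtain ⟨w, hw⟩ := OrthEven.exists_nonsing' hR (by omega)
          have hxv : ∀ v, x.1 v = z • v := fun v => by
            rw [← isoMat_mulVec x v, ← isoHom_apply, hz, Matrix.smul_mulVec, Matrix.one_mulVec]
          have hz2 : z * z = 1 := by
            have := iso_Q x w
            rw [hxv, QuadraticMap.map_smul, smul_eq_mul] at this
            exact mul_right_cancel₀ hw (by rw [one_mul]; exact this)
          have hzr : z ^ r = 1 := by
            have e : ((isoHom R x) ^ r : GL ι F).1 = (1 : Matrix ι ι F) := by rw [hxr']; rfl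
            rw [Units.val_pow_eq_pow_val, hz, _root_.smul_pow, one_pow] at e
            have := congrFun (congrFun e (Classical.arbitrary ι)) (Classical.arbitrary ι)
            simpa using this
          obtain ⟨t, ht⟩ := hr.odd_of_ne_two hr2
          rw [ht, pow_succ, pow_mul, pow_two, hz2, one_pow, one_mul] at hzr
          exact iso_ext fun v => by rw [hxv, hzr, one_smul]; rfl
      rw [omega_eq] at hg₀
      obtain ⟨g, -, rfl⟩ := Subgroup.mem_map.1 hg₀
      rw [← map_inv, ← map_mul, ← map_mul] at hgx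
      refine ⟨g, hlin hr2 _ ?_ hgx⟩
      have := conj_pow (a := g⁻¹) (b := x) (i := r)
      rw [inv_inv] at this
      rw [this, hxr, mul_one, inv_mul_cancel]
    have mk : ∀ y : isoG R, (∀ (a : E) v, y.1 (a • v) = a • y.1 v) →
        ∃ Y : Module.End E (ι → F), (∀ v, Y v = y.1 v) ∧ ∀ n : ℕ, ∀ v, (Y ^ n) v = ((y ^ n : isoG R).1) v := by
      intro y hy
      let Y : Module.End E (ι → F) := { toFun := y.1, map_add' := map_add y.1, map_smul' := hy }
      refine ⟨Y, fun v => rfl, fun n => ?_⟩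
      induction n with
      | zero => exact fun v => rfl
      | succ n ih => intro v; rw [pow_succ', Module.End.mul_apply, ih, pow_succ']; rfl
    by_cases hrp : r = p
    · haveI : CharP F r := hrp ▸ ‹CharP F p›
      obtain ⟨x, hx, hxp, hx1, hxd⟩ := exists_unip hR h2 hfinV hd (p := r)
      obtain ⟨g, hg⟩ := hconj x hx hxp hx1
      obtain ⟨Y, hY, hYn⟩ := mk _ hg
      haveI : CharP E r := hrp ▸ ‹CharP E p›
      have hY1 : Y = 1 := unip_trivial h Y (fun v => by rw [hY]; exact iso_Q _ v)
        (LinearMap.ext fun v => by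
          have := conj_pow (a := g⁻¹) (b := x) (i := r)
          rw [inv_inv] at this
          rw [hYn, this, hxp, mul_one, inv_mul_cancel]; rfl) (by
        have hle : (LinearMap.range (Y - 1)).restrictScalars F ≤
            (LinearMap.range ((x.1 : (ι → F) →ₗ[F] (ι → F)) - 1)).map (g⁻¹ : isoG R).1.toLinearMap := by
          rintro _ ⟨v, rfl⟩
          refine ⟨_, ⟨g.1 v, rfl⟩, ?_⟩
          rw [LinearMap.sub_apply, LinearMap.sub_apply, Module.End.one_apply, Module.End.one_apply, hY, map_sub]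
          show (g⁻¹ : isoG R).1 (x.1 (g.1 v)) - (g⁻¹ * g : isoG R).1 v = _
          rw [inv_mul_cancel]
          rfl
        have := (Submodule.finrank_mono hle).trans (Submodule.finrank_map_le _ _)
        rw [finrank_res h] at this
        omega)
      refine hx1 ?_
      have e : g⁻¹ * x * g = 1 := iso_ext fun v => by rw [← hY, hY1]; rfl
      rw [show x = g * (g⁻¹ * x * g) * g⁻¹ by group, e, mul_one, mul_inv_cancel]
    -- divisibility
    have hdvd : r ∣ ((Cfsg.Geo.subalgebraNormalizer K).comap (isoHom R)).relIndex (commutator (isoG R)) := by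
      rw [Subgroup.relIndex_comap, ← omega_eq]; exact hΩ
    set N := (Cfsg.Geo.subalgebraNormalizer K).comap (isoHom R)
    set i := orderOf (Fintype.card F : ZMod r) with hi
    have hrq : ¬ r ∣ Fintype.card F := OrthOdd.cast_q_ne hrp
    have hi0 : 0 < i := i_pos (p := p) (q := Fintype.card F) (r := r) rfl hr hrp hi
    obtain ⟨c', hc'⟩ := (SympStep.cOf_even i).two_dvd
    have hc0 : 0 < c' := by
      rw [cOf] at hc'; split_ifs at hc' <;> omega
    have hcard : r ∣ Nat.card (isoG R) :=
      (hdvd.trans (Subgroup.relIndex_dvd_card _ _)).trans (Subgroup.card_subgroup_dvd_card _)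
    have hbound : 2 * c' ≤ 2 * d ∧ (2 * d = 2 * c' → (Plus R ⊤ ↔ OrthEven.RPlus i 1)) := by
      have hcases := OrthEven.card_iso_top hR (d := d - 1) (by omega)
      rw [show d - 1 + 1 = d by omega] at hcases
      have hA : ∀ (X : ℕ), r ∣ 2 * Fintype.card F ^ (d * (d - 1)) * X *
          ∏ j ∈ Finset.range (d - 1), (Fintype.card F ^ (2 * (j + 1)) - 1) →
          (r ∣ X ∨ 2 * c' + 2 ≤ 2 * d) := by
        intro X hX
        rcases hr.dvd_mul.1 hX with hX | hX
        · rcases hr.dvd_mul.1 hX with hX | hX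
          · rcases hr.dvd_mul.1 hX with hX | hX
            · exact absurd ((Nat.prime_dvd_prime_iff_eq hr Nat.prime_two).1 hX) hr2
            · exact absurd (hr.dvd_of_dvd_pow hX) hrq
          · exact Or.inl hX
        · obtain ⟨j, hj, hj'⟩ := (Prime.dvd_finsetProd_iff (Nat.prime_iff.1 hr) _).1 hX
          rw [Finset.mem_range] at hj
          have := Nat.le_of_dvd (by omega) (OrthEven.dvd_even (p := p) (F := F) hi hc'.symm hj')
          exact Or.inr (by omega)
      have key : ((Plus R ⊤ ∧ (Fintype.card F : ZMod r) ^ d = 1) ∨ (¬ Plus R ⊤ ∧ (Fintype.card F : ZMod r) ^ d = -1)) ∨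
          2 * c' + 2 ≤ 2 * d := by
        rcases hcases with ⟨hp, hc⟩ | ⟨hp, hc⟩ <;> rw [hc] at hcard <;> rcases hA _ hcard with hX | hX
        · exact Or.inl (Or.inl ⟨hp, (OrthEven.pow_sub_one_iff Fintype.card_pos).1 hX⟩)
        · exact Or.inr hX
        · exact Or.inl (Or.inr ⟨hp, OrthEven.pow_add_one_iff.1 hX⟩)
        · exact Or.inr hX
      rcases key with key | key
      · obtain ⟨h1, h3⟩ := OrthEven.pieces (p := p) hrp hr2 hi hc'.symm _ key
        refine ⟨Nat.le_of_dvd (by omega) h1, fun e => ?_⟩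
        rw [e, Nat.div_self (by omega)] at h3
        exact h3
      · exact ⟨by omega, fun e => by omega⟩
    by_cases hc2 : Even c'
    · -- the index is prime to r
      have hi4 : 4 ∣ i := by
        obtain ⟨t, ht⟩ := hc2
        rw [cOf] at hc'
        split_ifs at hc' with he
        · exact ⟨t, by omega⟩
        · exact absurd ⟨t, by omega⟩ he
      obtain ⟨m, hm, hrm⟩ := exists_index h hdK (by omega) hrq hi4
      obtain ⟨ψ, hψi, hψ⟩ := exists_scalarHom (Q := R) (b := b) fun v g => by
        refine mul_left_cancel₀ h2 ?_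
        rw [two_mul_Q h, two_mul_Q h]
        exact congrArg _ (g.2 v)
      have hle : ψ.range ≤ N := by
        rintro _ ⟨g, rfl⟩
        exact hsemi _ ⟨id, fun a v => by rw [hψ, hψ, map_smul]; rfl⟩
      have hidx : ψ.range.index = m := by
        have h1 := Subgroup.card_mul_index ψ.range
        rw [Nat.card_congr (MonoidHom.ofInjective hψi).toEquiv.symm, hm] at h1
        exact Nat.eq_of_mul_eq_mul_left Nat.card_pos h1
      refine hrm (hdvd.trans (dvd_trans ?_ (hidx ▸ Subgroup.index_dvd_of_le hle)))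
      set C := commutator (isoG R)
      have e1 := Subgroup.relIndex_mul_index (inf_le_right : N ⊓ C ≤ C)
      have e2 := Subgroup.relIndex_mul_index (inf_le_left : N ⊓ C ≤ N)
      rw [Subgroup.inf_relIndex_right] at e1
      rw [Subgroup.inf_relIndex_left] at e2
      refine Nat.dvd_of_mul_dvd_mul_right (Nat.pos_of_ne_zero Subgroup.index_ne_zero_of_finite : 0 < C.index) ?_
      rw [e1, ← e2, mul_comm N.index]
      exact mul_dvd_mul_right (Subgroup.relIndex_dvd_index_of_normal C N) _
    · -- an element moving one piece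
      obtain ⟨x, hx, hxne, hxr, S, hfix⟩ := OrthEven.exists_split_elt hι hR (reg_of_two_ne_zero h2) (p := p) hrp hr2
        (i := i) (c := 2 * c') (u := 1) (s := 2 * d - 2 * c') hi hc'.symm le_rfl (by omega)
        fun e => hbound.2 (by have := hbound.1; omega)
      rw [omega_eq] at hx
      obtain ⟨x, hxc, rfl⟩ := Subgroup.mem_map.1 hx
      have hxr' : x ^ r = 1 := iso_ext fun v => by
        rw [← isoMat_mulVec (x ^ r) v, ← isoHom_apply, map_pow, hxr, Units.val_one, Matrix.one_mulVec]; rfl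
      obtain ⟨g, hg⟩ := hconj x hxc hxr' fun e => hxne 1 (by rw [e, map_one, one_smul, Units.val_one])
      obtain ⟨Y, hY, hYn⟩ := mk _ hg
      obtain ⟨e, he, hef⟩ := fixed_dim h (p := p) hrp hr2 Y (fun v => by rw [hY]; exact iso_Q _ v) fun v => by
        have := conj_pow (a := g⁻¹) (b := x) (i := r)
        rw [inv_inv] at this
        rw [hYn, this, hxr', mul_one, inv_mul_cancel]; rfl
      have hmap : (fixedSpace Y).restrictScalars F =
          (fixedSpace (Matrix.toLin' ((isoHom R x : GL ι F) : Matrix ι ι F))).map (g⁻¹ : isoG R).1.toLinearMap := by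
        have hx' : ∀ w, Matrix.toLin' ((isoHom R x : GL ι F) : Matrix ι ι F) w = x.1 w := fun w => by
          rw [Matrix.toLin'_apply, isoHom_apply, isoMat_mulVec]
        ext v
        rw [Submodule.restrictScalars_mem, mem_fixed, hY, Submodule.mem_map]
        constructor
        · intro hv
          refine ⟨g.1 v, mem_fixed.2 ?_, ?_⟩
          · rw [hx']
            calc x.1 (g.1 v) = (g * (g⁻¹ * x * g) : isoG R).1 v := by
                  rw [mul_assoc g⁻¹, mul_inv_cancel_left]; rfl
              _ = g.1 v := congrArg g.1 hv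
          · show (g⁻¹ * g : isoG R).1 v = v
            rw [inv_mul_cancel]; rfl
        · rintro ⟨w, hw, rfl⟩
          show (g⁻¹ * x * g * g⁻¹ : isoG R).1 w = (g⁻¹ : isoG R).1 w
          rw [mul_inv_cancel_right]
          exact congrArg (g⁻¹ : isoG R).1 ((hx' w).symm.trans (mem_fixed.1 hw))
      rw [hmap, LinearEquiv.finrank_map_eq, hfix] at hef
      rw [hdK] at he
      exact hc2 ⟨e, by omega⟩
  · rintro rfl x hx ⟨z, hz⟩ hxne
    rw [omega_eq] at hx
    obtain ⟨x, hxc, rfl⟩ := Subgroup.mem_map.1 hx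
    have hx' : ∀ w, Matrix.toLin' ((isoHom R x : GL ι F) : Matrix ι ι F) w = x.1 w := fun w => by
      rw [Matrix.toLin'_apply, isoHom_apply, isoMat_mulVec]
    refine hback x ?_
    have hxΩ : isoHom R x ∈ Cfsg.Geo.omegaGL ⇑R := by rw [omega_eq]; exact Subgroup.mem_map_of_mem _ hxc
    rcases sq_cases hR h2 (by omega) hι hxΩ hz with hsq | ⟨hrot, hs, hp⟩
    · obtain ⟨A, B, hA, hB, ho, htop, hXA, hXB, β, hβ, hBp⟩ := invol_data hR h2 hxΩ hsq
      refine invol_conj h hdK x hA hB ho htop (fun v hv => (hx' v).symm.trans (hXA v hv))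
        (fun v hv => (hx' v).symm.trans (hXB v hv)) hβ (Nat.pos_of_ne_zero fun h0 => hxne (-1) ?_) hBp
      rw [Submodule.finrank_eq_zero.1 h0, bot_sup_eq] at htop
      apply Matrix.toLin'.injective
      exact LinearMap.ext fun v => by
        rw [hXB v (htop ▸ Submodule.mem_top), map_smul, Matrix.toLin'_one, LinearMap.smul_apply, LinearMap.id_apply,
          neg_one_smul]
    · refine rot_semi_conj h hdK (by omega) x ?_ hs hp
      rwa [show Matrix.toLin' ((isoHom R x : GL ι F) : Matrix ι ι F) = (x.1 : (ι → F) →ₗ[F] (ι → F)) from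
        LinearMap.ext hx'] at hrot

/-- The statement for a quadratic field of self-adjoint matrices. -/
theorem main (h2 : (2 : F) ≠ 0) {d : ℕ} (hι : Fintype.card ι = 2 * d) (hd : 4 ≤ d) (hR : Nd R)
    {K : Subalgebra F (Matrix ι ι F)} (hK : Cfsg.Geo.IsFieldSubalgebra 2 K)
    (hKf : Cfsg.Geo.IsSelfAdjointFor (polar ⇑R) K) {p : ℕ} [Fact p.Prime] [CharP F p] {r : ℕ} [Fact r.Prime]
    (hΩ : r ∣ (Cfsg.Geo.subalgebraNormalizer K).relIndex (Cfsg.Geo.omegaGL ⇑R)) :
    (∀ x ∈ Cfsg.Geo.omegaGL ⇑R, (∃ z : F, ((x ^ r : GL ι F) : Matrix ι ι F) = z • (1 : Matrix ι ι F)) →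
      (∀ z : F, (x : Matrix ι ι F) ≠ z • (1 : Matrix ι ι F)) →
      ∃ g ∈ Cfsg.Geo.omegaGL ⇑R, g⁻¹ * x * g ∈ Cfsg.Geo.subalgebraNormalizer K) ↔ r = 2 := by
  haveI : Nonempty ι := Fintype.card_pos_iff.1 (by omega)
  letI : Field K := (isField_fieldSubalg hK).toField
  haveI : FiniteDimensional F K := Module.finite_of_finrank_pos (by rw [hK.finrank_eq]; omega)
  haveI : Finite K := Module.finite_of_finite F
  letI : Fintype K := Fintype.ofFinite K
  refine main_aux (E := K) hK.finrank_eq
    ((Matrix.toLinAlgEquiv' (R := F) (n := ι)).toAlgHom.comp K.val) h2 hι hd hR (fun k => ?_) hKf (p := p) hΩ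
  refine ⟨fun hk => ⟨⟨k, hk⟩, LinearMap.toMatrix'_toLin' k⟩, fun ⟨a, ha⟩ => ?_⟩
  rw [← ha]
  convert a.2 using 1
  exact LinearMap.toMatrix'_toLin' _

end matrices

end Cfsg.Agent.Lib.Elusive.OrthFieldExt
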