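import Cfsg.Agent.Lib.Classical.QuadStd
import Cfsg.Agent.Lib.Classical.QuadOmega.Normal
import Cfsg.Agent.Lib.Classical.QuadF2
import Cfsg.Agent.Lib.Classical.Order
import Cfsg.Prelude.Def_GeometricClasses

/-!
The odd primes, different from the characteristic, dividing the index of an orthogonal group in the special
linear group.
-/

set_option autoImplicit false

namespace Cfsg.Agent.Lib.Elusive.OrthIndex

open Module QuadraticMap Cfsg.Agent.Lib.Classical.Quad Cfsg.Agent.Lib.Classical.QuadOmega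
open Cfsg.Agent.Lib.Classical.QuadF2
open scoped Matrix

universe u

variable {F : Type u} [Field F] [Fintype F]

theorem dvd_two_mul_card {n : ℕ} {H : Subgroup (GL (Fin n) F)} {ι : Type} [Fintype ι] [DecidableEq ι]
    {R : (ι → F) → F} {Q : QuadraticForm F (Fin n → F)} (e : (ι → F) ≃ₗ[F] (Fin n → F))
    {s : F} (hR : ∀ v, Q (e v) = s * R v)
    (hdet : ∀ g : GL ι F, g ∈ Cfsg.isometryGroup F R → ((g : Matrix ι ι F).det) ^ 2 = 1)
    (hH : ∀ g ∈ Cfsg.Geo.specialLinear (Fin n) F, (∀ v, Q ((g : Matrix (Fin n) (Fin n) F) *ᵥ v) = Q v) → g ∈ H) :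
    Nat.card (Cfsg.isometryGroup F R) ∣ 2 * Nat.card ↥(H ⊓ Cfsg.Geo.specialLinear (Fin n) F) := by
  classical
  let ψ : GL ι F →* GL (Fin n) F :=
    Units.map
      { toFun := fun M => LinearMap.toMatrix' (e.conj (Matrix.toLin' M))
        map_one' := Matrix.toLin'.injective (LinearMap.ext fun v => by simp [LinearEquiv.conj_apply])
        map_mul' := fun M N => Matrix.toLin'.injective (LinearMap.ext fun v => by
          simp [LinearEquiv.conj_apply, Matrix.mulVec_mulVec, ← Matrix.toLin'_apply, Matrix.toLin'_mul]) }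
  have hψ : Function.Injective ψ := fun M N h => Units.ext (Matrix.toLin'.injective
    (e.conj.injective (LinearMap.toMatrix'.injective (congrArg Units.val h))))
  let χ : Cfsg.isometryGroup F R →* rootsOfUnity 2 F :=
    (Matrix.GeneralLinearGroup.det.comp (Cfsg.isometryGroup F R).subtype).codRestrict _ fun g => by
      rw [mem_rootsOfUnity]
      exact Units.ext (by simpa using hdet g.1 g.2)
  have hker : Nat.card χ.ker ∣ Nat.card ↥(H ⊓ Cfsg.Geo.specialLinear (Fin n) F) := by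
    have hmem : ∀ g : χ.ker, ψ g.1.1 ∈ H ⊓ Cfsg.Geo.specialLinear (Fin n) F := fun g => by
      have hs : ψ g.1.1 ∈ Cfsg.Geo.specialLinear (Fin n) F := by
        have hg := congrArg (fun u : rootsOfUnity 2 F => ((u : Fˣ) : F)) g.2
        refine MonoidHom.mem_ker.2 (Units.ext ?_)
        show Matrix.det (LinearMap.toMatrix' (e.conj (Matrix.toLin' (g.1.1 : Matrix ι ι F)))) = 1
        rw [LinearMap.det_toMatrix', LinearEquiv.conj_apply, LinearMap.comp_assoc, LinearMap.det_conj,
          LinearMap.det_toLin']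
        exact hg
      refine ⟨hH _ hs fun v => ?_, hs⟩
      show Q (Matrix.mulVec (LinearMap.toMatrix' (e.conj (Matrix.toLin' (g.1.1 : Matrix ι ι F)))) v) = _
      rw [← Matrix.toLin'_apply, Matrix.toLin'_toMatrix', LinearEquiv.conj_apply, LinearMap.comp_apply,
        LinearMap.comp_apply, LinearEquiv.coe_coe, LinearEquiv.coe_coe, hR, Matrix.toLin'_apply]
      have := g.1.2 (e.symm v) (e.symm v)
      simp only [Units.coeHom_apply] at this
      rw [this, ← hR, e.apply_symm_apply]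
    refine Subgroup.card_dvd_of_injective ((ψ.comp ((Cfsg.isometryGroup F R).subtype.comp χ.ker.subtype)).codRestrict _ hmem) ?_
    intro a b h
    exact Subtype.ext (Subtype.ext (hψ (congrArg Subtype.val h)))
  have hrange : Nat.card χ.range ∣ 2 := by
    haveI : IsCyclic χ.range := inferInstance
    rw [← IsCyclic.exponent_eq_card, Monoid.exponent_dvd_iff_forall_pow_eq_one]
    intro u
    exact Subtype.ext (Subtype.ext ((mem_rootsOfUnity 2 _).1 u.1.2))
  have := χ.ker.card_mul_index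
  rw [Subgroup.index_ker] at this
  rw [← this, mul_comm 2]
  exact Nat.mul_dvd_mul hker hrange

theorem det_sq_of_iso {ι : Type} [Fintype ι] [DecidableEq ι] (Q : QuadraticForm F (ι → F)) (hQ : Nd Q)
    {g : GL ι F} (hg : g ∈ Cfsg.isometryGroup F (⇑Q)) : ((g : Matrix ι ι F).det) ^ 2 = 1 := by
  have hiso : ∀ v, Q ((g : Matrix ι ι F) *ᵥ v) = Q v := fun v => hg v v
  set G := LinearMap.toMatrix₂' F (polarBilin Q) with hG
  have hGd : G.det ≠ 0 := fun h => by
    obtain ⟨v, hv0, hv⟩ := Matrix.exists_vecMul_eq_zero_iff.2 h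
    refine hv0 (hQ v fun w => ?_)
    rw [← polarBilin_apply_apply, ← Matrix.toLinearMap₂'_toMatrix' (R := F) (polarBilin Q), ← hG,
      Matrix.toLinearMap₂'_apply', Matrix.dotProduct_mulVec, hv, zero_dotProduct]
  have hc : (polarBilin Q).compl₁₂ (Matrix.toLin' (g : Matrix ι ι F)) (Matrix.toLin' (g : Matrix ι ι F)) =
      polarBilin Q := LinearMap.ext₂ fun u v => by
    simp [polar, ← Matrix.mulVec_add, hiso]
  have := congrArg (fun B => (LinearMap.toMatrix₂' F B).det) hc
  simp only [LinearMap.toMatrix₂'_compl₁₂, LinearMap.toMatrix'_toLin', Matrix.det_mul, Matrix.det_transpose] at this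
  have h1 : ((g : Matrix ι ι F).det ^ 2) * G.det = 1 * G.det := by
    rw [one_mul, hG]; linear_combination this
  exact mul_right_cancel₀ hGd h1

theorem card_gl_split (q n : ℕ) :
    ∏ i ∈ Finset.range n, (q ^ n - q ^ i) =
      q ^ (∑ i ∈ Finset.range n, i) * ∏ j ∈ Finset.range n, (q ^ (j + 1) - 1) := by
  rw [← Finset.prod_pow_eq_pow_sum, ← Finset.prod_range_reflect (fun j => q ^ (j + 1) - 1) n,
    ← Finset.prod_mul_distrib]
  refine Finset.prod_congr rfl fun i hi => ?_
  rw [Finset.mem_range] at hi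
  rw [Nat.mul_sub, mul_one, ← pow_add, show i + (n - 1 - i + 1) = n by omega]

theorem prod_parity (a : ℕ → ℕ) (t : ℕ) : ∏ j ∈ Finset.range (2 * t), a (j + 1) =
    (∏ i ∈ Finset.range t, a (2 * i + 1)) * ∏ i ∈ Finset.range t, a (2 * (i + 1)) := by
  induction t with
  | zero => simp
  | succ t ih =>
    rw [Nat.mul_succ, Finset.prod_range_succ, Finset.prod_range_succ, ih, Finset.prod_range_succ,
      Finset.prod_range_succ, show 2 * (t + 1) = 2 * t + 1 + 1 by ring]
    ring

/-- The index is only divisible by primes dividing some `q ^ j - 1` with `j` odd, or the factor of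
`q ^ n - 1` complementary to the type. -/
theorem index_cases {n r : ℕ} [hrf : Fact r.Prime] (hr2 : r ≠ 2) (hn : 3 ≤ n) (hrq : ¬ r ∣ Fintype.card F)
    (h2 : (2 : F) ≠ 0) {H : Subgroup (GL (Fin n) F)} {Q : QuadraticForm F (Fin n → F)} (hQ : Nd Q)
    (hH : ∀ g ∈ Cfsg.Geo.specialLinear (Fin n) F, (∀ v, Q ((g : Matrix (Fin n) (Fin n) F) *ᵥ v) = Q v) → g ∈ H)
    (hr : r ∣ H.relIndex (Cfsg.Geo.specialLinear (Fin n) F)) :
    (∃ j, Odd j ∧ j ≤ n ∧ (Fintype.card F : ZMod r) ^ j = 1) ∨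
    (∃ k, n = 2 * (k + 1) ∧
      (((∃ e : (Fin (k + 1) ⊕ Fin (k + 1) → F) ≃ₗ[F] (Fin n → F), ∀ v, Q (e v) = plusQ (k + 1) F v) ∧
          (Fintype.card F : ZMod r) ^ (k + 1) = -1) ∨
        ((∃ ζ : F, Aniso 1 ζ ∧ ∃ e : ((Fin k ⊕ Fin k) ⊕ Fin 2 → F) ≃ₗ[F] (Fin n → F),
          ∀ v, Q (e v) = minusQ k 1 ζ v) ∧ (Fintype.card F : ZMod r) ^ (k + 1) = 1))) := by
  classical
  set q := Fintype.card F with hq
  have hrp : Prime r := Nat.prime_iff.1 Fact.out
  have hq1 : 1 < q := Fintype.one_lt_card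
  haveI : Nonempty (Fin n) := ⟨⟨0, by omega⟩⟩
  have hdvd : ∀ O, O ∣ 2 * Nat.card ↥(H ⊓ Cfsg.Geo.specialLinear (Fin n) F) →
      r * O ∣ 2 * (q ^ (∑ i ∈ Finset.range n, i) * ∏ j ∈ Finset.range n, (q ^ (j + 1) - 1)) := by
    intro O hO
    have h1 : r * O ∣ 2 * Nat.card (Cfsg.Geo.specialLinear (Fin n) F) := by
      have h3 := (H.subgroupOf (Cfsg.Geo.specialLinear (Fin n) F)).card_mul_index
      rw [← Subgroup.inf_subgroupOf_right, Nat.card_congr (Subgroup.subgroupOfEquivOfLe inf_le_right).toEquiv,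
        show ((H ⊓ Cfsg.Geo.specialLinear (Fin n) F).subgroupOf (Cfsg.Geo.specialLinear (Fin n) F)).index =
          H.relIndex (Cfsg.Geo.specialLinear (Fin n) F) by rw [Subgroup.inf_subgroupOf_right]; rfl] at h3
      rw [← h3, ← mul_assoc, mul_comm r]
      exact Nat.mul_dvd_mul hO hr
    refine h1.trans (Nat.mul_dvd_mul_left 2 ?_)
    have h4 := Subgroup.card_subgroup_dvd_card (Cfsg.Geo.specialLinear (Fin n) F)
    rwa [Matrix.card_GL_field, Fin.prod_univ_eq_prod_range (fun i => Fintype.card F ^ n - Fintype.card F ^ i) n,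
      ← hq, card_gl_split] at h4
  have hnq : ∀ a, ¬ r ∣ q ^ a := fun a h => hrq (hrp.dvd_of_dvd_pow h)
  have h2r : ¬ r ∣ 2 := fun h => hr2 ((Nat.prime_dvd_prime_iff_eq Fact.out Nat.prime_two).1 h)
  have hcast : ∀ j, r ∣ q ^ j - 1 → (q : ZMod r) ^ j = 1 := fun j h => by
    rw [← ZMod.natCast_eq_zero_iff, Nat.cast_sub (Nat.one_le_pow _ _ (by omega)), sub_eq_zero, Nat.cast_pow,
      Nat.cast_one] at h
    exact h
  rcases Nat.even_or_odd n with hev | ⟨k, hk⟩
  · obtain ⟨t, ht⟩ := hev.two_dvd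
    obtain ⟨k, rfl⟩ : ∃ k, t = k + 1 := ⟨t - 1, by omega⟩
    subst ht
    have hpos : 0 < ∏ i ∈ Finset.range k, (q ^ (2 * (i + 1)) - 1) :=
      Finset.prod_pos fun i _ => Nat.sub_pos_of_lt (Nat.one_lt_pow (by omega) hq1)
    have key : ∀ (X Y : ℕ), 0 < X → q ^ (2 * (k + 1)) - 1 = X * Y →
        r * (2 * q ^ ((k + 1) * k) * X * ∏ i ∈ Finset.range k, (q ^ (2 * (i + 1)) - 1)) ∣
          2 * (q ^ (∑ i ∈ Finset.range (2 * (k + 1)), i) * ∏ j ∈ Finset.range (2 * (k + 1)), (q ^ (j + 1) - 1)) →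
        (∃ j, Odd j ∧ j ≤ 2 * (k + 1) ∧ (q : ZMod r) ^ j = 1) ∨ r ∣ Y := by
      intro X Y hX hXY h
      rw [prod_parity (fun j => q ^ j - 1), Finset.prod_range_succ (f := fun i => q ^ (2 * (i + 1)) - 1), hXY] at h
      have h' : r * (X * ∏ i ∈ Finset.range k, (q ^ (2 * (i + 1)) - 1)) ∣
          (2 * q ^ (∑ i ∈ Finset.range (2 * (k + 1)), i) *
            ((∏ i ∈ Finset.range (k + 1), (q ^ (2 * i + 1) - 1)) * Y)) *
            (X * ∏ i ∈ Finset.range k, (q ^ (2 * (i + 1)) - 1)) :=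
        (Nat.mul_dvd_mul_left r ⟨2 * q ^ ((k + 1) * k), by ring⟩).trans (h.trans (dvd_of_eq (by ring)))
      have h1 := Nat.dvd_of_mul_dvd_mul_right (Nat.mul_pos hX hpos) h'
      rcases hrp.dvd_mul.1 h1 with h1 | h1
      · rcases hrp.dvd_mul.1 h1 with h1 | h1
        · exact absurd h1 h2r
        · exact absurd h1 (hnq _)
      rcases hrp.dvd_mul.1 h1 with h1 | h1
      · obtain ⟨i, hi, h2'⟩ := (Prime.dvd_finsetProd_iff hrp _).1 h1
        rw [Finset.mem_range] at hi
        exact Or.inl ⟨2 * i + 1, odd_two_mul_add_one i, by omega, hcast _ h2'⟩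
      · exact Or.inr h1
    have hsq : q ^ (2 * (k + 1)) - 1 = (q ^ (k + 1) - 1) * (q ^ (k + 1) + 1) := by
      rw [mul_comm (q ^ (k + 1) - 1), ← Nat.sq_sub_sq (q ^ (k + 1)) 1, ← pow_mul, one_pow, mul_comm (k + 1)]
    have hfin : finrank F (Fin (2 * (k + 1)) → F) = 2 * k + 2 := by rw [finrank_fin_fun]; ring
    rcases exists_normal_even k hQ hfin with ⟨e, he⟩ | ⟨ζ, hζ, e, he⟩
    · have he' : ∀ v, Q (e v) = plusQ (k + 1) F v := fun v => (he v).trans (plusQ_apply _ v).symm
      have hd := dvd_two_mul_card (H := H) (R := Cfsg.quadFormPlus (k + 1) F) e (s := 1)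
        (fun v => by rw [one_mul]; exact he v) (fun g hg => det_sq_of_iso (plusQ (k + 1) F) (nd_plusQ _)
          (by rw [show ⇑(plusQ (k + 1) F) = Cfsg.quadFormPlus (k + 1) F from funext fun v => plusQ_apply _ v]; exact hg)) hH
      rw [card_O_plus, ← hq] at hd
      rcases key _ _ (Nat.sub_pos_of_lt (Nat.one_lt_pow (by omega) hq1)) hsq (hdvd _ hd) with h | h
      · exact Or.inl h
      · refine Or.inr ⟨k, rfl, Or.inl ⟨⟨e, he'⟩, ?_⟩⟩
        rw [← ZMod.natCast_eq_zero_iff] at h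
        push_cast at h
        linear_combination h
    · have he' : ∀ v, Q (e v) = minusQ k 1 ζ v := fun v => (he v).trans (minusQ_apply _ _ _ v).symm
      have hd := dvd_two_mul_card (H := H) (R := Cfsg.quadFormMinus k F 1 ζ) e (s := 1)
        (fun v => by rw [one_mul]; exact he v) (fun g hg => det_sq_of_iso (minusQ k 1 ζ) (nd_minusQ hζ k)
          (by rw [show ⇑(minusQ k 1 ζ) = Cfsg.quadFormMinus k F 1 ζ from funext fun v => minusQ_apply _ _ _ v]; exact hg)) hH
      rw [card_O_minus hζ, ← hq] at hd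
      rcases key _ _ (Nat.succ_pos _) (hsq.trans (mul_comm _ _)) (hdvd _ hd) with h | h
      · exact Or.inl h
      · exact Or.inr ⟨k, rfl, Or.inr ⟨⟨ζ, hζ, e, he'⟩, hcast _ h⟩⟩
  · subst hk
    obtain ⟨d, hd0, e, he⟩ := exists_normal_odd k hQ (by rw [finrank_fin_fun])
    let φ : (Unit ⊕ (Fin k ⊕ Fin k) → F) ≃ₗ[F] (Unit ⊕ (Fin k ⊕ Fin k) → F) :=
      { toFun := fun v => Sum.elim (fun u => v (.inl u)) (Sum.elim (fun j => d * v (.inr (.inl j))) fun j => v (.inr (.inr j)))
        invFun := fun v => Sum.elim (fun u => v (.inl u)) (Sum.elim (fun j => d⁻¹ * v (.inr (.inl j))) fun j => v (.inr (.inr j)))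
        left_inv := fun v => by ext (u | j | j) <;> simp [hd0]
        right_inv := fun v => by ext (u | j | j) <;> simp [hd0]
        map_add' := fun v v' => by ext (u | j | j) <;> simp [mul_add]
        map_smul' := fun c v => by ext (u | j | j) <;> simp [mul_left_comm] }
    have hd := dvd_two_mul_card (H := H) (R := Cfsg.quadFormOdd k F) (φ.trans e) (s := d)
      (fun v => by
        rw [LinearEquiv.trans_apply, he]
        simp [φ, Cfsg.quadFormOdd, mul_add, Finset.mul_sum, mul_assoc])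
      (fun g hg => by
        let R' : QuadraticForm F (Unit ⊕ (Fin k ⊕ Fin k) → F) := Q.comp (φ.trans e).toLinearMap
        refine det_sq_of_iso R' (fun x hx => (φ.trans e).injective ?_) fun v w => ?_
        · rw [map_zero]
          exact hQ _ fun y => by
            have := hx ((φ.trans e).symm y)
            rw [← (φ.trans e).apply_symm_apply y]
            simpa [R', polar, QuadraticMap.comp_apply, map_add] using this
        · have hR' : ∀ v, R' v = d * Cfsg.quadFormOdd k F v := fun v => by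
            show Q (e (φ v)) = _
            rw [he]
            simp [φ, Cfsg.quadFormOdd, mul_add, Finset.mul_sum, mul_assoc]
          show R' _ = R' _
          rw [hR', hR']
          exact congrArg (d * ·) (hg v w)) hH
    rw [card_O_odd h2, ← hq] at hd
    have h := hdvd _ hd
    rw [Finset.prod_range_succ (f := fun j => q ^ (j + 1) - 1), prod_parity (fun j => q ^ j - 1)] at h
    have hpos : 0 < ∏ i ∈ Finset.range k, (q ^ (2 * (i + 1)) - 1) :=
      Finset.prod_pos fun i _ => Nat.sub_pos_of_lt (Nat.one_lt_pow (by omega) hq1)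
    have h' : r * ∏ i ∈ Finset.range k, (q ^ (2 * (i + 1)) - 1) ∣
        (2 * q ^ (∑ i ∈ Finset.range (2 * k + 1), i) *
          ((∏ i ∈ Finset.range k, (q ^ (2 * i + 1) - 1)) * (q ^ (2 * k + 1) - 1))) *
          ∏ i ∈ Finset.range k, (q ^ (2 * (i + 1)) - 1) :=
      (Nat.mul_dvd_mul_left r (dvd_mul_left _ _)).trans (h.trans (dvd_of_eq (by ring)))
    have h1 := Nat.dvd_of_mul_dvd_mul_right hpos h'
    rcases hrp.dvd_mul.1 h1 with h1 | h1
    · rcases hrp.dvd_mul.1 h1 with h1 | h1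
      · exact absurd h1 h2r
      · exact absurd h1 (hnq _)
    rcases hrp.dvd_mul.1 h1 with h1 | h1
    · obtain ⟨i, hi, h2'⟩ := (Prime.dvd_finsetProd_iff hrp _).1 h1
      rw [Finset.mem_range] at hi
      exact Or.inl ⟨2 * i + 1, odd_two_mul_add_one i, by omega, hcast _ h2'⟩
    · exact Or.inl ⟨2 * k + 1, odd_two_mul_add_one k, le_rfl, hcast _ h1⟩

end Cfsg.Agent.Lib.Elusive.OrthIndex
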