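import Cfsg.Agent.Lib.Elusive.OrthStep
import Cfsg.Agent.Lib.Elusive.OrthClasses

/-!
Elements of odd prime order of the odd-dimensional orthogonal groups and their invariant non-degenerate
subspaces of even dimension and given type.
-/

set_option autoImplicit false
set_option maxHeartbeats 800000

namespace Cfsg.Agent.Lib.Elusive.OrthOdd

open Module Polynomial QuadraticMap Cfsg.Agent.Lib.Classical.Quad Cfsg.Agent.Lib.Classical.QuadOmega
open Cfsg.Agent.Lib.Classical.OrthTorsion Cfsg.Agent.Lib.Elusive.OrthType Cfsg.Agent.Lib.Elusive.OrthClasses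
open Cfsg.Agent.Lib.Elusive.OrthStep
open Cfsg.Agent.Lib.Elusive.SympStep (fixedSpace mem_fixed cOf)
open scoped Matrix

universe u

variable {F : Type u} [Field F] {d : ℕ}

theorem coe_oddQ (d : ℕ) (F : Type u) [Field F] : ⇑(oddQ d F) = Cfsg.quadFormOdd d F := funext (oddQ_apply d)

theorem finrank_odd (d : ℕ) : finrank F (Unit ⊕ (Fin d ⊕ Fin d) → F) = 2 * d + 1 := by
  simp [Module.finrank_pi]; ring

theorem nd_oddQ (h2 : (2 : F) ≠ 0) : Nd (oddQ d F) :=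
  nd_map (eOdd d) (fun v => by rw [oddQ_apply, odd_apply]) (nd_splitQ (nd_sqQ h2) d)

theorem geo_iff {ι : Type} (Q : QuadraticForm F (ι → F)) [Fintype ι] (W : Submodule F (ι → F)) :
    Cfsg.Geo.IsNondegenerateOn (QuadraticMap.polar ⇑Q) W ↔ NdOn Q W := by
  constructor
  · intro h x hx hall
    by_contra h0
    obtain ⟨⟨y, hy, hne⟩, -⟩ := h x hx h0
    exact hne (by rw [polar_comm]; exact hall y hy)
  · intro h x hx h0
    have : ∃ y ∈ W, polar Q x y ≠ 0 := by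
      by_contra hc
      push Not at hc
      exact h0 (h x hx hc)
    obtain ⟨y, hy, hne⟩ := this
    exact ⟨⟨y, hy, by rwa [polar_comm]⟩, ⟨y, hy, hne⟩⟩

theorem iso_of_omega {ι : Type} [Fintype ι] [DecidableEq ι] {f : (ι → F) → F} {x : GL ι F}
    (hx : x ∈ Cfsg.Geo.omegaGL f) (v : ι → F) : f ((x : Matrix ι ι F) *ᵥ v) = f v := by
  obtain ⟨g, -, rfl⟩ := Subgroup.mem_map.1 hx
  exact g.2 v v

variable [Fintype F]

theorem cast_q_ne {p r : ℕ} [Fact p.Prime] [CharP F p] [Fact r.Prime] (hrp : r ≠ p) :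
    ¬ r ∣ Fintype.card F := fun h => by
  obtain ⟨e, -, he⟩ := FiniteField.card F p
  rw [he] at h
  exact hrp ((Nat.prime_dvd_prime_iff_eq Fact.out Fact.out).1 ((Fact.out : r.Prime).dvd_of_dvd_pow h))

theorem card_iso_odd (h2 : (2 : F) ≠ 0) {V : Type u} [AddCommGroup V] [Module F V] [FiniteDimensional F V]
    {Q : QuadraticForm F V} {W : Submodule F V} (hW : NdOn Q W) {k : ℕ} (hd : finrank F W = 2 * k + 1) :
    Nat.card (isoG (Q.comp W.subtype)) =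
      2 * Fintype.card F ^ (k ^ 2) * ∏ i ∈ Finset.range k, (Fintype.card F ^ (2 * (i + 1)) - 1) := by
  obtain ⟨t, ht, e, he⟩ := odd_model hW hd
  rw [← card_O_odd h2 k, ← coe_oddQ, card_isometryGroup (Q := oddQ k F) _ (LinearEquiv.refl F _) (fun v => rfl),
    ← card_isoG_congr (Q := t • oddQ k F) (R := Q.comp W.subtype) e fun v => he v]
  refine Nat.card_congr (Equiv.subtypeEquivRight fun g => ?_)
  refine ⟨fun h v => mul_left_cancel₀ ht (h v), fun h v => ?_⟩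
  exact congrArg (t * ·) (h v)

/-- The bound forced by the divisibility of the number of subspaces. -/
theorem bound (h2 : (2 : F) ≠ 0) {p r : ℕ} [Fact p.Prime] [CharP F p] [Fact r.Prime] (hrp : r ≠ p)
    {a : ℕ} (ha1 : 1 ≤ a) (ha : 2 * a ≤ 2 * d) (b : Prop) {c : ℕ}
    (hc : c = cOf (orderOf (Fintype.card F : ZMod r)))
    (hdiv : r ∣ Nat.card {W : Submodule F (Unit ⊕ (Fin d ⊕ Fin d) → F) //
      finrank F W = 2 * a ∧ NdOn (oddQ d F) W ∧ (Plus (oddQ d F) W ↔ b)}) :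
    (2 * d) % c < 2 * a ∧ c ≤ 2 * d := by
  set Q := oddQ d F
  have hr : r.Prime := Fact.out
  have hQ : Nd Q := nd_oddQ h2
  rcases isEmpty_or_nonempty {W : Submodule F (Unit ⊕ (Fin d ⊕ Fin d) → F) //
      finrank F W = 2 * a ∧ NdOn Q W ∧ (Plus Q W ↔ b)} with hE | ⟨⟨W₀, hd₀, hn₀, hp₀⟩⟩
  · exfalso
    obtain ⟨U, -, hU, hUd, hUp⟩ := exists_sub (ndOn_top hQ) (a := a) ha1
      (by rw [finrank_top, finrank_odd]; omega) b
    exact hE.false ⟨U, hUd, hU, hUp⟩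
  let e : {W : Submodule F (Unit ⊕ (Fin d ⊕ Fin d) → F) // finrank F W = 2 * a ∧ NdOn Q W ∧ (Plus Q W ↔ b)} ≃
      Cls Q W₀ := Equiv.subtypeEquivRight fun W => by
    constructor
    · rintro ⟨h1, h2', h3⟩
      exact ⟨h2', isomOn_of_plus_iff h2' hn₀ (by rw [h1]; exact even_two_mul a) (by rw [h1, hd₀]) (h3.trans hp₀.symm)⟩
    · rintro ⟨h1, h2'⟩
      exact ⟨h2'.finrank_eq.trans hd₀, h1, (⟨h2'.plus, h2'.symm.plus⟩ : Plus Q W ↔ Plus Q W₀).trans hp₀⟩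
  obtain ⟨hBn, -, hBd⟩ := ndOn_split hn₀ (ndOn_top hQ) le_top
  rw [finrank_top, finrank_odd, hd₀] at hBd
  haveI : Finite (Unit ⊕ (Fin d ⊕ Fin d) → F) := Pi.finite
  have h := card_cls_dvd hQ hn₀
  rw [card_iso_odd h2 hBn (k := d - a) (by omega), ← Nat.card_congr e,
    ← card_isometryGroup (Q := Q) ⇑Q (LinearEquiv.refl F _) (fun v => rfl), coe_oddQ, card_O_odd h2,
    ← Finset.prod_range_mul_prod_Ico (fun i => Fintype.card F ^ (2 * (i + 1)) - 1) (show d - a ≤ d from Nat.sub_le _ _)] at h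
  have hP : 0 < ∏ i ∈ Finset.range (d - a), (Fintype.card F ^ (2 * (i + 1)) - 1) :=
    Finset.prod_pos fun i _ => Nat.sub_pos_of_lt (Nat.one_lt_pow (by omega) Fintype.one_lt_card)
  have h' : Nat.card {W : Submodule F (Unit ⊕ (Fin d ⊕ Fin d) → F) //
      finrank F W = 2 * a ∧ NdOn Q W ∧ (Plus Q W ↔ b)} * Fintype.card F ^ ((d - a) ^ 2) ∣
      Fintype.card F ^ (d ^ 2) * ∏ i ∈ Finset.Ico (d - a) d, (Fintype.card F ^ (2 * (i + 1)) - 1) := by
    refine Nat.dvd_of_mul_dvd_mul_left (Nat.mul_pos (show 0 < 2 by norm_num) hP) ?_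
    convert h using 1 <;> ring
  rcases hr.dvd_mul.1 ((dvd_mul_of_dvd_left hdiv _).trans h') with h1 | h1
  · exact absurd (hr.dvd_of_dvd_pow h1) (cast_q_ne hrp)
  obtain ⟨j, hj, hjd⟩ := (Prime.dvd_finsetProd_iff (Nat.prime_iff.1 hr) _).1 h1
  rw [Finset.mem_Ico] at hj
  rw [← ZMod.natCast_eq_zero_iff, Nat.cast_sub (Nat.one_le_pow _ _ Fintype.card_pos), sub_eq_zero,
    Nat.cast_pow, Nat.cast_one] at hjd
  have h3 := orderOf_dvd_of_pow_eq_one hjd
  have hcd : c ∣ 2 * (j + 1) := by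
    rw [hc, cOf]
    split_ifs with he
    · exact h3
    · exact (Nat.coprime_two_left.2 (Nat.not_even_iff_odd.1 he)).mul_dvd_of_dvd_of_dvd (dvd_mul_right 2 _) h3
  refine ⟨?_, (Nat.le_of_dvd (by omega) hcd).trans (by omega)⟩
  obtain ⟨u, hu⟩ := hcd
  rw [show 2 * d = 2 * (d - (j + 1)) + c * u by omega, Nat.add_mul_mod_self_left]
  exact (Nat.mod_le _ _).trans_lt (by omega)

/-- Every element of odd prime order `r` fixes a subspace of the given type exactly under the arithmetic condition. -/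
theorem main (h2 : (2 : F) ≠ 0) {p r : ℕ} [Fact p.Prime] [CharP F p] [Fact r.Prime] (hrp : r ≠ p) (hr2 : r ≠ 2)
    {a : ℕ} (ha1 : 1 ≤ a) (ha : a ≤ d) (b : Prop) {i c : ℕ} (hi : i = orderOf (Fintype.card F : ZMod r))
    (hc : c = cOf i)
    (hdiv : r ∣ Nat.card {W : Submodule F (Unit ⊕ (Fin d ⊕ Fin d) → F) //
      finrank F W = 2 * a ∧ NdOn (oddQ d F) W ∧ (Plus (oddQ d F) W ↔ b)}) :
    (∀ x : GL (Unit ⊕ (Fin d ⊕ Fin d)) F, x ∈ Cfsg.Geo.omegaGL (Cfsg.quadFormOdd d F) → orderOf x = r →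
      ∃ W : Submodule F (Unit ⊕ (Fin d ⊕ Fin d) → F), (finrank F W = 2 * a ∧ NdOn (oddQ d F) W ∧
        (Plus (oddQ d F) W ↔ b)) ∧ Inv (Matrix.toLin' (x : Matrix (Unit ⊕ (Fin d ⊕ Fin d)) (Unit ⊕ (Fin d ⊕ Fin d)) F)) W) ↔
    (c ≤ 2 * a ∧ (2 * a) % c < (2 * d + 1) % c ∧ ((2 * a) % c = 0 → (b ↔ (¬ Even i ∨ Even ((2 * a) / c))))) := by
  subst hi
  have hr : r.Prime := Fact.out
  set Q := oddQ d F
  have hQ : Nd Q := nd_oddQ h2
  obtain ⟨hκ, hcle⟩ := bound h2 hrp ha1 (by omega) b hc hdiv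
  have hi0 : 0 < orderOf (Fintype.card F : ZMod r) :=
    i_pos (p := p) (q := Fintype.card F) (r := r) rfl hr hrp rfl
  have hc0 : 0 < c := by rw [hc, cOf]; split_ifs <;> omega
  obtain ⟨c', hc'⟩ : ∃ c', c = 2 * c' := (hc ▸ SympStep.cOf_even _ : Even c).two_dvd
  have hk : (2 * d + 1) % c = 2 * d % c + 1 := by
    obtain ⟨e, he⟩ : 2 ∣ 2 * d % c := (Nat.dvd_mod_iff ⟨c', hc'⟩).2 (dvd_mul_right 2 d)
    rw [Nat.add_mod, Nat.mod_eq_of_lt (show 1 < c by omega),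
      Nat.mod_eq_of_lt (show 2 * d % c + 1 < c by have := Nat.mod_lt (2 * d) hc0; omega)]
  obtain ⟨e, he⟩ : 2 ∣ 2 * a % c := (Nat.dvd_mod_iff ⟨c', hc'⟩).2 (dvd_mul_right 2 a)
  obtain ⟨f, hf⟩ : 2 ∣ 2 * d % c := (Nat.dvd_mod_iff ⟨c', hc'⟩).2 (dvd_mul_right 2 d)
  constructor
  · intro hall
    set u := (2 * d + 1) / c
    have hsum : c * u + (2 * d + 1) % c = 2 * d + 1 := Nat.div_add_mod _ c
    have hw : orderOf (Fintype.card F : ZMod r) ∣ 2 * (c' * u) := by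
      refine dvd_trans ?_ (show c ∣ 2 * (c' * u) from ⟨u, by rw [hc']; ring⟩)
      rw [hc, cOf]; split_ifs
      · exact dvd_rfl
      · exact dvd_mul_left _ 2
    obtain ⟨P, P', hP, hPP, h1⟩ := exists_poly (F := F) (p := p) hrp hr2 hw ((2 * d + 1) % c)
    rw [show 2 * (c' * u) + (2 * d + 1) % c = 2 * d + 1 by rw [← mul_assoc, ← hc']; exact hsum] at hP
    have hreal := real_odd_exists (p := p) (q := Fintype.card F) rfl hr hr2 hrp rfl h2 (m := d) hP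
    obtain ⟨x, hx, hxo, -, S, hC⟩ := exists_elt hQ (reg_of_two_ne_zero h2) hrp hr2 hreal hPP h1
      (by simp only [Fintype.card_sum, Fintype.card_unit, Fintype.card_fin]; omega)
    rw [coe_oddQ] at hx
    obtain ⟨W, ⟨hWd, hWn, hWp⟩, hWi⟩ := hall x hx hxo
    obtain ⟨hCn, hRn, ho, hsup, hRi, hRC, hdim⟩ := OrthStep.split S hWi hWn
    obtain ⟨w, hw', htype⟩ := fpf_type S hRi hRn hRC
    rw [← hc] at hw'
    have hle := Submodule.finrank_mono (inf_le_right : W ⊓ fixedSpace _ ≤ fixedSpace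
      (Matrix.toLin' (x : Matrix (Unit ⊕ (Fin d ⊕ Fin d)) (Unit ⊕ (Fin d ⊕ Fin d)) F)))
    rw [hWd, hw'] at hdim
    set ρ := finrank F (W ⊓ fixedSpace (Matrix.toLin' (x : Matrix (Unit ⊕ (Fin d ⊕ Fin d)) (Unit ⊕ (Fin d ⊕ Fin d)) F)) :
      Submodule F (Unit ⊕ (Fin d ⊕ Fin d) → F))
    have hρc : ρ < c := by have := Nat.mod_lt (2 * d + 1) hc0; omega
    have hmod : 2 * a % c = ρ := by
      rw [hdim, Nat.add_mul_mod_self_right, Nat.mod_eq_of_lt hρc]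
    have hdiv' : 2 * a / c = w := by
      rw [hdim, Nat.add_mul_div_right _ _ hc0, Nat.div_eq_of_lt hρc, zero_add]
    have hlt : 2 * a % c < (2 * d + 1) % c := by omega
    refine ⟨?_, hlt, fun h0 => ?_⟩
    · by_contra hcon
      rw [Nat.mod_eq_of_lt (show 2 * a < c by omega)] at hlt
      omega
    rw [h0] at hmod
    have hWR : W ⊓ moved (Matrix.toLin' (x : Matrix (Unit ⊕ (Fin d ⊕ Fin d)) (Unit ⊕ (Fin d ⊕ Fin d)) F)) r = W := by
      conv_rhs => rw [← hsup]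
      rw [Submodule.finrank_eq_zero.1 hmod.symm, bot_sup_eq]
    rw [hWR] at htype
    rw [hdiv']
    exact hWp.symm.trans htype
  · rintro ⟨hca, hlt, htyp⟩ x hx hxo
    set y := Matrix.toLin' (x : Matrix (Unit ⊕ (Fin d ⊕ Fin d)) (Unit ⊕ (Fin d ⊕ Fin d)) F)
    have S : Setting Q y r p := ⟨fun v => by rw [Matrix.toLin'_apply, coe_oddQ]; exact iso_of_omega hx v,
      fun v => by
        rw [← Matrix.toLin'_pow, ← Units.val_pow_eq_pow_val, ← hxo, pow_orderOf_eq_one, Units.val_one,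
          Matrix.toLin'_one]
        rfl, hrp, hr2⟩
    obtain ⟨hCn, hRn, ho, -, hRi, hRC, hdim⟩ := OrthStep.split S (W := ⊤) (fun _ _ => trivial) (ndOn_top hQ)
    obtain ⟨u, hu, -⟩ := fpf_type S hRi hRn hRC
    rw [← hc] at hu
    rw [finrank_top, finrank_odd, hu] at hdim
    set s := finrank F (⊤ ⊓ fixedSpace y : Submodule F (Unit ⊕ (Fin d ⊕ Fin d) → F))
    have hks : (2 * d + 1) % c ≤ s := by
      rw [hdim, Nat.add_mul_mod_self_right]; exact Nat.mod_le _ _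
    set w := min (2 * a / c) u with hw
    have hwa : w * c ≤ 2 * a := (Nat.mul_le_mul_right c (min_le_left _ _)).trans (Nat.div_mul_le_self _ c)
    obtain ⟨U, hUR, hUi, hUn, hUd⟩ := exists_fpf_sub S hRi hRn hRC (w := w)
      (by rw [← hc, hu]; exact Nat.mul_le_mul_right c (min_le_right _ _))
    rw [← hc] at hUd
    have hUC : U ⊓ fixedSpace y = ⊥ := eq_bot_iff.2 ((inf_le_inf_right _ hUR).trans hRC.le)
    obtain ⟨w', hw', hUp⟩ := fpf_type S hUi hUn hUC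
    rw [← hc, hUd] at hw'
    obtain rfl : w = w' := Nat.eq_of_mul_eq_mul_right hc0 hw'
    have hmdm : 2 * a / c * c + 2 * a % c = 2 * a := by rw [mul_comm]; exact Nat.div_add_mod _ c
    obtain ⟨ρ, hρ⟩ : ∃ ρ, 2 * a = w * c + 2 * ρ := ⟨a - w * c', by
      have : w * c = 2 * (w * c') := by rw [hc']; ring
      omega⟩
    have hρs : 2 * ρ < s := by
      rcases le_total (2 * a / c) u with h | h
      · rw [hw, min_eq_left h] at hρ; omega
      · rw [hw, min_eq_right h] at hρ; omega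
    rcases Nat.eq_zero_or_pos ρ with hρ0 | hρ0
    · refine ⟨U, ⟨by omega, hUn, hUp.trans ?_⟩, hUi⟩
      have h0 : 2 * a % c = 0 := by rw [hρ, hρ0, Nat.mul_zero, Nat.add_zero, Nat.mul_mod_left]
      have hwe : w = 2 * a / c := by rw [hρ, hρ0, Nat.mul_zero, Nat.add_zero, Nat.mul_div_cancel _ hc0]
      rw [hwe]
      exact (htyp h0).symm
    · obtain ⟨T, hTC, hn, hd', hp'⟩ := sup_type hUn hCn (ho.symm.mono hUR le_rfl)
        (by rw [hUd, hc']; exact ⟨w * c', by ring⟩) hρ0 hρs b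
      exact ⟨U ⊔ T, ⟨by rw [hd', hUd, ← hρ], hn, hp'⟩,
        hUi.sup (SympStep.fixed_inv (y := y) T (hTC.trans inf_le_right))⟩

/-- Involutions fix subspaces of both types. -/
theorem main_two (h2 : (2 : F) ≠ 0) {a : ℕ} (ha1 : 1 ≤ a) (ha : a ≤ d) (b : Prop)
    (x : GL (Unit ⊕ (Fin d ⊕ Fin d)) F) (hx : x ∈ Cfsg.Geo.omegaGL (Cfsg.quadFormOdd d F)) (hxo : orderOf x = 2) :
    ∃ W : Submodule F (Unit ⊕ (Fin d ⊕ Fin d) → F), (finrank F W = 2 * a ∧ NdOn (oddQ d F) W ∧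
      (Plus (oddQ d F) W ↔ b)) ∧ Inv (Matrix.toLin' (x : Matrix (Unit ⊕ (Fin d ⊕ Fin d)) (Unit ⊕ (Fin d ⊕ Fin d)) F)) W := by
  obtain ⟨W₁, W₂, i₁, i₂, n₁, n₂, d₁, d₂, hne⟩ := invol_two (nd_oddQ (d := d) h2) h2
    (X := Matrix.toLin' (x : Matrix (Unit ⊕ (Fin d ⊕ Fin d)) (Unit ⊕ (Fin d ⊕ Fin d)) F))
    (fun v => by rw [Matrix.toLin'_apply, coe_oddQ]; exact iso_of_omega hx v)
    (fun v => by
      rw [Matrix.toLin'_apply, Matrix.toLin'_apply, Matrix.mulVec_mulVec, ← Units.val_mul, ← pow_two, ← hxo,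
        pow_orderOf_eq_one, Units.val_one, Matrix.one_mulVec])
    (m := 2 * a) (by omega) (by rw [finrank_odd]; omega) (Or.inl (by omega))
  have h := plus_iff_not_of_not_isom n₁ n₂ (by rw [d₁]; exact even_two_mul a) (by rw [d₁, d₂]) hne
  by_cases hb : Plus (oddQ d F) W₁ ↔ b
  · exact ⟨W₁, ⟨d₁, n₁, hb⟩, i₁⟩
  · exact ⟨W₂, ⟨d₂, n₂, by tauto⟩, i₂⟩

end Cfsg.Agent.Lib.Elusive.OrthOdd
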