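import Cfsg.Agent.Lib.Elusive.OrthSingBad

/-!
The arithmetic of invariant totally singular subspaces.
-/

set_option autoImplicit false
set_option maxHeartbeats 800000

namespace Cfsg.Agent.Lib.Elusive.OrthSingTS

/-- An element with `u` pieces and fixed dimension `s` of plus type exactly when `C` fixes an `m`-space. -/
def Good (i m s u t : ℕ) (C : Prop) : Prop :=
  ∃ e, e ≤ eMax i u t ∧ e * i ≤ m ∧ 2 * (m - e * i) ≤ s ∧ (2 * (m - e * i) = s → C)

theorem good_congr {i m s u t : ℕ} {C D : Prop} (h : 2 ∣ s → (C ↔ D)) : Good i m s u t C ↔ Good i m s u t D := by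
  refine exists_congr fun e => and_congr_right fun _ => and_congr_right fun _ => and_congr_right fun _ => ?_
  exact forall_congr' fun he => h ⟨_, he.symm⟩

/-- No element can be good when the pieces are larger than `m` and the fixed space is small. -/
theorem not_good_small {i m s u t : ℕ} {C : Prop} (h : m < i) (hs : s ≤ 2 * m) (hC : s = 2 * m → ¬ C) :
    ¬ Good i m s u t C := by
  rintro ⟨e, -, he, hle, heq⟩
  rcases Nat.eq_zero_or_pos e with rfl | he0
  · rw [Nat.zero_mul, Nat.sub_zero] at hle heq
    exact hC (le_antisymm hs hle) (heq (le_antisymm hle hs))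
  · have := Nat.le_mul_of_pos_left i he0
    omega

/-- The criterion for even `i`. -/
theorem even_iff' {i m n t : ℕ} (P : ℕ → Prop) (hP : ∀ u, P (u + 1) ↔ ¬ P u) (hie : Even i) (hi : 2 ≤ i)
    (him : i ≤ m) (hmn : 2 * m ≤ n) (ht : 1 ≤ t) :
    (∀ u s, 1 ≤ u → n = u * i + s → (s = 0 → P u) → Good i m s u t (P u)) ↔
      (t + 2 * (m / i) ≤ n / i ∧ ((P (n / i) ∧ 2 * (m % i) ≤ n % i) ∨ (¬ P (n / i) ∧
        2 * (m % i) ≤ n % i + i ∧ (0 < n % i → 2 * (m % i) < n % i) ∧
        (n % i = 0 → t + 2 * (m / i) < n / i)))) := by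
  have hn := Nat.div_add_mod n i
  have hm := Nat.div_add_mod m i
  have hk := Nat.mod_lt n (show i > 0 by omega)
  have hl := Nat.mod_lt m (show i > 0 by omega)
  have hU : 2 ≤ n / i := (Nat.le_div_iff_mul_le (by omega)).2 (by omega)
  have hM : 1 ≤ m / i := (Nat.le_div_iff_mul_le (by omega)).2 (by omega)
  generalize n / i = U at *
  generalize m / i = M at *
  generalize n % i = k at *
  generalize m % i = l at *
  have hEM : ∀ u, eMax i u t = (u + 1 - t) / 2 := fun u => if_pos hie
  have top : ∀ e, e * i ≤ m → e ≤ M := fun e he => by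
    by_contra h
    have := Nat.mul_le_mul_right i (show M + 1 ≤ e by omega)
    rw [Nat.add_mul, Nat.one_mul, Nat.mul_comm M i] at this
    omega
  have low : ∀ e, e < M → i + l + e * i ≤ m := fun e he => by
    have := Nat.mul_le_mul_right i (show e + 1 ≤ M by omega)
    rw [Nat.add_mul, Nat.one_mul, Nat.mul_comm M i] at this
    omega
  constructor
  · intro H
    obtain ⟨U', rfl⟩ : ∃ U', U = U' + 2 := ⟨U - 2, by omega⟩
    have e1 : i * (U' + 2) = (U' + 1) * i + i := by ring
    have e2 : i * (U' + 2) = U' * i + 2 * i := by ring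
    obtain ⟨e, he, hei, hle, heq⟩ := H (U' + 1) (k + i) (by omega) (by omega) fun h => by omega
    rw [hEM] at he
    have heM : e = M := by
      have := top e hei
      by_contra hne
      have := low e (by omega)
      omega
    subst heM
    rw [Nat.mul_comm e i] at hei hle heq
    have hPU : P (U' + 2) ↔ ¬ P (U' + 1) := hP _
    refine ⟨by omega, ?_⟩
    by_cases hp : P (U' + 2)
    · obtain ⟨e', -, hei', hle', -⟩ := H (U' + 2) k (by omega) (by rw [Nat.mul_comm]; omega) fun _ => hp
      refine Or.inl ⟨hp, ?_⟩
      have := top e' hei'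
      rcases Nat.lt_or_ge e' e with h | h
      · have := low e' h; omega
      · rw [show e' = e by omega, Nat.mul_comm e i] at hle'
        omega
    · refine Or.inr ⟨hp, by omega, fun hk0 => ?_, fun hk0 => ?_⟩
      · obtain ⟨e', -, hei', hle', heq'⟩ := H (U' + 2) k (by omega) (by rw [Nat.mul_comm]; omega) fun h => by omega
        have := top e' hei'
        rcases Nat.lt_or_ge e' e with h | h
        · have := low e' h; omega
        · rw [show e' = e by omega, Nat.mul_comm e i] at hle' heq'
          exact lt_of_le_of_ne (by omega) fun hh => hp (heq' (by omega))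
      · have hp0 : ¬ P U' := fun h => hp (hPU.2 fun h1 => (hP U').1 h1 h)
        have hU1 : 1 ≤ U' := by omega
        obtain ⟨e', he', hei', hle', heq'⟩ := H U' (2 * i) hU1 (by omega) fun h => by omega
        rw [hEM] at he'
        have := top e' hei'
        rcases Nat.lt_or_ge e' e with h | h
        · have := low e' h
          exact absurd (heq' (by omega)) hp0
        · omega
  · rintro ⟨htM, hcase⟩ u s hu hn' hs0
    have huU : u ≤ U := by
      by_contra h
      have := Nat.mul_le_mul_right i (show U + 1 ≤ u by omega)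
      rw [Nat.add_mul, Nat.one_mul, Nat.mul_comm U i] at this
      omega
    obtain ⟨j, rfl⟩ : ∃ j, U = u + j := ⟨U - u, by omega⟩
    have hs : s = k + j * i := by
      rw [Nat.mul_add, Nat.mul_comm i u, Nat.mul_comm i j] at hn
      omega
    have hpar : ∀ j, P (u + j) ↔ (P u ↔ Even j) := by
      intro j
      induction j with
      | zero => simp
      | succ j ih =>
        rw [← Nat.add_assoc, hP, ih, Nat.even_add_one]
        tauto
    rw [hpar] at hcase
    refine ⟨min M ((u + 1 - t) / 2), by rw [hEM]; exact min_le_right _ _, ?_, ?_⟩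
    · exact (Nat.mul_le_mul_right i (min_le_left _ _)).trans (by rw [Nat.mul_comm]; omega)
    generalize he : min M ((u + 1 - t) / 2) = e
    obtain ⟨g, hg⟩ : ∃ g, M = e + g := ⟨M - e, by omega⟩
    have hme : m - e * i = g * i + l := by
      rw [hg, Nat.mul_add, Nat.mul_comm i e, Nat.mul_comm i g] at hm
      omega
    rw [hme]
    rcases Nat.lt_or_ge j (2 * g) with hj | hj
    · omega
    · rcases Nat.eq_or_lt_of_le hj with hj' | hj'
      · -- all of the room is used
        obtain rfl : j = 2 * g := hj'.symm
        have hge : Even (2 * g) := even_two_mul g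
        simp only [hge, iff_true] at hcase
        rw [Nat.mul_assoc] at hs
        rcases hcase with ⟨hp, hl'⟩ | ⟨hp, hl', hlt, heq⟩
        · exact ⟨by omega, fun _ => hp⟩
        · rcases Nat.eq_zero_or_pos k with hk0 | hk0
          · have := heq hk0
            have hg0 : g = 0 := by omega
            subst hg0
            exact absurd (hs0 (by omega)) hp
          · have := hlt hk0
            exact ⟨by omega, fun h => by omega⟩
      · have hmul := Nat.mul_le_mul_right i (show 2 * g + 1 ≤ j from hj')
        rw [Nat.add_mul, Nat.one_mul, Nat.mul_assoc] at hmul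
        rcases Nat.eq_or_lt_of_le (show 2 * g + 1 ≤ j from hj') with hj1 | hj1
        · obtain rfl : j = 2 * g + 1 := hj1.symm
          have hge : ¬ Even (2 * g + 1) := by rw [Nat.even_iff]; omega
          simp only [hge, iff_false, not_not] at hcase
          rw [Nat.add_mul, Nat.one_mul, Nat.mul_assoc] at hs
          rcases hcase with ⟨hp, hl'⟩ | ⟨hp, hl', -, -⟩
          · exact ⟨by omega, fun h => by omega⟩
          · exact ⟨by omega, fun _ => hp⟩
        · have hmul2 := Nat.mul_le_mul_right i (show 2 * g + 2 ≤ j from hj1)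
          rw [Nat.add_mul, Nat.mul_assoc] at hmul2
          exact ⟨by omega, fun h => by omega⟩

/-- The criterion for odd `i`. -/
theorem odd_iff' {i m n t : ℕ} (P : Prop) (hio : ¬ Even i) (him : i ≤ m) (hmn : 2 * m ≤ n) (hP : 2 * m = n → P) :
    (∀ u s, 1 ≤ u → n = u * (2 * i) + s → (s = 0 → P) → Good i m s u t P) ↔
      ((P ∧ 2 * (m % i) ≤ n % (2 * i)) ∨ (¬ P ∧ (n % (2 * i) = 0 ∨ 2 * (m % i) < n % (2 * i)))) := by
  have hi : 1 ≤ i := Nat.pos_of_ne_zero fun h => hio (h ▸ Even.zero)
  have hn := Nat.div_add_mod n (2 * i)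
  have hm := Nat.div_add_mod m i
  have hk := Nat.mod_lt n (show 2 * i > 0 by omega)
  have hl := Nat.mod_lt m (show i > 0 by omega)
  have hU : 1 ≤ n / (2 * i) := (Nat.le_div_iff_mul_le (by omega)).2 (by omega)
  generalize n / (2 * i) = U at *
  generalize m / i = M at *
  generalize n % (2 * i) = k at *
  generalize m % i = l at *
  have hEM : ∀ u, eMax i u t = u := fun u => if_neg hio
  have top : ∀ e, e * i ≤ m → m - e * i ≥ l := fun e he => by
    by_contra h
    have h1 := Nat.le_sub_of_add_le (le_refl (m + 0))
    have : e ≤ M := by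
      by_contra h'
      have := Nat.mul_le_mul_right i (show M + 1 ≤ e by omega)
      rw [Nat.add_mul, Nat.one_mul, Nat.mul_comm M i] at this
      omega
    have := Nat.mul_le_mul_right i this
    rw [Nat.mul_comm M i] at this
    omega
  constructor
  · intro H
    by_cases hp : P
    · obtain ⟨e, -, hei, hle, -⟩ := H U k hU (by rw [Nat.mul_comm]; omega) fun _ => hp
      have := top e hei
      exact Or.inl ⟨hp, by omega⟩
    · refine Or.inr ⟨hp, ?_⟩
      rcases Nat.eq_zero_or_pos k with h0 | h0
      · exact Or.inl h0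
      · obtain ⟨e, -, hei, hle, heq⟩ := H U k hU (by rw [Nat.mul_comm]; omega) fun h => by omega
        have := top e hei
        refine Or.inr (lt_of_le_of_ne (by omega) fun h => hp (heq (by omega)))
  · intro hcase u s _ hn' hs0
    refine ⟨min M u, by rw [hEM]; exact min_le_right _ _, ?_, ?_⟩
    · exact (Nat.mul_le_mul_right i (min_le_left _ _)).trans (by rw [Nat.mul_comm]; omega)
    rcases le_total M u with hMu | hMu
    · rw [min_eq_left hMu, show m - M * i = l by rw [Nat.mul_comm]; omega]
      have huU : u ≤ U := by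
        by_contra h
        have := Nat.mul_le_mul_right (2 * i) (show U + 1 ≤ u by omega)
        rw [Nat.add_mul, Nat.one_mul, Nat.mul_comm U] at this
        omega
      rcases Nat.eq_or_lt_of_le huU with rfl | hlt
      · rw [Nat.mul_comm u] at hn'
        rcases hcase with ⟨hp, h⟩ | ⟨hp, h | h⟩
        · exact ⟨by omega, fun _ => hp⟩
        · exact absurd (hs0 (by omega)) hp
        · exact ⟨by omega, fun h => by omega⟩
      · have := Nat.mul_le_mul_right (2 * i) (show u + 1 ≤ U from hlt)
        rw [Nat.add_mul, Nat.one_mul, Nat.mul_comm U] at this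
        exact ⟨by omega, fun h => by omega⟩
    · rw [min_eq_right hMu]
      have h1 := Nat.mul_le_mul_right i hMu
      rw [Nat.mul_comm M i] at h1
      have h2 : u * (2 * i) = 2 * (u * i) := by ring
      exact ⟨by omega, fun h => hP (by omega)⟩

end Cfsg.Agent.Lib.Elusive.OrthSingTS
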