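import Cfsg.Agent.Lib.Elusive.OrthSingTS

/-!
Orthogonal elements of odd prime order with few invariant totally singular subspaces.
-/

set_option autoImplicit false
set_option maxHeartbeats 1000000

namespace Cfsg.Agent.Lib.Elusive.OrthSingTS

open Module Polynomial QuadraticMap Cfsg.Agent.Lib.Classical.Quad Cfsg.Agent.Lib.Classical.QuadOmega
open Cfsg.Agent.Lib.Classical.QuadF2 Cfsg.Agent.Lib.Classical.OrthTorsion Cfsg.Agent.Lib.Elusive.OrthType
open Cfsg.Agent.Lib.Elusive.OrthStep Cfsg.Agent.Lib.Elusive.OrthSingCount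
open Cfsg.Agent.Lib.Forms (isoMat isoMat_mulVec)
open Cfsg.Agent.Lib.Elusive.SympStep (fixedSpace mem_fixed cOf)
open scoped Matrix

universe u

variable {F : Type u} [Field F] [Fintype F] {p r : ℕ} [Fact p.Prime] [CharP F p] [Fact r.Prime]

/-- Distinct conjugacy classes of `r`-th roots of unity in one field. -/
theorem exists_roots (hrp : r ≠ p) {i o : ℕ} (hi : i = orderOf (Fintype.card F : ZMod r)) (hi2 : 2 ≤ i)
    (hot : o * i ≤ r - 1) :
    ∃ (K : Type u) (_ : Field K) (_ : Algebra F K) (_ : Finite K), finrank F K = i ∧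
      ∃ (G : Fin o → F[X]) (μ : Fin o → K), (∀ c, μ c ^ r = 1 ∧ μ c ≠ 1) ∧
        (∀ c, Polynomial.aeval (μ c) (G c) = 0) ∧ (∀ c c', c ≠ c' → Polynomial.aeval (μ c) (G c') ≠ 0) ∧
        ∀ (c : Fin o) (a : K), ∃ h : F[X], Polynomial.aeval (μ c) h = a := by
  classical
  have hr : r.Prime := Fact.out
  obtain ⟨hnodup, hcard, -⟩ := SympTI.factors_facts (F := F) (r := r) hrp
  set fs := UniqueFactorizationMonoid.normalizedFactors (cyclotomic r F) with hfs
  rw [← hi] at hcard
  have hocard : o ≤ fs.toList.length := by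
    rw [Multiset.length_toList]
    exact Nat.le_of_mul_le_mul_right (hot.trans_eq hcard.symm) (by omega)
  let G : Fin o → F[X] := fun c => fs.toList.get (Fin.castLE hocard c)
  have hG : ∀ c, G c ∈ fs := fun c => Multiset.mem_toList.1 (List.get_mem _ _)
  have hGinj : Function.Injective G := fun c c' h => by
    have hnd : fs.toList.Nodup := by rw [← Multiset.coe_nodup, Multiset.coe_toList]; exact hnodup
    exact Fin.castLE_injective hocard (hnd.injective_get h)
  have hGf : ∀ g ∈ fs, g.Monic ∧ Irreducible g ∧ g.natDegree = i := fun g hg => by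
    obtain ⟨h1, h2, h3⟩ := factor_cyclotomic hrp hg
    exact ⟨h1, h2, by rw [h3, Nat.card_eq_fintype_card, hi]⟩
  obtain ⟨g₀, hg₀⟩ := UniqueFactorizationMonoid.exists_mem_normalizedFactors (cyclotomic_ne_zero r F)
      fun hu => (degree_cyclotomic_pos r F hr.pos).ne' (degree_eq_zero_of_isUnit hu)
  haveI : Fact (Irreducible g₀) := ⟨(hGf g₀ hg₀).2.1⟩
  let pb := AdjoinRoot.powerBasis' (hGf g₀ hg₀).1
  haveI : FiniteDimensional F (AdjoinRoot g₀) := pb.finite
  haveI : Finite (AdjoinRoot g₀) := Module.finite_of_finite F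
  set K := AdjoinRoot g₀
  set ζ : K := AdjoinRoot.root g₀ with hζ
  have hKdim : finrank F K = i := by rw [pb.finrank, AdjoinRoot.powerBasis'_dim, (hGf g₀ hg₀).2.2]
  have hdvd₀ : ∀ g ∈ fs, g ∣ X ^ r - 1 := fun g hg =>
    (UniqueFactorizationMonoid.dvd_of_mem_normalizedFactors hg).trans (cyclotomic.dvd_X_pow_sub_one r F)
  have hζr : ζ ^ r = 1 := by
    have h := AdjoinRoot.mk_eq_zero.2 (hdvd₀ g₀ hg₀)
    simpa [sub_eq_zero] using h
  have hζ1 : ζ ≠ 1 := fun h => by
    have h' : g₀ ∣ X - C (1 : F) := AdjoinRoot.mk_eq_zero.1 (by simp [← hζ, h])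
    have := natDegree_le_of_dvd h' (X_sub_C_ne_zero 1)
    rw [natDegree_X_sub_C, (hGf g₀ hg₀).2.2] at this
    omega
  have hζp : IsPrimitiveRoot ζ r := by
    rw [IsPrimitiveRoot.iff_orderOf]
    exact orderOf_eq_prime hζr hζ1
  have hroot : ∀ c, ∃ μ : K, Polynomial.aeval μ (G c) = 0 ∧ μ ^ r = 1 ∧ μ ≠ 1 := by
    intro c
    have hne : ((X : F[X]) ^ r - 1).map (algebraMap F K) ≠ 0 := by
      simpa using X_pow_sub_C_ne_zero hr.pos (1 : K)
    have hspl : ((X ^ r - 1 : F[X]).map (algebraMap F K)).Splits := by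
      have := X_pow_sub_C_splits_of_isPrimitiveRoot hζp (a := (1 : K)) (α := 1) (one_pow r)
      simpa using this
    obtain ⟨h1, h2, h3⟩ := hGf _ (hG c)
    obtain ⟨μ, hμ⟩ := (hspl.of_dvd hne (Polynomial.map_dvd _ (hdvd₀ _ (hG c)))).exists_eval_eq_zero (by
      rw [degree_map]
      exact (natDegree_pos_iff_degree_pos.mp h2.natDegree_pos).ne')
    rw [eval_map] at hμ
    have hμ' : Polynomial.aeval μ (G c) = 0 := hμ
    refine ⟨μ, hμ', ?_, fun he => ?_⟩
    · obtain ⟨e, he⟩ := hdvd₀ _ (hG c)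
      have := congrArg (fun P => Polynomial.aeval μ P) he
      simpa [hμ', sub_eq_zero] using this
    · have hm : (G c) = minpoly F μ := minpoly.eq_of_irreducible_of_monic h2 hμ' h1
      rw [hm, he, minpoly.one, ← C_1, natDegree_X_sub_C] at h3
      omega
  choose μ hμG hμr hμ1 using hroot
  have hmin : ∀ c, G c = minpoly F (μ c) := fun c =>
    minpoly.eq_of_irreducible_of_monic (hGf _ (hG c)).2.1 (hμG c) (hGf _ (hG c)).1
  refine ⟨K, inferInstance, inferInstance, inferInstance, hKdim, G, μ, fun c => ⟨hμr c, hμ1 c⟩, hμG,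
    fun c c' hne h => hne (hGinj ((hmin c).trans
      (minpoly.eq_of_irreducible_of_monic (hGf _ (hG c')).2.1 h (hGf _ (hG c')).1).symm)), fun c a => ?_⟩
  have hdeg : (minpoly F (μ c)).natDegree = i := by rw [← hmin]; exact (hGf _ (hG c)).2.2
  haveI : Nonempty (Fin (minpoly F (μ c)).natDegree) := ⟨⟨0, by omega⟩⟩
  have htop := (linearIndependent_pow (K := F) (μ c)).span_eq_top_of_card_eq_finrank
    (by rw [Fintype.card_fin, hdeg, hKdim])
  obtain ⟨f, hf⟩ := (Submodule.mem_span_range_iff_exists_fun F).1 (htop ▸ (Submodule.mem_top : a ∈ ⊤))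
  exact ⟨∑ j, C (f j) * X ^ (j : ℕ), by simp [← hf, Algebra.smul_def]⟩

/-- A non-degenerate space isometric to a subspace of the same type. -/
theorem exists_equiv_sub {M V : Type u} [AddCommGroup M] [Module F M] [FiniteDimensional F M] [AddCommGroup V]
    [Module F V] [FiniteDimensional F V] {QM : QuadraticForm F M} {Q : QuadraticForm F V} {R : Submodule F V}
    (hM : Nd QM) (hR : NdOn Q R) {k : ℕ} (hd : finrank F M = 2 * (k + 1)) (hd' : finrank F R = 2 * (k + 1))
    (hp : Plus QM ⊤ ↔ Plus Q R) : ∃ e : M ≃ₗ[F] R, ∀ v, Q (e v : V) = QM v := by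
  rcases model_cases (ndOn_top hM) (k := k) (by rw [finrank_top, hd]) with ⟨h1, e, he⟩ | ⟨h1, ζ, hζ, e, he⟩ <;>
    rcases model_cases hR (k := k) hd' with ⟨h2, e', he'⟩ | ⟨h2, ζ', hζ', e', he'⟩
  · refine ⟨Submodule.topEquiv.symm.trans (e.symm.trans e'), fun v => ?_⟩
    obtain ⟨w, rfl⟩ := (e.trans Submodule.topEquiv).surjective v
    simp only [LinearEquiv.trans_apply, LinearEquiv.symm_apply_apply]
    exact (he' w).trans (he w).symm
  · exact absurd (hp.1 h1) h2
  · exact absurd (hp.2 h2) h1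
  · obtain ⟨f, hf⟩ := AutOmega.exists_bin_equiv hζ' hζ k
    refine ⟨Submodule.topEquiv.symm.trans (e.symm.trans (f.trans e')), fun v => ?_⟩
    obtain ⟨w, rfl⟩ := (e.trans Submodule.topEquiv).surjective v
    simp only [LinearEquiv.trans_apply, LinearEquiv.symm_apply_apply]
    exact ((he' (f w)).trans (hf w)).trans (he w).symm

/-- A quadratic space with an isometry that has few invariant totally singular subspaces. -/
theorem exists_bad_model (hrp : r ≠ p) (hr2 : r ≠ 2) {b u o : ℕ}
    (hi : 2 * b = orderOf (Fintype.card F : ZMod r)) (hb : 0 < b) (ho : 1 ≤ o) (hou : o ≤ u)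
    (hot : o * (2 * b) ≤ r - 1) :
    ∃ (M : Type u) (_ : AddCommGroup M) (_ : Module F M) (_ : FiniteDimensional F M) (QM : QuadraticForm F M)
      (x : M ≃ₗ[F] M), finrank F M = u * (2 * b) ∧ Nd QM ∧
        OrthStep.Setting QM (x : M →ₗ[F] M) r p ∧ fixedSpace (x : M →ₗ[F] M) = ⊥ ∧
        ∀ W : Submodule F M, Inv (x : M →ₗ[F] M) W → TSing QM W → 2 * finrank F W ≤ (u - o + 1) * (2 * b) := by
  classical
  have hr : r.Prime := Fact.out
  obtain ⟨K, _, _, _, hKdim, G, μ, hμ, hμG, hsep, hsurj⟩ := exists_roots (F := F) hrp hi (by omega) hot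
  haveI : FiniteDimensional F K := FiniteDimensional.of_finrank_pos (by omega)
  have hμ0 : ∀ c, μ c ≠ 0 := fun c h => by
    have := (hμ c).1
    rw [h, zero_pow hr.ne_zero] at this
    exact zero_ne_one this
  let σ : K →ₐ[F] K := (FiniteField.frobeniusAlgHom F K) ^ b
  have hfr : ∀ (j : ℕ) (z : K), ((FiniteField.frobeniusAlgHom F K) ^ j) z = z ^ (Fintype.card F ^ j) := by
    intro j
    induction j with
    | zero => intro z; simp
    | succ j ih => intro z; rw [pow_succ', AlgHom.mul_apply, ih, pow_succ, pow_mul]; rfl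
  have hσσ : ∀ z, σ (σ z) = z := fun z => by
    have h : σ * σ = 1 := by
      show FiniteField.frobeniusAlgHom F K ^ b * FiniteField.frobeniusAlgHom F K ^ b = 1
      rw [← pow_add, ← two_mul, show 2 * b = orderOf (FiniteField.frobeniusAlgHom F K) by
        rw [FiniteField.orderOf_frobeniusAlgHom, hKdim]]
      exact pow_orderOf_eq_one _
    exact DFunLike.congr_fun h z
  have hσμ : ∀ c, σ (μ c) = (μ c)⁻¹ := fun c => by
    refine eq_inv_of_mul_eq_one_left ?_
    rw [show σ (μ c) = μ c ^ (Fintype.card F ^ b) from hfr b (μ c), ← pow_succ]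
    have hq : (Fintype.card F : ZMod r) ^ b = -1 := by
      refine (sq_eq_one_iff.1 ?_).resolve_left ?_
      · rw [← pow_mul, mul_comm, hi, pow_orderOf_eq_one]
      · intro h
        have := Nat.le_of_dvd hb (orderOf_dvd_of_pow_eq_one h)
        omega
    obtain ⟨e, he⟩ : r ∣ Fintype.card F ^ b + 1 := by
      rw [← ZMod.natCast_eq_zero_iff]
      push_cast
      rw [hq, neg_add_cancel]
    rw [he, pow_mul, (hμ c).1, one_pow]
  set c₀ : Fin o := ⟨0, ho⟩
  set θ : K := μ c₀ with hθdef
  have hθ : θ + σ θ ≠ 0 := fun h => by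
    rw [hσμ] at h
    have h2 : θ ^ 2 = -1 := by
      have := congrArg (θ * ·) h
      simp only [mul_add, hθdef, mul_inv_cancel₀ (hμ0 c₀), mul_zero] at this
      rw [_root_.sq]
      exact eq_neg_of_add_eq_zero_left this
    have h4 : θ ^ 4 = 1 := by rw [show 4 = 2 * 2 by rfl, pow_mul, h2, neg_one_sq]
    have := pow_gcd_eq_one.2 ⟨h4, (hμ c₀).1⟩
    rw [show (4 : ℕ) = 2 ^ 2 by rfl, (((Nat.coprime_primes Nat.prime_two hr).2 hr2.symm).pow_left 2).gcd_eq_one,
      pow_one] at this
    exact (hμ c₀).2 this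
  set α : K := θ / (θ + σ θ) with hα
  have hασ : α + σ α = 1 := by
    rw [hα, map_div₀, map_add, hσσ, add_comm (σ θ) θ, ← add_div, div_self hθ]
  have htr : ∀ z, Algebra.trace F K (σ z) = Algebra.trace F K z := fun z => by
    exact Algebra.trace_eq_of_algEquiv (AlgEquiv.ofBijective σ
      ⟨fun a b h => by rw [← hσσ a, h, hσσ], fun a => ⟨σ a, hσσ a⟩⟩) z
  let cls : Fin u → Fin o := fun k => if h : (k : ℕ) < o then ⟨k, h⟩ else ⟨o - 1, by omega⟩
  let BM : LinearMap.BilinMap F (Fin u → K) F :=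
    LinearMap.mk₂ F (fun z w => ∑ k, Algebra.trace F K (α * (z k * σ (w k))))
      (fun a b w => by simp only [Pi.add_apply, add_mul, mul_add, map_add, Finset.sum_add_distrib])
      (fun c a w => by simp only [Pi.smul_apply, smul_mul_assoc, mul_smul_comm, map_smul, Finset.smul_sum])
      (fun a b w => by simp only [Pi.add_apply, map_add, mul_add, Finset.sum_add_distrib])
      (fun c a w => by simp only [Pi.smul_apply, map_smul, mul_smul_comm, Finset.smul_sum])
  let QM : QuadraticForm F (Fin u → K) := LinearMap.BilinMap.toQuadraticMap BM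
  have hBM : ∀ z w, BM z w = ∑ k, Algebra.trace F K (α * (z k * σ (w k))) := fun _ _ => rfl
  have hQM : ∀ z, QM z = ∑ k, Algebra.trace F K (α * (z k * σ (z k))) := fun _ => rfl
  have hpol : ∀ z w, polar QM z w = ∑ k, Algebra.trace F K (z k * σ (w k)) := fun z w => by
    have e : polar QM z w = BM z w + BM w z := LinearMap.BilinMap.polar_toQuadraticMap z w
    rw [e, hBM, hBM, ← Finset.sum_add_distrib]
    refine Finset.sum_congr rfl fun k _ => ?_
    rw [← htr (α * (w k * σ (z k))), map_mul σ, map_mul σ, hσσ, ← map_add]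
    congr 1
    rw [mul_comm (σ (w k)) (z k), ← add_mul, hασ, one_mul]
  have hblock : ∀ (v : Fin u → K) (k : Fin u), (∀ w : K, polar QM v (Pi.single k w) = 0) → v k = 0 := fun v k h =>
    (traceForm_nondegenerate F K).1 (v k) fun w => by
      rw [Algebra.traceForm_apply]
      have := h (σ w)
      rw [hpol, Finset.sum_eq_single k (fun j _ hj => by simp [hj]) (by simp), Pi.single_eq_same, hσσ] at this
      exact this
  have hnd : Nd QM := fun v hv => funext fun k => hblock v k fun w => hv _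
  let x : (Fin u → K) ≃ₗ[F] (Fin u → K) :=
    { toFun := fun v k => μ (cls k) * v k
      invFun := fun v k => (μ (cls k))⁻¹ * v k
      left_inv := fun v => funext fun k => by simp only []; rw [← mul_assoc, inv_mul_cancel₀ (hμ0 _), one_mul]
      right_inv := fun v => funext fun k => by simp only []; rw [← mul_assoc, mul_inv_cancel₀ (hμ0 _), one_mul]
      map_add' := fun a b => funext fun k => by simp [mul_add]
      map_smul' := fun c a => funext fun k => by simp }
  have hxv : ∀ v k, (x : (Fin u → K) →ₗ[F] (Fin u → K)) v k = μ (cls k) * v k := fun _ _ => rfl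
  have hxpow : ∀ (j : ℕ) v k, ((x : Module.End F (Fin u → K)) ^ j) v k = μ (cls k) ^ j * v k := by
    intro j
    induction j with
    | zero => intro v k; simp
    | succ j ih =>
      intro v k
      rw [pow_succ', Module.End.mul_apply, hxv, ih, pow_succ', mul_assoc]
  have haev : ∀ (P : F[X]) v k, Polynomial.aeval (x : Module.End F (Fin u → K)) P v k =
      Polynomial.aeval (μ (cls k)) P * v k := by
    intro P
    induction P using Polynomial.induction_on' with
    | add P Q hP hQ => intro v k; simp [hP, hQ, add_mul]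
    | monomial j c =>
      intro v k
      rw [Polynomial.aeval_monomial, Module.End.mul_apply, Module.algebraMap_end_apply, Pi.smul_apply, hxpow]
      simp [Polynomial.aeval_monomial, mul_assoc, Algebra.smul_def]
  have hfin : finrank F (Fin u → K) = u * (2 * b) := by
    rw [Module.finrank_pi_fintype F, Finset.sum_const, Finset.card_univ, Fintype.card_fin, smul_eq_mul, hKdim]
  refine ⟨Fin u → K, inferInstance, inferInstance, inferInstance, QM, x, hfin, hnd,
    ⟨fun v => ?_, fun v => funext fun k => by rw [hxpow, (hμ _).1, one_mul], hrp, hr2⟩, ?_, fun W hW hWt => ?_⟩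
  · rw [hQM, hQM]
    refine Finset.sum_congr rfl fun k _ => ?_
    rw [hxv, map_mul σ, hσμ, mul_mul_mul_comm, mul_inv_cancel₀ (hμ0 _), one_mul]
  · refine eq_bot_iff.2 fun v hv => (Submodule.mem_bot F).2 (funext fun k => ?_)
    have h := congrFun (mem_fixed.1 hv) k
    rw [hxv] at h
    by_contra h0
    exact (hμ (cls k)).2 (mul_right_cancel₀ h0 (by rw [one_mul]; exact h))
  · have hsing : ∀ v ∈ W, ∀ k : Fin u, (k : ℕ) < o - 1 → v k = 0 := by
      intro v hv k hk
      set P := ∏ c ∈ Finset.univ.erase (cls k), G c with hP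
      have hP0 : Polynomial.aeval (μ (cls k)) P ≠ 0 := by
        rw [hP, map_prod]
        exact Finset.prod_ne_zero_iff.2 fun c hc => hsep _ _ (Finset.mem_erase.1 hc).1.symm
      have hother : ∀ l, l ≠ k → Polynomial.aeval (μ (cls l)) P = 0 := fun l hl => by
        rw [hP, map_prod]
        refine Finset.prod_eq_zero (Finset.mem_erase.2 ⟨fun he => hl ?_, Finset.mem_univ _⟩) (hμG _)
        have hko : (k : ℕ) < o := by omega
        by_cases hlo : (l : ℕ) < o
        · simp only [cls, dif_pos hlo, dif_pos hko, Fin.mk.injEq] at he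
          exact Fin.ext he
        · simp only [cls, dif_neg hlo, dif_pos hko, Fin.mk.injEq] at he
          omega
      have hzero : ∀ a : K, Algebra.trace F K (a * (v k * σ (v k))) = 0 := fun a => by
        obtain ⟨h, hh⟩ := hsurj (cls k) (a / Polynomial.aeval (μ (cls k)) P)
        have := tsing_polar hWt _ (hW.aeval (P * h) v hv) v hv
        rw [hpol, Finset.sum_eq_single k (fun l _ hl => by
          rw [haev, map_mul (Polynomial.aeval (μ (cls l))), hother l hl, zero_mul, zero_mul, zero_mul, map_zero]) (by simp),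
          haev, map_mul (Polynomial.aeval (μ (cls k))), hh,
          mul_div_cancel₀ _ hP0, mul_assoc] at this
        exact this
      have h0 := (traceForm_nondegenerate F K).1 (v k * σ (v k)) fun a => by
        rw [Algebra.traceForm_apply, mul_comm]; exact hzero a
      rcases mul_eq_zero.1 h0 with h | h
      · exact h
      · rw [← hσσ (v k), h, map_zero]
    let L : (Fin (u - o + 1) → K) →ₗ[F] (Fin u → K) :=
      { toFun := fun w k => if h : (k : ℕ) < o - 1 then 0 else w ⟨(k : ℕ) - (o - 1), by omega⟩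
        map_add' := fun a c => funext fun k => by by_cases h : (k : ℕ) < o - 1 <;> simp [h]
        map_smul' := fun c a => funext fun k => by by_cases h : (k : ℕ) < o - 1 <;> simp [h] }
    have hL : ∀ w k, L w k = if h : (k : ℕ) < o - 1 then 0 else w ⟨(k : ℕ) - (o - 1), by omega⟩ := fun _ _ => rfl
    have hLi : Function.Injective L := fun w w' h => funext fun j => by
      have := congrFun h ⟨(o - 1) + j, by omega⟩
      simp only [hL] at this
      rw [dif_neg (by omega), dif_neg (by omega)] at this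
      convert this using 2 <;> exact Fin.ext (by simp)
    have hrange : ∀ v : Fin u → K, (∀ k : Fin u, (k : ℕ) < o - 1 → v k = 0) → v ∈ LinearMap.range L := fun v hv => by
      refine ⟨fun j => v ⟨(o - 1) + j, by omega⟩, funext fun k => ?_⟩
      rw [hL]
      split_ifs with h
      · exact (hv k h).symm
      · exact congrArg v (Fin.ext (by simp; omega))
    have hT : NdOn QM (LinearMap.range L) := fun z hz hrad => funext fun k => by
      by_cases hk : (k : ℕ) < o - 1
      · obtain ⟨w, rfl⟩ := hz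
        rw [hL, dif_pos hk]; rfl
      · exact hblock z k fun w => hrad _ (hrange _ fun l hl => by
          rw [Pi.single_eq_of_ne fun e => hk (by rw [← e]; exact hl)])
    have h := tsing_dim hT (fun v hv => hrange v fun k hk => hsing v hv k hk) hWt
    rw [LinearMap.finrank_range_of_inj hLi, Module.finrank_pi_fintype F, Finset.sum_const, Finset.card_univ,
      Fintype.card_fin, smul_eq_mul, hKdim] at h
    exact h

variable {ι : Type} [Fintype ι] [DecidableEq ι] {Q : QuadraticForm F (ι → F)}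

/-- An element with the same split and few invariant totally singular subspaces. -/
theorem exists_bad (hQ : Nd Q) (hreg : Reg F (ι → F)) {y : Module.End F (ι → F)} (S : OrthStep.Setting Q y r p)
    {i u : ℕ} (hi : i = orderOf (Fintype.card F : ZMod r)) (hie : Even i) (hu : 1 ≤ u)
    (hRd : finrank F (moved y r) = u * i) :
    ∃ x : GL ι F, x ∈ Cfsg.Geo.omegaGL ⇑Q ∧ x ^ r = 1 ∧ (∀ z : F, (x : Matrix ι ι F) ≠ z • (1 : Matrix ι ι F)) ∧
      OrthStep.Setting Q (Matrix.toLin' (x : Matrix ι ι F)) r p ∧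
      fixedSpace (Matrix.toLin' (x : Matrix ι ι F)) = fixedSpace y ∧
      ∀ W : Submodule F (ι → F), Inv (Matrix.toLin' (x : Matrix ι ι F)) W → TSing Q W →
        2 * finrank F (W ⊓ moved (Matrix.toLin' (x : Matrix ι ι F)) r : Submodule F (ι → F)) ≤
          (u - min u ((r - 1) / i) + 1) * i := by
  classical
  have hr : r.Prime := Fact.out
  have hi0 : 0 < i := i_pos (p := p) (q := Fintype.card F) (r := r) rfl hr S.ne hi
  obtain ⟨b, hb⟩ := hie.two_dvd
  have hidvd : i ∣ r - 1 := hi ▸ orderOf_dvd_of_pow_eq_one (ZMod.pow_card_sub_one_eq_one fun h =>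
    OrthOdd.cast_q_ne S.ne ((ZMod.natCast_eq_zero_iff _ r).1 h))
  have ht : 1 ≤ (r - 1) / i := (Nat.one_le_div_iff hi0).2 (Nat.le_of_dvd (by have := hr.two_le; omega) hidvd)
  obtain ⟨M, _, _, _, QM, xM, hMd, hMn, SM, hMfix, hMbad⟩ := exists_bad_model (F := F) (u := u)
    (o := min u ((r - 1) / i)) S.ne S.ne_two (b := b) (hb ▸ hi) (by omega) (by omega) (min_le_left _ _)
    ((Nat.mul_le_mul_right _ (min_le_right _ _)).trans (hb ▸ Nat.div_mul_le_self _ _))
  rw [← hb] at hMd hMbad
  obtain ⟨hCn, hRn, ho, hsup, hRi, hRC, -⟩ := OrthStep.split S (W := ⊤) (fun _ _ => trivial) (ndOn_top hQ)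
  simp only [top_inf_eq] at hCn hRn ho hsup hRi hRC
  have hc : cOf (orderOf (Fintype.card F : ZMod r)) = i := by rw [← hi, cOf, if_pos hie]
  obtain ⟨w, hw, hwp⟩ := fpf_type S hRi hRn hRC
  obtain ⟨w', hw', hwp'⟩ := fpf_type SM (W := ⊤) (fun _ _ => trivial) (ndOn_top hMn) (by rw [top_inf_eq, hMfix])
  rw [hc, hRd] at hw
  rw [finrank_top, hc, hMd] at hw'
  obtain rfl : u = w := Nat.eq_of_mul_eq_mul_right hi0 hw
  obtain rfl : u = w' := Nat.eq_of_mul_eq_mul_right hi0 hw'
  have hub : 0 < b * u := Nat.mul_pos (by omega) hu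
  obtain ⟨k, hk⟩ : ∃ k, u * i = 2 * (k + 1) := ⟨b * u - 1, by rw [hb, mul_comm u, mul_assoc]; omega⟩
  obtain ⟨e, he⟩ := exists_equiv_sub hMn hRn (k := k) (hMd.trans hk) (hRd.trans hk) (hwp'.trans hwp.symm)
  obtain ⟨s₀, hs₀, hsQ⟩ := exists_sum_equiv hCn ho
  let s : (fixedSpace y × moved y r) ≃ₗ[F] (ι → F) :=
    s₀.trans ((LinearEquiv.ofEq _ _ hsup).trans Submodule.topEquiv)
  have hs : ∀ z, s z = (z.1 : ι → F) + (z.2 : ι → F) := fun z => hs₀ z
  have hsQ' : ∀ z, Q (s z) = Q (z.1 : ι → F) + Q (z.2 : ι → F) := fun z => hsQ z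
  let xR : moved y r ≃ₗ[F] moved y r := e.symm.trans (xM.trans e)
  let g₀ : (ι → F) ≃ₗ[F] (ι → F) := s.symm.trans (((LinearEquiv.refl F (fixedSpace y)).prodCongr xR).trans s)
  have hg₀ : ∀ a c, g₀ (s (a, c)) = s (a, e (xM (e.symm c))) := fun a c => by
    show s (((LinearEquiv.refl F (fixedSpace y)).prodCongr xR) (s.symm (s (a, c)))) = _
    rw [LinearEquiv.symm_apply_apply]; rfl
  have hxMQ : ∀ v, QM (xM v) = QM v := fun v => SM.iso v
  have hgiso : ∀ v, Q (g₀ v) = Q v := fun v => by
    obtain ⟨⟨a, c⟩, rfl⟩ := s.surjective v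
    rw [hg₀, hsQ', hsQ', he, hxMQ, ← he, e.apply_symm_apply]
  let g : isoG Q := ⟨g₀, hgiso⟩
  have hgpow : ∀ (j : ℕ) a c, (g ^ j).1 (s (a, c)) = s (a, e (((xM : M →ₗ[F] M) ^ j) (e.symm c))) := by
    intro j
    induction j with
    | zero => intro a c; simp
    | succ j ih =>
      intro a c
      rw [pow_succ', Subgroup.coe_mul, LinearEquiv.mul_apply, ih]
      show g₀ _ = _
      rw [hg₀, e.symm_apply_apply, pow_succ', Module.End.mul_apply]
      rfl
  have hgr : g ^ r = 1 := iso_ext fun v => by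
    obtain ⟨⟨a, c⟩, rfl⟩ := s.surjective v
    rw [hgpow, SM.pow, e.apply_symm_apply]
    rfl
  haveI : Finite (ι → F) := Pi.finite
  have hgc : g ∈ commutator (isoG Q) := mem_commutator_of_pow hQ hreg (hr.odd_of_ne_two S.ne_two) hgr
  set X := Matrix.toLin' ((isoMat Q g : GL ι F) : Matrix ι ι F) with hXdef
  have hX : ∀ a c, X (s (a, c)) = s (a, e (xM (e.symm c))) := fun a c => by
    rw [hXdef, Matrix.toLin'_apply, isoMat_mulVec]; exact hg₀ a c
  have hxr : isoMat Q g ^ r = 1 := by rw [isoMat_pow, hgr, isoMat_one]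
  have SX : OrthStep.Setting Q X r p := ⟨fun v => by
      rw [hXdef, Matrix.toLin'_apply, isoMat_mulVec]; exact hgiso v,
    fun v => by rw [hXdef, ← Matrix.toLin'_pow, ← Units.val_pow_eq_pow_val, hxr, Units.val_one, Matrix.toLin'_one]; rfl,
    S.ne, S.ne_two⟩
  have hfixX : fixedSpace X = fixedSpace y := by
    ext v
    obtain ⟨⟨a, c⟩, rfl⟩ := s.surjective v
    rw [mem_fixed, hX]
    constructor
    · intro h
      have h' := congrArg e.symm (Prod.ext_iff.1 (s.injective h)).2
      rw [e.symm_apply_apply] at h'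
      have h0 : e.symm c = 0 := (Submodule.mem_bot F).1 (hMfix ▸ mem_fixed.2 h')
      have hc0 : c = 0 := e.symm.map_eq_zero_iff.1 h0
      rw [hs, hc0, Submodule.coe_zero, add_zero]
      exact a.2
    · intro h
      have hc0 : c = 0 := by
        have hcC : (c : ι → F) ∈ fixedSpace y := by
          rw [hs] at h
          exact (Submodule.add_mem_iff_right _ a.2).1 h
        exact Subtype.ext ((Submodule.mem_bot F).1 (hRC ▸ ⟨c.2, hcC⟩))
      rw [hc0, map_zero, map_zero, map_zero]
  refine ⟨isoMat Q g, isoMat_mem_omega hgc, hxr, fun z hz => ?_, SX, hfixX, fun W hW hWt => ?_⟩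
  · haveI : Nontrivial M := Module.nontrivial_of_finrank_pos (R := F) (by rw [hMd]; exact Nat.mul_pos hu hi0)
    obtain ⟨m, hm0⟩ : ∃ m : M, m ≠ 0 := exists_ne 0
    have h0 := hX 0 (e m)
    rw [hXdef, Matrix.toLin'_apply, hz, Matrix.smul_mulVec, Matrix.one_mulVec, e.symm_apply_apply,
      ← map_smul] at h0
    have h1 : z • m = xM m := e.injective ((map_smul e z m).trans (Prod.ext_iff.1 (s.injective h0)).2)
    have hpw : ∀ j, ((xM : M →ₗ[F] M) ^ j) m = z ^ j • m := by
      intro j
      induction j with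
      | zero => simp
      | succ j ih => rw [pow_succ', Module.End.mul_apply, ih, map_smul, LinearEquiv.coe_coe, ← h1, smul_smul, ← pow_succ]
    obtain ⟨v, hv⟩ := OrthEven.exists_nonsing' hQ (by
      have := Submodule.finrank_le (moved y r)
      rw [hRd, hk, finrank_pi] at this
      omega)
    have hv1 : X v = z • v := by rw [hXdef, Matrix.toLin'_apply, hz, Matrix.smul_mulVec, Matrix.one_mulVec]
    have hz2 : z * z = 1 := by
      have := SX.iso v
      rw [hv1, QuadraticMap.map_smul, smul_eq_mul] at this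
      exact mul_right_cancel₀ hv (by rw [one_mul]; exact this)
    have hzr := hpw r
    rw [SM.pow] at hzr
    have hz1 : z = 1 := by
      obtain ⟨r', hr'⟩ := hr.odd_of_ne_two S.ne_two
      have h' : (1 : F) • m = z ^ r • m := by rw [one_smul]; exact hzr
      have := smul_left_injective F hm0 h'
      rw [hr', pow_succ, pow_mul, pow_two, hz2, one_pow, one_mul] at this
      exact this.symm
    rw [hz1, one_smul] at h1
    exact hm0 ((Submodule.mem_bot F).1 (hMfix ▸ mem_fixed.2 h1.symm))
  · let L : M →ₗ[F] (ι → F) := (moved y r).subtype ∘ₗ e.toLinearMap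
    have hLs : ∀ m, L m = s (0, e m) := fun m => by rw [hs]; simp [L]
    have hWi : Inv (xM : M →ₗ[F] M) (W.comap L) := fun m hm => by
      show L (xM m) ∈ W
      have h := hW _ (show L m ∈ W from hm)
      rw [hLs, hX, e.symm_apply_apply] at h
      rw [hLs]
      exact h
    refine le_trans ?_ (hMbad (W.comap L) hWi fun m hm => (he m).symm.trans (hWt _ hm))
    refine Nat.mul_le_mul_left 2 ?_
    have hle : W ⊓ moved X r ≤ (W.comap L).map L := by
      rintro v ⟨hvW, hvR⟩
      obtain ⟨⟨a, c⟩, hv⟩ := s.surjective v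
      have ha : a = 0 := Subtype.ext (hCn _ a.2 fun a' ha' => by
        have h := orth_fixed SX a' (hfixX.symm ▸ ha') v hvR
        rw [← hv, hs, polar_add_right, ho a' ha' c c.2, add_zero, polar_comm] at h
        exact h)
      refine ⟨e.symm c, ?_, ?_⟩
      · show L (e.symm c) ∈ W
        rw [hLs, e.apply_symm_apply, ← ha, hv]
        exact hvW
      · rw [hLs, e.apply_symm_apply, ← ha, hv]
    exact (Submodule.finrank_mono hle).trans (Submodule.finrank_map_le _ _)

end Cfsg.Agent.Lib.Elusive.OrthSingTS
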