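import Cfsg.Agent.Lib.Elusive.OrthRows
import Cfsg.Agent.Lib.Forms.TICount

/-!
The number of totally singular subspaces and its prime divisors.
-/

set_option autoImplicit false
set_option maxHeartbeats 800000

namespace Cfsg.Agent.Lib.Elusive.OrthSingCount

open Module QuadraticMap Cfsg.Agent.Lib.Classical.Quad Cfsg.Agent.Lib.Classical.QuadOmega
open Cfsg.Agent.Lib.Classical.QuadF2 Cfsg.Agent.Lib.Classical.OrthTorsion Cfsg.Agent.Lib.Elusive.OrthType
open Cfsg.Agent.Lib.Elusive.OrthClasses Cfsg.Agent.Lib.Forms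

universe u

variable {F : Type u} [Field F] {V : Type u} [AddCommGroup V] [Module F V] [FiniteDimensional F V]
variable {Q : QuadraticForm F V}

/-- Polar-orthogonal singular vectors span a totally singular subspace. -/
theorem tsing_span {S : Set V} (h : ∀ x ∈ S, ∀ y ∈ S, Q x = 0 ∧ Q y = 0 ∧ polar Q x y = 0) :
    ∀ x ∈ Submodule.span F S, Q x = 0 ∧ ∀ y ∈ Submodule.span F S, polar Q x y = 0 := by
  have hp : ∀ x ∈ Submodule.span F S, ∀ y ∈ Submodule.span F S, polar Q x y = 0 := by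
    intro x hx y hy
    induction hx using Submodule.span_induction with
    | mem x hx =>
      induction hy using Submodule.span_induction with
      | mem y hy => exact (h x hx y hy).2.2
      | zero => rw [polar_zero_right]
      | add a b _ _ ha hb => rw [polar_add_right, ha, hb, add_zero]
      | smul c a _ ha => rw [polar_smul_right, ha, smul_zero]
    | zero => rw [polar_zero_left]
    | add a b _ _ ha hb => rw [polar_add_left, ha, hb, add_zero]
    | smul c a _ ha => rw [polar_smul_left, ha, smul_zero]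
  intro x hx
  refine ⟨?_, hp x hx⟩
  induction hx using Submodule.span_induction with
  | mem x hx => exact (h x hx x hx).1
  | zero => exact map_zero Q
  | add a b ha' hb' ha hb => rw [QuadraticMap.map_add ⇑Q, ha, hb, hp a ha' b hb', zero_add, add_zero]
  | smul c a _ ha => rw [QuadraticMap.map_smul, ha, smul_zero]

theorem tsing_polar {U : Submodule F V} (h : TSing Q U) : ∀ x ∈ U, ∀ y ∈ U, polar Q x y = 0 := fun x hx y hy => by
  rw [polar, h _ (U.add_mem hx hy), h x hx, h y hy, sub_zero, sub_zero]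

/-- A totally singular subspace has at most half the dimension. -/
theorem tsing_dim {U P : Submodule F V} (hP : NdOn Q P) (hUP : U ≤ P) (hU : TSing Q U) :
    2 * finrank F U ≤ finrank F P := by
  obtain ⟨K₀, hK₀⟩ := Submodule.exists_isCompl U
  set K := K₀ ⊓ P
  have hsup : U ⊔ K = P := by
    rw [← sup_inf_assoc_of_le K₀ hUP, hK₀.sup_eq_top, top_inf_eq]
  let L : U →ₗ[F] Module.Dual F K :=
    { toFun := fun a => (polarBilin Q (a : V)).comp K.subtype
      map_add' := fun a b => LinearMap.ext fun k => by simp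
      map_smul' := fun c a => LinearMap.ext fun k => by simp }
  have hL : Function.Injective L := (injective_iff_map_eq_zero L).2 fun a ha => Subtype.ext (by
    refine hP a (hUP a.2) fun v hv => ?_
    rw [← hsup] at hv
    obtain ⟨b, hb, k, hk, rfl⟩ := Submodule.mem_sup.1 hv
    have hk' : polar Q (a : V) k = 0 := LinearMap.congr_fun ha ⟨k, hk⟩
    rw [polar_add_right, hk', tsing_polar hU _ a.2 b hb, add_zero])
  have h1 := LinearMap.finrank_le_finrank_of_injective hL
  rw [Subspace.dual_finrank_eq] at h1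
  have h2 := Submodule.finrank_sup_add_finrank_inf_eq U K
  have h3 : U ⊓ K = ⊥ := eq_bot_iff.2 (hK₀.inf_eq_bot ▸ inf_le_inf_left _ inf_le_left)
  rw [hsup, h3, finrank_bot] at h2
  omega

/-- A complement of a totally singular subspace in its orthogonal. -/
theorem exists_compl (hQ : Nd Q) {U : Submodule F V} (hU : TSing Q U) :
    ∃ W : Submodule F V, U ⊔ W = perp Q U ⊤ ∧ U ⊓ W = ⊥ ∧ NdOn Q W ∧
      finrank F W + 2 * finrank F U = finrank F V ∧
      NdOn Q (perp Q W ⊤) ∧ Orth Q W (perp Q W ⊤) ∧ W ⊔ perp Q W ⊤ = ⊤ ∧ Plus Q (perp Q W ⊤) := by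
  obtain ⟨K₀, hK₀⟩ := Submodule.exists_isCompl U
  set P := perp Q U ⊤ with hP
  have hUP : U ≤ P := fun x hx => mem_perp.2 ⟨trivial, fun u hu => tsing_polar hU u hu x hx⟩
  set W := K₀ ⊓ P
  have hsup : U ⊔ W = P := by
    rw [← sup_inf_assoc_of_le K₀ hUP, hK₀.sup_eq_top, top_inf_eq]
  have hinf : U ⊓ W = ⊥ := eq_bot_iff.2 (hK₀.inf_eq_bot ▸ inf_le_inf_left _ inf_le_left)
  -- the double orthogonal
  have hdbl : ∀ x, (∀ z ∈ P, polar Q x z = 0) → x ∈ U := by
    intro x hx
    by_contra hxU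
    obtain ⟨f, hfx, hfU⟩ := Submodule.exists_dual_map_eq_bot_of_notMem hxU inferInstance
    have hsur : Function.Surjective (polarBilin Q : V →ₗ[F] Module.Dual F V) := by
      refine (LinearMap.injective_iff_surjective_of_finrank_eq_finrank (Subspace.dual_finrank_eq).symm).1 ?_
      exact (injective_iff_map_eq_zero _).2 fun v hv => hQ v fun w => LinearMap.congr_fun hv w
    obtain ⟨z, hz⟩ := hsur f
    have hzP : z ∈ P := mem_perp.2 ⟨trivial, fun u hu => by
      rw [polar_comm, ← polarBilin_apply_apply, hz]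
      exact (Submodule.mem_bot F).1 (hfU ▸ ⟨u, hu, rfl⟩)⟩
    refine hfx ?_
    rw [← hz, polarBilin_apply_apply, polar_comm]
    exact hx z hzP
  have hWn : NdOn Q W := fun x hx h => by
    have hxU : x ∈ U := hdbl x fun z hz => by
      rw [← hsup] at hz
      obtain ⟨a, ha, b, hb, rfl⟩ := Submodule.mem_sup.1 hz
      rw [polar_add_right, h b hb, polar_comm Q x a, (mem_perp.1 (show x ∈ P from hx.2)).2 a ha, add_zero]
    exact (Submodule.mem_bot F).1 (hinf ▸ ⟨hxU, hx⟩)
  obtain ⟨hHn, hHsup, hHd⟩ := ndOn_split hWn (ndOn_top hQ) le_top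
  rw [finrank_top] at hHd
  have hUH : U ≤ perp Q W ⊤ := fun u hu => mem_perp.2 ⟨trivial, fun w hw => by
    rw [polar_comm]; exact (mem_perp.1 (show w ∈ P from hw.2)).2 u hu⟩
  have h1 := tsing_dim hHn hUH hU
  have h2 := Submodule.finrank_sup_add_finrank_inf_eq U W
  rw [hsup, hinf, finrank_bot] at h2
  have h3 := SympStep.perpIn_dim (B := polarBilin Q) U (⊤ : Submodule F V)
  rw [finrank_top] at h3
  have h4 : finrank F P = finrank F (SympStep.perpIn (polarBilin Q) U ⊤) := rfl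
  have hd : finrank F W + 2 * finrank F U = finrank F V := by omega
  exact ⟨W, hsup, hinf, hWn, hd, hHn, orth_perp W ⊤, hHsup, U, hUH, hU, by omega⟩

variable [Fintype F]

/-- The type is inherited by the complement. -/
theorem compl_plus (hQ : Nd Q) {W : Submodule F V} (hW : NdOn Q W) (hHn : NdOn Q (perp Q W ⊤))
    (ho : Orth Q W (perp Q W ⊤)) (hsup : W ⊔ perp Q W ⊤ = ⊤) (hH : Plus Q (perp Q W ⊤))
    (he : Even (finrank F V)) : Plus Q W ↔ Plus Q ⊤ := by
  have _ := hQ
  obtain ⟨U, -, -, hUd⟩ := id hH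
  have h := finrank_sup hW ho
  rw [hsup, finrank_top] at h
  have hHe : Even (finrank F (perp Q W ⊤)) := hUd ▸ even_two_mul _
  have hWe : Even (finrank F W) := by
    rw [Nat.even_iff] at he hHe ⊢
    omega
  conv_rhs => rw [← hsup, plus_sup hW hHn ho hWe hHe]
  simp [hH]

/-- The frame relation. -/
noncomputable def rel (Q : QuadraticForm F V) (x y : V) : F :=
  @ite F (Q x = 0 ∧ Q y = 0 ∧ polar Q x y = 0) (_root_.Classical.propDecidable _) 0 1

omit [FiniteDimensional F V] [Fintype F] in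
theorem rel_eq_zero {x y : V} : rel Q x y = 0 ↔ Q x = 0 ∧ Q y = 0 ∧ polar Q x y = 0 := by
  unfold rel; split_ifs with h <;> simp [h]

/-- Prime divisors of the number of totally singular subspaces. -/
theorem exists_dvd (hQ : Nd Q) {m r : ℕ} (hr : r.Prime) (a : ℕ → ℕ)
    (ha : ∀ j < m, ∀ W : Submodule F V, NdOn Q W → finrank F W + 2 * j = finrank F V →
      (Even (finrank F V) → (Plus Q W ↔ Plus Q ⊤)) → numSing (Q.comp W.subtype) = a j + 1)
    (hdiv : r ∣ Nat.card {W : Submodule F V // finrank F W = m ∧ ∀ w ∈ W, Q w = 0}) :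
    ∃ j < m, r ∣ a j := by
  classical
  haveI : Finite V := Module.finite_of_finite F
  set q := Fintype.card F with hq
  have hsymm : ∀ x y : V, rel Q x y = 0 ↔ rel Q y x = 0 := fun x y => by
    rw [rel_eq_zero, rel_eq_zero, polar_comm Q x y]; tauto
  have hc : ∀ j < m, ∀ u : TIFrame (rel Q) j, Nat.card {v : V // rel Q v v = 0 ∧ (∀ i, rel Q (u.1 i) v = 0) ∧
      v ∉ Submodule.span F (Set.range u.1)} = q ^ j * a j := by
    intro j hj u
    set U := Submodule.span F (Set.range u.1) with hUdef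
    have hu := tsing_span (Q := Q) (S := Set.range u.1) (by
      rintro _ ⟨i, rfl⟩ _ ⟨k, rfl⟩
      exact rel_eq_zero.1 (u.2.2 i k))
    have hU : TSing Q U := fun x hx => (hu x hx).1
    have hUd : finrank F U = j := by rw [hUdef, finrank_span_eq_card u.2.1, Fintype.card_fin]
    obtain ⟨W, hsup, hinf, hWn, hWd, hHn, ho, hHsup, hH⟩ := exists_compl hQ hU
    rw [hUd] at hWd
    have hWa := ha j hj W hWn hWd fun he => compl_plus hQ hWn hHn ho hHsup hH he
    haveI : Fintype U := Fintype.ofFinite U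
    let f : U × {w : W // Q (w : V) = 0 ∧ w ≠ 0} → {v : V // rel Q v v = 0 ∧ (∀ i, rel Q (u.1 i) v = 0) ∧ v ∉ U} :=
      fun z => ⟨(z.1 : V) + (z.2.1 : V), by
        have hz2 : (z.2.1 : V) ∈ perp Q U ⊤ := hsup ▸ Submodule.mem_sup_right z.2.1.2
        have hQv : Q ((z.1 : V) + (z.2.1 : V)) = 0 := by
          rw [QuadraticMap.map_add ⇑Q, hU _ z.1.2, z.2.2.1, (mem_perp.1 hz2).2 _ z.1.2, zero_add, add_zero]
        refine ⟨rel_eq_zero.2 ⟨hQv, hQv, by rw [polar_self, hQv, smul_zero]⟩, fun i => rel_eq_zero.2 ⟨?_, hQv, ?_⟩, ?_⟩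
        · exact (hu _ (Submodule.subset_span ⟨i, rfl⟩)).1
        · rw [polar_add_right, (hu _ (Submodule.subset_span ⟨i, rfl⟩)).2 _ z.1.2,
            (mem_perp.1 hz2).2 _ (Submodule.subset_span ⟨i, rfl⟩), add_zero]
        · intro h
          exact z.2.2.2 (Subtype.ext ((Submodule.mem_bot F).1 (hinf ▸ ⟨(U.add_mem_iff_right z.1.2).1 h, z.2.1.2⟩)))⟩
    have hf : Function.Bijective f := by
      refine ⟨fun z z' h => ?_, fun v => ?_⟩
      · have h' : (z.1 : V) + (z.2.1 : V) = (z'.1 : V) + (z'.2.1 : V) := congrArg Subtype.val h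
        have h0 : (z.1 : V) - (z'.1 : V) = 0 := (Submodule.mem_bot F).1 (hinf ▸ ⟨U.sub_mem z.1.2 z'.1.2, by
          rw [show (z.1 : V) - (z'.1 : V) = (z'.2.1 : V) - (z.2.1 : V) by
            rw [sub_eq_sub_iff_add_eq_add, h', add_comm]]
          exact W.sub_mem z'.2.1.2 z.2.1.2⟩)
        rw [sub_eq_zero] at h0
        rw [h0, add_right_inj] at h'
        exact Prod.ext (Subtype.ext h0) (Subtype.ext (Subtype.ext h'))
      · obtain ⟨v, hv1, hv2, hv3⟩ := v
        obtain ⟨hQv, -, -⟩ := rel_eq_zero.1 hv1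
        have hvP : v ∈ perp Q U ⊤ := mem_perp.2 ⟨trivial, fun x hx => by
          induction hx using Submodule.span_induction with
          | mem x hx => obtain ⟨i, rfl⟩ := hx; exact (rel_eq_zero.1 (hv2 i)).2.2
          | zero => rw [polar_zero_left]
          | add a b _ _ ha hb => rw [polar_add_left, ha, hb, add_zero]
          | smul c a _ ha => rw [polar_smul_left, ha, smul_zero]⟩
        rw [← hsup] at hvP
        obtain ⟨a, ha, b, hb, rfl⟩ := Submodule.mem_sup.1 hvP
        have hbP : b ∈ perp Q U ⊤ := hsup ▸ Submodule.mem_sup_right hb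
        rw [QuadraticMap.map_add ⇑Q, hU a ha, (mem_perp.1 hbP).2 a ha, zero_add, add_zero] at hQv
        refine ⟨(⟨a, ha⟩, ⟨⟨b, hb⟩, hQv, fun e => hv3 ?_⟩), rfl⟩
        rw [show b = 0 from congrArg Subtype.val e, add_zero]
        exact ha
    rw [← Nat.card_eq_of_bijective f hf, Nat.card_prod, Nat.card_eq_fintype_card (α := U),
      Module.card_eq_pow_finrank (K := F), hUd]
    congr 1
    have e := Nat.card_congr (Equiv.sumCompl fun w : {w : W // Q (w : V) = 0} => w.1 = 0)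
    rw [Nat.card_sum] at e
    have e1 : Nat.card {w : {w : W // Q (w : V) = 0} // w.1 = 0} = 1 :=
      Nat.card_eq_one_iff_exists.2 ⟨⟨⟨0, map_zero Q⟩, rfl⟩, fun w => Subtype.ext (Subtype.ext w.2)⟩
    have e2 : Nat.card {w : {w : W // Q (w : V) = 0} // ¬ w.1 = 0} = Nat.card {w : W // Q (w : V) = 0 ∧ w ≠ 0} :=
      Nat.card_congr (Equiv.subtypeSubtypeEquivSubtypeInter _ fun w : W => ¬ w = 0)
    have e3 : Nat.card {w : W // Q (w : V) = 0} = numSing (Q.comp W.subtype) := rfl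
    omega
  have hframe := card_frame_eq_prod hsymm (fun j => q ^ j * a j) m hc
  have hmul := card_ti_mul (F := F) (h := rel Q) (fun S hS x hx y hy => by
    have h := tsing_span (Q := Q) fun a ha b hb => rel_eq_zero.1 (hS a ha b hb)
    exact rel_eq_zero.2 ⟨(h x hx).1, (h y hy).1, (h x hx).2 y hy⟩) m
  rw [hframe, Nat.card_eq_fintype_card (α := F), ← hq] at hmul
  have hN : Nat.card {W : Submodule F V // finrank F W = m ∧ ∀ w ∈ W, Q w = 0} =
      Nat.card {W : Submodule F V // finrank F W = m ∧ ∀ u ∈ W, ∀ v ∈ W, rel Q u v = 0} :=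
    Nat.card_congr (Equiv.subtypeEquivRight fun W => and_congr_right fun _ =>
      ⟨fun h u hu v hv => rel_eq_zero.2 ⟨h u hu, h v hv, tsing_polar h u hu v hv⟩,
        fun h u hu => (rel_eq_zero.1 (h u hu u hu)).1⟩)
  rw [← hN] at hmul
  have hfac : ∀ i : Fin m, q ^ m - q ^ (i : ℕ) = q ^ (i : ℕ) * (q ^ (m - (i : ℕ)) - 1) := fun i => by
    rw [Nat.mul_sub, mul_one, ← pow_add, Nat.add_sub_cancel' i.2.le]
  rw [Finset.prod_congr rfl fun i _ => hfac i, Finset.prod_mul_distrib, Finset.prod_mul_distrib,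
    ← Finset.prod_range (f := fun j => q ^ j), mul_left_comm] at hmul
  have hmul' := Nat.eq_of_mul_eq_mul_left (Finset.prod_pos fun j _ => pow_pos Fintype.card_pos j) hmul
  obtain ⟨j, hj, hjd⟩ := (Prime.dvd_finsetProd_iff (Nat.prime_iff.1 hr) _).1 (hmul' ▸ dvd_mul_of_dvd_left hdiv _)
  exact ⟨j, Finset.mem_range.1 hj, hjd⟩

/-! ### The three types -/

theorem one_le_numSing (Q : QuadraticForm F V) : 1 ≤ numSing Q := by
  haveI : Finite V := Module.finite_of_finite F
  exact Finite.card_pos_iff.2 ⟨⟨0, map_zero _⟩⟩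

theorem numSing_even {W : Submodule F V} (hW : NdOn Q W) {k : ℕ} (hd : finrank F W = 2 * (k + 1)) :
    (Plus Q W → numSing (Q.comp W.subtype) = (Fintype.card F ^ (k + 1) - 1) * (Fintype.card F ^ k + 1) + 1) ∧
      (¬ Plus Q W → numSing (Q.comp W.subtype) = (Fintype.card F ^ (k + 1) + 1) * (Fintype.card F ^ k - 1) + 1) := by
  have h1 : ∀ j, 1 ≤ Fintype.card F ^ j := fun j => Nat.one_le_pow _ _ Fintype.card_pos
  rcases model_cases hW (k := k) hd with ⟨h, e, he⟩ | ⟨h, ζ, hζ, e, he⟩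
  · refine ⟨fun _ => ?_, fun h' => absurd h h'⟩
    rw [← numSing_congr (Q := plusQ (k + 1) F) (R := Q.comp W.subtype) e he,
      show numSing (plusQ (k + 1) F) = Nat.card {v : Fin (k + 1) ⊕ Fin (k + 1) → F // Cfsg.quadFormPlus (k + 1) F v = 0} from
        Nat.card_congr (Equiv.subtypeEquivRight fun v => by rw [plusQ_apply]),
      card_sing_plus (k + 1) (by omega), Nat.add_sub_cancel, show 2 * (k + 1) - 1 = k + 1 + k by omega, pow_add]
    obtain ⟨A, hA⟩ : ∃ A, Fintype.card F ^ (k + 1) = A + 1 := ⟨_, (Nat.sub_add_cancel (h1 _)).symm⟩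
    obtain ⟨B, hB⟩ : ∃ B, Fintype.card F ^ k = B + 1 := ⟨_, (Nat.sub_add_cancel (h1 _)).symm⟩
    rw [hA, hB, Nat.add_sub_cancel]
    simp only [Nat.add_mul, Nat.mul_add, one_mul, mul_one]
    omega
  · refine ⟨fun h' => absurd h' h, fun _ => ?_⟩
    rw [← numSing_congr (Q := minusQ k 1 ζ) (R := Q.comp W.subtype) e he,
      show numSing (minusQ k 1 ζ) = Nat.card {v : (Fin k ⊕ Fin k) ⊕ Fin 2 → F // Cfsg.quadFormMinus k F 1 ζ v = 0} from
        Nat.card_congr (Equiv.subtypeEquivRight fun v => by rw [minusQ_apply]),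
      card_sing_minus hζ k, show 2 * k + 1 = k + 1 + k by omega, pow_add]
    obtain ⟨A, hA⟩ : ∃ A, Fintype.card F ^ (k + 1) = A + 1 := ⟨_, (Nat.sub_add_cancel (h1 _)).symm⟩
    obtain ⟨B, hB⟩ : ∃ B, Fintype.card F ^ k = B + 1 := ⟨_, (Nat.sub_add_cancel (h1 _)).symm⟩
    rw [hA, hB, Nat.add_sub_cancel]
    simp only [Nat.add_mul, Nat.mul_add, one_mul, mul_one]
    omega

theorem numSing_odd' {W : Submodule F V} (hW : NdOn Q W) {k : ℕ} (hd : finrank F W = 2 * k + 1) :
    numSing (Q.comp W.subtype) = (Fintype.card F ^ (2 * k) - 1) + 1 := by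
  obtain ⟨t, ht, e, he⟩ := odd_model hW hd
  rw [← numSing_congr (Q := t • oddQ k F) (R := Q.comp W.subtype) e fun v => he v,
    show numSing (t • oddQ k F) = Nat.card {v : Unit ⊕ (Fin k ⊕ Fin k) → F // Cfsg.quadFormOdd k F v = 0} from
      Nat.card_congr (Equiv.subtypeEquivRight fun v => by
        rw [QuadraticMap.smul_apply, smul_eq_mul, mul_eq_zero, or_iff_right ht, oddQ_apply]),
    card_sing_odd k, Nat.sub_add_cancel (Nat.one_le_pow _ _ Fintype.card_pos)]

variable {p : ℕ} [Fact p.Prime] [CharP F p] {r : ℕ} [Fact r.Prime]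

theorem ne_char_sub {k : ℕ} (hk : 1 ≤ k) (h : r ∣ Fintype.card F ^ k - 1) : r ≠ p := by
  rintro rfl
  obtain ⟨e, -, he⟩ := FiniteField.card F r
  have h1 : r ∣ Fintype.card F ^ k := dvd_pow (by rw [he]; exact dvd_pow_self r e.pos.ne') (by omega)
  have h2 := Nat.dvd_sub h1 h
  rw [Nat.sub_sub_self (Nat.one_le_pow _ _ Fintype.card_pos)] at h2
  exact (Fact.out : r.Prime).not_dvd_one h2

theorem ne_char_add {k : ℕ} (hk : 1 ≤ k) (h : r ∣ Fintype.card F ^ k + 1) : r ≠ p := by
  rintro rfl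
  obtain ⟨e, -, he⟩ := FiniteField.card F r
  have h1 : r ∣ Fintype.card F ^ k := dvd_pow (by rw [he]; exact dvd_pow_self r e.pos.ne') (by omega)
  exact (Fact.out : r.Prime).not_dvd_one ((Nat.dvd_add_right h1).1 h)

/-- Prime divisors in the even-dimensional case: `d - j` and `d - j - 1` are the exponents. -/
theorem dvd_even (hQ : Nd Q) {d m : ℕ} (hV : finrank F V = 2 * d) (hm : m + 1 ≤ d)
    (hdiv : r ∣ Nat.card {W : Submodule F V // finrank F W = m ∧ ∀ w ∈ W, Q w = 0}) :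
    r ≠ p ∧ ∃ j < m, (Plus Q ⊤ ∧ ((Fintype.card F : ZMod r) ^ (d - j) = 1 ∨ (Fintype.card F : ZMod r) ^ (d - j - 1) = -1)) ∨
      (¬ Plus Q ⊤ ∧ ((Fintype.card F : ZMod r) ^ (d - j) = -1 ∨ (Fintype.card F : ZMod r) ^ (d - j - 1) = 1)) := by
  by_cases hp : Plus Q ⊤
  · obtain ⟨j, hj, hjd⟩ := exists_dvd hQ (Fact.out : r.Prime)
      (fun j => (Fintype.card F ^ (d - j) - 1) * (Fintype.card F ^ (d - j - 1) + 1)) (fun j hj W hW hWd hWp => by
        obtain ⟨k, hk⟩ : ∃ k, d - j = k + 1 := ⟨d - j - 1, by omega⟩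
        rw [hk, Nat.add_sub_cancel]
        exact (numSing_even hW (k := k) (by omega)).1 ((hWp (hV ▸ even_two_mul d)).2 hp)) hdiv
    rcases (Fact.out : r.Prime).dvd_mul.1 hjd with h | h
    · exact ⟨ne_char_sub (by omega) h, j, hj, Or.inl ⟨hp, Or.inl ((OrthEven.pow_sub_one_iff Fintype.card_pos).1 h)⟩⟩
    · exact ⟨ne_char_add (by omega) h, j, hj, Or.inl ⟨hp, Or.inr (OrthEven.pow_add_one_iff.1 h)⟩⟩
  · obtain ⟨j, hj, hjd⟩ := exists_dvd hQ (Fact.out : r.Prime)
      (fun j => (Fintype.card F ^ (d - j) + 1) * (Fintype.card F ^ (d - j - 1) - 1)) (fun j hj W hW hWd hWp => by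
        obtain ⟨k, hk⟩ : ∃ k, d - j = k + 1 := ⟨d - j - 1, by omega⟩
        rw [hk, Nat.add_sub_cancel]
        exact (numSing_even hW (k := k) (by omega)).2 fun h => hp ((hWp (hV ▸ even_two_mul d)).1 h)) hdiv
    rcases (Fact.out : r.Prime).dvd_mul.1 hjd with h | h
    · exact ⟨ne_char_add (by omega) h, j, hj, Or.inr ⟨hp, Or.inl (OrthEven.pow_add_one_iff.1 h)⟩⟩
    · exact ⟨ne_char_sub (by omega) h, j, hj, Or.inr ⟨hp, Or.inr ((OrthEven.pow_sub_one_iff Fintype.card_pos).1 h)⟩⟩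

/-- Prime divisors in the odd-dimensional case. -/
theorem dvd_odd (hQ : Nd Q) {d m : ℕ} (hV : finrank F V = 2 * d + 1) (hm : m ≤ d)
    (hdiv : r ∣ Nat.card {W : Submodule F V // finrank F W = m ∧ ∀ w ∈ W, Q w = 0}) :
    r ≠ p ∧ ∃ j < m, (Fintype.card F : ZMod r) ^ (2 * (d - j)) = 1 := by
  obtain ⟨j, hj, hjd⟩ := exists_dvd hQ (Fact.out : r.Prime) (fun j => Fintype.card F ^ (2 * (d - j)) - 1)
    (fun j hj W hW hWd _ => numSing_odd' hW (k := d - j) (by omega)) hdiv
  exact ⟨ne_char_sub (by omega) hjd, j, hj, (OrthEven.pow_sub_one_iff Fintype.card_pos).1 hjd⟩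

end Cfsg.Agent.Lib.Elusive.OrthSingCount
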