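import Cfsg.Agent.Lib.Elusive.OrthSingArith

/-!
Elements of odd prime order and their invariant totally singular subspaces.
-/

set_option autoImplicit false
set_option maxHeartbeats 800000

namespace Cfsg.Agent.Lib.Elusive.OrthSingTS

open Module Polynomial QuadraticMap Cfsg.Agent.Lib.Classical.Quad Cfsg.Agent.Lib.Classical.QuadOmega
open Cfsg.Agent.Lib.Classical.QuadF2 Cfsg.Agent.Lib.Classical.OrthTorsion Cfsg.Agent.Lib.Elusive.OrthType
open Cfsg.Agent.Lib.Elusive.OrthStep Cfsg.Agent.Lib.Elusive.OrthEven Cfsg.Agent.Lib.Elusive.OrthSingCount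
open Cfsg.Agent.Lib.Elusive.SympStep (fixedSpace mem_fixed cOf)
open scoped Matrix

universe u

variable {F : Type u} [Field F] [Fintype F] {p r : ℕ} [Fact p.Prime] [CharP F p] [Fact r.Prime]
variable {ι : Type} [Fintype ι] [DecidableEq ι] {Q : QuadraticForm F (ι → F)}

/-- Every element fixes a subspace, so the split of each element is good. -/
theorem good_of_all (hQ : Nd Q) (hreg : Reg F (ι → F)) {m : ℕ}
    (hall : ∀ x : GL ι F, x ∈ Cfsg.Geo.omegaGL ⇑Q → x ^ r = 1 →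
      (∀ z : F, (x : Matrix ι ι F) ≠ z • (1 : Matrix ι ι F)) →
      ∃ W : Submodule F (ι → F), (finrank F W = m ∧ TSing Q W) ∧ Inv (Matrix.toLin' (x : Matrix ι ι F)) W)
    {x : GL ι F} (hx : x ∈ Cfsg.Geo.omegaGL ⇑Q) (hxr : x ^ r = 1)
    (hne : ∀ z : F, (x : Matrix ι ι F) ≠ z • (1 : Matrix ι ι F))
    (S : OrthStep.Setting Q (Matrix.toLin' (x : Matrix ι ι F)) r p) {i c u : ℕ}
    (hi : i = orderOf (Fintype.card F : ZMod r)) (hc : c = cOf i) (hu : 1 ≤ u)
    (hRd : finrank F (moved (Matrix.toLin' (x : Matrix ι ι F)) r) = u * c) :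
    Good i m (finrank F (fixedSpace (Matrix.toLin' (x : Matrix ι ι F)))) u ((r - 1) / i)
      (Plus Q (fixedSpace (Matrix.toLin' (x : Matrix ι ι F)))) := by
  have hi0 : 0 < i := i_pos (p := p) (q := Fintype.card F) (r := r) rfl Fact.out S.ne hi
  subst hc
  obtain ⟨hCn, -, -, hsup, -, -, hdim⟩ := OrthStep.split S (W := ⊤) (fun _ _ => trivial) (ndOn_top hQ)
  simp only [top_inf_eq] at hCn hsup hdim
  obtain ⟨x', hx', hxr', hne', S', hfix, hbound⟩ : ∃ x' : GL ι F, x' ∈ Cfsg.Geo.omegaGL ⇑Q ∧ x' ^ r = 1 ∧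
      (∀ z : F, (x' : Matrix ι ι F) ≠ z • (1 : Matrix ι ι F)) ∧
      OrthStep.Setting Q (Matrix.toLin' (x' : Matrix ι ι F)) r p ∧
      fixedSpace (Matrix.toLin' (x' : Matrix ι ι F)) = fixedSpace (Matrix.toLin' (x : Matrix ι ι F)) ∧
      ∀ W : Submodule F (ι → F), Inv (Matrix.toLin' (x' : Matrix ι ι F)) W → TSing Q W → ∀ e : ℕ,
        finrank F (W ⊓ moved (Matrix.toLin' (x' : Matrix ι ι F)) r : Submodule F (ι → F)) = e * i →
          e ≤ eMax i u ((r - 1) / i) := by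
    rcases Nat.even_or_odd i with hie | hio
    · rw [cOf, if_pos hie] at hRd
      obtain ⟨x', h1, h2, h3, S', h4, h5⟩ := exists_bad hQ hreg S hi hie hu hRd
      refine ⟨x', h1, h2, h3, S', h4, fun W hW hWt e he => ?_⟩
      have := h5 W hW hWt
      rw [he, ← Nat.mul_assoc] at this
      have h6 := Nat.le_of_mul_le_mul_right this hi0
      rw [eMax, if_pos hie]
      omega
    · rw [cOf, if_neg (Nat.not_even_iff_odd.2 hio)] at hRd
      refine ⟨x, hx, hxr, hne, S, rfl, fun W _ hWt e he => ?_⟩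
      obtain ⟨-, hRn, -⟩ := OrthStep.split S (W := ⊤) (fun _ _ => trivial) (ndOn_top hQ)
      rw [top_inf_eq] at hRn
      have := tsing_dim hRn (inf_le_right : W ⊓ moved (Matrix.toLin' (x : Matrix ι ι F)) r ≤ _)
        (tsing_mono hWt inf_le_left)
      rw [he, hRd, ← Nat.mul_assoc, ← Nat.mul_assoc, Nat.mul_comm u 2] at this
      rw [eMax, if_neg (Nat.not_even_iff_odd.2 hio)]
      have := Nat.le_of_mul_le_mul_right this hi0
      omega
  obtain ⟨W, ⟨hWd, hWt⟩, hWi⟩ := hall x' hx' hxr' hne'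
  obtain ⟨hWRi, hWRC, hWdim⟩ := split_inv S' hWi
  obtain ⟨e, he⟩ := moved_dvd S' hWRi hWRC
  rw [← hi, Nat.mul_comm] at he
  rw [hWd, he] at hWdim
  have hCn' : NdOn Q (fixedSpace (Matrix.toLin' (x' : Matrix ι ι F))) := hfix ▸ hCn
  have h1 := tsing_dim hCn' (inf_le_right : W ⊓ fixedSpace (Matrix.toLin' (x' : Matrix ι ι F)) ≤ _)
    (tsing_mono hWt inf_le_left)
  rw [hfix] at hWdim h1
  refine ⟨e, hbound W hWi hWt e he, by omega, by omega, fun heq => ?_⟩
  exact ⟨W ⊓ fixedSpace (Matrix.toLin' (x : Matrix ι ι F)), inf_le_right, tsing_mono hWt inf_le_left, by omega⟩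

/-- A good split gives an invariant totally singular subspace. -/
theorem exists_of_good (hQ : Nd Q) {y : Module.End F (ι → F)} (S : OrthStep.Setting Q y r p) {i c u m : ℕ}
    (hi : i = orderOf (Fintype.card F : ZMod r)) (hc : c = cOf i) (hRd : finrank F (moved y r) = u * c)
    (hG : Good i m (finrank F (fixedSpace y)) u ((r - 1) / i) (Plus Q (fixedSpace y))) :
    ∃ W : Submodule F (ι → F), (finrank F W = m ∧ TSing Q W) ∧ Inv y W := by
  subst hc
  obtain ⟨e, he, hem, hle, heq⟩ := hG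
  obtain ⟨hCn, hRn, ho, -, hRi, hRC, -⟩ := OrthStep.split S (W := ⊤) (fun _ _ => trivial) (ndOn_top hQ)
  simp only [top_inf_eq] at hCn hRn ho hRi hRC
  obtain ⟨U, hUR, hUi, hUt, hUd⟩ := exists_ts_inv S hRi hRn hRC hi hRd he
  obtain ⟨T, hTC, hTt, hTd⟩ := exists_ts_sub hCn hle heq
  refine ⟨T ⊔ U, ⟨?_, tsing_sup hTt hUt (ho.mono hTC hUR)⟩, (SympStep.fixed_inv (y := y) T hTC).sup hUi⟩
  have h5 := Submodule.finrank_sup_add_finrank_inf_eq T U
  rw [show T ⊓ U = ⊥ from eq_bot_iff.2 (hRC ▸ le_inf (inf_le_right.trans hUR) (inf_le_left.trans hTC)), finrank_bot,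
    hTd, hUd] at h5
  omega

/-- The even-dimensional criterion. -/
theorem main_even {d : ℕ} (hι : Fintype.card ι = 2 * d) (hd : 1 ≤ d) (hQ : Nd Q) (hreg : Reg F (ι → F))
    (hrp : r ≠ p) (hr2 : r ≠ 2) (m : ℕ) {i c : ℕ} (hi : i = orderOf (Fintype.card F : ZMod r)) (hc : c = cOf i) :
    (∀ x : GL ι F, x ∈ Cfsg.Geo.omegaGL ⇑Q →
      (∃ z : F, ((x ^ r : GL ι F) : Matrix ι ι F) = z • (1 : Matrix ι ι F)) →
      (∀ z : F, (x : Matrix ι ι F) ≠ z • (1 : Matrix ι ι F)) →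
      ∃ W : Submodule F (ι → F), (finrank F W = m ∧ TSing Q W) ∧ Inv (Matrix.toLin' (x : Matrix ι ι F)) W) ↔
    ∀ u s, 1 ≤ u → 2 * d = u * c + s → (s = 0 → (Plus Q ⊤ ↔ RPlus i u)) →
      Good i m s u ((r - 1) / i) (Plus Q ⊤ ↔ RPlus i u) := by
  constructor
  · intro hall u s hu hsum htype
    obtain ⟨x, hx, hne, hxr, S, hC⟩ := exists_split_elt hι hQ hreg hrp hr2 hi hc hu hsum htype
    have hc0 : 0 < c := by
      have := i_pos (p := p) (q := Fintype.card F) (r := r) rfl Fact.out hrp hi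
      rw [hc, cOf]; split_ifs <;> omega
    obtain ⟨u', hu', hRd, -, -, -, -, hV, -⟩ := split_data hι hQ S hi hc
    rw [hC] at hu'
    obtain rfl : u = u' := Nat.eq_of_mul_eq_mul_right hc0 (by omega)
    have := good_of_all hQ hreg (fun x hx hxr hne => hall x hx ⟨1, by rw [hxr, one_smul, Units.val_one]⟩ hne)
      hx hxr hne S hi hc hu hRd
    rw [hC] at this
    exact (good_congr fun _ => by by_cases h : RPlus i u <;> simp [h] at hV ⊢ <;> tauto).1 this
  · intro H x hx ⟨z, hz⟩ hne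
    obtain ⟨e, he, S⟩ := exists_y hQ (by omega) hrp hr2 (fun v => OrthOdd.iso_of_omega hx v) hz
    set y := e • Matrix.toLin' (x : Matrix ι ι F) with hy
    obtain ⟨u, hu, hRd, -, -, -, -, hV, -⟩ := split_data hι hQ S hi hc
    have hu0 : 1 ≤ u := by
      by_contra h
      obtain rfl : u = 0 := by omega
      have htop : fixedSpace y = ⊤ := Submodule.eq_top_of_finrank_eq (by rw [finrank_pi, hι]; omega)
      refine hne e (Matrix.toLin'.injective (LinearMap.ext fun v => ?_))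
      have hv : y v = v := mem_fixed.1 (htop ▸ Submodule.mem_top)
      rw [map_smul, Matrix.toLin'_one, LinearMap.smul_apply, LinearMap.id_apply]
      conv_rhs => rw [← hv, hy, LinearMap.smul_apply, smul_smul, he, one_smul]
    have hG := H u _ hu0 hu fun hs => by
      rw [hV]; simp [plus_of_finrank_zero (Q := Q) hs]
    obtain ⟨W, hW, hWi⟩ := exists_of_good hQ S hi hc hRd ((good_congr fun _ => by by_cases h : RPlus i u <;> simp [h] at hV ⊢ <;> tauto).1 hG)
    exact ⟨W, hW, inv_back he hWi⟩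

/-- The odd-dimensional criterion. -/
theorem main_odd {d : ℕ} (h2 : (2 : F) ≠ 0) (hrp : r ≠ p) (hr2 : r ≠ 2) (m : ℕ) {i c : ℕ}
    (hi : i = orderOf (Fintype.card F : ZMod r)) (hc : c = cOf i) (C : ℕ → Prop) :
    (∀ x : GL (Unit ⊕ (Fin d ⊕ Fin d)) F, x ∈ Cfsg.Geo.omegaGL (Cfsg.quadFormOdd d F) → orderOf x = r →
      ∃ W : Submodule F (Unit ⊕ (Fin d ⊕ Fin d) → F), (finrank F W = m ∧ TSing (oddQ d F) W) ∧
        Inv (Matrix.toLin' (x : Matrix (Unit ⊕ (Fin d ⊕ Fin d)) (Unit ⊕ (Fin d ⊕ Fin d)) F)) W) ↔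
    ∀ u s, 1 ≤ u → 2 * d + 1 = u * c + s → Good i m s u ((r - 1) / i) (C u) := by
  have hr : r.Prime := Fact.out
  have hi0 : 0 < i := i_pos (p := p) (q := Fintype.card F) (r := r) rfl hr hrp hi
  obtain ⟨c', hc'⟩ : ∃ c', c = 2 * c' := (hc ▸ SympStep.cOf_even _ : Even c).two_dvd
  have hc0 : 0 < c := by rw [hc, cOf]; split_ifs <;> omega
  have hQ : Nd (oddQ d F) := OrthOdd.nd_oddQ h2
  have hcard : Fintype.card (Unit ⊕ (Fin d ⊕ Fin d)) = 2 * d + 1 := by simp; ring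
  have hcong : ∀ (u s : ℕ) (D : Prop), 2 * d + 1 = u * c + s →
      (Good i m s u ((r - 1) / i) D ↔ Good i m s u ((r - 1) / i) (C u)) := fun u s D hs => good_congr fun h2s => by
    obtain ⟨a, rfl⟩ := h2s
    rw [hc', mul_left_comm] at hs
    omega
  constructor
  · intro hall u s hu hsum
    obtain ⟨P, P', hP, hPP, h1⟩ := exists_poly (F := F) (p := p) hrp hr2 (w := c' * u) (hi ▸ by
      refine dvd_trans ?_ (show c ∣ 2 * (c' * u) from ⟨u, by rw [hc']; ring⟩)
      rw [hc, cOf]; split_ifs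
      · exact dvd_rfl
      · exact dvd_mul_left _ 2) s
    rw [show 2 * (c' * u) + s = 2 * d + 1 by rw [hsum, hc']; ring] at hP
    have hreal := real_odd_exists (p := p) (q := Fintype.card F) rfl hr hr2 hrp rfl h2 (m := d) hP
    obtain ⟨x, hx, hxo, hne, S, hC⟩ := OrthStep.exists_elt hQ (reg_of_two_ne_zero h2) hrp hr2 hreal hPP h1 (by
      have : 0 < u * c := Nat.mul_pos hu hc0
      omega)
    obtain ⟨-, -, -, -, -, -, hdim⟩ := OrthStep.split S (W := ⊤) (fun _ _ => trivial) (ndOn_top hQ)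
    rw [top_inf_eq, top_inf_eq, finrank_top, finrank_pi, hcard, hC] at hdim
    have := good_of_all hQ (reg_of_two_ne_zero h2) (fun x' hx' hxr' hne' => hall x' (by rwa [← OrthOdd.coe_oddQ])
      (orderOf_eq_prime hxr' fun e => hne' 1 (by rw [e, one_smul, Units.val_one])))
      hx (hxo ▸ pow_orderOf_eq_one x) hne S hi hc hu (u := u) (by omega)
    rw [hC] at this
    exact (hcong u s _ hsum).1 this
  · intro H x hx hxo
    set y := Matrix.toLin' (x : Matrix (Unit ⊕ (Fin d ⊕ Fin d)) (Unit ⊕ (Fin d ⊕ Fin d)) F)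
    have S : OrthStep.Setting (oddQ d F) y r p := ⟨fun v => by
        rw [Matrix.toLin'_apply, OrthOdd.coe_oddQ]; exact OrthOdd.iso_of_omega hx v,
      fun v => by
        rw [← Matrix.toLin'_pow, ← Units.val_pow_eq_pow_val, ← hxo, pow_orderOf_eq_one, Units.val_one,
          Matrix.toLin'_one]
        rfl, hrp, hr2⟩
    obtain ⟨hCn, hRn, ho, -, hRi, hRC, hdim⟩ := OrthStep.split S (W := ⊤) (fun _ _ => trivial) (ndOn_top hQ)
    rw [top_inf_eq] at hRn hRi hRC
    rw [top_inf_eq, top_inf_eq] at hdim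
    obtain ⟨u, hu, -⟩ := fpf_type S hRi hRn hRC
    rw [← hi, ← hc] at hu
    rw [finrank_top, finrank_pi, hcard, hu] at hdim
    have hu0 : 1 ≤ u := by
      by_contra h
      obtain rfl : u = 0 := by omega
      have htop : fixedSpace y = ⊤ := Submodule.eq_top_of_finrank_eq (by rw [finrank_pi, hcard]; omega)
      have h1 : x = 1 := Units.ext (Matrix.toLin'.injective (LinearMap.ext fun v => by
        rw [Units.val_one, Matrix.toLin'_one]
        exact mem_fixed.1 (htop ▸ Submodule.mem_top : v ∈ fixedSpace y)))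
      rw [h1, orderOf_one] at hxo
      exact hr.ne_one hxo.symm
    exact exists_of_good hQ S hi hc hu ((hcong u _ _ (by omega)).2 (H u _ hu0 (by omega)))

/-- The witness forced by the divisibility of the number of subspaces, even dimension. -/
theorem witness_even {d m : ℕ} (hι : Fintype.card ι = 2 * d) (hQ : Nd Q) (hm : m + 1 ≤ d) (hr2 : r ≠ 2) {i c : ℕ}
    (hi : i = orderOf (Fintype.card F : ZMod r)) (hc : c = cOf i)
    (hdiv : r ∣ Nat.card {W : Submodule F (ι → F) // finrank F W = m ∧ ∀ w ∈ W, Q w = 0}) :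
    r ≠ p ∧ ∃ u s, 1 ≤ u ∧ 2 * d = u * c + s ∧ (s = 0 → (Plus Q ⊤ ↔ RPlus i u)) ∧ s ≤ 2 * m ∧
      (s = 2 * m → ¬ (Plus Q ⊤ ↔ RPlus i u)) := by
  obtain ⟨hrp, j, hj, hcases⟩ := dvd_even (p := p) hQ (d := d) (by rw [finrank_pi, hι]) hm hdiv
  have hi0 : 0 < i := i_pos (p := p) (q := Fintype.card F) (r := r) rfl Fact.out hrp hi
  refine ⟨hrp, ?_⟩
  have hc0 : 0 < c := by rw [hc, cOf]; split_ifs <;> omega
  have first : ∀ b : Prop, (b ↔ Plus Q ⊤) →
      ((b ∧ (Fintype.card F : ZMod r) ^ (d - j) = 1) ∨ (¬ b ∧ (Fintype.card F : ZMod r) ^ (d - j) = -1)) →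
      ∃ u s, 1 ≤ u ∧ 2 * d = u * c + s ∧ (s = 0 → (Plus Q ⊤ ↔ RPlus i u)) ∧ s ≤ 2 * m ∧
        (s = 2 * m → ¬ (Plus Q ⊤ ↔ RPlus i u)) := fun b hb h => by
    obtain ⟨hd, ht⟩ := pieces hrp hr2 hi hc b (n := d - j) h
    refine ⟨2 * (d - j) / c, 2 * j, (Nat.one_le_div_iff hc0).2 (Nat.le_of_dvd (by omega) hd), ?_,
      fun _ => hb.symm.trans ht, by omega, fun h => by omega⟩
    rw [Nat.div_mul_cancel hd]; omega
  have second : ∀ b : Prop, (b ↔ ¬ Plus Q ⊤) →
      ((b ∧ (Fintype.card F : ZMod r) ^ (d - j - 1) = 1) ∨ (¬ b ∧ (Fintype.card F : ZMod r) ^ (d - j - 1) = -1)) →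
      ∃ u s, 1 ≤ u ∧ 2 * d = u * c + s ∧ (s = 0 → (Plus Q ⊤ ↔ RPlus i u)) ∧ s ≤ 2 * m ∧
        (s = 2 * m → ¬ (Plus Q ⊤ ↔ RPlus i u)) := fun b hb h => by
    obtain ⟨hd, ht⟩ := pieces hrp hr2 hi hc b (n := d - j - 1) h
    refine ⟨2 * (d - j - 1) / c, 2 * j + 2, (Nat.one_le_div_iff hc0).2 (Nat.le_of_dvd (by omega) hd), ?_,
      fun h => by omega, by omega, fun _ h' => iff_not_self ((ht.symm.trans hb).symm.trans h'.symm).symm⟩
    rw [Nat.div_mul_cancel hd]; omega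
  rcases hcases with ⟨hp, h | h⟩ | ⟨hp, h | h⟩
  · exact first True (iff_of_true trivial hp) (Or.inl ⟨trivial, h⟩)
  · exact second False (iff_of_false id (not_not.2 hp)) (Or.inr ⟨id, h⟩)
  · exact first False (iff_of_false id hp) (Or.inr ⟨id, h⟩)
  · exact second True (iff_of_true trivial hp) (Or.inl ⟨trivial, h⟩)

/-- The witness forced by the divisibility of the number of subspaces, odd dimension. -/
theorem witness_odd {d m : ℕ} (h2 : (2 : F) ≠ 0) (hm : m ≤ d) {i c : ℕ}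
    (hi : i = orderOf (Fintype.card F : ZMod r)) (hc : c = cOf i)
    (hdiv : r ∣ Nat.card {W : Submodule F (Unit ⊕ (Fin d ⊕ Fin d) → F) // finrank F W = m ∧
      ∀ w ∈ W, oddQ d F w = 0}) :
    r ≠ p ∧ ∃ u s, 1 ≤ u ∧ 2 * d + 1 = u * c + s ∧ s < 2 * m := by
  obtain ⟨hrp, j, hj, h⟩ := dvd_odd (p := p) (OrthOdd.nd_oddQ h2) (OrthOdd.finrank_odd d) hm hdiv
  have hcd : c ∣ 2 * (d - j) := OrthEven.dvd_even (p := p) hi hc ((pow_sub_one_iff Fintype.card_pos).2 h)
  have hi0 : 0 < i := i_pos (p := p) (q := Fintype.card F) (r := r) rfl Fact.out hrp hi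
  have hc0 : 0 < c := by rw [hc, cOf]; split_ifs <;> omega
  refine ⟨hrp, 2 * (d - j) / c, 2 * j + 1, (Nat.one_le_div_iff hc0).2 (Nat.le_of_dvd (by omega) hcd), ?_, by omega⟩
  rw [Nat.div_mul_cancel hcd]; omega

end Cfsg.Agent.Lib.Elusive.OrthSingTS
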