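import Cfsg.Agent.Lib.Elusive.SympStep
import Mathlib.FieldTheory.ChevalleyWarning

/-!
Totally isotropic invariant subspaces of semisimple isometries of alternating forms.
-/

set_option autoImplicit false

namespace Cfsg.Agent.Lib.Elusive.SympTI

open Module Polynomial Cfsg.Agent.Lib.Forms Cfsg.Agent.Lib.Elusive.SympStep

universe u

variable {F : Type u} [Field F] {V : Type u} [AddCommGroup V] [Module F V] [FiniteDimensional F V]

/-- `B` vanishes on `W`. -/
def Ti (B : LinearMap.BilinForm F V) (W : Submodule F V) : Prop := ∀ u ∈ W, ∀ v ∈ W, B u v = 0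

variable {B : LinearMap.BilinForm F V}

theorem Ti.mono {U W : Submodule F V} (h : Ti B W) (hUW : U ≤ W) : Ti B U :=
  fun u hu v hv => h u (hUW hu) v (hUW hv)

theorem ti_bot : Ti B (⊥ : Submodule F V) := fun u hu v _ => by
  rw [(Submodule.mem_bot F).1 hu, map_zero, LinearMap.zero_apply]

theorem ti_sup (hA : B.IsAlt) {U W : Submodule F V} (hU : Ti B U) (hW : Ti B W)
    (ho : ∀ u ∈ U, ∀ w ∈ W, B u w = 0) : Ti B (U ⊔ W) := by
  intro a ha b hb
  obtain ⟨u, hu, w, hw, rfl⟩ := Submodule.mem_sup.1 ha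
  obtain ⟨u', hu', w', hw', rfl⟩ := Submodule.mem_sup.1 hb
  simp only [map_add, LinearMap.add_apply, hU u hu u' hu', hW w hw w' hw', ho u hu w' hw',
    hA.isRefl u' w (ho u' hu' w hw), add_zero]

theorem perpIn_dim_le (hA : B.IsAlt) {U P : Submodule F V} (hP : Nd B P) (hUP : U ≤ P) :
    finrank F (perpIn B U P) + finrank F U ≤ finrank F P := by
  obtain ⟨Q₀, hQ₀⟩ := Submodule.exists_isCompl (perpIn B U P)
  set Q := Q₀ ⊓ P
  have hsup : perpIn B U P ⊔ Q = P := by
    rw [← sup_inf_assoc_of_le Q₀ (show perpIn B U P ≤ P from inf_le_left), hQ₀.sup_eq_top, top_inf_eq]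
  let L : U →ₗ[F] Module.Dual F Q :=
    { toFun := fun a => (B (a : V)).comp Q.subtype
      map_add' := fun a b => LinearMap.ext fun q => by simp
      map_smul' := fun c a => LinearMap.ext fun q => by simp }
  have hL : Function.Injective L := (injective_iff_map_eq_zero L).2 fun a ha => Subtype.ext (by
    refine hP a (hUP a.2) fun v hv => ?_
    rw [← hsup] at hv
    obtain ⟨b, hb, q, hq, rfl⟩ := Submodule.mem_sup.1 hv
    have hq' : B (a : V) q = 0 := LinearMap.congr_fun ha ⟨q, hq⟩
    rw [map_add, hq', add_zero]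
    exact (mem_perpIn.1 hb).2 a a.2)
  have h1 := LinearMap.finrank_le_finrank_of_injective hL
  rw [Subspace.dual_finrank_eq] at h1
  have h2 := Submodule.finrank_sup_add_finrank_inf_eq (perpIn B U P) Q
  have h3 : perpIn B U P ⊓ Q = ⊥ := eq_bot_iff.2 (hQ₀.inf_eq_bot ▸ inf_le_inf_left _ inf_le_left)
  rw [hsup, h3, finrank_bot] at h2
  omega

/-- A totally isotropic subspace has at most half the dimension. -/
theorem ti_dim (hA : B.IsAlt) {U P : Submodule F V} (hP : Nd B P) (hUP : U ≤ P) (hU : Ti B U) :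
    2 * finrank F U ≤ finrank F P := by
  have h1 := perpIn_dim_le hA hP hUP
  have h2 := Submodule.finrank_mono (show U ≤ perpIn B U P from fun v hv => mem_perpIn.2 ⟨hUP hv, fun u hu => hU u hu v hv⟩)
  omega

/-- Totally isotropic subspaces of every dimension up to the half. -/
theorem exists_ti_sub (hA : B.IsAlt) {W : Submodule F V} (hW : Nd B W) {s : ℕ} (hs : 2 * s ≤ finrank F W) :
    ∃ U ≤ W, Ti B U ∧ finrank F U = s := by
  obtain ⟨m, k, b, -, h2, -, h4⟩ := exists_altBasis (B.compl₁₂ W.subtype W.subtype) (fun v => hA (v : V))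
  obtain rfl : k = 0 := by
    by_contra hk
    refine b.ne_zero (Sum.inr ⟨0, Nat.pos_of_ne_zero hk⟩) (Subtype.ext ?_)
    exact hW _ (b _).2 fun v hv => h4 _ ⟨v, hv⟩
  have hm : finrank F W = m + m := by rw [finrank_eq_card_basis b]; simp
  let v : Fin s → V := fun j => (b (Sum.inl (Sum.inl (Fin.castLE (show s ≤ m by omega) j))) : V)
  have hli : LinearIndependent F v :=
    ((b.linearIndependent.comp _ fun i j h => by simpa using h).map' W.subtype (Submodule.ker_subtype W))
  refine ⟨Submodule.span F (Set.range v), ?_, ?_, by rw [finrank_span_eq_card hli, Fintype.card_fin]⟩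
  · rw [Submodule.span_le]; rintro _ ⟨j, rfl⟩; exact (b _).2
  · intro x hx y hy
    induction hx using Submodule.span_induction with
    | mem x hx =>
      obtain ⟨i, rfl⟩ := hx
      induction hy using Submodule.span_induction with
      | mem y hy => obtain ⟨j, rfl⟩ := hy; exact h2 _ _
      | zero => simp
      | add a c _ _ ha hc => rw [map_add, ha, hc, add_zero]
      | smul c a _ ha => rw [map_smul, ha, smul_zero]
    | zero => simp
    | add a c _ _ ha hc => rw [map_add, LinearMap.add_apply, ha, hc, add_zero]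
    | smul c a _ ha => rw [map_smul, LinearMap.smul_apply, ha, smul_zero]

section Inv

variable {x : Module.End F V} {n : ℕ} {c : F}

/-- A totally isotropic invariant subspace leaves a non-degenerate invariant one orthogonal to it. -/
theorem exists_reduce (hA : B.IsAlt) (hx : ∀ u v, B (x u) (x v) = B u v) (hc : c ≠ 0) (hn : (n : F) ≠ 0)
    (hxn : ∀ v, (x ^ n) v = c • v) {U P : Submodule F V} (hUi : Inv x U) (hPi : Inv x P) (hP : Nd B P)
    (hUP : U ≤ P) (hU : Ti B U) :
    ∃ P' ≤ P, Inv x P' ∧ Nd B P' ∧ U ⊓ P' = ⊥ ∧ (∀ u ∈ U, ∀ v ∈ P', B u v = 0) ∧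
      finrank F P ≤ finrank F P' + 2 * finrank F U := by
  have hn1 : 1 ≤ n := Nat.one_le_iff_ne_zero.2 fun h => hn (by simp [h])
  set Q := perpIn B U P with hQ
  have hQi : Inv x Q := fun v hv => by
    rw [mem_perpIn] at hv ⊢
    refine ⟨hPi v hv.1, fun u hu => ?_⟩
    have hu' : x ((x ^ (n - 1)) u) = c • u := by
      rw [← Module.End.mul_apply, ← pow_succ', Nat.sub_add_cancel hn1, hxn]
    have h := congrArg (fun w => B w (x v)) hu'
    simp only [hx, map_smul, LinearMap.smul_apply, hv.2 _ (Inv.pow hUi _ u hu), smul_eq_mul] at h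
    exact (mul_eq_zero.1 h.symm).resolve_left hc
  have hUQ : U ≤ Q := fun v hv => mem_perpIn.2 ⟨hUP hv, fun u hu => hU u hu v hv⟩
  obtain ⟨W, hW, hUW⟩ := exists_invariant_compl hc hn hxn hUi
  have hsup : U ⊔ W ⊓ Q = Q := by
    rw [← sup_inf_assoc_of_le W hUQ, hUW.sup_eq_top, top_inf_eq]
  have hinf : U ⊓ (W ⊓ Q) = ⊥ := eq_bot_iff.2 (hUW.inf_eq_bot ▸ inf_le_inf_left _ inf_le_left)
  have hdbl : perpIn B Q P = U := by
    refine (Submodule.eq_of_le_of_finrank_le (fun v hv => mem_perpIn.2 ⟨hUP hv, fun q hq => ?_⟩) ?_).symm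
    · exact hA.isRefl v q ((mem_perpIn.1 hq).2 v hv)
    · have h1 := perpIn_dim_le hA hP (show Q ≤ P from inf_le_left)
      have h2 := perpIn_dim (B := B) U P
      rw [← hQ] at h2
      omega
  refine ⟨W ⊓ Q, inf_le_right.trans inf_le_left, hW.inf hQi, fun z hz hrad => ?_, hinf, fun u hu v hv => ?_, ?_⟩
  · refine (Submodule.mem_bot F).1 (hinf ▸ ⟨hdbl ▸ mem_perpIn.2 ⟨(mem_perpIn.1 hz.2).1, fun q hq => ?_⟩, hz⟩)
    rw [← hsup] at hq
    obtain ⟨a, ha, b, hb, rfl⟩ := Submodule.mem_sup.1 hq
    rw [map_add, LinearMap.add_apply, (mem_perpIn.1 hz.2).2 a ha, hA.isRefl z b (hrad b hb), add_zero]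
  · exact (mem_perpIn.1 hv.2).2 u hu
  · have h1 := Submodule.finrank_sup_add_finrank_inf_eq U (W ⊓ Q)
    rw [hsup, hinf, finrank_bot] at h1
    have h2 := perpIn_dim (B := B) U P
    rw [← hQ] at h2
    omega

/-- Iterating. -/
theorem exists_ti_inv (hA : B.IsAlt) (hx : ∀ u v, B (x u) (x v) = B u v) (hc : c ≠ 0) (hn : (n : F) ≠ 0)
    (hxn : ∀ v, (x ^ n) v = c • v) {P₀ : Submodule F V} {i D₀ : ℕ}
    (hfind : ∀ P ≤ P₀, Inv x P → Nd B P → D₀ ≤ finrank F P →
      ∃ U ≤ P, Inv x U ∧ Ti B U ∧ finrank F U = i) :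
    ∀ (w : ℕ) {P : Submodule F V}, P ≤ P₀ → Inv x P → Nd B P → D₀ + 2 * (w * i) ≤ finrank F P + 2 * i →
      ∃ U ≤ P, Inv x U ∧ Ti B U ∧ finrank F U = w * i := by
  intro w
  induction w with
  | zero => exact fun {P} _ _ _ _ => ⟨⊥, bot_le, fun v hv => by simp [(Submodule.mem_bot F).1 hv], ti_bot, by simp⟩
  | succ w ih =>
    intro P hP₀ hPi hP hD
    have he : (w + 1) * i = w * i + i := by ring
    rw [he] at hD ⊢
    obtain ⟨U, hUP, hUi, hU, hUd⟩ := hfind P hP₀ hPi hP (by omega)
    obtain ⟨P', hP'P, hP'i, hP'n, hinf, ho, hd⟩ := exists_reduce hA hx hc hn hxn hUi hPi hP hUP hU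
    obtain ⟨T, hTP', hTi, hT, hTd⟩ := ih (hP'P.trans hP₀) hP'i hP'n (by omega)
    refine ⟨U ⊔ T, sup_le hUP (hTP'.trans hP'P), hUi.sup hTi, ti_sup hA hU hT fun u hu v hv => ho u hu v (hTP' hv), ?_⟩
    have h5 := Submodule.finrank_sup_add_finrank_inf_eq U T
    rw [show U ⊓ T = ⊥ from eq_bot_iff.2 (hinf ▸ inf_le_inf_left _ hTP'), finrank_bot, hUd, hTd] at h5
    omega

theorem iso_pow (hx : ∀ u v, B (x u) (x v) = B u v) : ∀ (j : ℕ) (u v : V), B ((x ^ j) u) ((x ^ j) v) = B u v := by
  intro j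
  induction j with
  | zero => intro u v; rfl
  | succ j ih => intro u v; rw [pow_succ', Module.End.mul_apply, Module.End.mul_apply, hx, ih]

variable [Fintype F] {p : ℕ} [Fact p.Prime] [CharP F p]

include p in
/-- Chevalley–Warning gives isotropic cyclic subspaces. -/
theorem exists_cyclic_ti (hA : B.IsAlt) (hx : ∀ u v, B (x u) (x v) = B u v) {g : F[X]} (hg : g.Monic)
    (hg0 : 0 < g.natDegree) {K : Submodule F V} (hKi : Inv x K) (hKg : ∀ w ∈ K, Polynomial.aeval x g w = 0)
    (hdim : 2 * (g.natDegree - 1) < finrank F K) :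
    ∃ U ≤ K, Inv x U ∧ Ti B U ∧ U ≠ ⊥ ∧ finrank F U ≤ g.natDegree := by
  classical
  set i := g.natDegree with hi
  let b := Module.finBasis F K
  let f : Fin (i - 1) → MvPolynomial (Fin (finrank F K)) F := fun j => ∑ k, ∑ l,
    MvPolynomial.C (B (b k : V) ((x ^ ((j : ℕ) + 1)) (b l : V))) * (MvPolynomial.X k * MvPolynomial.X l)
  have hdeg : ∀ j, (f j).totalDegree ≤ 2 := fun j => by
    refine MvPolynomial.totalDegree_finsetSum_le fun k _ => MvPolynomial.totalDegree_finsetSum_le fun l _ => ?_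
    refine (MvPolynomial.totalDegree_mul _ _).trans ?_
    rw [MvPolynomial.totalDegree_C, zero_add]
    refine (MvPolynomial.totalDegree_mul _ _).trans ?_
    simp [MvPolynomial.totalDegree_X]
  have heval : ∀ (a : Fin (finrank F K) → F) (j : Fin (i - 1)), MvPolynomial.eval a (f j) =
      B (∑ k, a k • (b k : V)) ((x ^ ((j : ℕ) + 1)) (∑ l, a l • (b l : V))) := fun a j => by
    simp only [f, map_sum, MvPolynomial.eval_mul, MvPolynomial.eval_C, MvPolynomial.eval_X, map_smul,
      LinearMap.sum_apply, LinearMap.smul_apply, smul_eq_mul, Finset.mul_sum]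
    rw [Finset.sum_comm]
    exact Finset.sum_congr rfl fun l _ => Finset.sum_congr rfl fun k _ => by ring
  have hsum : (∑ j, (f j).totalDegree) < Fintype.card (Fin (finrank F K)) := by
    rw [Fintype.card_fin]
    refine lt_of_le_of_lt ((Finset.sum_le_sum fun j _ => hdeg j).trans_eq ?_) hdim
    simp [mul_comm]
  have hdvd := char_dvd_card_solutions_of_fintype_sum_lt p hsum
  obtain ⟨a, ha, ha0⟩ : ∃ a : Fin (finrank F K) → F, (∀ j, MvPolynomial.eval a (f j) = 0) ∧ a ≠ 0 := by
    by_contra hcon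
    push Not at hcon
    have h0 : ∀ j, MvPolynomial.eval (0 : Fin (finrank F K) → F) (f j) = 0 := fun j => by rw [heval]; simp
    have h1 : Fintype.card {a : Fin (finrank F K) → F // ∀ j, MvPolynomial.eval a (f j) = 0} = 1 := by
      rw [Fintype.card_eq_one_iff]
      exact ⟨⟨0, h0⟩, fun a => Subtype.ext (hcon a.1 a.2)⟩
    have h1' : p ∣ 1 := by rw [← h1]; convert hdvd
    exact (Fact.out : p.Prime).one_lt.ne' (Nat.dvd_one.1 h1')
  set w : V := ∑ k, a k • (b k : V) with hwdef
  have hw : w ∈ K := K.sum_mem fun k _ => K.smul_mem _ (b k).2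
  have hw0 : w ≠ 0 := fun h => ha0 (funext fun k => Fintype.linearIndependent_iff.1
    (b.linearIndependent.map' K.subtype (Submodule.ker_subtype K)) a h k)
  have hzero : ∀ j, j < i → B w ((x ^ j) w) = 0 := fun j hj => by
    rcases Nat.eq_zero_or_pos j with rfl | hj0
    · exact hA w
    · have := ha ⟨j - 1, by omega⟩
      rw [heval, ← hwdef] at this
      simpa only [Nat.sub_add_cancel hj0] using this
  let v : Fin i → V := fun l => (x ^ (l : ℕ)) w
  have hU : Ti B (Submodule.span F (Set.range v)) := by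
    have key : ∀ a c : Fin i, B (v a) (v c) = 0 := by
      have hle : ∀ a c : Fin i, (a : ℕ) ≤ c → B (v a) (v c) = 0 := fun a c hac => by
        show B ((x ^ (a : ℕ)) w) ((x ^ (c : ℕ)) w) = 0
        rw [← Nat.add_sub_cancel' hac, pow_add, Module.End.mul_apply, iso_pow hx]
        exact hzero _ (by have := c.2; omega)
      intro a c
      rcases le_total (a : ℕ) c with h | h
      · exact hle a c h
      · exact hA.isRefl _ _ (hle c a h)
    intro y hy z hz
    induction hy using Submodule.span_induction with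
    | mem y hy =>
      obtain ⟨a, rfl⟩ := hy
      induction hz using Submodule.span_induction with
      | mem z hz => obtain ⟨c, rfl⟩ := hz; exact key a c
      | zero => simp
      | add p q _ _ hp hq => rw [map_add, hp, hq, add_zero]
      | smul e p _ hp => rw [map_smul, hp, smul_zero]
    | zero => simp
    | add p q _ _ hp hq => rw [map_add, LinearMap.add_apply, hp, hq, add_zero]
    | smul e p _ hp => rw [map_smul, LinearMap.smul_apply, hp, smul_zero]
  have hUK : Submodule.span F (Set.range v) ≤ K := by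
    rw [Submodule.span_le]; rintro _ ⟨l, rfl⟩; exact hKi.pow _ w hw
  refine ⟨_, hUK, ?_, hU, fun h => hw0 ?_, (finrank_range_le_card v).trans_eq (Fintype.card_fin i)⟩
  · rw [inv_iff_map_le, Submodule.map_span, Submodule.span_le]
    rintro _ ⟨_, ⟨l, rfl⟩, rfl⟩
    rw [SetLike.mem_coe, show x (v l) = (x ^ ((l : ℕ) + 1)) w by rw [pow_succ', Module.End.mul_apply]]
    rcases Nat.lt_or_ge ((l : ℕ) + 1) i with h | h
    · exact Submodule.subset_span ⟨⟨_, h⟩, rfl⟩
    · have hgw := hKg w hw
      rw [hg.as_sum] at hgw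
      simp only [map_add, map_pow, Polynomial.aeval_X, map_sum, map_mul, Polynomial.aeval_C,
        LinearMap.add_apply, LinearMap.sum_apply, Module.End.mul_apply, Module.algebraMap_end_apply] at hgw
      rw [show (l : ℕ) + 1 = g.natDegree by have := l.2; omega, eq_neg_of_add_eq_zero_left hgw]
      refine Submodule.neg_mem _ (Submodule.sum_mem _ fun j hj => Submodule.smul_mem _ _ ?_)
      exact Submodule.subset_span ⟨⟨j, Finset.mem_range.1 hj⟩, rfl⟩
  · have : v ⟨0, hg0⟩ ∈ Submodule.span F (Set.range v) := Submodule.subset_span ⟨_, rfl⟩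
    rw [h, Submodule.mem_bot] at this
    simpa [v] using this

end Inv

theorem finrank_ker_comp_le (a b : Module.End F V) (P : Submodule F V) (hb : ∀ v ∈ P, b v ∈ P) :
    finrank F (P ⊓ LinearMap.ker (a * b) : Submodule F V) ≤
      finrank F (P ⊓ LinearMap.ker a : Submodule F V) + finrank F (P ⊓ LinearMap.ker b : Submodule F V) := by
  let L : (P ⊓ LinearMap.ker (a * b) : Submodule F V) →ₗ[F] (P ⊓ LinearMap.ker a : Submodule F V) :=
    LinearMap.codRestrict _ (b ∘ₗ Submodule.subtype _) fun v => ⟨hb _ v.2.1, v.2.2⟩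
  have h := LinearMap.finrank_range_add_finrank_ker L
  have h1 := Submodule.finrank_le (LinearMap.range L)
  have h2 : (LinearMap.ker L).map (Submodule.subtype _) ≤ P ⊓ LinearMap.ker b := by
    rintro _ ⟨v, hv, rfl⟩
    exact ⟨v.2.1, congrArg Subtype.val (LinearMap.mem_ker.1 hv)⟩
  have h3 := Submodule.finrank_mono h2
  rw [Submodule.finrank_map_subtype_eq] at h3
  omega

variable [Fintype F] {r : ℕ} [Fact r.Prime] {p : ℕ} [Fact p.Prime] [CharP F p] {y : Module.End F V}

theorem aeval_inf_inv {P : Submodule F V} (hP : Inv y P) (g : F[X]) :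
    Inv y (P ⊓ LinearMap.ker (Polynomial.aeval y g)) := fun v hv => ⟨hP v hv.1, by
  rw [SetLike.mem_coe, LinearMap.mem_ker]
  have hc : Polynomial.aeval y g * y = y * Polynomial.aeval y g := by
    have hX := Polynomial.aeval_X (R := F) y
    calc Polynomial.aeval y g * y = Polynomial.aeval y (g * X) := by rw [map_mul, hX]
      _ = Polynomial.aeval y (X * g) := by rw [mul_comm]
      _ = _ := by rw [map_mul, hX]
  rw [← Module.End.mul_apply, hc, Module.End.mul_apply, LinearMap.mem_ker.1 hv.2, map_zero]⟩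

include p in
/-- Totally isotropic pieces for odd `i`. -/
theorem find_odd (S : Setting B y r p) (hi : ¬ Even (orderOf (Fintype.card F : ZMod r)))
    {P : Submodule F V} (hP : Inv y P) (hPC : P ⊓ fixedSpace y = ⊥) (hne : P ≠ ⊥) :
    ∃ U ≤ P, Inv y U ∧ Ti B U ∧ finrank F U = orderOf (Fintype.card F : ZMod r) := by
  obtain ⟨R, h⟩ := SympStep.exists_step S
  obtain ⟨U, hU, hUP, hUd⟩ := h.small P hP hPC hne
  have hUC : U ⊓ fixedSpace y = ⊥ := eq_bot_iff.2 (hPC ▸ inf_le_inf_right _ hUP)
  refine ⟨U, hUP, hU, ?_, hUd⟩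
  have hd := h.dvd _ (perp_inv S hU hU) (eq_bot_iff.2 (hUC ▸ inf_le_inf_right _ inf_le_left))
  rcases Nat.eq_zero_or_pos (finrank F (perpIn B U U)) with h0 | h0
  · refine absurd (hUd ▸ nd_even S.alt (fun z hz hrad => ?_)) hi
    exact (Submodule.mem_bot F).1 (Submodule.finrank_eq_zero.1 h0 ▸
      mem_perpIn.2 ⟨hz, fun u hu => S.alt.isRefl z u (hrad u hu)⟩)
  · have hle : perpIn B U U = U :=
      Submodule.eq_of_le_of_finrank_le inf_le_left (hUd ▸ Nat.le_of_dvd h0 hd)
    exact fun u hu v hv => (mem_perpIn.1 (hle.symm ▸ hv : v ∈ perpIn B U U)).2 u hu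

theorem factors_facts [DecidableEq F] (hrp : r ≠ p) :
    (UniqueFactorizationMonoid.normalizedFactors (cyclotomic r F)).Nodup ∧
      Multiset.card (UniqueFactorizationMonoid.normalizedFactors (cyclotomic r F)) *
        orderOf (Fintype.card F : ZMod r) = r - 1 ∧
      (UniqueFactorizationMonoid.normalizedFactors (cyclotomic r F)).prod = cyclotomic r F := by
  classical
  have hr : r.Prime := Fact.out
  set s := UniqueFactorizationMonoid.normalizedFactors (cyclotomic r F) with hs
  have hprod : s.prod = cyclotomic r F :=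
    Polynomial.eq_of_monic_of_associated
      (by simpa using monic_multiset_prod_of_monic s (fun g => g) fun g hg => (factor_cyclotomic hrp hg).1)
      (cyclotomic.monic r F)
      (by simpa using UniqueFactorizationMonoid.prod_normalizedFactors (cyclotomic_ne_zero r F))
  haveI : NeZero (r : F) := ⟨fun h => hrp ((Nat.prime_dvd_prime_iff_eq Fact.out hr).1 ((CharP.cast_eq_zero_iff F p r).1 h)).symm⟩
  refine ⟨(UniqueFactorizationMonoid.squarefree_iff_nodup_normalizedFactors (cyclotomic_ne_zero r F)).1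
    ((separable_cyclotomic r F).squarefree), ?_, hprod⟩
  have hd := congrArg natDegree hprod
  rw [natDegree_multiset_prod _ (UniqueFactorizationMonoid.zero_notMem_normalizedFactors _), natDegree_cyclotomic,
    Nat.totient_prime hr] at hd
  have hconst : s.map natDegree = Multiset.replicate (Multiset.card s) (orderOf (Fintype.card F : ZMod r)) := by
    refine Multiset.eq_replicate.2 ⟨Multiset.card_map _ _, fun a ha => ?_⟩
    obtain ⟨g, hg, rfl⟩ := Multiset.mem_map.1 ha
    rw [(factor_cyclotomic hrp hg).2.2, Nat.card_eq_fintype_card]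
  rw [hconst, Multiset.sum_replicate, smul_eq_mul] at hd
  exact hd

include p in
/-- Totally isotropic pieces in large spaces. -/
theorem find_even (S : Setting B y r p) {P : Submodule F V} (hP : Inv y P) (hPC : P ⊓ fixedSpace y = ⊥)
    (hbig : (r - 1) + 1 ≤ finrank F P) :
    ∃ U ≤ P, Inv y U ∧ Ti B U ∧ finrank F U = orderOf (Fintype.card F : ZMod r) := by
  classical
  obtain ⟨R, h⟩ := SympStep.exists_step S
  obtain ⟨hnd, hcard, hprod⟩ := factors_facts (F := F) (r := r) S.ne
  set i := orderOf (Fintype.card F : ZMod r) with hidef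
  set s := UniqueFactorizationMonoid.normalizedFactors (cyclotomic r F)
  have hkill : ∀ v ∈ P, Polynomial.aeval y s.prod v = 0 := fun v hv => by
    rw [hprod]
    refine (Submodule.mem_bot F).1 (hPC ▸ ⟨hP.aeval _ v hv, mem_fixed.2 ?_⟩)
    have h : Polynomial.aeval y ((X - 1 : F[X]) * cyclotomic r F) v = 0 := by
      rw [mul_comm, cyclotomic_prime_mul_X_sub_one, map_sub, map_pow, aeval_X, map_one,
        LinearMap.sub_apply, S.pow, Module.End.one_apply, sub_self]
    rw [map_mul, Module.End.mul_apply, map_sub, aeval_X, map_one, LinearMap.sub_apply,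
      Module.End.one_apply, sub_eq_zero] at h
    exact h
  have hsum : ∀ s' : Multiset F[X], finrank F (P ⊓ LinearMap.ker (Polynomial.aeval y s'.prod) : Submodule F V) ≤
      (s'.map fun g => finrank F (P ⊓ LinearMap.ker (Polynomial.aeval y g) : Submodule F V)).sum := by
    intro s'
    induction s' using Multiset.induction with
    | empty => rw [Multiset.prod_zero, map_one, Module.End.one_eq_id, LinearMap.ker_id, inf_bot_eq, finrank_bot]; exact Nat.zero_le _
    | cons g s' ih =>
      rw [Multiset.prod_cons, map_mul, Multiset.map_cons, Multiset.sum_cons]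
      exact (finrank_ker_comp_le _ _ P fun v hv => hP.aeval _ v hv).trans (Nat.add_le_add_left ih _)
  obtain ⟨g, hg, hgd⟩ : ∃ g ∈ s, i < finrank F (P ⊓ LinearMap.ker (Polynomial.aeval y g) : Submodule F V) := by
    by_contra hcon
    push Not at hcon
    have h1 := hsum s
    rw [show P ⊓ LinearMap.ker (Polynomial.aeval y s.prod) = P from inf_eq_left.2 fun v hv => hkill v hv] at h1
    have h2 : (s.map fun g => finrank F (P ⊓ LinearMap.ker (Polynomial.aeval y g) : Submodule F V)).sum ≤
        (s.map fun _ => i).sum := Multiset.sum_map_le_sum_map _ _ hcon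
    rw [Multiset.map_const', Multiset.sum_replicate, smul_eq_mul, hcard] at h2
    omega
  obtain ⟨hgm, -, hgdeg⟩ := factor_cyclotomic S.ne hg
  rw [Nat.card_eq_fintype_card, ← hidef] at hgdeg
  have hi0 : 0 < i := order_pos S
  set K := P ⊓ LinearMap.ker (Polynomial.aeval y g)
  have hKi : Inv y K := aeval_inf_inv hP g
  have hKC : K ⊓ fixedSpace y = ⊥ := eq_bot_iff.2 (hPC ▸ inf_le_inf_right _ inf_le_left)
  have hKd : 2 * i ≤ finrank F K := by
    obtain ⟨e, he⟩ := h.dvd K hKi hKC
    rw [he] at hgd ⊢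
    have : 2 ≤ e := by
      by_contra he2
      have := Nat.mul_le_mul_left i (show e ≤ 1 by omega)
      omega
    rw [mul_comm 2]
    exact Nat.mul_le_mul_left i this
  obtain ⟨U, hUK, hUi, hU, hU0, hUd⟩ := exists_cyclic_ti (p := p) S.alt S.iso hgm (by omega) hKi
    (fun w hw => LinearMap.mem_ker.1 hw.2) (by omega)
  refine ⟨U, hUK.trans inf_le_left, hUi, hU, le_antisymm (hgdeg ▸ hUd) (Nat.le_of_dvd (Nat.pos_of_ne_zero fun h0 => ?_)
    (h.dvd U hUi (eq_bot_iff.2 (hKC ▸ inf_le_inf_right _ hUK))))⟩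
  exact hU0 (Submodule.finrank_eq_zero.1 h0)

end Cfsg.Agent.Lib.Elusive.SympTI
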