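import Cfsg.Agent.Lib.Elusive.OrthSingCount
import Cfsg.Agent.Lib.Elusive.SympTI

/-!
Invariant totally singular subspaces of isometries of odd prime order.
-/

set_option autoImplicit false
set_option maxHeartbeats 800000

namespace Cfsg.Agent.Lib.Elusive.OrthSingTS

open Module QuadraticMap Cfsg.Agent.Lib.Classical.Quad Cfsg.Agent.Lib.Classical.QuadOmega
open Cfsg.Agent.Lib.Classical.QuadF2 Cfsg.Agent.Lib.Classical.OrthTorsion Cfsg.Agent.Lib.Elusive.OrthType
open Cfsg.Agent.Lib.Elusive.OrthStep Cfsg.Agent.Lib.Elusive.OrthSingCount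
open Cfsg.Agent.Lib.Elusive.SympStep (fixedSpace mem_fixed cOf)

universe u

variable {F : Type u} [Field F] {V : Type u} [AddCommGroup V] [Module F V] [FiniteDimensional F V]
variable {Q : QuadraticForm F V}

theorem tsing_sup {A B : Submodule F V} (hA : TSing Q A) (hB : TSing Q B) (ho : Orth Q A B) :
    TSing Q (A ⊔ B) := by
  intro x hx
  obtain ⟨a, ha, b, hb, rfl⟩ := Submodule.mem_sup.1 hx
  rw [QuadraticMap.map_add ⇑Q, hA a ha, hB b hb, ho a ha b hb, zero_add, add_zero]

theorem tsing_mono {A B : Submodule F V} (hA : TSing Q A) (h : B ≤ A) : TSing Q B := fun x hx => hA x (h hx)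

theorem tsing_bot : TSing Q (⊥ : Submodule F V) := fun x hx => by rw [(Submodule.mem_bot F).1 hx, map_zero]

theorem exists_dim_sub (U : Submodule F V) {s : ℕ} (hs : s ≤ finrank F U) : ∃ T ≤ U, finrank F T = s := by
  obtain ⟨f, hf⟩ := exists_linearIndependent_of_le_finrank hs
  have hli : LinearIndependent F fun i => (f i : V) := hf.map' U.subtype U.ker_subtype
  refine ⟨Submodule.span F (Set.range fun i => (f i : V)), ?_, by rw [finrank_span_eq_card hli, Fintype.card_fin]⟩
  rw [Submodule.span_le]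
  rintro _ ⟨i, rfl⟩
  exact (f i).2

variable [Fintype F]

/-- Totally singular subspaces of every dimension the index allows. -/
theorem exists_ts_sub {W : Submodule F V} (hW : NdOn Q W) {s : ℕ} (h1 : 2 * s ≤ finrank F W)
    (h2 : 2 * s = finrank F W → Plus Q W) : ∃ U ≤ W, TSing Q U ∧ finrank F U = s := by
  rcases Nat.eq_zero_or_pos s with rfl | hs
  · exact ⟨⊥, bot_le, tsing_bot, finrank_bot F V⟩
  rcases Nat.eq_or_lt_of_le h1 with he | hl
  · obtain ⟨U, hU, hUT, hUd⟩ := h2 he
    exact ⟨U, hU, hUT, by omega⟩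
  · obtain ⟨P, hP, -, hPd, hPp⟩ := exists_sub hW hs hl True
    obtain ⟨U, hU, hUT, hUd⟩ := hPp.2 trivial
    exact ⟨U, hU.trans hP, hUT, by omega⟩

variable {p r : ℕ} [Fact p.Prime] [CharP F p] [Fact r.Prime] {y : Module.End F V}

/-- An invariant subspace is the sum of its fixed and moved parts. -/
theorem split_inv (S : OrthStep.Setting Q y r p) {W : Submodule F V} (hW : Inv y W) :
    Inv y (W ⊓ moved y r) ∧ (W ⊓ moved y r) ⊓ fixedSpace y = ⊥ ∧
      finrank F W = finrank F (W ⊓ fixedSpace y : Submodule F V) + finrank F (W ⊓ moved y r : Submodule F V) := by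
  have hbot : (W ⊓ moved y r) ⊓ fixedSpace y = ⊥ := by
    rw [eq_bot_iff, ← moved_inf_fixed S]
    exact inf_le_inf_right _ inf_le_right
  have hsup : (W ⊓ fixedSpace y) ⊔ (W ⊓ moved y r) = W := by
    refine le_antisymm (sup_le inf_le_left inf_le_left) fun v hv => ?_
    set e : V := (r : F)⁻¹ • (∑ j ∈ Finset.range r, y ^ j : Module.End F V) v with he
    have heW : e ∈ W := by
      refine W.smul_mem _ ?_
      rw [LinearMap.sum_apply]
      exact Submodule.sum_mem _ fun j _ => hW.pow j v hv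
    have hef : y e = e := by rw [he, map_smul, avg_fixed S]
    refine Submodule.mem_sup.2 ⟨e, ⟨heW, mem_fixed.2 hef⟩, v - e, ⟨W.sub_mem hv heW, ?_⟩, add_sub_cancel e v⟩
    rw [SetLike.mem_coe, LinearMap.mem_ker, map_sub, avg_of_fixed hef, he, smul_smul,
      mul_inv_cancel₀ (cast_ne S), one_smul, sub_self]
  refine ⟨hW.inf moved_inv, hbot, ?_⟩
  have h := Submodule.finrank_sup_add_finrank_inf_eq (W ⊓ fixedSpace y) (W ⊓ moved y r)
  rw [hsup, show (W ⊓ fixedSpace y) ⊓ (W ⊓ moved y r) = ⊥ from eq_bot_iff.2 (hbot ▸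
    le_inf inf_le_right (inf_le_left.trans inf_le_right)), finrank_bot, add_zero] at h
  exact h

/-- A moved invariant subspace has dimension a multiple of the order of `q`. -/
theorem moved_dvd (S : OrthStep.Setting Q y r p) {W : Submodule F V} (hW : Inv y W) (hWC : W ⊓ fixedSpace y = ⊥) :
    orderOf (Fintype.card F : ZMod r) ∣ finrank F W := by
  obtain ⟨R, h⟩ := step_pow (r := r) (x := y) S.ne (one_ne_zero : (1 : F) ≠ 0)
    (fun v => by rw [S.pow, one_pow, one_smul])
  rw [Nat.card_eq_fintype_card] at h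
  exact h.dvd W hW hWC

/-- An alternating form on a moved subspace whose totally isotropic invariant subspaces are totally singular. -/
theorem exists_alt (S : OrthStep.Setting Q y r p) {R : Submodule F V} (hR : Inv y R) (hn : NdOn Q R)
    (hRC : R ⊓ fixedSpace y = ⊥) :
    ∃ B : LinearMap.BilinForm F R, SympStep.Setting B (y.restrict hR) r p ∧
      fixedSpace (y.restrict hR) = ⊥ ∧
      ∀ U : Submodule F R, Inv (y.restrict hR) U → SympTI.Ti B U → TSing Q (U.map R.subtype) := by
  have hr : r.Prime := Fact.out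
  obtain ⟨r', hr'⟩ := hr.odd_of_ne_two S.ne_two
  let B : LinearMap.BilinForm F R :=
    ((polarBilin Q).comp (y - y ^ (r - 1))).compl₁₂ R.subtype R.subtype
  have hBv : ∀ a b : R, B a b = polar Q (y (a : V)) (b : V) - polar Q ((y ^ (r - 1)) (a : V)) (b : V) :=
    fun a b => by
      show polarBilin Q ((y - y ^ (r - 1)) (a : V)) (b : V) = _
      rw [LinearMap.sub_apply, map_sub, LinearMap.sub_apply]
      rfl
  have hback : ∀ v, y ((y ^ (r - 1)) v) = v := fun v => by
    rw [← Module.End.mul_apply, ← pow_succ', Nat.sub_add_cancel hr.one_le, S.pow]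
  have hBA : B.IsAlt := fun a => by
    rw [hBv]
    have h := polar_y S ((y ^ (r - 1)) (a : V)) (a : V)
    rw [hback] at h
    rw [polar_comm Q (y (a : V)), h, sub_self]
  have hzero : ∀ v ∈ R, y v - (y ^ (r - 1)) v = 0 → v = 0 := fun v hv h => by
    have h2 : (y ^ 2) v = v := by rw [pow_two, Module.End.mul_apply, sub_eq_zero.1 h, hback]
    have h2k : ∀ k, ((y ^ 2) ^ k) v = v := fun k => by
      induction k with
      | zero => rfl
      | succ k ih => rw [pow_succ', Module.End.mul_apply, ih, h2]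
    have h1 := S.pow v
    rw [hr', pow_succ', Module.End.mul_apply, pow_mul, h2k] at h1
    exact (Submodule.mem_bot F).1 (hRC ▸ ⟨hv, mem_fixed.2 h1⟩)
  have hpow : ∀ (k : ℕ) (a : R), ((y.restrict hR ^ k) a : V) = (y ^ k) (a : V) := fun k => by
    induction k with
    | zero => exact fun a => rfl
    | succ k ih =>
      intro a
      rw [pow_succ', pow_succ', Module.End.mul_apply, Module.End.mul_apply, ← ih]
      rfl
  have hcomm : ∀ v, (y ^ (r - 1)) (y v) = y ((y ^ (r - 1)) v) := fun v => by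
    rw [← Module.End.mul_apply, ← Module.End.mul_apply, pow_mul_comm']
  have T : SympStep.Setting B (y.restrict hR) r p := by
    refine ⟨hBA, fun a ha => Subtype.ext (hzero a a.2 (hn _ ?_ fun b hb => ?_)), fun a b => ?_,
      fun a => Subtype.ext (by rw [hpow, S.pow]), S.ne, S.ne_two⟩
    · exact R.sub_mem (hR _ a.2) (hR.pow _ _ a.2)
    · have := ha ⟨b, hb⟩
      rw [hBv] at this
      rw [sub_eq_add_neg, polar_add_left, polar_neg_left, ← sub_eq_add_neg]
      exact this
    · rw [hBv, hBv]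
      show polar Q (y (y (a : V))) (y (b : V)) - polar Q ((y ^ (r - 1)) (y (a : V))) (y (b : V)) = _
      rw [hcomm, polar_y S, polar_y S]
  refine ⟨B, T, eq_bot_iff.2 fun a ha => (Submodule.mem_bot F).2 (Subtype.ext
    ((Submodule.mem_bot F).1 (hRC ▸ ⟨a.2, mem_fixed.2 (congrArg Subtype.val (mem_fixed.1 ha) :)⟩))), ?_⟩
  intro U hU hTi
  set U' := U.map R.subtype with hU'
  have hUi : Inv y U' := by
    rintro _ ⟨a, ha, rfl⟩
    exact ⟨_, hU a ha, rfl⟩
  have hUR : U' ≤ R := Submodule.map_subtype_le R U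
  let D : U' →ₗ[F] U' := (y - y ^ (r - 1)).restrict fun v hv =>
    Submodule.sub_mem _ (hUi v hv) (hUi.pow _ v hv)
  have hD : Function.Injective D := (injective_iff_map_eq_zero _).2 fun a ha => Subtype.ext
    (hzero a (hUR a.2) (congrArg Subtype.val ha :))
  have hpolar : ∀ x ∈ U', ∀ w ∈ U', polar Q x w = 0 := by
    intro x hx w hw
    obtain ⟨⟨_, a, ha, rfl⟩, hax⟩ := LinearMap.injective_iff_surjective.1 hD ⟨x, hx⟩
    obtain ⟨b, hb, rfl⟩ := hw
    have hax' : y (a : V) - (y ^ (r - 1)) (a : V) = x := congrArg Subtype.val hax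
    have h := hTi a ha b hb
    rw [hBv] at h
    rw [← hax', sub_eq_add_neg, polar_add_left, polar_neg_left, ← sub_eq_add_neg]
    exact h
  intro v hv
  have hQpow : ∀ k, Q ((y ^ k) v) = Q v := fun k => by
    induction k with
    | zero => rfl
    | succ k ih => rw [pow_succ', Module.End.mul_apply, S.iso, ih]
  have hsum : ∀ k, Q (∑ j ∈ Finset.range k, (y ^ j) v) = (k : F) * Q v := fun k => by
    induction k with
    | zero => simp
    | succ k ih =>
      rw [Finset.sum_range_succ, QuadraticMap.map_add ⇑Q, ih, hQpow,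
        hpolar _ (Submodule.sum_mem _ fun j _ => hUi.pow j v hv) _ (hUi.pow k v hv), add_zero]
      push_cast; ring
  have h0 : ∑ j ∈ Finset.range r, (y ^ j) v = 0 := by
    refine (Submodule.mem_bot F).1 (hRC ▸ ⟨Submodule.sum_mem _ fun j _ => hR.pow j v (hUR hv), mem_fixed.2 ?_⟩)
    have := avg_fixed S v
    rwa [LinearMap.sum_apply] at this
  have := hsum r
  rw [h0, map_zero] at this
  exact (mul_eq_zero.1 this.symm).resolve_left (cast_ne S)

/-- The largest number of pieces of an invariant totally singular subspace that every element allows. -/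
def eMax (i u t : ℕ) : ℕ := if Even i then (u + 1 - t) / 2 else u

/-- Invariant totally singular subspaces in the moved part. -/
theorem exists_ts_inv (S : OrthStep.Setting Q y r p) {R : Submodule F V} (hR : Inv y R) (hn : NdOn Q R)
    (hRC : R ⊓ fixedSpace y = ⊥) {i u w : ℕ} (hi : i = orderOf (Fintype.card F : ZMod r))
    (hu : finrank F R = u * cOf i) (hw : w ≤ eMax i u ((r - 1) / i)) :
    ∃ U ≤ R, Inv y U ∧ TSing Q U ∧ finrank F U = w * i := by
  subst hi
  set i := orderOf (Fintype.card F : ZMod r) with hidef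
  obtain ⟨B, T, hfix, hTS⟩ := exists_alt S hR hn hRC
  rcases Nat.eq_zero_or_pos w with rfl | hw0
  · exact ⟨⊥, bot_le, fun v hv => by simp [(Submodule.mem_bot F).1 hv], tsing_bot, by simp⟩
  have hrF : (r : F) ≠ 0 := cast_ne S
  have hy1 : ∀ a : R, ((y.restrict hR) ^ r) a = (1 : F) • a := fun a => by rw [one_smul, T.pow]
  have hi0 : 0 < i := SympStep.order_pos T
  obtain ⟨U, -, hU, hUt, hUd⟩ : ∃ U ≤ (⊤ : Submodule F R), Inv (y.restrict hR) U ∧ SympTI.Ti B U ∧
      finrank F U = w * i := by
    rcases Nat.even_or_odd i with hie | hio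
    · rw [eMax, if_pos hie] at hw
      rw [cOf, if_pos hie] at hu
      refine SympTI.exists_ti_inv T.alt T.iso one_ne_zero hrF hy1 (P₀ := ⊤) (i := i) (D₀ := r - 1 + 1)
        (fun P _ hPi _ hPd => SympTI.find_even T hPi (by rw [hfix, inf_bot_eq]) hPd) w (P := ⊤) le_rfl
        (fun _ _ => trivial) (SympStep.nd_top T.sep) ?_
      rw [finrank_top, hu]
      have hidvd : i ∣ r - 1 := orderOf_dvd_of_pow_eq_one (ZMod.pow_card_sub_one_eq_one fun h =>
        OrthOdd.cast_q_ne S.ne ((ZMod.natCast_eq_zero_iff _ r).1 h))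
      have ht : (r - 1) / i * i = r - 1 := Nat.div_mul_cancel hidvd
      have h2 : (r - 1) / i + 2 * w ≤ u + 1 := by omega
      have h3 := Nat.mul_le_mul_right i h2
      rw [add_mul, add_mul, one_mul, mul_assoc] at h3
      omega
    · rw [eMax, if_neg (Nat.not_even_iff_odd.2 hio)] at hw
      rw [cOf, if_neg (Nat.not_even_iff_odd.2 hio)] at hu
      refine SympTI.exists_ti_inv T.alt T.iso one_ne_zero hrF hy1 (P₀ := ⊤) (i := i) (D₀ := 1)
        (fun P _ hPi _ hPd => SympTI.find_odd T (Nat.not_even_iff_odd.2 hio) hPi (by rw [hfix, inf_bot_eq])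
          fun h => by rw [h, finrank_bot] at hPd; omega) w (P := ⊤) le_rfl
        (fun _ _ => trivial) (SympStep.nd_top T.sep) ?_
      rw [finrank_top, hu]
      have : w * i ≤ u * i := Nat.mul_le_mul_right i hw
      have e : u * (2 * i) = 2 * (u * i) := by ring
      omega
  refine ⟨U.map R.subtype, Submodule.map_subtype_le R U, ?_, hTS U hU hUt,
    (Submodule.finrank_map_subtype_eq R U).trans hUd⟩
  rintro _ ⟨a, ha, rfl⟩
  exact ⟨_, hU a ha, rfl⟩

end Cfsg.Agent.Lib.Elusive.OrthSingTS
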