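import Cfsg.Agent.Lib.Elusive.OrthSingTS
import Cfsg.Agent.Lib.Elusive.OrthInvol

/-!
Elements with scalar square and invariant totally singular subspaces, odd characteristic.
-/

set_option autoImplicit false
set_option maxHeartbeats 1000000

namespace Cfsg.Agent.Lib.Elusive.OrthSingTwo

open Module QuadraticMap
open scoped Matrix
open Cfsg.Agent.Lib.Classical.Quad Cfsg.Agent.Lib.Classical.QuadOmega
open Cfsg.Agent.Lib.Classical.QuadF2 Cfsg.Agent.Lib.Classical.OrthTorsion Cfsg.Agent.Lib.Elusive.OrthType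
open Cfsg.Agent.Lib.Elusive.OrthInvol Cfsg.Agent.Lib.Elusive.OrthSingCount Cfsg.Agent.Lib.Elusive.OrthSingTS
open Cfsg.Agent.Lib.Forms (isoMat isoMat_mulVec)

universe u

variable {F : Type u} [Field F] [Fintype F] {V : Type u} [AddCommGroup V] [Module F V] [FiniteDimensional F V]
variable {Q : QuadraticForm F V}

/-! ### Minus the identity on a subspace -/

/-- Peeling off a non-singular vector. -/
theorem peel [Finite V] (hQ : Nd Q) (h2 : (2 : F) ≠ 0) {U : Submodule F V} (g : isoG Q) (hU : NdOn Q U)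
    (hneg : ∀ v ∈ U, g.1 v = -v) (hfix : ∀ v ∈ OrthType.perp Q U ⊤, g.1 v = v) (hd : 0 < finrank F U) :
    ∃ (v : V) (R : Submodule F V) (g' : isoG Q), v ∈ U ∧ Q v ≠ 0 ∧ R ≤ U ∧ NdOn Q R ∧ finrank F R + 1 = finrank F U ∧
      (∀ x ∈ R, polar Q x v = 0) ∧ (∀ x ∈ R, g'.1 x = -x) ∧ (∀ x ∈ OrthType.perp Q R ⊤, g'.1 x = x) ∧
      Submodule.span F {v} ⊔ R = U ∧ dick hQ g = -dick hQ g' ∧ spn hQ g = sqSign (Q v) * spn hQ g' := by
  obtain ⟨v, hv, hQv⟩ : ∃ v ∈ U, Q v ≠ 0 := by
    by_contra! hall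
    have : U = ⊥ := eq_bot_iff.2 fun x hx => (Submodule.mem_bot F).2 <| hU x hx fun z hz => by
      rw [polar, hall _ (U.add_mem hx hz), hall _ hx, hall _ hz]; simp
    rw [this, finrank_bot] at hd
    omega
  have hv0 : v ≠ 0 := fun h => hQv (by rw [h, map_zero])
  have hPn : NdOn Q (Submodule.span F {v}) := fun x hx h => by
    obtain ⟨t, rfl⟩ := Submodule.mem_span_singleton.1 hx
    have := h v (Submodule.mem_span_singleton_self v)
    rw [polar_smul_left, polar_self, two_nsmul, smul_eq_mul, ← two_mul] at this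
    rw [(mul_eq_zero.1 this).resolve_right (mul_ne_zero h2 hQv), zero_smul]
  have hPU : Submodule.span F {v} ≤ U := (Submodule.span_singleton_le_iff_mem _ _).2 hv
  obtain ⟨hRn, hsup, hRd⟩ := ndOn_split hPn hU hPU
  set R := OrthType.perp Q (Submodule.span F {v}) U
  rw [finrank_span_singleton hv0] at hRd
  have hRv : ∀ x ∈ R, polar Q x v = 0 := fun x hx => by
    rw [polar_comm]; exact (mem_perp.1 hx).2 v (Submodule.mem_span_singleton_self v)
  set g' := refl Q v * g with hg'
  have happ : ∀ x, g'.1 x = (refl Q v).1 (g.1 x) := fun x => rfl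
  have hrv : (refl Q v).1 v = -v := by
    rw [refl_apply hQv, polar_self, two_nsmul, ← two_mul, mul_div_assoc, div_self hQv, mul_one, two_smul,
      sub_add_cancel_left]
  obtain ⟨-, hsupV, -⟩ := ndOn_split hU (ndOn_top hQ) le_top
  refine ⟨v, R, g', hv, hQv, inf_le_left, hRn, by omega, hRv, fun x hx => ?_, fun x hx => ?_, hsup, ?_, ?_⟩
  · rw [happ, hneg x (mem_perp.1 hx).1, map_neg, refl_apply_perp hQv (hRv x hx)]
  · have hx' : x ∈ U ⊔ OrthType.perp Q U ⊤ := by rw [hsupV]; exact Submodule.mem_top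
    obtain ⟨x₁, hx₁, x₂, hx₂, rfl⟩ := Submodule.mem_sup.1 hx'
    rw [← hsup] at hx₁
    obtain ⟨a, ha, b, hb, rfl⟩ := Submodule.mem_sup.1 hx₁
    obtain ⟨t, rfl⟩ := Submodule.mem_span_singleton.1 ha
    have hb0 : b = 0 := hRn b hb fun z hz => by
      have e := (mem_perp.1 hx).2 z hz
      rw [polar_add_right, polar_add_right, polar_smul_right, hRv z hz, smul_zero, zero_add,
        (mem_perp.1 hx₂).2 z (mem_perp.1 hz).1, add_zero, polar_comm] at e
      exact e
    subst hb0
    rw [happ, add_zero, map_add, map_smul, hneg v hv, hfix x₂ hx₂, map_add, map_smul, map_neg, hrv, neg_neg,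
      refl_apply_perp hQv (by rw [polar_comm]; exact (mem_perp.1 hx₂).2 v hv)]
  · rw [hg', map_mul, dick_refl hQ hQv, neg_one_mul, neg_neg]
  · rw [hg', map_mul, spn_refl hQ h2 hQv, ← mul_assoc, Int.units_mul_self, one_mul]

/-- The type of an orthogonal plane. -/
theorem plane_plus (h2 : (2 : F) ≠ 0) {v w : V} (hv : Q v ≠ 0) (hw : Q w ≠ 0) (ho : polar Q v w = 0) :
    NdOn Q (Submodule.span F {v} ⊔ Submodule.span F {w}) ∧
      finrank F (Submodule.span F {v} ⊔ Submodule.span F {w} : Submodule F V) = 2 ∧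
      (Plus Q (Submodule.span F {v} ⊔ Submodule.span F {w}) ↔
        (IsSquare (-1 : F) ↔ sqSign (Q v) * sqSign (Q w) = 1)) := by
  have hn : ∀ v : V, Q v ≠ 0 → NdOn Q (Submodule.span F {v}) := fun v hQv x hx h => by
    obtain ⟨t, rfl⟩ := Submodule.mem_span_singleton.1 hx
    have := h v (Submodule.mem_span_singleton_self v)
    rw [polar_smul_left, polar_self, two_nsmul, smul_eq_mul, ← two_mul] at this
    rw [(mul_eq_zero.1 this).resolve_right (mul_ne_zero h2 hQv), zero_smul]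
  have hO : Orth Q (Submodule.span F {v}) (Submodule.span F {w}) := fun a ha b hb => by
    obtain ⟨s, rfl⟩ := Submodule.mem_span_singleton.1 ha
    obtain ⟨t, rfl⟩ := Submodule.mem_span_singleton.1 hb
    rw [polar_smul_left, polar_smul_right, ho, smul_zero, smul_zero]
  have hd : finrank F (Submodule.span F {v} ⊔ Submodule.span F {w} : Submodule F V) = 2 := by
    rw [finrank_sup (hn v hv) hO, finrank_span_singleton (fun h : v = 0 => hv (by rw [h, map_zero])),
      finrank_span_singleton (fun h : w = 0 => hw (by rw [h, map_zero]))]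
  refine ⟨ndOn_sup (hn v hv) (hn w hw) hO, hd, ?_⟩
  have hQab : ∀ a b : F, Q (a • v + b • w) = a * a * Q v + b * b * Q w := fun a b => by
    rw [QuadraticMap.map_add ⇑Q, QuadraticMap.map_smul, QuadraticMap.map_smul, polar_smul_left, polar_smul_right, ho,
      smul_zero, smul_zero, add_zero, smul_eq_mul, smul_eq_mul]
  have hne : Q v * Q w ≠ 0 := mul_ne_zero hv hw
  have key : IsSquare (-(Q v * Q w)) ↔ (IsSquare (-1 : F) ↔ sqSign (Q v) * sqSign (Q w) = 1) := by
    rw [← sqSign_eq_one_iff, ← sqSign_eq_one_iff, ← neg_one_mul, sqSign_mul (neg_ne_zero.2 one_ne_zero) hne,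
      sqSign_mul hv hw]
    rcases Int.units_eq_one_or (sqSign (-1 : F)) with h | h <;>
      rcases Int.units_eq_one_or (sqSign (Q v) * sqSign (Q w)) with h' | h' <;> simp [h, h']
  rw [← key]
  constructor
  · rintro ⟨T, hT, hTS, hTd⟩
    obtain ⟨x, hx, hx0⟩ : ∃ x ∈ T, x ≠ 0 := Submodule.exists_mem_ne_zero_of_ne_bot fun e => by
      rw [e, finrank_bot, hd] at hTd; omega
    obtain ⟨_, ha, _, hb, rfl⟩ := Submodule.mem_sup.1 (hT hx)
    obtain ⟨a, rfl⟩ := Submodule.mem_span_singleton.1 ha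
    obtain ⟨b, rfl⟩ := Submodule.mem_span_singleton.1 hb
    have e := hTS _ hx
    rw [hQab] at e
    have ha0 : a ≠ 0 := fun h => by
      rw [h, mul_zero, zero_mul, zero_add] at e
      have hb0 : b = 0 := mul_self_eq_zero.1 ((mul_eq_zero.1 e).resolve_right hw)
      exact hx0 (by rw [h, hb0, zero_smul, zero_smul, add_zero])
    refine ⟨b * Q w / a, ?_⟩
    field_simp
    linear_combination -e
  · rintro ⟨t, ht⟩
    refine ⟨Submodule.span F {t • v + Q v • w}, ?_, fun x hx => ?_, ?_⟩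
    · rw [Submodule.span_singleton_le_iff_mem]
      exact Submodule.add_mem_sup (Submodule.smul_mem _ _ (Submodule.mem_span_singleton_self v))
        (Submodule.smul_mem _ _ (Submodule.mem_span_singleton_self w))
    · obtain ⟨s, rfl⟩ := Submodule.mem_span_singleton.1 hx
      rw [QuadraticMap.map_smul, hQab, ← ht]
      simp only [smul_eq_mul]
      ring
    · rw [finrank_span_singleton, hd]
      intro h
      have := congrArg (fun x => polar Q x w) h
      simp only [polar_add_left, polar_smul_left, ho, smul_zero, zero_add, polar_self, polar_zero_left,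
        smul_eq_mul, two_nsmul, ← two_mul, mul_zero] at this
      exact mul_ne_zero hv (mul_ne_zero h2 hw) this

/-- The invariants of minus the identity on an even-dimensional subspace. -/
theorem neg_even [Finite V] (hQ : Nd Q) (h2 : (2 : F) ≠ 0) : ∀ (β : ℕ) {U : Submodule F V} (g : isoG Q),
    finrank F U = 2 * β → NdOn Q U → (∀ v ∈ U, g.1 v = -v) → (∀ v ∈ OrthType.perp Q U ⊤, g.1 v = v) →
    dick hQ g = 1 ∧ (spn hQ g = 1 ↔ (Plus Q U ↔ (IsSquare (-1 : F) ∨ Even β))) := by
  intro β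
  induction β with
  | zero =>
    intro U g hd _ _ hfix
    have hU : U = ⊥ := Submodule.finrank_eq_zero.1 (by omega)
    have hg : g = 1 := iso_ext fun v => hfix v (mem_perp.2 ⟨trivial, fun u hu => by
      rw [hU, Submodule.mem_bot] at hu; rw [hu, polar_zero_left]⟩)
    rw [hg, map_one, map_one]
    exact ⟨rfl, iff_of_true rfl (iff_of_true (plus_of_finrank_zero (by omega)) (Or.inr Even.zero))⟩
  | succ β ih =>
    intro U g hd hU hneg hfix
    obtain ⟨v, R₁, g₁, hv, hQv, hR₁U, hR₁n, hR₁d, hR₁v, hg₁n, hg₁f, hsup₁, hdk₁, hsp₁⟩ :=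
      peel hQ h2 g hU hneg hfix (by omega)
    obtain ⟨w, R, g₂, hw, hQw, hRR, hRn, hRd, hRw, hg₂n, hg₂f, hsup₂, hdk₂, hsp₂⟩ :=
      peel hQ h2 g₁ hR₁n hg₁n hg₁f (by omega)
    obtain ⟨h1, h3⟩ := ih g₂ (by omega) hRn hg₂n hg₂f
    obtain ⟨hPn, hPd, hPp⟩ := plane_plus h2 hQv hQw (by rw [polar_comm]; exact hR₁v w hw)
    refine ⟨by rw [hdk₁, hdk₂, h1, neg_neg], ?_⟩
    have hoPR : Orth Q (Submodule.span F {v} ⊔ Submodule.span F {w}) R := fun a ha b hb => by
      obtain ⟨_, ha₁, _, ha₂, rfl⟩ := Submodule.mem_sup.1 ha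
      obtain ⟨s, rfl⟩ := Submodule.mem_span_singleton.1 ha₁
      obtain ⟨t, rfl⟩ := Submodule.mem_span_singleton.1 ha₂
      rw [polar_add_left, polar_smul_left, polar_smul_left, polar_comm Q v, hR₁v b (hRR hb), polar_comm Q w,
        hRw b hb, smul_zero, smul_zero, add_zero]
    have hUeq : U = (Submodule.span F {v} ⊔ Submodule.span F {w}) ⊔ R := by rw [sup_assoc, hsup₂, hsup₁]
    rw [hUeq, plus_sup hPn hRn hoPR ⟨1, by omega⟩ ⟨β, by omega⟩, hPp, hsp₁, hsp₂, ← mul_assoc, Nat.even_add_one]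
    rcases Int.units_eq_one_or (sqSign (Q v) * sqSign (Q w)) with h | h <;>
      rcases Int.units_eq_one_or (spn hQ g₂) with h' | h' <;>
        simp only [h, h'] at h3 ⊢ <;> by_cases hs : IsSquare (-1 : F) <;> by_cases hb : Even β <;>
        by_cases hR' : Plus Q R <;> simp [hs, hb, hR'] at h3 ⊢

/-- Minus the identity on an odd-dimensional subspace is improper. -/
theorem neg_odd [Finite V] (hQ : Nd Q) (h2 : (2 : F) ≠ 0) {β : ℕ} {U : Submodule F V} (g : isoG Q)
    (hd : finrank F U = 2 * β + 1) (hU : NdOn Q U) (hneg : ∀ v ∈ U, g.1 v = -v)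
    (hfix : ∀ v ∈ OrthType.perp Q U ⊤, g.1 v = v) : dick hQ g ≠ 1 := by
  obtain ⟨v, R, g', -, -, -, hRn, hRd, -, hn, hf, -, hdk, -⟩ := peel hQ h2 g hU hneg hfix (by omega)
  rw [hdk, (neg_even hQ h2 β g' (by omega) hRn hn hf).1]
  decide

/-! ### Invariant totally singular subspaces -/

theorem sum_dims {E E' : Submodule F V} (hE : NdOn Q E) (ho : Orth Q E E') (htop : E ⊔ E' = ⊤) :
    finrank F E + finrank F E' = finrank F V := by
  rw [← finrank_sup hE ho, htop, finrank_top]

/-- Totally singular subspaces of two eigenspaces. -/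
theorem exists_pair {X : Module.End F V} {E E' : Submodule F V} (hE : NdOn Q E) (hE' : NdOn Q E') (ho : Orth Q E E')
    (hXE : ∀ v ∈ E, X v = v) (hXE' : ∀ v ∈ E', X v = -v) {m s₁ s₂ : ℕ} (hm : m = s₁ + s₂)
    (h1 : 2 * s₁ ≤ finrank F E) (h1' : 2 * s₁ = finrank F E → Plus Q E)
    (h3 : 2 * s₂ ≤ finrank F E') (h3' : 2 * s₂ = finrank F E' → Plus Q E') :
    ∃ W : Submodule F V, (finrank F W = m ∧ TSing Q W) ∧ Inv X W := by
  obtain ⟨U, hU, hUt, hUd⟩ := exists_ts_sub hE h1 h1'
  obtain ⟨U', hU', hU't, hU'd⟩ := exists_ts_sub hE' h3 h3'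
  refine ⟨U ⊔ U', ⟨?_, tsing_sup hUt hU't (ho.mono hU hU')⟩,
    Inv.sup (fun v hv => by rw [hXE v (hU hv)]; exact hv) fun v hv => by rw [hXE' v (hU' hv)]; exact U'.neg_mem hv⟩
  have h5 := Submodule.finrank_sup_add_finrank_inf_eq U U'
  rw [show U ⊓ U' = ⊥ from eq_bot_iff.2 (inf_eq_bot hE ho ▸ inf_le_inf hU hU'), finrank_bot, hUd, hU'd] at h5
  omega

/-- An invariant totally singular subspace meets the eigenspaces. -/
theorem pair_bound (h2 : (2 : F) ≠ 0) {X : Module.End F V} {E E' : Submodule F V} (hE : NdOn Q E) (hE' : NdOn Q E')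
    (ho : Orth Q E E') (htop : E ⊔ E' = ⊤) (hXE : ∀ v ∈ E, X v = v) (hXE' : ∀ v ∈ E', X v = -v)
    {W : Submodule F V} (hW : Inv X W) (hWt : TSing Q W) :
    ∃ s₁ s₂, finrank F W = s₁ + s₂ ∧ 2 * s₁ ≤ finrank F E ∧ (2 * s₁ = finrank F E → Plus Q E) ∧
      2 * s₂ ≤ finrank F E' ∧ (2 * s₂ = finrank F E' → Plus Q E') := by
  have hsup : (W ⊓ E) ⊔ (W ⊓ E') = W := by
    refine le_antisymm (sup_le inf_le_left inf_le_left) fun v hv => ?_
    obtain ⟨a, ha, b, hb, rfl⟩ := Submodule.mem_sup.1 (htop ▸ (Submodule.mem_top : v ∈ ⊤))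
    have hX : X (a + b) = a - b := by rw [map_add, hXE a ha, hXE' b hb, sub_eq_add_neg]
    have haW : (2 : F) • a ∈ W := by
      have := W.add_mem hv (hW _ hv)
      rwa [hX, show a + b + (a - b) = (2 : F) • a by rw [two_smul]; abel] at this
    have haW' : a ∈ W := by
      have := W.smul_mem (2 : F)⁻¹ haW
      rwa [smul_smul, inv_mul_cancel₀ h2, one_smul] at this
    exact Submodule.add_mem_sup ⟨haW', ha⟩ ⟨(W.add_mem_iff_right haW').1 hv, hb⟩
  have h5 := Submodule.finrank_sup_add_finrank_inf_eq (W ⊓ E) (W ⊓ E')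
  rw [hsup, show (W ⊓ E) ⊓ (W ⊓ E') = ⊥ from eq_bot_iff.2 (inf_eq_bot hE ho ▸ inf_le_inf inf_le_right inf_le_right),
    finrank_bot, add_zero] at h5
  exact ⟨_, _, h5, tsing_dim hE inf_le_right (tsing_mono hWt inf_le_left),
    fun h => ⟨W ⊓ E, inf_le_right, tsing_mono hWt inf_le_left, h⟩,
    tsing_dim hE' inf_le_right (tsing_mono hWt inf_le_left),
    fun h => ⟨W ⊓ E', inf_le_right, tsing_mono hWt inf_le_left, h⟩⟩

/-! ### Rotations -/

/-- Without a square root of minus one invariant subspaces are even-dimensional. -/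
theorem rot_even (hns : ¬ IsSquare (-1 : F)) {X : Module.End F V} {W : Submodule F V} (hW : Inv X W)
    (hX : ∀ v ∈ W, X (X v) = -v) : Even (finrank F W) := by
  rcases Nat.even_or_odd (finrank F W) with h | h
  · exact h
  refine absurd ⟨LinearMap.det (X.restrict hW), ?_⟩ hns
  rw [← LinearMap.det_comp, show (X.restrict hW).comp (X.restrict hW) = (-1 : F) • LinearMap.id from
    LinearMap.ext fun v => Subtype.ext (by show X (X (v : V)) = (-1 : F) • (v : V); rw [neg_one_smul]; exact hX v v.2), LinearMap.det_smul, LinearMap.det_id, mul_one,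
    h.neg_one_pow]

/-- Invariant totally singular subspaces of even dimension in a rotated space. -/
theorem exists_rot_ts (h2 : (2 : F) ≠ 0) {y : Module.End F V} (hns : ¬ IsSquare (-1 : F)) : ∀ (a : ℕ) {U : Submodule F V},
    Rot Q y U → NdOn Q U → 4 * a ≤ finrank F U → ∃ W ≤ U, Inv y W ∧ TSing Q W ∧ finrank F W = 2 * a := by
  intro a
  induction a with
  | zero =>
    intro U _ _ _
    exact ⟨⊥, bot_le, fun v hv => by rw [(Submodule.mem_bot F).1 hv, map_zero]; exact zero_mem _, tsing_bot,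
      by rw [finrank_bot]⟩
  | succ a ih =>
    intro U h hU hd
    obtain ⟨D, hDU, hDi, hDn, hDd⟩ := rot_sub h2 2 (by omega) h hU
    have hD : Rot Q y D := ⟨hDi, fun v hv => h.sq v (hDU hv), fun v hv => h.iso v (hDU hv)⟩
    obtain ⟨e, he, hp⟩ := rot_type h2 _ hDd hD hDn
    obtain ⟨T, hTD, hT, hTd⟩ := hp.2 (Or.inr (by rw [show e = 2 by omega]; exact even_two))
    obtain ⟨v, hvT, hv0⟩ := Submodule.exists_mem_ne_zero_of_ne_bot (p := T) fun e => by
      rw [e, finrank_bot] at hTd; omega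
    have hv : v ∈ D := hTD hvT
    have hb : polar Q (y v) v = 0 := by
      have e := hD.polar_eq (hD.inv v hv) hv
      rw [hD.sq v hv, polar_neg_left, polar_comm Q v (y v)] at e
      have : (2 : F) * polar Q (y v) v = 0 := by linear_combination -e
      exact (mul_eq_zero.1 this).resolve_left h2
    set P := Submodule.span F (Set.range ![v, y v]) with hP
    have hPD : P ≤ D := by
      rw [hP, Submodule.span_le]
      rintro _ ⟨i, rfl⟩
      fin_cases i
      · exact hv
      · exact hD.inv v hv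
    have hPi : Inv y P := by
      rw [inv_iff_map_le, hP, Submodule.map_span, Submodule.span_le]
      rintro _ ⟨_, ⟨i, rfl⟩, rfl⟩
      fin_cases i
      · exact Submodule.subset_span ⟨1, rfl⟩
      · show y (y v) ∈ _
        rw [hD.sq v hv]
        exact Submodule.neg_mem _ (Submodule.subset_span ⟨0, rfl⟩)
    have hli : LinearIndependent F ![v, y v] := by
      rw [LinearIndependent.pair_iff]
      intro s t hst
      by_cases ht : t = 0
      · refine ⟨?_, ht⟩
        rw [ht, zero_smul, add_zero] at hst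
        exact (smul_eq_zero.1 hst).resolve_right hv0
      · exfalso
        have hyv : y v = (-s / t) • v := by
          have h1 : t • y v = -(s • v) := eq_neg_of_add_eq_zero_right hst
          rw [← one_smul F (y v), ← inv_mul_cancel₀ ht, ← smul_smul, h1, smul_neg, smul_smul, ← neg_smul, neg_div,
            div_eq_inv_mul]
        refine hns ⟨-s / t, ?_⟩
        have h1 := hD.sq v hv
        rw [hyv, map_smul, hyv, smul_smul, ← neg_one_smul F v] at h1
        exact (smul_left_injective F hv0 h1).symm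
    have hPt : TSing Q P := fun x hx => by
      obtain ⟨c, rfl⟩ := (Submodule.mem_span_range_iff_exists_fun F).1 hx
      rw [Fin.sum_univ_two]
      simp only [Matrix.cons_val_zero, Matrix.cons_val_one]
      rw [QuadraticMap.map_add ⇑Q, QuadraticMap.map_smul, QuadraticMap.map_smul, hD.iso v hv, hT v hvT,
        polar_smul_left, polar_smul_right, polar_comm Q v, hb]
      simp
    have hPd : finrank F P = 2 := by rw [hP, finrank_span_eq_card hli, Fintype.card_fin]
    obtain ⟨hRn, -, hRd⟩ := ndOn_split hDn hU hDU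
    obtain ⟨W, hW, hWi, hWt, hWd⟩ := ih (U := OrthType.perp Q D U) (h.perp h2 hDU hDi) hRn (by omega)
    have o : Orth Q P W := (orth_perp (Q := Q) D U).mono hPD hW
    refine ⟨P ⊔ W, sup_le (hPD.trans hDU) (hW.trans inf_le_left), hPi.sup hWi, tsing_sup hPt hWt o, ?_⟩
    have h5 := Submodule.finrank_sup_add_finrank_inf_eq P W
    rw [show P ⊓ W = ⊥ from eq_bot_iff.2 (inf_eq_bot hDn (orth_perp (Q := Q) D U) ▸ inf_le_inf hPD hW),
      finrank_bot, hPd, hWd] at h5
    omega

section matrices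

variable {ι : Type} [Fintype ι] [DecidableEq ι] {R : QuadraticForm F (ι → F)}

/-- The eigenspaces of an involution in Omega. -/
theorem invol_data (hR : Nd R) (h2 : (2 : F) ≠ 0) {x : GL ι F} (hx : x ∈ Cfsg.Geo.omegaGL ⇑R)
    (hxx : ∀ v, Matrix.toLin' (x : Matrix ι ι F) (Matrix.toLin' (x : Matrix ι ι F) v) = v) :
    ∃ E E' : Submodule F (ι → F), NdOn R E ∧ NdOn R E' ∧ Orth R E E' ∧ E ⊔ E' = ⊤ ∧
      (∀ v ∈ E, Matrix.toLin' (x : Matrix ι ι F) v = v) ∧ (∀ v ∈ E', Matrix.toLin' (x : Matrix ι ι F) v = -v) ∧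
      ∃ β, finrank F E' = 2 * β ∧ (Plus R E' ↔ (IsSquare (-1 : F) ∨ Even β)) := by
  set X := Matrix.toLin' (x : Matrix ι ι F) with hXdef
  have hiso : ∀ v, R (X v) = R v := fun v => by rw [hXdef, Matrix.toLin'_apply]; exact OrthOdd.iso_of_omega hx v
  set E := LinearMap.ker (X - (1 : F) • LinearMap.id) with hE
  set E' := LinearMap.ker (X + (1 : F) • LinearMap.id) with hE'
  have hEv : ∀ v, v ∈ E ↔ X v = v := fun v => by simp [hE, sub_eq_zero]
  have hE'v : ∀ v, v ∈ E' ↔ X v = -v := fun v => by simp [hE', add_eq_zero_iff_eq_neg]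
  have ho : Orth R E E' := fun a ha b hb => by
    have h : polar R (X a) (X b) = polar R a b := by simp [polar, ← map_add, hiso]
    rw [(hEv a).1 ha, (hE'v b).1 hb, polar_neg_right] at h
    have : (2 : F) * polar R a b = 0 := by linear_combination -h
    exact (mul_eq_zero.1 this).resolve_left h2
  have hdec : ∀ v : ι → F, ∃ a ∈ E, ∃ b ∈ E', a + b = v := fun v => by
    refine ⟨(2 : F)⁻¹ • (v + X v), (hEv _).2 ?_, (2 : F)⁻¹ • (v - X v), (hE'v _).2 ?_, ?_⟩
    · rw [map_smul, map_add, hxx, add_comm]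
    · rw [map_smul, map_sub, hxx, ← smul_neg, neg_sub]
    · rw [← smul_add, show (v + X v) + (v - X v) = (2 : F) • v by rw [two_smul]; abel, smul_smul,
        inv_mul_cancel₀ h2, one_smul]
  have htop : E ⊔ E' = ⊤ := eq_top_iff.2 fun v _ => by
    obtain ⟨a, ha, b, hb, rfl⟩ := hdec v
    exact Submodule.add_mem_sup ha hb
  have hn : NdOn R E := fun z hz h => hR z fun w => by
    obtain ⟨a, ha, b, hb, rfl⟩ := hdec w
    rw [polar_add_right, h a ha, ho z hz b hb, add_zero]
  have hn' : NdOn R E' := fun z hz h => hR z fun w => by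
    obtain ⟨a, ha, b, hb, rfl⟩ := hdec w
    rw [polar_add_right, h b hb, polar_comm R z a, ho a ha z hz, add_zero]
  refine ⟨E, E', hn, hn', ho, htop, fun v hv => (hEv v).1 hv, fun v hv => (hE'v v).1 hv, ?_⟩
  haveI : Finite (ι → F) := Pi.finite
  obtain ⟨g, hg, hgx⟩ := Subgroup.mem_map.1 hx
  have hgc := (mem_omega_iff (Q := R) ⇑R (LinearEquiv.refl F _) (fun _ => rfl) g).1 hg
  set g' := isoEquiv (Q := R) ⇑R (LinearEquiv.refl F _) (fun _ => rfl) g
  have hgv : ∀ v, g'.1 v = X v := fun v => by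
    show _ = Matrix.toLin' (x : Matrix ι ι F) v
    rw [Matrix.toLin'_apply, ← hgx]
    rfl
  have hneg : ∀ v ∈ E', g'.1 v = -v := fun v hv => by rw [hgv]; exact (hE'v v).1 hv
  have hfix : ∀ v ∈ OrthType.perp R E' ⊤, g'.1 v = v := fun v hv => by
    obtain ⟨a, ha, b, hb, rfl⟩ := hdec v
    have hb0 : b = 0 := hn' b hb fun z hz => by
      have := (mem_perp.1 hv).2 z hz
      rw [polar_add_right, polar_comm R z a, ho a ha z hz, zero_add, polar_comm] at this
      exact this
    rw [hgv, hb0, add_zero]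
    exact (hEv a).1 ha
  obtain ⟨hd1, hs1⟩ := (mem_commutator_iff hR h2 g').1 hgc
  rcases Nat.even_or_odd' (finrank F E') with ⟨β, hβ | hβ⟩
  · exact ⟨β, hβ, (neg_even hR h2 β g' hβ hn' hneg hfix).2.1 hs1⟩
  · exact absurd hd1 (neg_odd hR h2 g' hβ hn' hneg hfix)

/-- An involution in Omega negating a plane of minus type, when minus one is not a square. -/
theorem exists_invol (hR : Nd R) (h2 : (2 : F) ≠ 0) (hns : ¬ IsSquare (-1 : F)) (hι : 3 ≤ Fintype.card ι) :
    ∃ (x : GL ι F) (E E' : Submodule F (ι → F)), x ∈ Cfsg.Geo.omegaGL ⇑R ∧ x ^ 2 = 1 ∧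
      (∀ z : F, (x : Matrix ι ι F) ≠ z • (1 : Matrix ι ι F)) ∧
      NdOn R E ∧ NdOn R E' ∧ Orth R E E' ∧ E ⊔ E' = ⊤ ∧
      (∀ v ∈ E, Matrix.toLin' (x : Matrix ι ι F) v = v) ∧ (∀ v ∈ E', Matrix.toLin' (x : Matrix ι ι F) v = -v) ∧
      finrank F E' = 2 ∧ finrank F E + 2 = Fintype.card ι ∧ ¬ Plus R E' := by
  obtain ⟨P, -, hPn, hPd, hPp⟩ := exists_sub (ndOn_top hR) le_rfl (a := 1)
    (by rw [finrank_top, finrank_pi]; omega) False
  obtain ⟨hCn, hsup, hCd⟩ := ndOn_split hPn (ndOn_top hR) le_top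
  rw [finrank_top, finrank_pi, hPd] at hCd
  obtain ⟨s₀, hs₀, hsQ⟩ := exists_sum_equiv hPn (orth_perp (Q := R) P ⊤)
  let s : (P × OrthType.perp R P ⊤) ≃ₗ[F] (ι → F) := s₀.trans ((LinearEquiv.ofEq _ _ hsup).trans Submodule.topEquiv)
  have hs : ∀ z, s z = (z.1 : ι → F) + (z.2 : ι → F) := fun z => hs₀ z
  have hsQ' : ∀ z, R (s z) = R (z.1 : ι → F) + R (z.2 : ι → F) := fun z => hsQ z
  let g₀ : (ι → F) ≃ₗ[F] (ι → F) :=
    s.symm.trans (((LinearEquiv.neg F).prodCongr (LinearEquiv.refl F (OrthType.perp R P ⊤))).trans s)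
  have hg₀ : ∀ a c, g₀ (s (a, c)) = s (-a, c) := fun a c => by
    show s (((LinearEquiv.neg F).prodCongr (LinearEquiv.refl F (OrthType.perp R P ⊤))) (s.symm (s (a, c)))) = _
    rw [LinearEquiv.symm_apply_apply]; rfl
  have hg2 : ∀ v, g₀ (g₀ v) = v := fun v => by
    obtain ⟨⟨a, c⟩, rfl⟩ := s.surjective v
    rw [hg₀, hg₀, neg_neg]
  have hiso : ∀ v, R (g₀ v) = R v := fun v => by
    obtain ⟨⟨a, c⟩, rfl⟩ := s.surjective v
    rw [hg₀, hsQ', hsQ', Submodule.coe_neg, QuadraticMap.map_neg]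
  let g : isoG R := ⟨g₀, hiso⟩
  have hneg : ∀ v ∈ P, g.1 v = -v := fun v hv => by
    have e : v = s (⟨v, hv⟩, 0) := by rw [hs]; simp
    show g₀ v = _
    rw [e, hg₀, hs, hs]; simp
  have hfix : ∀ v ∈ OrthType.perp R P ⊤, g.1 v = v := fun v hv => by
    have e : v = s (0, ⟨v, hv⟩) := by rw [hs]; simp
    show g₀ v = _
    rw [e, hg₀, neg_zero]
  haveI : Finite (ι → F) := Pi.finite
  obtain ⟨hdk, hsp⟩ := neg_even hR h2 1 g hPd hPn hneg hfix
  have hgc : g ∈ commutator (isoG R) := (mem_commutator_iff hR h2 g).2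
    ⟨hdk, hsp.2 (iff_of_false hPp.1 (by simp [hns]))⟩
  set X := Matrix.toLin' ((isoMat R g : GL ι F) : Matrix ι ι F) with hXdef
  have hX : ∀ v, X v = g.1 v := fun v => by rw [hXdef, Matrix.toLin'_apply, isoMat_mulVec]
  refine ⟨isoMat R g, OrthType.perp R P ⊤, P, isoMat_mem_omega hgc, ?_, fun z hz => ?_, hCn, hPn,
    (orth_perp (Q := R) P ⊤).symm, by rw [sup_comm]; exact hsup, fun v hv => (hX v).trans (hfix v hv),
    fun v hv => (hX v).trans (hneg v hv), hPd, by omega, hPp.1⟩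
  · rw [isoMat_pow, show g ^ 2 = 1 from iso_ext fun v => by rw [pow_two]; exact hg2 v, isoMat_one]
  · have hsc : ∀ v, g.1 v = z • v := fun v => by
      rw [← hX, hXdef, Matrix.toLin'_apply, hz, Matrix.smul_mulVec, Matrix.one_mulVec]
    obtain ⟨a, ha, ha0⟩ := Submodule.exists_mem_ne_zero_of_ne_bot (p := P) fun e => by
      rw [e, finrank_bot] at hPd; omega
    obtain ⟨c, hc, hc0⟩ := Submodule.exists_mem_ne_zero_of_ne_bot (p := OrthType.perp R P ⊤) fun e => by
      rw [e, finrank_bot] at hCd; omega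
    have e1 : z = -1 := smul_left_injective F ha0 (show z • a = (-1 : F) • a by rw [← hsc, hneg a ha, neg_one_smul])
    have e2 : z = 1 := smul_left_injective F hc0 (show z • c = (1 : F) • c by rw [← hsc, hfix c hc, one_smul])
    exact h2 (by linear_combination e1 - e2)

theorem two_cases (hns : ¬ IsSquare (-1 : F)) {P : Prop} {β : ℕ} (h : P ↔ (IsSquare (-1 : F) ∨ Even β)) (hb : β = 1) :
    ¬ P := by
  subst hb; rw [h]; simp [hns]

/-- The odd-dimensional criterion. -/
theorem main_odd (h2 : (2 : F) ≠ 0) {d m : ℕ} (hd : 1 ≤ d) (hm : m ≤ d) :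
    (∀ x : GL (Unit ⊕ (Fin d ⊕ Fin d)) F, x ∈ Cfsg.Geo.omegaGL (Cfsg.quadFormOdd d F) → orderOf x = 2 →
      ∃ W : Submodule F (Unit ⊕ (Fin d ⊕ Fin d) → F), (finrank F W = m ∧ TSing (oddQ d F) W) ∧
        Inv (Matrix.toLin' (x : Matrix (Unit ⊕ (Fin d ⊕ Fin d)) (Unit ⊕ (Fin d ⊕ Fin d)) F)) W) ↔
    (m < d ∨ IsSquare (-1 : F)) := by
  have hR : Nd (oddQ d F) := OrthOdd.nd_oddQ h2
  have hcard : Fintype.card (Unit ⊕ (Fin d ⊕ Fin d)) = 2 * d + 1 := by simp; ring
  constructor
  · intro hall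
    by_contra hcon
    rw [not_or, not_lt] at hcon
    obtain ⟨x, E, E', hx, hx2, hne, hE, hE', ho, htop, hXE, hXE', hE'd, hEd, hE'p⟩ :=
      exists_invol hR h2 hcon.2 (by rw [hcard]; omega)
    obtain ⟨W, ⟨hWd, hWt⟩, hWi⟩ := hall x (by rwa [← OrthOdd.coe_oddQ])
      (orderOf_eq_prime hx2 fun e => hne 1 (by rw [e, one_smul, Units.val_one]))
    obtain ⟨s₁, s₂, h, h1, -, h3, h3'⟩ := pair_bound h2 hE hE' ho htop hXE hXE' hWi hWt
    have : s₂ ≠ 1 := fun e => hE'p (h3' (by omega))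
    omega
  · intro hcase x hx hxo
    have hxx : ∀ v, Matrix.toLin' (x : Matrix (Unit ⊕ (Fin d ⊕ Fin d)) (Unit ⊕ (Fin d ⊕ Fin d)) F)
        (Matrix.toLin' (x : Matrix (Unit ⊕ (Fin d ⊕ Fin d)) (Unit ⊕ (Fin d ⊕ Fin d)) F) v) = v := fun v => by
      rw [Matrix.toLin'_apply, Matrix.toLin'_apply, Matrix.mulVec_mulVec, ← Units.val_mul, ← pow_two, ← hxo,
        pow_orderOf_eq_one, Units.val_one, Matrix.one_mulVec]
    obtain ⟨E, E', hE, hE', ho, htop, hXE, hXE', β, hβ, hp⟩ :=
      invol_data hR h2 (by rwa [OrthOdd.coe_oddQ]) hxx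
    have hsum := sum_dims hE ho htop
    rw [finrank_pi, hcard, hβ] at hsum
    by_cases hP : Plus (oddQ d F) E'
    · exact exists_pair hE hE' ho hXE hXE' (s₁ := m - min m β) (s₂ := min m β) (by omega) (by omega)
        (fun h => by omega) (by omega) fun _ => hP
    · have hmd : m < d := hcase.resolve_right fun h => hP (hp.2 (Or.inl h))
      have hβ0 : β ≠ 0 := fun h => hP (plus_of_finrank_zero (by omega))
      exact exists_pair hE hE' ho hXE hXE' (s₁ := m - min m (β - 1)) (s₂ := min m (β - 1)) (by omega) (by omega)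
        (fun h => by omega) (by omega) fun h => by omega

/-- The even-dimensional criterion. -/
theorem main_even (hR : Nd R) (h2 : (2 : F) ≠ 0) {d m : ℕ} (hι : Fintype.card ι = 2 * d) (hd : 2 ≤ d)
    (hm : m + 1 ≤ d) :
    (∀ x : GL ι F, x ∈ Cfsg.Geo.omegaGL ⇑R →
      (∃ z : F, ((x ^ 2 : GL ι F) : Matrix ι ι F) = z • (1 : Matrix ι ι F)) →
      (∀ z : F, (x : Matrix ι ι F) ≠ z • (1 : Matrix ι ι F)) →
      ∃ W : Submodule F (ι → F), (finrank F W = m ∧ TSing R W) ∧ Inv (Matrix.toLin' (x : Matrix ι ι F)) W) ↔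
    ((Plus R ⊤ → IsSquare (-1 : F) ∨ m + 2 ≤ d) ∧ (HasRot R d → IsSquare (-1 : F) ∨ Even m)) := by
  constructor
  · intro hall
    refine ⟨fun hV => ?_, fun ⟨hp, hs⟩ => ?_⟩
    · by_contra hcon
      rw [not_or] at hcon
      obtain ⟨x, E, E', hx, hx2, hne, hE, hE', ho, htop, hXE, hXE', hE'd, hEd, hE'p⟩ :=
        exists_invol hR h2 hcon.1 (by omega)
      obtain ⟨W, ⟨hWd, hWt⟩, hWi⟩ := hall x hx ⟨1, by rw [hx2, one_smul, Units.val_one]⟩ hne
      have hEp : ¬ Plus R E := by
        rw [← htop, plus_sup hE hE' ho ⟨d - 1, by omega⟩ ⟨1, by omega⟩] at hV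
        exact fun h => hE'p (hV.1 h)
      obtain ⟨s₁, s₂, h, h1, h1', h3, h3'⟩ := pair_bound h2 hE hE' ho htop hXE hXE' hWi hWt
      have : 2 * s₁ ≠ finrank F E := fun e => hEp (h1' e)
      have : 2 * s₂ ≠ finrank F E' := fun e => hE'p (h3' e)
      omega
    · by_contra hcon
      rw [not_or] at hcon
      obtain ⟨x, hx, hx2, hne, hrot⟩ := OrthInvol.exists_elt hR h2 (by omega) hι hp hs
      obtain ⟨W, ⟨hWd, -⟩, hWi⟩ := hall x hx ⟨_, hx2⟩ hne
      exact hcon.2 (hWd ▸ rot_even hcon.1 hWi fun v _ => hrot.sq v trivial)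
  · rintro ⟨hcase, hrotc⟩ x hx ⟨z, hz⟩ _
    rcases sq_cases hR h2 (by omega) hι hx hz with hsq | ⟨hrot, hs, hp⟩
    · obtain ⟨E, E', hE, hE', ho, htop, hXE, hXE', β, hβ, hp⟩ := invol_data hR h2 hx hsq
      have hsum := sum_dims hE ho htop
      rw [finrank_pi, hι, hβ] at hsum
      have hV : Plus R ⊤ ↔ (Plus R E ↔ Plus R E') := by
        conv_lhs => rw [← htop]
        rw [plus_sup hE hE' ho ⟨d - β, by omega⟩ ⟨β, by omega⟩]
      have hEE : ¬ Plus R E → 2 * 1 ≤ finrank F E := fun h => by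
        by_contra h'
        exact h (plus_of_finrank_zero (by omega))
      have hEE' : ¬ Plus R E' → 1 ≤ β := fun h => by
        by_contra h'
        exact h (plus_of_finrank_zero (by omega))
      by_cases hPE : Plus R E <;> by_cases hPE' : Plus R E'
      · exact exists_pair hE hE' ho hXE hXE' (s₁ := m - min m β) (s₂ := min m β) (by omega) (by omega)
          (fun _ => hPE) (by omega) fun _ => hPE'
      · have := hEE' hPE'
        exact exists_pair hE hE' ho hXE hXE' (s₁ := m - min m (β - 1)) (s₂ := min m (β - 1)) (by omega) (by omega)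
          (fun _ => hPE) (by omega) fun h => by omega
      · have := hEE hPE
        exact exists_pair hE hE' ho hXE hXE' (s₁ := m - min m β) (s₂ := min m β) (by omega) (by omega)
          (fun h => by omega) (by omega) fun _ => hPE'
      · have h1 := hEE hPE
        have h3 := hEE' hPE'
        have hm2 : m + 2 ≤ d := (hcase (hV.2 (iff_of_false hPE hPE'))).resolve_left fun h => hPE' (hp.2 (Or.inl h))
        exact exists_pair hE hE' ho hXE hXE' (s₁ := m - min m (β - 1)) (s₂ := min m (β - 1)) (by omega) (by omega)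
          (fun h => by omega) (by omega) fun h => by omega
    · set X := Matrix.toLin' (x : Matrix ι ι F) with hXdef
      have hfin : finrank F (ι → F) = 2 * d := by rw [finrank_pi, hι]
      by_cases hσ : IsSquare (-1 : F)
      · obtain ⟨t, ht⟩ := hσ
        have ht0 : t ≠ 0 := fun h => by rw [h, mul_zero] at ht; exact neg_ne_zero.2 one_ne_zero ht
        have hts : ∀ μ : F, μ * μ = -1 → TSing R (LinearMap.ker (X - μ • LinearMap.id)) := fun μ hμ v hv => by
          rw [LinearMap.mem_ker, LinearMap.sub_apply, LinearMap.smul_apply, LinearMap.id_apply, sub_eq_zero] at hv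
          have h := hrot.iso v trivial
          rw [hv, QuadraticMap.map_smul, hμ, neg_one_smul] at h
          have : (2 : F) * R v = 0 := by linear_combination -h
          exact (mul_eq_zero.1 this).resolve_left h2
        have hle : ∀ μ : F, μ * μ = -1 → finrank F (LinearMap.ker (X - μ • LinearMap.id)) ≤ d := fun μ hμ => by
          have := tsing_dim (ndOn_top hR) le_top (hts μ hμ)
          rw [finrank_top, hfin] at this
          omega
        have hcomp : (⊤ : Submodule F (ι → F)) ≤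
            LinearMap.ker (X - t • LinearMap.id) ⊔ LinearMap.ker (X - (-t) • LinearMap.id) := fun v _ => by
          refine Submodule.mem_sup.2 ⟨(2 * t)⁻¹ • (t • v + X v), ?_, (2 * t)⁻¹ • (t • v - X v), ?_, ?_⟩
          · rw [LinearMap.mem_ker, LinearMap.sub_apply, LinearMap.smul_apply, LinearMap.id_apply, sub_eq_zero,
              map_smul, map_add, map_smul, hrot.sq v trivial, ← neg_one_smul F v, ht, ← smul_smul t t v,
              ← smul_add t, smul_comm t (2 * t)⁻¹, add_comm (X v)]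
          · rw [LinearMap.mem_ker, LinearMap.sub_apply, LinearMap.smul_apply, LinearMap.id_apply, sub_eq_zero,
              map_smul, map_sub, map_smul, hrot.sq v trivial, ← neg_one_smul F v, ht, ← smul_smul t t v,
              ← smul_sub t, smul_comm (-t) (2 * t)⁻¹, neg_smul, ← smul_neg t, neg_sub]
          · rw [← smul_add, show t • v + X v + (t • v - X v) = (2 * t) • v by rw [two_mul, add_smul]; abel, smul_smul,
              inv_mul_cancel₀ (mul_ne_zero h2 ht0), one_smul]
        have h1 := Submodule.finrank_mono hcomp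
        have h3 := Submodule.finrank_add_le_finrank_add_finrank (LinearMap.ker (X - t • LinearMap.id))
          (LinearMap.ker (X - (-t) • LinearMap.id))
        rw [finrank_top, hfin] at h1
        have h4 := hle t ht.symm
        have h5 := hle (-t) (by rw [neg_mul_neg]; exact ht.symm)
        obtain ⟨W, hW, hWd⟩ := exists_dim_sub (LinearMap.ker (X - t • LinearMap.id)) (s := m) (by omega)
        refine ⟨W, ⟨hWd, tsing_mono (hts t ht.symm) hW⟩, fun v hv => ?_⟩
        have h := hW hv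
        rw [LinearMap.mem_ker, LinearMap.sub_apply, LinearMap.smul_apply, LinearMap.id_apply, sub_eq_zero] at h
        rw [h]
        exact W.smul_mem t hv
      · obtain ⟨a, ha⟩ := ((hrotc ⟨hp, hs⟩).resolve_left hσ).two_dvd
        obtain ⟨W, -, hWi, hWt, hWd⟩ := exists_rot_ts h2 hσ a hrot (ndOn_top hR) (by rw [finrank_top, hfin]; omega)
        exact ⟨W, ⟨hWd.trans ha.symm, hWt⟩, hWi⟩

end matrices

end Cfsg.Agent.Lib.Elusive.OrthSingTwo
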