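import Cfsg.Agent.Lib.Elusive.OrthType
import Cfsg.Agent.Lib.Classical.OrthTorsionOmega
import Cfsg.Agent.Lib.GLn.ReciprocalFull

/-!
# Isometries of odd prime order of a quadratic space

The fixed space and the moved space are orthogonal and non-degenerate. A moved non-degenerate invariant subspace
has dimension `w * c`, is of plus type unless the order of `q` is even and `w` is odd, and contains such subspaces
of every smaller `w`.
-/

set_option autoImplicit false

namespace Cfsg.Agent.Lib.Elusive.OrthStep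

open Module Polynomial QuadraticMap Cfsg.Agent.Lib.Classical.Quad Cfsg.Agent.Lib.Classical.QuadOmega
open Cfsg.Agent.Lib.Classical.QuadF2 Cfsg.Agent.Lib.Classical.OrthTorsion Cfsg.Agent.Lib.Elusive.OrthType
open Cfsg.Agent.Lib.GLn.ReciprocalTorsion
open scoped Matrix
open Cfsg.Agent.Lib.Elusive.SympStep (fixedSpace mem_fixed cOf)

universe u

variable {F : Type u} [Field F] [Fintype F] {V : Type u} [AddCommGroup V] [Module F V] [FiniteDimensional F V]
variable {p r : ℕ} [Fact p.Prime] [CharP F p] [Fact r.Prime]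
variable {Q : QuadraticForm F V} {y : Module.End F V}

/-- An isometry killed by the odd prime `r`, different from the characteristic. -/
structure Setting (Q : QuadraticForm F V) (y : Module.End F V) (r p : ℕ) : Prop where
  iso : ∀ v, Q (y v) = Q v
  pow : ∀ v, (y ^ r) v = v
  ne : r ≠ p
  ne_two : r ≠ 2

/-- The moved space. -/
noncomputable abbrev moved (y : Module.End F V) (r : ℕ) : Submodule F V :=
  LinearMap.ker (∑ j ∈ Finset.range r, y ^ j)

theorem polar_y (S : Setting Q y r p) (u v : V) : polar Q (y u) (y v) = polar Q u v := by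
  simp [polar, ← map_add, S.iso]

theorem polar_pow (S : Setting Q y r p) (u v : V) : ∀ k, polar Q ((y ^ k) u) ((y ^ k) v) = polar Q u v
  | 0 => rfl
  | k + 1 => by rw [pow_succ', Module.End.mul_apply, Module.End.mul_apply, polar_y S, polar_pow S u v k]

theorem inj (S : Setting Q y r p) : Function.Injective y := by
  intro a b h
  have h' := congrArg (y ^ (r - 1)) h
  rwa [← Module.End.mul_apply, ← Module.End.mul_apply, ← pow_succ,
    Nat.sub_add_cancel (Fact.out : r.Prime).one_le, S.pow, S.pow] at h'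

theorem cast_ne (S : Setting Q y r p) : (r : F) ≠ 0 := fun h =>
  S.ne ((Nat.prime_dvd_prime_iff_eq Fact.out (Fact.out : r.Prime)).1 ((CharP.cast_eq_zero_iff F p r).1 h)).symm

theorem avg_fixed (S : Setting Q y r p) (v : V) :
    y ((∑ j ∈ Finset.range r, y ^ j : Module.End F V) v) = (∑ j ∈ Finset.range r, y ^ j : Module.End F V) v := by
  have h := congrArg (fun T : Module.End F V => T v) (mul_geom_sum y r)
  simp only [Module.End.mul_apply, LinearMap.sub_apply, Module.End.one_apply, S.pow, sub_self] at h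
  exact sub_eq_zero.1 h

theorem avg_of_fixed {v : V} (hv : y v = v) :
    (∑ j ∈ Finset.range r, y ^ j : Module.End F V) v = (r : F) • v := by
  have : ∀ j, (y ^ j) v = v := fun j => by
    induction j with
    | zero => rfl
    | succ j ih => rw [pow_succ', Module.End.mul_apply, ih, hv]
  simp [LinearMap.sum_apply, this, Nat.cast_smul_eq_nsmul]

theorem moved_inv : Inv y (moved y r) := fun v hv => by
  rw [LinearMap.mem_ker] at hv ⊢
  rw [← Module.End.mul_apply, Finset.sum_mul, Finset.sum_congr rfl fun j _ => (pow_mul_comm' y j),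
    ← Finset.mul_sum, Module.End.mul_apply, hv, map_zero]

theorem moved_inf_fixed (S : Setting Q y r p) : moved y r ⊓ fixedSpace y = ⊥ :=
  eq_bot_iff.2 fun v ⟨hv, hv'⟩ => by
    rw [SetLike.mem_coe, LinearMap.mem_ker, avg_of_fixed (mem_fixed.1 hv')] at hv
    exact (Submodule.mem_bot F).2 ((smul_eq_zero.1 hv).resolve_left (cast_ne S))

theorem orth_fixed (S : Setting Q y r p) : Orth Q (fixedSpace y) (moved y r) := by
  intro a ha b hb
  have h : ∀ j, polar Q a ((y ^ j) b) = polar Q a b := fun j => by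
    conv_lhs => rw [show a = (y ^ j) a by
      induction j with
      | zero => rfl
      | succ j ih => rw [pow_succ', Module.End.mul_apply, ← ih, mem_fixed.1 ha]]
    exact polar_pow S a b j
  have h1 : (polarBilin Q a) ((∑ j ∈ Finset.range r, y ^ j : Module.End F V) b) = (r : F) * polar Q a b := by
    simp [LinearMap.sum_apply, map_sum, h]
  rw [LinearMap.mem_ker.1 hb, map_zero] at h1
  exact (mul_eq_zero.1 h1.symm).resolve_left (cast_ne S)

/-- A non-degenerate invariant subspace splits into its fixed and moved parts. -/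
theorem split (S : Setting Q y r p) {W : Submodule F V} (hW : Inv y W) (hn : NdOn Q W) :
    NdOn Q (W ⊓ fixedSpace y) ∧ NdOn Q (W ⊓ moved y r) ∧ Orth Q (W ⊓ fixedSpace y) (W ⊓ moved y r) ∧
      (W ⊓ fixedSpace y) ⊔ (W ⊓ moved y r) = W ∧ Inv y (W ⊓ moved y r) ∧
      (W ⊓ moved y r) ⊓ fixedSpace y = ⊥ ∧
      finrank F W = finrank F (W ⊓ fixedSpace y : Submodule F V) + finrank F (W ⊓ moved y r : Submodule F V) := by
  have ho : Orth Q (W ⊓ fixedSpace y) (W ⊓ moved y r) := (orth_fixed S).mono inf_le_right inf_le_right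
  have hsup : (W ⊓ fixedSpace y) ⊔ (W ⊓ moved y r) = W := by
    refine le_antisymm (sup_le inf_le_left inf_le_left) fun v hv => ?_
    set e : V := (r : F)⁻¹ • (∑ j ∈ Finset.range r, y ^ j : Module.End F V) v with he
    have heW : e ∈ W := by
      refine W.smul_mem _ ?_
      rw [LinearMap.sum_apply]
      exact Submodule.sum_mem _ fun j _ => hW.pow j v hv
    have hef : y e = e := by rw [he, map_smul, avg_fixed S]
    refine Submodule.mem_sup.2 ⟨e, ⟨heW, mem_fixed.2 hef⟩, v - e, ⟨W.sub_mem hv heW, ?_⟩, add_sub_cancel e v⟩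
    rw [SetLike.mem_coe, LinearMap.mem_ker, map_sub, avg_of_fixed hef, he, smul_smul,
      mul_inv_cancel₀ (cast_ne S), one_smul, sub_self]
  have h1 : NdOn Q (W ⊓ fixedSpace y) := fun x hx h => hn x hx.1 fun z hz => by
    rw [← hsup] at hz
    obtain ⟨a, ha, b, hb, rfl⟩ := Submodule.mem_sup.1 hz
    rw [polar_add_right, h a ha, ho x hx b hb, add_zero]
  have h2 : NdOn Q (W ⊓ moved y r) := fun x hx h => hn x hx.1 fun z hz => by
    rw [← hsup] at hz
    obtain ⟨a, ha, b, hb, rfl⟩ := Submodule.mem_sup.1 hz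
    rw [polar_add_right, h b hb, polar_comm Q x a, ho a ha x hx, add_zero]
  refine ⟨h1, h2, ho, hsup, hW.inf moved_inv, ?_, ?_⟩
  · rw [eq_bot_iff, ← moved_inf_fixed S]
    exact inf_le_inf_right _ inf_le_right
  · conv_lhs => rw [← hsup]
    exact finrank_sup h1 ho

theorem q_half (S : Setting Q y r p) {b : ℕ} (hb : orderOf (Fintype.card F : ZMod r) = 2 * b) (hb0 : 0 < b) :
    (Fintype.card F : ZMod r) ^ b = -1 := by
  have h2 : (Fintype.card F : ZMod r) ^ b * (Fintype.card F : ZMod r) ^ b = 1 := by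
    rw [← pow_add, ← two_mul, ← hb, pow_orderOf_eq_one]
  refine (mul_self_eq_one_iff.1 h2).resolve_left fun h3 => ?_
  have := Nat.le_of_dvd hb0 (hb ▸ orderOf_dvd_of_pow_eq_one h3)
  omega

/-- Dimension and type of a moved non-degenerate invariant subspace. -/
theorem fpf_type (S : Setting Q y r p) {W : Submodule F V} (hW : Inv y W) (hn : NdOn Q W)
    (hWC : W ⊓ fixedSpace y = ⊥) :
    ∃ w, finrank F W = w * cOf (orderOf (Fintype.card F : ZMod r)) ∧
      (Plus Q W ↔ (¬ Even (orderOf (Fintype.card F : ZMod r)) ∨ Even w)) := by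
  classical
  have hr : r.Prime := Fact.out
  set i := orderOf (Fintype.card F : ZMod r) with hi
  rcases Nat.eq_zero_or_pos (finrank F W) with h0 | hpos
  · exact ⟨0, by rw [h0, zero_mul], iff_of_true (plus_of_finrank_zero h0) (Or.inr Even.zero)⟩
  let g : W ≃ₗ[F] W := LinearEquiv.ofBijective (y.restrict hW)
    ⟨fun a b h => Subtype.ext (inj S (congrArg Subtype.val h :)), LinearMap.injective_iff_surjective.1
      fun a b h => Subtype.ext (inj S (congrArg Subtype.val h :))⟩
  have hgv : ∀ (k : ℕ) (a : W), ((g ^ k) a : V) = (y ^ k) (a : V) := fun k => by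
    induction k with
    | zero => exact fun a => rfl
    | succ k ih =>
      intro a
      rw [pow_succ', pow_succ', LinearEquiv.mul_apply, Module.End.mul_apply, ← ih]
      rfl
  have hg : g ∈ isoG (Q.comp W.subtype) := fun a => S.iso (a : V)
  have hgr : g ^ r = 1 := LinearEquiv.ext fun a => Subtype.ext (by rw [hgv, S.pow]; rfl)
  set P := g.toLinearMap.charpoly with hP
  have h1 : P.eval 1 ≠ 0 := fun h => by
    obtain ⟨a, ha⟩ := ((Module.End.hasEigenvalue_iff_isRoot_charpoly g.toLinearMap 1).2 h).exists_hasEigenvector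
    refine ha.2 (Subtype.ext ?_)
    have h' := congrArg Subtype.val (Module.End.mem_eigenspace_iff.1 ha.1)
    rw [one_smul] at h'
    exact (Submodule.mem_bot F).1 (hWC ▸ ⟨a.2, mem_fixed.2 h'⟩)
  have hR : Real (Q.comp W.subtype) r P := ⟨g, hg, hgr, rfl⟩
  have hodd : Odd r := hr.odd_of_ne_two S.ne_two
  have hrec := hR.rec_torsion (p := p) hn.res hodd ((Nat.coprime_primes hr Fact.out).2 S.ne)
  obtain ⟨hdvd, -⟩ := natDegree_eq_card_mul (p := p) (q := Fintype.card F) rfl r i hr S.ne_two S.ne hi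
    hrec.1 hrec.2.2.2 h1
  rw [hrec.2.1] at hdvd
  rcases Nat.even_or_odd i with hie | hio
  · obtain ⟨b, hb⟩ := hie.two_dvd
    obtain ⟨w, hw⟩ := hdvd
    refine ⟨w, by rw [cOf, if_pos hie, hw, mul_comm], ?_⟩
    rw [or_iff_right (not_not.2 hie)]
    have hwb : finrank F W = 2 * (b * w) := by rw [hw, hb]; ring
    obtain ⟨k, hk⟩ : ∃ k, b * w = k + 1 := ⟨b * w - 1, by omega⟩
    have hb0 : 0 < b := Nat.pos_of_ne_zero fun h => by rw [h, zero_mul] at hk; omega
    have hpw : (Fintype.card F : ZMod r) ^ (k + 1) = (-1) ^ w := by rw [← hk, pow_mul, q_half S hb hb0]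
    rcases model_cases hn (k := k) (by omega) with ⟨h, e, he⟩ | ⟨h, ζ, hζ, e, he⟩
    · have := real_plus_cond (p := p) (q := Fintype.card F) rfl hr S.ne_two S.ne hi hie
        (hR.map (R := plusQ (k + 1) F) e.symm fun a => by rw [← he, e.apply_symm_apply]; rfl) h1
      rw [hpw] at this
      refine iff_of_true h ((Nat.even_or_odd w).resolve_right fun hw' => ?_)
      rw [hw'.neg_one_pow] at this
      exact neg_one_ne_one hr S.ne_two this
    · have := (real_minus_cond (p := p) (q := Fintype.card F) rfl hr S.ne_two S.ne hi hζ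
        (hR.map (R := minusQ k 1 ζ) e.symm fun a => by rw [← he, e.apply_symm_apply]; rfl) h1).2
      rw [hpw] at this
      refine iff_of_false h fun hw' => ?_
      rw [hw'.neg_one_pow] at this
      exact neg_one_ne_one hr S.ne_two this.symm
  · obtain ⟨A, -, -, -, hAd, -, -, w, hw⟩ :=
      (good_of_rec hrec).exists_half (p := p) (q := Fintype.card F) rfl r i hr S.ne_two S.ne hi hio h1
    rw [hrec.2.1, hw] at hAd
    refine ⟨w, by rw [cOf, if_neg (Nat.not_even_iff_odd.2 hio), hAd]; ring,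
      iff_of_true ?_ (Or.inl (Nat.not_even_iff_odd.2 hio))⟩
    obtain ⟨k, hk⟩ : ∃ k, i * w = k + 1 := ⟨i * w - 1, by omega⟩
    rcases model_cases hn (k := k) (by omega) with ⟨h, -⟩ | ⟨h, ζ, hζ, e, he⟩
    · exact h
    · exact absurd (real_minus_cond (p := p) (q := Fintype.card F) rfl hr S.ne_two S.ne hi hζ
        (hR.map (R := minusQ k 1 ζ) e.symm fun a => by rw [← he, e.apply_symm_apply]; rfl) h1).1
        (Nat.not_even_iff_odd.2 hio)

/-- Moved non-degenerate invariant subspaces of every admissible dimension. -/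
theorem exists_fpf_sub (S : Setting Q y r p) {R : Submodule F V} (hR : Inv y R) (hn : NdOn Q R)
    (hRC : R ⊓ fixedSpace y = ⊥) {w : ℕ}
    (hw : w * cOf (orderOf (Fintype.card F : ZMod r)) ≤ finrank F R) :
    ∃ U ≤ R, Inv y U ∧ NdOn Q U ∧ finrank F U = w * cOf (orderOf (Fintype.card F : ZMod r)) := by
  have hr : r.Prime := Fact.out
  obtain ⟨r', hr'⟩ := hr.odd_of_ne_two S.ne_two
  let B : LinearMap.BilinForm F R :=
    ((polarBilin Q).comp (y - y ^ (r - 1))).compl₁₂ R.subtype R.subtype
  have hBv : ∀ a b : R, B a b = polar Q (y (a : V)) (b : V) - polar Q ((y ^ (r - 1)) (a : V)) (b : V) :=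
    fun a b => by
      show polarBilin Q ((y - y ^ (r - 1)) (a : V)) (b : V) = _
      rw [LinearMap.sub_apply, map_sub, LinearMap.sub_apply]
      rfl
  have hback : ∀ v, y ((y ^ (r - 1)) v) = v := fun v => by
    rw [← Module.End.mul_apply, ← pow_succ', Nat.sub_add_cancel hr.one_le, S.pow]
  have hBA : B.IsAlt := fun a => by
    rw [hBv]
    have h := polar_y S ((y ^ (r - 1)) (a : V)) (a : V)
    rw [hback] at h
    rw [polar_comm Q (y (a : V)), h, sub_self]
  have hzero : ∀ v ∈ R, y v - (y ^ (r - 1)) v = 0 → v = 0 := fun v hv h => by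
    have h2 : (y ^ 2) v = v := by rw [pow_two, Module.End.mul_apply, sub_eq_zero.1 h, hback]
    have h2k : ∀ k, ((y ^ 2) ^ k) v = v := fun k => by
      induction k with
      | zero => rfl
      | succ k ih => rw [pow_succ', Module.End.mul_apply, ih, h2]
    have h1 := S.pow v
    rw [hr', pow_succ', Module.End.mul_apply, pow_mul, h2k] at h1
    exact (Submodule.mem_bot F).1 (hRC ▸ ⟨hv, mem_fixed.2 h1⟩)
  have hpow : ∀ (k : ℕ) (a : R), ((y.restrict hR ^ k) a : V) = (y ^ k) (a : V) := fun k => by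
    induction k with
    | zero => exact fun a => rfl
    | succ k ih =>
      intro a
      rw [pow_succ', pow_succ', Module.End.mul_apply, Module.End.mul_apply, ← ih]
      rfl
  have hcomm : ∀ v, (y ^ (r - 1)) (y v) = y ((y ^ (r - 1)) v) := fun v => by
    rw [← Module.End.mul_apply, ← Module.End.mul_apply, pow_mul_comm']
  have T : SympStep.Setting B (y.restrict hR) r p := by
    refine ⟨hBA, fun a ha => Subtype.ext (hzero a a.2 (hn _ ?_ fun b hb => ?_)), fun a b => ?_,
      fun a => Subtype.ext (by rw [hpow, S.pow]), S.ne, S.ne_two⟩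
    · exact R.sub_mem (hR _ a.2) (hR.pow _ _ a.2)
    · have := ha ⟨b, hb⟩
      rw [hBv] at this
      rw [sub_eq_add_neg, polar_add_left, polar_neg_left, ← sub_eq_add_neg]
      exact this
    · rw [hBv, hBv]
      show polar Q (y (y (a : V))) (y (b : V)) - polar Q ((y ^ (r - 1)) (y (a : V))) (y (b : V)) = _
      rw [hcomm, polar_y S, polar_y S]
  obtain ⟨U, -, hU, hUn, hUd⟩ := SympStep.exists_take T w (W := ⊤) (fun _ _ => trivial)
    (SympStep.nd_top T.sep) (eq_bot_iff.2 fun a ⟨_, ha⟩ => (Submodule.mem_bot F).2 (Subtype.ext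
      ((Submodule.mem_bot F).1 (hRC ▸ ⟨a.2, mem_fixed.2 (congrArg Subtype.val (mem_fixed.1 ha) :)⟩))))
    (by rwa [finrank_top])
  have hUi : Inv y (U.map R.subtype) := by
    rintro _ ⟨a, ha, rfl⟩
    exact ⟨_, hU a ha, rfl⟩
  refine ⟨U.map R.subtype, Submodule.map_subtype_le R U, hUi, ?_,
    (Submodule.finrank_map_subtype_eq R U).trans hUd⟩
  intro x hx h
  let D : (U.map R.subtype) →ₗ[F] (U.map R.subtype) := (y - y ^ (r - 1)).restrict fun v hv =>
    Submodule.sub_mem _ (hUi v hv) (hUi.pow _ v hv)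
  have hD : Function.Injective D := (injective_iff_map_eq_zero _).2 fun a ha => Subtype.ext
    (hzero a (Submodule.map_subtype_le R U a.2) (congrArg Subtype.val ha :))
  obtain ⟨⟨_, a, ha, rfl⟩, hax⟩ := LinearMap.injective_iff_surjective.1 hD ⟨x, hx⟩
  have hax' : y (a : V) - (y ^ (r - 1)) (a : V) = x := congrArg Subtype.val hax
  have ha0 : a = 0 := hUn a ha fun b hb => by
    rw [hBv]
    have := h (b : V) ⟨b, hb, rfl⟩
    rw [← hax', sub_eq_add_neg, polar_add_left, polar_neg_left, ← sub_eq_add_neg] at this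
    exact this
  rw [← hax', ha0]
  simp

/-- The fixed space has the multiplicity of the root one as its dimension. -/
theorem finrank_fixed_eq (S : Setting Q y r p) {a : ℕ} {P' : F[X]} (hy : y.charpoly = (X - 1) ^ a * P')
    (h1 : P'.eval 1 ≠ 0) : finrank F (fixedSpace y) = a := by
  have h : fixedSpace y = y.eigenspace 1 := by
    ext v; rw [mem_fixed, Module.End.mem_eigenspace_iff, one_smul]
  have hs := GLn.SemisimpleCharpoly.isSemisimple_of_pow p y ((Nat.coprime_primes (Fact.out : r.Prime) Fact.out).2 S.ne)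
    (LinearMap.ext S.pow)
  rw [h, ← (Module.End.isFinitelySemisimple_iff_isSemisimple.2 hs).maxGenEigenspace_eq_eigenspace,
    LinearMap.finrank_maxGenEigenspace_eq, hy]
  have hm : (X - C (1 : F)).Monic := monic_X_sub_C 1
  have hne : (X - C (1 : F)) ^ a * P' ≠ 0 :=
    mul_ne_zero (pow_ne_zero _ hm.ne_zero) fun e => h1 (by rw [e, eval_zero])
  rw [← C_1, rootMultiplicity_mul hne, rootMultiplicity_X_sub_C_pow, rootMultiplicity_eq_zero h1, add_zero]

omit [Fintype F] in
/-- Multiplying by `X - 1`. -/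
theorem rec_mul_sub_one {n : ℕ} {P : F[X]} (hP : IsRecTorsion n r P) : ∀ a,
    IsRecTorsion (n + a) r ((X - 1) ^ a * P)
  | 0 => by simpa using hP
  | a + 1 => by
    have hXm : (X - 1 : F[X]).Monic := by simpa using monic_X_sub_C (1 : F)
    have hXd : (X - 1 : F[X]).natDegree = 1 := by simpa using natDegree_X_sub_C (1 : F)
    have hXr : (X - 1 : F[X]).reverse = C (-1) * (X - 1) := by
      rw [reverse_eq_of_star (by simp) star_X_sub_one]; simp
    obtain ⟨hm, hd, hrev, hf⟩ := rec_mul_sub_one hP a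
    rw [pow_succ', mul_assoc]
    refine ⟨hXm.mul hm, by rw [hXm.natDegree_mul hm, hXd, hd]; ring, ?_, fun h hh hhm hd' =>
      (hh.prime.dvd_or_dvd hd').elim (fun h' => h'.trans (sub_one_dvd_pow_sub_one X r)) (hf h hh hhm)⟩
    rw [reverse_mul_of_domain, hXr, hrev, show n + (a + 1) = n + a + 1 by ring, pow_succ', C_mul]
    ring

/-- A polynomial with root one of multiplicity `a` and a moved part of degree `2 w`. -/
theorem exists_poly (hrp : r ≠ p) (hr2 : r ≠ 2) {w : ℕ} (hw : orderOf (Fintype.card F : ZMod r) ∣ 2 * w) (a : ℕ) :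
    ∃ P P' : F[X], IsRecTorsion (2 * w + a) r P ∧ P = (X - 1) ^ a * P' ∧ P'.eval 1 ≠ 0 := by
  obtain ⟨P', hP', h1⟩ := exists_full (p := p) (q := Fintype.card F) rfl r _ (Fact.out : r.Prime) hr2 hrp rfl hw
  exact ⟨_, P', rec_mul_sub_one hP' a, rfl, h1⟩

/-- A matrix of `Ω` with a bounded fixed space from a realised polynomial. -/
theorem exists_elt {ι : Type} [Fintype ι] [DecidableEq ι] {Q : QuadraticForm F (ι → F)} (hQ : Nd Q)
    (hreg : Reg F (ι → F)) (hrp : r ≠ p) (hr2 : r ≠ 2) {a : ℕ} {P P' : F[X]} (h : Real Q r P)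
    (hP : P = (X - 1) ^ a * P') (h1 : P'.eval 1 ≠ 0) (ha : a < Fintype.card ι) :
    ∃ x : GL ι F, x ∈ Cfsg.Geo.omegaGL ⇑Q ∧ orderOf x = r ∧
      (∀ z : F, (x : Matrix ι ι F) ≠ z • (1 : Matrix ι ι F)) ∧
      Setting Q (Matrix.toLin' (x : Matrix ι ι F)) r p ∧
      finrank F (fixedSpace (Matrix.toLin' (x : Matrix ι ι F))) = a := by
  have hr : r.Prime := Fact.out
  obtain ⟨x, hx, hxr, hxc⟩ := h.exists_omega hQ hreg (hr.odd_of_ne_two hr2)
  obtain ⟨g, hg, hgx⟩ := Subgroup.mem_map.1 hx
  have hiso : ∀ v, Q ((x : Matrix ι ι F) *ᵥ v) = Q v := fun v => by rw [← hgx]; exact g.2 v v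
  have hS : Setting Q (Matrix.toLin' (x : Matrix ι ι F)) r p :=
    ⟨fun v => by rw [Matrix.toLin'_apply]; exact hiso v,
      fun v => by rw [← Matrix.toLin'_pow, ← Units.val_pow_eq_pow_val, hxr, Units.val_one, Matrix.toLin'_one]; rfl,
      hrp, hr2⟩
  have hC := finrank_fixed_eq hS (by rw [Matrix.charpoly_toLin', hxc, hP]) h1
  have hne : ∀ z : F, (x : Matrix ι ι F) ≠ z • (1 : Matrix ι ι F) := by
    intro z hz
    haveI : Nonempty ι := Fintype.card_pos_iff.1 (by omega)
    haveI : Nontrivial (ι → F) := Function.nontrivial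
    obtain ⟨v, hv⟩ := Nd.exists_nonsing hQ
    have hv1 : (x : Matrix ι ι F) *ᵥ v = z • v := by rw [hz, Matrix.smul_mulVec, Matrix.one_mulVec]
    have hz2 := sq_eq_one_of_eigen hiso hv hv1
    have hzr := pow_mulVec_eigen hv1 r
    rw [hxr, Units.val_one, Matrix.one_mulVec] at hzr
    have hz1 : z = 1 := by
      obtain ⟨r', hr'⟩ := hr.odd_of_ne_two hr2
      have hv0 : v ≠ 0 := fun e => hv (by rw [e, map_zero])
      have h' : (1 : F) • v = z ^ r • v := by rw [one_smul]; exact hzr
      have := smul_left_injective F hv0 h'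
      rw [hr', pow_succ, pow_mul, pow_two, hz2, one_pow, one_mul] at this
      exact this.symm
    rw [hz, hz1, one_smul, Matrix.toLin'_one] at hC
    have htop : fixedSpace (LinearMap.id : Module.End F (ι → F)) = ⊤ :=
      eq_top_iff.2 fun v _ => mem_fixed.2 rfl
    rw [htop, finrank_top, finrank_pi] at hC
    omega
  exact ⟨x, hx, orderOf_eq_prime hxr fun e => hne 1 (by rw [e, one_smul, Units.val_one]), hne, hS, hC⟩

end Cfsg.Agent.Lib.Elusive.OrthStep
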