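import Cfsg.Agent.Lib.Elusive.SympStep
import Cfsg.Agent.Lib.Classical.OrthTorsionExist
import Cfsg.Agent.Lib.QuadWitt
import Cfsg.Agent.Lib.Classical.UnitaryFlat

/-!
# Types of non-degenerate subspaces of a quadratic space

A subspace of even dimension is of plus type when it contains a totally singular subspace of half its dimension.
Types multiply over orthogonal sums, and every type occurs in every proper smaller dimension.
-/

set_option autoImplicit false

namespace Cfsg.Agent.Lib.Elusive.OrthType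

open Module QuadraticMap Cfsg.Agent.Lib.Classical.Quad Cfsg.Agent.Lib.Classical.QuadOmega
open Cfsg.Agent.Lib.Classical.QuadF2 Cfsg.Agent.Lib.Classical.OrthTorsion

universe u v

variable {F : Type u} [Field F] {V : Type u} [AddCommGroup V] [Module F V] [FiniteDimensional F V]
variable {Q : QuadraticForm F V}

/-- The polar form is non-degenerate on `W`. -/
def NdOn (Q : QuadraticForm F V) (W : Submodule F V) : Prop :=
  ∀ x ∈ W, (∀ y ∈ W, polar Q x y = 0) → x = 0

/-- `W` contains a totally singular subspace of half its dimension. -/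
def Plus (Q : QuadraticForm F V) (W : Submodule F V) : Prop :=
  ∃ U ≤ W, TSing Q U ∧ 2 * finrank F U = finrank F W

/-- Orthogonal subspaces. -/
def Orth (Q : QuadraticForm F V) (A B : Submodule F V) : Prop := ∀ a ∈ A, ∀ b ∈ B, polar Q a b = 0

/-- Isometric subspaces. -/
def IsomOn (Q : QuadraticForm F V) (A B : Submodule F V) : Prop :=
  ∃ e : A ≃ₗ[F] B, ∀ a : A, Q (e a : V) = Q (a : V)

theorem Orth.symm {A B : Submodule F V} (h : Orth Q A B) : Orth Q B A :=
  fun b hb a ha => by rw [polar_comm]; exact h a ha b hb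

theorem Orth.mono {A B A' B' : Submodule F V} (h : Orth Q A B) (hA : A' ≤ A) (hB : B' ≤ B) : Orth Q A' B' :=
  fun a ha b hb => h a (hA ha) b (hB hb)

theorem polar_res (W : Submodule F V) (x y : W) : polar (Q.comp W.subtype) x y = polar Q (x : V) (y : V) := rfl

theorem NdOn.res {W : Submodule F V} (h : NdOn Q W) : Nd (Q.comp W.subtype) := fun x hx =>
  Subtype.ext (h x x.2 fun y hy => hx ⟨y, hy⟩)

theorem ndOn_bot : NdOn Q (⊥ : Submodule F V) := fun _ hx _ => (Submodule.mem_bot F).1 hx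

theorem ndOn_top (hQ : Nd Q) : NdOn Q (⊤ : Submodule F V) := fun x _ h => hQ x fun y => h y trivial

theorem inf_eq_bot {A B : Submodule F V} (hA : NdOn Q A) (ho : Orth Q A B) : A ⊓ B = ⊥ :=
  eq_bot_iff.2 fun x ⟨hx, hx'⟩ => (Submodule.mem_bot F).2 <|
    hA x hx fun y hy => by rw [polar_comm]; exact ho y hy x hx'

theorem finrank_sup {A B : Submodule F V} (hA : NdOn Q A) (ho : Orth Q A B) :
    finrank F (A ⊔ B : Submodule F V) = finrank F A + finrank F B := by
  have h := Submodule.finrank_sup_add_finrank_inf_eq A B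
  rwa [inf_eq_bot hA ho, finrank_bot, add_zero] at h

theorem ndOn_sup {A B : Submodule F V} (hA : NdOn Q A) (hB : NdOn Q B) (ho : Orth Q A B) :
    NdOn Q (A ⊔ B) := by
  intro x hx h
  obtain ⟨a, ha, b, hb, rfl⟩ := Submodule.mem_sup.1 hx
  have ha0 : a = 0 := hA a ha fun y hy => by
    have := h y (Submodule.mem_sup_left hy)
    rwa [polar_add_left, polar_comm Q b y, ho y hy b hb, add_zero] at this
  have hb0 : b = 0 := hB b hb fun y hy => by
    have := h y (Submodule.mem_sup_right hy)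
    rwa [polar_add_left, ho a ha y hy, zero_add] at this
  rw [ha0, hb0, add_zero]

/-- The part of `W` orthogonal to `U`. -/
abbrev perp (Q : QuadraticForm F V) (U W : Submodule F V) : Submodule F V :=
  SympStep.perpIn (polarBilin Q) U W

theorem mem_perp {U W : Submodule F V} {v : V} : v ∈ perp Q U W ↔ v ∈ W ∧ ∀ u ∈ U, polar Q u v = 0 :=
  SympStep.mem_perpIn

theorem orth_perp (U W : Submodule F V) : Orth Q U (perp Q U W) := fun u hu _ hv => (mem_perp.1 hv).2 u hu

theorem ndOn_split {U W : Submodule F V} (hU : NdOn Q U) (hW : NdOn Q W) (hUW : U ≤ W) :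
    NdOn Q (perp Q U W) ∧ U ⊔ perp Q U W = W ∧ finrank F U + finrank F (perp Q U W) = finrank F W := by
  have hd := finrank_sup hU (orth_perp (Q := Q) U W)
  have hle := SympStep.perpIn_dim (B := polarBilin Q) U W
  have he : U ⊔ perp Q U W = W :=
    Submodule.eq_of_le_of_finrank_le (sup_le hUW inf_le_left) (by rw [hd]; exact hle.trans_eq (add_comm _ _))
  refine ⟨fun x hx h => hW x (mem_perp.1 hx).1 fun y hy => ?_, he, by rw [← hd, he]⟩
  rw [← he] at hy
  obtain ⟨a, ha, b, hb, rfl⟩ := Submodule.mem_sup.1 hy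
  rw [polar_add_right, h b hb, polar_comm Q x a, (mem_perp.1 hx).2 a ha, add_zero]

theorem exists_sum_equiv {A B : Submodule F V} (hA : NdOn Q A) (ho : Orth Q A B) :
    ∃ e : (A × B) ≃ₗ[F] (A ⊔ B : Submodule F V), (∀ p, (e p : V) = (p.1 : V) + (p.2 : V)) ∧
      ∀ p, Q (e p : V) = Q (p.1 : V) + Q (p.2 : V) := by
  let L : (A × B) →ₗ[F] (A ⊔ B : Submodule F V) := LinearMap.codRestrict _
    (A.subtype.coprod B.subtype) fun p => Submodule.add_mem_sup p.1.2 p.2.2
  have hL : ∀ p, (L p : V) = (p.1 : V) + (p.2 : V) := fun p => rfl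
  have hinj : Function.Injective L := by
    rw [injective_iff_map_eq_zero]
    intro p hp
    have h0 : (p.1 : V) + (p.2 : V) = 0 := by rw [← hL, hp]; rfl
    have h1 : (p.1 : V) = 0 := (Submodule.mem_bot F).1 (inf_eq_bot hA ho ▸
      ⟨p.1.2, by rw [eq_neg_of_add_eq_zero_left h0]; exact B.neg_mem p.2.2⟩)
    rw [h1, zero_add] at h0
    exact Prod.ext (Subtype.ext h1) (Subtype.ext h0)
  refine ⟨LinearEquiv.ofBijective L ⟨hinj, (LinearMap.injective_iff_surjective_of_finrank_eq_finrank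
    (by rw [Module.finrank_prod, finrank_sup hA ho])).1 hinj⟩, fun p => hL p, fun p => ?_⟩
  show Q (L p : V) = _
  rw [hL, QuadraticMap.map_add ⇑Q, ho _ p.1.2 _ p.2.2, add_zero]

/-! ### Isometries -/

theorem IsomOn.refl (A : Submodule F V) : IsomOn Q A A := ⟨LinearEquiv.refl F A, fun _ => rfl⟩

theorem IsomOn.symm {A B : Submodule F V} (h : IsomOn Q A B) : IsomOn Q B A := by
  obtain ⟨e, he⟩ := h
  exact ⟨e.symm, fun b => by rw [← he (e.symm b), e.apply_symm_apply]⟩

theorem IsomOn.trans {A B C : Submodule F V} (h : IsomOn Q A B) (h' : IsomOn Q B C) : IsomOn Q A C := by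
  obtain ⟨e, he⟩ := h
  obtain ⟨e', he'⟩ := h'
  exact ⟨e.trans e', fun a => by rw [LinearEquiv.trans_apply, he', he]⟩

theorem IsomOn.finrank_eq {A B : Submodule F V} (h : IsomOn Q A B) : finrank F A = finrank F B :=
  h.choose.finrank_eq

theorem IsomOn.sup {A B A' B' : Submodule F V} (hA : NdOn Q A) (hA' : NdOn Q A') (ho : Orth Q A B)
    (ho' : Orth Q A' B') (h : IsomOn Q A A') (h' : IsomOn Q B B') : IsomOn Q (A ⊔ B) (A' ⊔ B') := by
  obtain ⟨e, he⟩ := h
  obtain ⟨e', he'⟩ := h'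
  obtain ⟨s, -, hs⟩ := exists_sum_equiv hA ho
  obtain ⟨s', -, hs'⟩ := exists_sum_equiv hA' ho'
  refine ⟨s.symm.trans ((e.prodCongr e').trans s'), fun a => ?_⟩
  obtain ⟨p, rfl⟩ := s.surjective a
  rw [LinearEquiv.trans_apply, LinearEquiv.trans_apply, LinearEquiv.symm_apply_apply, hs', hs]
  exact congrArg₂ (· + ·) (he p.1) (he' p.2)

/-- Witt cancellation inside a non-degenerate subspace. -/
theorem IsomOn.cancel {A A' W : Submodule F V} (hW : NdOn Q W) (hA : NdOn Q A) (hA' : NdOn Q A') (hAW : A ≤ W)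
    (hA'W : A' ≤ W) (h : IsomOn Q A A') : IsomOn Q (perp Q A W) (perp Q A' W) := by
  have hde := h.finrank_eq
  obtain ⟨e, he⟩ := h
  let P : Submodule F W := A.comap W.subtype
  let φ : P →ₗ[F] W := LinearMap.codRestrict W
    (A'.subtype ∘ₗ e.toLinearMap ∘ₗ LinearMap.codRestrict A (W.subtype ∘ₗ P.subtype) fun x => x.2)
    fun x => hA'W (e ⟨_, x.2⟩).2
  have hφ : ∀ x : P, (φ x : V) = e ⟨((x : W) : V), x.2⟩ := fun x => rfl
  obtain ⟨γ, hγ, hγP⟩ := QuadWitt.witt_quad (Q.comp W.subtype)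
    ⟨fun x hx => hW.res x fun y => by simpa using hx y,
      fun x hx => hW.res x fun y => by rw [polar_comm]; simpa using hx y⟩ P
    (fun x hx h => Subtype.ext (hA (x : V) hx fun y hy => h ⟨y, hAW hy⟩ hy)) φ
    fun x => by
      show Q (φ x : V) = Q ((x : W) : V)
      rw [hφ, he]
  have hpol : ∀ a b : W, polar Q (γ a : V) (γ b : V) = polar Q (a : V) (b : V) := fun a b => by
    rw [← polar_res W, ← polar_res W]; simp only [polar, ← map_add, hγ]
  let L : (perp Q A W) →ₗ[F] (perp Q A' W) :=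
    LinearMap.codRestrict _ (W.subtype ∘ₗ γ.toLinearMap ∘ₗ Submodule.inclusion inf_le_left) fun x => by
      refine mem_perp.2 ⟨(γ _).2, fun u hu => ?_⟩
      obtain ⟨a, ha⟩ := e.surjective ⟨u, hu⟩
      have h1 : (γ ⟨(a : V), hAW a.2⟩ : V) = u := by
        rw [hγP ⟨⟨(a : V), hAW a.2⟩, a.2⟩, hφ, ha]
      rw [← h1]
      exact (hpol _ _).trans ((mem_perp.1 x.2).2 _ a.2)
  have hinj : Function.Injective L := fun x y hxy => by
    have h1 := γ.injective (Subtype.ext (congrArg Subtype.val hxy :) :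
      γ (Submodule.inclusion inf_le_left x) = γ (Submodule.inclusion inf_le_left y))
    exact Subtype.ext (congrArg Subtype.val h1 :)
  have hdim : finrank F (perp Q A W) = finrank F (perp Q A' W) := by
    have h1 := (ndOn_split hA hW hAW).2.2
    have h2 := (ndOn_split hA' hW hA'W).2.2
    omega
  exact ⟨LinearEquiv.ofBijective L ⟨hinj, (LinearMap.injective_iff_surjective_of_finrank_eq_finrank hdim).1 hinj⟩,
    fun x => hγ (Submodule.inclusion inf_le_left x)⟩

theorem IsomOn.plus {A B : Submodule F V} (h : IsomOn Q A B) (hA : Plus Q A) : Plus Q B := by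
  have hd := h.finrank_eq
  obtain ⟨e, he⟩ := h
  obtain ⟨U, hUA, hU, hUd⟩ := hA
  have hinj : Function.Injective (B.subtype ∘ₗ e.toLinearMap ∘ₗ Submodule.inclusion hUA) :=
    (Subtype.val_injective.comp e.injective).comp (Submodule.inclusion_injective hUA)
  refine ⟨LinearMap.range (B.subtype ∘ₗ e.toLinearMap ∘ₗ Submodule.inclusion hUA), ?_, ?_, ?_⟩
  · rintro _ ⟨x, rfl⟩
    exact (e _).2
  · rintro _ ⟨x, rfl⟩
    exact (he _).trans (hU x x.2)
  · rw [LinearMap.finrank_range_of_inj hinj, hUd, hd]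

theorem plus_of_finrank_zero {W : Submodule F V} (h : finrank F W = 0) : Plus Q W :=
  ⟨⊥, bot_le, fun x hx => by rw [(Submodule.mem_bot F).1 hx, map_zero], by rw [finrank_bot, h]⟩

/-- A model of plus type. -/
theorem plus_of_model {k : ℕ} {W : Submodule F V} (e : (Fin k ⊕ Fin k → F) ≃ₗ[F] W)
    (he : ∀ v, Q (e v : V) = plusQ k F v) : Plus Q W := by
  refine ⟨(xPlane k F).map (W.subtype ∘ₗ e.toLinearMap), ?_, ?_, ?_⟩
  · rintro _ ⟨x, -, rfl⟩
    exact (e x).2
  · rintro _ ⟨x, hx, rfl⟩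
    exact (he x).trans ((maxTS_xPlane k).sing x hx)
  · rw [← (Submodule.equivMapOfInjective (W.subtype ∘ₗ e.toLinearMap)
      (Subtype.val_injective.comp e.injective) _).finrank_eq,
      ((maxTS_iff _ _).1 (maxTS_xPlane k)).1, ← e.finrank_eq, finrank_plus]

variable [Fintype F]

/-- A model of minus type. -/
theorem not_plus_of_model {k : ℕ} {a b : F} (hab : Aniso a b) {W : Submodule F V}
    (e : ((Fin k ⊕ Fin k) ⊕ Fin 2 → F) ≃ₗ[F] W) (he : ∀ v, Q (e v : V) = minusQ k a b v) : ¬ Plus Q W := by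
  rintro ⟨U, hUW, hU, hUd⟩
  have h := finrank_le_of_minus hab k ((U.comap W.subtype).map e.symm.toLinearMap) (by
    rintro _ ⟨x, hx, rfl⟩
    rw [← minusQ_apply, ← he, LinearEquiv.coe_coe, e.apply_symm_apply]
    exact hU _ hx)
  have hd : finrank F W = 2 * (k + 1) := by rw [← e.finrank_eq]; simp [Module.finrank_pi]; ring
  rw [LinearEquiv.finrank_map_eq, (Submodule.comapSubtypeEquivOfLe hUW).finrank_eq] at h
  omega

/-- Normal forms. -/
theorem model_cases {W : Submodule F V} (hW : NdOn Q W) {k : ℕ} (hd : finrank F W = 2 * (k + 1)) :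
    (Plus Q W ∧ ∃ e : (Fin (k + 1) ⊕ Fin (k + 1) → F) ≃ₗ[F] W, ∀ v, Q (e v : V) = plusQ (k + 1) F v) ∨
      (¬ Plus Q W ∧ ∃ ζ : F, Aniso 1 ζ ∧ ∃ e : ((Fin k ⊕ Fin k) ⊕ Fin 2 → F) ≃ₗ[F] W,
        ∀ v, Q (e v : V) = minusQ k 1 ζ v) := by
  rcases exists_normal_even k hW.res (by omega) with ⟨e, he⟩ | ⟨ζ, hζ, e, he⟩
  · have he' : ∀ v, Q (e v : V) = plusQ (k + 1) F v := fun v => (he v).trans (plusQ_apply _ v).symm
    exact Or.inl ⟨plus_of_model e he', e, he'⟩
  · have he' : ∀ v, Q (e v : V) = minusQ k 1 ζ v := fun v => (he v).trans (minusQ_apply _ _ _ v).symm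
    exact Or.inr ⟨not_plus_of_model hζ e he', ζ, hζ, e, he'⟩

/-- Spaces of the same type and dimension are isometric. -/
theorem isomOn_of_plus_iff {A B : Submodule F V} (hA : NdOn Q A) (hB : NdOn Q B) (he : Even (finrank F A))
    (hd : finrank F A = finrank F B) (h : Plus Q A ↔ Plus Q B) : IsomOn Q A B := by
  obtain ⟨k, hk⟩ := he
  rcases k with _ | k
  · have hA0 : A = ⊥ := Submodule.finrank_eq_zero.1 (by omega)
    have hB0 : B = ⊥ := Submodule.finrank_eq_zero.1 (by omega)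
    rw [hA0, hB0]
    exact IsomOn.refl _
  rcases model_cases hA (k := k) (by omega) with ⟨h1, e, he⟩ | ⟨h1, ζ, hζ, e, he⟩ <;>
    rcases model_cases hB (k := k) (by omega) with ⟨h2, e', he'⟩ | ⟨h2, ζ', hζ', e', he'⟩
  · exact ⟨e.symm.trans e', fun a => by
      rw [LinearEquiv.trans_apply, he', ← he, e.apply_symm_apply]⟩
  · exact absurd (h.1 h1) h2
  · exact absurd (h.2 h2) h1
  · obtain ⟨f, hf⟩ := AutOmega.exists_bin_equiv hζ' hζ k
    exact ⟨e.symm.trans (f.trans e'), fun a => by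
      rw [LinearEquiv.trans_apply, LinearEquiv.trans_apply, he', hf, ← he, e.apply_symm_apply]⟩

/-- Of two non-isometric spaces of the same even dimension exactly one is of plus type. -/
theorem plus_iff_not_of_not_isom {A B : Submodule F V} (hA : NdOn Q A) (hB : NdOn Q B) (he : Even (finrank F A))
    (hd : finrank F A = finrank F B) (h : ¬ IsomOn Q A B) : Plus Q A ↔ ¬ Plus Q B := by
  constructor
  · intro h1 h2; exact h (isomOn_of_plus_iff hA hB he hd (iff_of_true h1 h2))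
  · intro h2; by_contra h1; exact h (isomOn_of_plus_iff hA hB he hd (iff_of_false h1 h2))

/-- Types multiply. -/
theorem plus_sup {A B : Submodule F V} (hA : NdOn Q A) (hB : NdOn Q B) (ho : Orth Q A B)
    (hAe : Even (finrank F A)) (hBe : Even (finrank F B)) : Plus Q (A ⊔ B) ↔ (Plus Q A ↔ Plus Q B) := by
  obtain ⟨a, ha⟩ := hAe
  obtain ⟨b, hb⟩ := hBe
  rcases a with _ | a
  · rw [Submodule.finrank_eq_zero.1 (by omega : finrank F A = 0), bot_sup_eq]
    simp [plus_of_finrank_zero (Q := Q) (finrank_bot F V)]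
  rcases b with _ | b
  · rw [Submodule.finrank_eq_zero.1 (by omega : finrank F B = 0), sup_bot_eq]
    simp [plus_of_finrank_zero (Q := Q) (finrank_bot F V)]
  obtain ⟨s, -, hs⟩ := exists_sum_equiv hA ho
  rcases model_cases hA (k := a) (by omega) with ⟨h1, e, he⟩ | ⟨h1, ζ, hζ, e, he⟩ <;>
    rcases model_cases hB (k := b) (by omega) with ⟨h2, e', he'⟩ | ⟨h2, ζ', hζ', e', he'⟩
  · obtain ⟨f, hf⟩ := exists_plus_plus (F := F) (a + 1) (b + 1)
    refine iff_of_true (plus_of_model (f.symm.trans ((e.prodCongr e').trans s)) fun v => ?_) (iff_of_true h1 h2)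
    obtain ⟨p, rfl⟩ := f.surjective v
    simp only [LinearEquiv.trans_apply, LinearEquiv.symm_apply_apply, hs, hf, LinearEquiv.prodCongr_apply,
      he, he', QuadraticMap.prod_apply]
  · obtain ⟨f, hf⟩ := exists_plus_minus (F := F) (a + 1) b 1 ζ'
    refine iff_of_false (not_plus_of_model hζ' (f.symm.trans ((e.prodCongr e').trans s)) fun v => ?_)
      fun h => h2 (h.1 h1)
    obtain ⟨p, rfl⟩ := f.surjective v
    simp only [LinearEquiv.trans_apply, LinearEquiv.symm_apply_apply, hs, hf, LinearEquiv.prodCongr_apply,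
      he, he', QuadraticMap.prod_apply]
  · obtain ⟨f, hf⟩ := exists_plus_minus (F := F) (b + 1) a 1 ζ
    refine iff_of_false (not_plus_of_model hζ (f.symm.trans (((LinearEquiv.prodComm F _ _).trans
      (e.prodCongr e')).trans s)) fun v => ?_) fun h => h1 (h.2 h2)
    obtain ⟨p, rfl⟩ := f.surjective v
    simp only [LinearEquiv.trans_apply, LinearEquiv.symm_apply_apply, hs, hf, LinearEquiv.prodCongr_apply,
      he, he', QuadraticMap.prod_apply, LinearEquiv.prodComm_apply, Prod.fst_swap, Prod.snd_swap, add_comm]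
  · obtain ⟨g, hg⟩ := AutOmega.exists_bin_equiv hζ hζ' a
    obtain ⟨f, hf⟩ := exists_minus_minus (F := F) a b hζ'
    refine iff_of_true (plus_of_model (f.symm.trans ((((g.trans e).prodCongr e')).trans s)) fun v => ?_)
      (iff_of_false h1 h2)
    obtain ⟨p, rfl⟩ := f.surjective v
    simp only [LinearEquiv.trans_apply, LinearEquiv.symm_apply_apply, hs, hf, LinearEquiv.prodCongr_apply,
      he, he', QuadraticMap.prod_apply]
    rw [hg]

/-! ### Subspaces of both classes -/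

theorem exists_hyperplanes {W : Submodule F V} (hW : NdOn Q W) (h2 : (2 : F) ≠ 0) (hn : 2 ≤ finrank F W) :
    ∃ H₁ H₂ : Submodule F V, H₁ ≤ W ∧ H₂ ≤ W ∧ NdOn Q H₁ ∧ NdOn Q H₂ ∧ finrank F H₁ + 1 = finrank F W ∧
      finrank F H₂ + 1 = finrank F W ∧ ¬ IsomOn Q H₁ H₂ := by
  obtain ⟨ν, hν⟩ : ∃ a : F, ¬ IsSquare a :=
    FiniteField.exists_nonsquare fun h => h2 (by haveI := ringChar.of_eq h; exact CharTwo.two_eq_zero)
  have hν0 : ν ≠ 0 := fun h => hν (h ▸ IsSquare.zero)
  have key : ∀ c : F, c ≠ 0 → ∃ (w : V) (H : Submodule F V), H = perp Q (Submodule.span F {w}) W ∧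
      Q w = c ∧ w ∈ W ∧ w ≠ 0 ∧ NdOn Q (Submodule.span F {w}) ∧ NdOn Q H ∧ finrank F H + 1 = finrank F W := by
    intro c hc
    obtain ⟨⟨w, hwW⟩, hw⟩ := Nd.exists_eq hW.res h2 hn c
    change Q w = c at hw
    have hw0 : w ≠ 0 := fun h => hc (by rw [← hw, h, map_zero])
    have hs : NdOn Q (Submodule.span F {w}) := fun x hx h => by
      obtain ⟨t, rfl⟩ := Submodule.mem_span_singleton.1 hx
      have := h w (Submodule.mem_span_singleton_self w)
      rw [polar_smul_left, polar_self, hw, two_nsmul, smul_eq_mul, ← two_mul] at this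
      rw [(mul_eq_zero.1 this).resolve_right (mul_ne_zero h2 hc), zero_smul]
    obtain ⟨h1, -, h3⟩ := ndOn_split hs hW ((Submodule.span_singleton_le_iff_mem _ _).2 hwW)
    rw [finrank_span_singleton hw0] at h3
    exact ⟨w, _, rfl, hw, hwW, hw0, hs, h1, by omega⟩
  obtain ⟨w₁, H₁, e₁, hw₁, hw₁W, hw₁0, hs₁, hn₁, hd₁⟩ := key 1 one_ne_zero
  obtain ⟨w₂, H₂, e₂, hw₂, hw₂W, hw₂0, hs₂, hn₂, hd₂⟩ := key ν hν0
  have hH₁ : H₁ ≤ W := e₁ ▸ inf_le_left
  have hH₂ : H₂ ≤ W := e₂ ▸ inf_le_left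
  refine ⟨H₁, H₂, hH₁, hH₂, hn₁, hn₂, hd₁, hd₂, fun hiso => hν ?_⟩
  have back : ∀ (w : V) (H : Submodule F V), w ∈ W → w ≠ 0 → H = perp Q (Submodule.span F {w}) W → H ≤ W →
      NdOn Q H → finrank F H + 1 = finrank F W → perp Q H W = Submodule.span F {w} := by
    intro w H hwW hw0 e hHW hHn hd
    refine (Submodule.eq_of_le_of_finrank_le ((Submodule.span_singleton_le_iff_mem _ _).2
      (mem_perp.2 ⟨hwW, fun u hu => ?_⟩)) ?_).symm
    · rw [e] at hu
      rw [polar_comm]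
      exact (mem_perp.1 hu).2 w (Submodule.mem_span_singleton_self w)
    · have := (ndOn_split hHn hW hHW).2.2
      rw [finrank_span_singleton hw0]
      omega
  have h1 := hiso.cancel hW hn₁ hn₂ hH₁ hH₂
  rw [back w₁ H₁ hw₁W hw₁0 e₁ hH₁ hn₁ hd₁, back w₂ H₂ hw₂W hw₂0 e₂ hH₂ hn₂ hd₂] at h1
  obtain ⟨e, he⟩ := h1
  obtain ⟨s, hs⟩ := Submodule.mem_span_singleton.1 (e ⟨w₁, Submodule.mem_span_singleton_self w₁⟩).2
  have h := he ⟨w₁, Submodule.mem_span_singleton_self w₁⟩
  rw [← hs, QuadraticMap.map_smul, hw₂, hw₁, smul_eq_mul] at h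
  refine ⟨s⁻¹, ?_⟩
  have hs0 : s * s ≠ 0 := fun h0 => by rw [h0, zero_mul] at h; exact zero_ne_one h
  rw [← mul_inv]
  exact eq_inv_of_mul_eq_one_right h

/-- Subspaces of both classes in every smaller dimension. -/
theorem exists_two (h2 : (2 : F) ≠ 0) {t : ℕ} (ht : 1 ≤ t) : ∀ (k : ℕ) {W : Submodule F V}, NdOn Q W →
    t + 1 + k = finrank F W → ∃ U₁ U₂ : Submodule F V, U₁ ≤ W ∧ U₂ ≤ W ∧ NdOn Q U₁ ∧ NdOn Q U₂ ∧
      finrank F U₁ = t ∧ finrank F U₂ = t ∧ ¬ IsomOn Q U₁ U₂ := by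
  intro k
  induction k with
  | zero =>
    intro W hW hd
    obtain ⟨H₁, H₂, a, b, c, d, e, f, g⟩ := exists_hyperplanes hW h2 (by omega)
    exact ⟨H₁, H₂, a, b, c, d, by omega, by omega, g⟩
  | succ k ih =>
    intro W hW hd
    obtain ⟨H₁, -, a, -, c, -, e, -, -⟩ := exists_hyperplanes hW h2 (by omega)
    obtain ⟨U₁, U₂, x, y, rest⟩ := ih c (by omega)
    exact ⟨U₁, U₂, x.trans a, y.trans a, rest⟩

theorem even_of_two (h2 : (2 : F) = 0) {W : Submodule F V} (hW : NdOn Q W) : Even (finrank F W) :=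
  SympStep.nd_even (B := polarBilin Q) (fun x => by
    show polar Q x x = 0
    rw [polar_self, two_nsmul, ← two_mul, h2, zero_mul]) fun x hx h => hW x hx fun y hy => h y hy

omit [Fintype F] in
/-- The image of a model. -/
theorem exists_range {A : Type u} [AddCommGroup A] [Module F A] [FiniteDimensional F A]
    {R : QuadraticForm F A} {W : Submodule F V}
    (hR : Nd R) (φ : A →ₗ[F] V) (hinj : Function.Injective φ) (hφW : ∀ x, φ x ∈ W) (hφ : ∀ x, Q (φ x) = R x) :
    ∃ (U : Submodule F V) (e : A ≃ₗ[F] U), U ≤ W ∧ NdOn Q U ∧ ∀ x, Q (e x : V) = R x := by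
  refine ⟨LinearMap.range φ, LinearEquiv.ofInjective φ hinj, ?_, ?_, fun x => hφ x⟩
  · rintro _ ⟨x, rfl⟩; exact hφW x
  · rintro _ ⟨x, rfl⟩ h
    have : x = 0 := hR x fun y => by
      have := h (φ y) ⟨y, rfl⟩
      simpa [polar, ← map_add, hφ] using this
    rw [this, map_zero]

/-- Both types in every smaller even dimension. -/
theorem exists_sub {W : Submodule F V} (hW : NdOn Q W) {a : ℕ} (ha : 1 ≤ a) (han : 2 * a < finrank F W)
    (b : Prop) : ∃ U ≤ W, NdOn Q U ∧ finrank F U = 2 * a ∧ (Plus Q U ↔ b) := by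
  by_cases h2 : (2 : F) = 0
  swap
  · obtain ⟨U₁, U₂, l₁, l₂, n₁, n₂, d₁, d₂, hne⟩ := exists_two h2 (t := 2 * a) (by omega)
      (finrank F W - (2 * a + 1)) hW (by omega)
    have h := plus_iff_not_of_not_isom n₁ n₂ (by rw [d₁]; exact even_two_mul a) (by rw [d₁, d₂]) hne
    by_cases hb : Plus Q U₁ ↔ b
    · exact ⟨U₁, l₁, n₁, d₁, hb⟩
    · exact ⟨U₂, l₂, n₂, d₂, by tauto⟩
  obtain ⟨N, hN⟩ := even_of_two h2 hW
  obtain ⟨a, rfl⟩ : ∃ a', a = a' + 1 := ⟨a - 1, by omega⟩
  obtain ⟨c, rfl⟩ : ∃ c, N = a + c + 1 + 1 := ⟨N - (a + 2), by omega⟩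
  obtain ⟨ζ, hζ⟩ := Classical.UnitaryFlat.exists_aniso F
  rcases model_cases hW (k := a + c + 1) (by omega) with ⟨-, e, he⟩ | ⟨-, ζ', hζ', e, he⟩
  · by_cases hb : b
    · obtain ⟨f, hf⟩ := exists_plus_plus (F := F) (a + 1) (c + 1)
      obtain ⟨g, hg⟩ : ∃ g : (Fin (a + 1 + (c + 1)) ⊕ Fin (a + 1 + (c + 1)) → F) ≃ₗ[F] W,
          ∀ v, Q (g v : V) = plusQ _ F v := by
        rw [show a + 1 + (c + 1) = a + c + 1 + 1 by omega]; exact ⟨e, he⟩
      obtain ⟨U, φ, hU, hUn, hφ⟩ := exists_range (W := W) (nd_plusQ (F := F) (a + 1))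
        (W.subtype ∘ₗ g.toLinearMap ∘ₗ f.toLinearMap ∘ₗ LinearMap.inl F _ _)
        ((Subtype.val_injective.comp g.injective).comp (f.injective.comp LinearMap.inl_injective))
        (fun x => (g _).2) fun x => (hg _).trans (by simp [hf])
      exact ⟨U, hU, hUn, by rw [← φ.finrank_eq, finrank_plus], iff_of_true (plus_of_model φ hφ) hb⟩
    · obtain ⟨f, hf⟩ := exists_minus_minus (F := F) a c hζ
      obtain ⟨U, φ, hU, hUn, hφ⟩ := exists_range (W := W) (nd_minusQ hζ a)
        (W.subtype ∘ₗ e.toLinearMap ∘ₗ f.toLinearMap ∘ₗ LinearMap.inl F _ _)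
        ((Subtype.val_injective.comp e.injective).comp (f.injective.comp LinearMap.inl_injective))
        (fun x => (e _).2) fun x => (he _).trans (by simp [hf])
      exact ⟨U, hU, hUn, by rw [← φ.finrank_eq]; simp [Module.finrank_pi]; ring,
        iff_of_false (not_plus_of_model hζ φ hφ) hb⟩
  · by_cases hb : b
    · obtain ⟨f, hf⟩ := exists_plus_minus (F := F) (a + 1) c 1 ζ'
      obtain ⟨g, hg⟩ : ∃ g : ((Fin (a + 1 + c) ⊕ Fin (a + 1 + c)) ⊕ Fin 2 → F) ≃ₗ[F] W,
          ∀ v, Q (g v : V) = minusQ _ 1 ζ' v := by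
        rw [show a + 1 + c = a + c + 1 by omega]; exact ⟨e, he⟩
      obtain ⟨U, φ, hU, hUn, hφ⟩ := exists_range (W := W) (nd_plusQ (F := F) (a + 1))
        (W.subtype ∘ₗ g.toLinearMap ∘ₗ f.toLinearMap ∘ₗ LinearMap.inl F _ _)
        ((Subtype.val_injective.comp g.injective).comp (f.injective.comp LinearMap.inl_injective))
        (fun x => (g _).2) fun x => (hg _).trans (by simp [hf])
      exact ⟨U, hU, hUn, by rw [← φ.finrank_eq, finrank_plus], iff_of_true (plus_of_model φ hφ) hb⟩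
    · obtain ⟨f, hf⟩ := exists_plus_minus (F := F) (c + 1) a 1 ζ'
      obtain ⟨g, hg⟩ : ∃ g : ((Fin (c + 1 + a) ⊕ Fin (c + 1 + a)) ⊕ Fin 2 → F) ≃ₗ[F] W,
          ∀ v, Q (g v : V) = minusQ _ 1 ζ' v := by
        rw [show c + 1 + a = a + c + 1 by omega]; exact ⟨e, he⟩
      obtain ⟨U, φ, hU, hUn, hφ⟩ := exists_range (W := W) (nd_minusQ hζ' a)
        (W.subtype ∘ₗ g.toLinearMap ∘ₗ f.toLinearMap ∘ₗ LinearMap.inr F _ _)
        ((Subtype.val_injective.comp g.injective).comp (f.injective.comp LinearMap.inr_injective))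
        (fun x => (g _).2) fun x => (hg _).trans (by simp [hf])
      exact ⟨U, hU, hUn, by rw [← φ.finrank_eq]; simp [Module.finrank_pi]; ring,
        iff_of_false (not_plus_of_model hζ' φ hφ) hb⟩

end Cfsg.Agent.Lib.Elusive.OrthType
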