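import Cfsg.Agent.Lib.Jordan.Orthogonal
import Cfsg.Agent.Lib.Classical.OrthTorsionOmega
import Cfsg.Agent.Lib.Forms.SymmType
import Cfsg.Agent.Lib.Forms.OrthStab

/-!
Unipotent elements of orthogonal groups in odd characteristic and their invariant non-degenerate subspaces.
-/

set_option autoImplicit false

namespace Cfsg.Agent.Lib.Elusive.OrthUnipotent

open Module QuadraticMap Cfsg.Agent.Lib.Jordan Cfsg.Agent.Lib.Forms
open Cfsg.Agent.Lib.Classical.OrthTorsion Cfsg.Agent.Lib.Classical.Quad Cfsg.Agent.Lib.Classical.QuadOmega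
open scoped Matrix

universe u

variable {F : Type u} [Field F]

/-- Half of the chain basis spans a totally isotropic subspace when all chains are even. -/
theorem exists_half {V : Type u} [AddCommGroup V] [Module F V] [FiniteDimensional F V]
    {B : LinearMap.BilinForm F V} (hsymm : ∀ x y, B x y = B y x) {X : Module.End F V}
    (hX : ∀ u v, B (X u) (X v) = B u v) (hXi : Function.Injective X) {μ : Multiset ℕ} (hμ : HasType (X - 1) μ)
    (hev : ∀ a ∈ μ, Even a) :
    ∃ U : Submodule F V, 2 * finrank F U = finrank F V ∧ ∀ u ∈ U, ∀ v ∈ U, B u v = 0 := by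
  classical
  have hsum := hμ.sum_eq
  obtain ⟨κ, _, d, v, h1, rfl, h3, h4⟩ := hμ
  set f := X - 1 with hf
  have hsurj : Function.Surjective X := LinearMap.injective_iff_surjective.1 hXi
  have hcomm : Commute f X := (Commute.refl X).sub_left (Commute.one_left X)
  have key : ∀ (i : ℕ) (a y : V), (f ^ i) y = 0 → B ((f ^ i) a) y = 0 := by
    intro i
    induction i with
    | zero => intro a y hy; rw [pow_zero, Module.End.one_apply] at hy; rw [hy, map_zero]
    | succ i ih =>
      intro a y hy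
      obtain ⟨y', rfl⟩ := hsurj y
      have hy' : (f ^ (i + 1)) y' = 0 := hXi (by
        rw [map_zero, ← Module.End.mul_apply, ← (hcomm.pow_left (i + 1)).eq, Module.End.mul_apply]; exact hy)
      have h := ih a (f y') (by rw [← Module.End.mul_apply, ← pow_succ]; exact hy')
      rw [hf, LinearMap.sub_apply, Module.End.one_apply, ← hf, map_sub] at h
      rw [pow_succ', Module.End.mul_apply]
      conv_lhs => rw [hf, LinearMap.sub_apply, Module.End.one_apply, ← hf, map_sub, LinearMap.sub_apply, hX]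
      linear_combination -h
  let b := chainBasis d v h4
  let S : Finset ((k : κ) × Fin (d k)) := Finset.univ.filter fun x => d x.1 ≤ 2 * (x.2 : ℕ)
  refine ⟨Submodule.span F (Set.range fun x : S => b x), ?_, ?_⟩
  · rw [show (Set.range fun x : S => b x) = Set.range (⇑b ∘ Subtype.val) from rfl,
      finrank_span_eq_card (b.linearIndependent.comp _ Subtype.val_injective), Fintype.card_coe, ← hsum]
    have hS : S.card = ∑ k, d k / 2 := by
      rw [show S = Finset.univ.sigma fun k => Finset.univ.filter fun i : Fin (d k) => d k ≤ 2 * (i : ℕ) from by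
        ext ⟨k, i⟩; simp [S], Finset.card_sigma]
      refine Finset.sum_congr rfl fun k _ => ?_
      obtain ⟨c, hc⟩ := hev (d k) (Multiset.mem_map_of_mem d (Finset.mem_univ_val k))
      rw [Finset.filter_congr (q := fun i : Fin (d k) => ¬ (i : ℕ) < c) fun i _ => by omega, Finset.filter_not,
        Finset.card_sdiff_of_subset (Finset.filter_subset _ _), Fin.card_filter_val_lt, Finset.card_univ, Fintype.card_fin]
      omega
    rw [hS, Finset.mul_sum]
    show ∑ k, 2 * (d k / 2) = ∑ k, d k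
    refine Finset.sum_congr rfl fun k _ => ?_
    obtain ⟨c, hc⟩ := hev (d k) (Multiset.mem_map_of_mem d (Finset.mem_univ_val k))
    omega
  · intro x hx y hy
    have hgen : ∀ z w : S, B (b z) (b w) = 0 := by
      intro z w
      have hz := (Finset.mem_filter.1 z.2).2
      have hw := (Finset.mem_filter.1 w.2).2
      rw [chainBasis_apply, chainBasis_apply]
      rcases le_total (d w.1.1) ((z.1.2 : ℕ) + (w.1.2 : ℕ)) with hle | hle
      · refine key _ _ _ ?_
        rw [← Module.End.mul_apply, ← pow_add, ← Nat.sub_add_cancel hle, pow_add, Module.End.mul_apply, h3, map_zero]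
      · have hle' : d z.1.1 ≤ (w.1.2 : ℕ) + (z.1.2 : ℕ) := by omega
        rw [hsymm]
        refine key _ _ _ ?_
        rw [← Module.End.mul_apply, ← pow_add, ← Nat.sub_add_cancel hle', pow_add, Module.End.mul_apply, h3, map_zero]
    have h1' : ∀ z : S, B (b z) y = 0 := fun z => by
      have : Submodule.span F (Set.range fun x : S => b x) ≤ LinearMap.ker (B (b z)) := by
        rw [Submodule.span_le]
        rintro _ ⟨w, rfl⟩
        exact hgen z w
      exact this hy
    have : Submodule.span F (Set.range fun x : S => b x) ≤ LinearMap.ker (B.flip y) := by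
      rw [Submodule.span_le]
      rintro _ ⟨w, rfl⟩
      exact h1' w
    exact this hx

/-- The even parts of the Jordan type of a unipotent isometry of a symmetric form have even multiplicity. -/
theorem even_counts {V : Type u} [AddCommGroup V] [Module F V] [FiniteDimensional F V] (h2 : (2 : F) ≠ 0)
    {B : LinearMap.BilinForm F V} (hsymm : ∀ x y, B x y = B y x) (hB : B.SeparatingLeft) {X : Module.End F V}
    (hX : ∀ u v, B (X u) (X v) = B u v) {μ : Multiset ℕ} (hμ : HasType (X - 1) μ) :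
    ∀ e : ℕ, Even e → Even (μ.count e) := by
  classical
  intro e he
  rcases Nat.eq_zero_or_pos e with rfl | he0
  · rw [Multiset.count_eq_zero.2 fun h => (hμ.pos h).false]
    exact Even.zero
  let bs := Module.finBasis F V
  set G := LinearMap.toMatrix₂ bs bs B
  set A := LinearMap.toMatrix bs bs X
  refine even_count_even_of_symm h2 (A := A) (G := G)
    (isUnit_iff_ne_zero.2 ((LinearMap.separatingLeft_iff_det_ne_zero bs).1 hB)) ?_ ?_ ?_ e he he0
  · ext i j
    simp [G, LinearMap.toMatrix₂_apply, hsymm]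
  · rw [show Aᵀ * G * A = LinearMap.toMatrix₂ bs bs (B.compl₁₂ X X) from
      (LinearMap.toMatrix₂_compl₁₂ bs bs bs bs B _ _).symm]
    exact congrArg _ (LinearMap.ext₂ fun u v => hX u v)
  · refine hμ.transport bs.equivFun fun x => ?_
    rw [Matrix.toLin'_apply, Matrix.sub_mulVec, Matrix.one_mulVec, LinearMap.sub_apply, Module.End.one_apply, map_sub]
    congr 1
    exact (LinearMap.toMatrix_mulVec_repr bs bs X x).symm

section

variable [Fintype F] {ι : Type} [Fintype ι] [DecidableEq ι] {Q : QuadraticForm F (ι → F)} {p : ℕ}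
  [Fact p.Prime] [CharP F p]

/-- The type seen on an invariant non-degenerate subspace. -/
theorem sub_type (hQ : Nd Q) (h2 : (2 : F) ≠ 0) {x : GL ι F}
    (hx : ∀ v, Q ((x : Matrix ι ι F) *ᵥ v) = Q v) {μ : Multiset ℕ}
    (hμ : MType ((x : Matrix ι ι F) - 1) μ) {W : Submodule F (ι → F)}
    (hW : Cfsg.Geo.IsNondegenerateOn (QuadraticMap.polar ⇑Q) W)
    (hinv : W.map (Matrix.toLin' (x : Matrix ι ι F)) ≤ W) :
    ∃ ν, ν ≤ μ ∧ ν.sum = finrank F W ∧ (∀ e : ℕ, Even e → Even (ν.count e)) ∧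
      ((∀ a ∈ ν, Even a) → Cfsg.Geo.IsPlusTypeOn (⇑Q) W) := by
  classical
  set B : LinearMap.BilinForm F (ι → F) := QuadraticMap.polarBilin Q with hB
  have hBsymm : ∀ u v, B u v = B v u := fun u v => QuadraticMap.polar_comm _ u v
  set X : Module.End F (ι → F) := Matrix.toLin' (x : Matrix ι ι F) with hX
  have hXi : Function.Injective X := fun a b h => by
    have := congrArg (fun w => ((x⁻¹ : GL ι F) : Matrix ι ι F) *ᵥ w) h
    simpa [hX, Matrix.mulVec_mulVec] using this
  have hXB : ∀ u v, B (X u) (X v) = B u v := fun u v => by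
    simp only [hB, hX, Matrix.toLin'_apply, QuadraticMap.polarBilin_apply_apply, QuadraticMap.polar]
    rw [← Matrix.mulVec_add, hx, hx, hx]
  have hXW : ∀ v ∈ W, X v ∈ W := fun v hv => hinv ⟨v, hv, rfl⟩
  have hWX : ∀ v ∈ W, ∃ w ∈ W, X w = v := by
    have he : W.map X = W := Submodule.eq_of_le_of_finrank_eq hinv
      (LinearEquiv.finrank_eq (Submodule.equivMapOfInjective X hXi W).symm)
    intro v hv
    rw [← he] at hv
    exact hv
  let P := LinearMap.BilinForm.orthogonal B W
  have hP : ∀ {v}, v ∈ P ↔ ∀ w ∈ W, B w v = 0 := fun {v} => Iff.rfl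
  have hXP : ∀ v ∈ P, X v ∈ P := fun v hv => hP.2 fun w hw => by
    obtain ⟨w', hw', rfl⟩ := hWX w hw
    rw [hXB]; exact hP.1 hv w' hw'
  have hdis : Disjoint W P := Submodule.disjoint_def.2 fun v hv hvP => by
    by_contra h0
    obtain ⟨w, hw, hne⟩ := (hW v hv h0).1
    exact hne (hP.1 hvP w hw)
  have hc : IsCompl W P := by
    refine ⟨hdis, codisjoint_iff.2 (Submodule.eq_top_of_finrank_eq ?_)⟩
    let L : (ι → F) →ₗ[F] Module.Dual F W :=
      { toFun := fun v => (B.flip v).comp W.subtype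
        map_add' := fun a b => LinearMap.ext fun w => by simp
        map_smul' := fun c a => LinearMap.ext fun w => by simp }
    have hk : LinearMap.ker L = P := by
      ext v
      rw [LinearMap.mem_ker]
      exact ⟨fun h => hP.2 fun w hw => LinearMap.congr_fun h ⟨w, hw⟩,
        fun h => LinearMap.ext fun w => hP.1 h w w.2⟩
    have h1 := LinearMap.finrank_range_add_finrank_ker L
    have h2 := (LinearMap.range L).finrank_le
    rw [Subspace.dual_finrank_eq] at h2
    rw [hk] at h1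
    have hs := Submodule.finrank_sup_add_finrank_inf_eq W P
    rw [hdis.eq_bot, finrank_bot] at hs
    have hle := (W ⊔ P).finrank_le
    omega
  set f := X - 1 with hf
  have hfW : ∀ v ∈ W, f v ∈ W := fun v hv => W.sub_mem (hXW v hv) hv
  have hfP : ∀ v ∈ P, f v ∈ P := fun v hv => P.sub_mem (hXP v hv) hv
  have hμ' : HasType f μ := by
    have := hμ
    rw [MType, map_sub, Matrix.toLin'_one] at this
    exact this
  obtain ⟨n, hn⟩ := hμ'.isNilpotent
  have hresn : ∀ (S : Submodule F (ι → F)) (hS : ∀ v ∈ S, f v ∈ S), IsNilpotent (f.restrict hS) := fun S hS =>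
    ⟨n, LinearMap.ext fun v => Subtype.ext (by rw [Module.End.pow_restrict n hS, LinearMap.restrict_apply]; simp [hn])⟩
  obtain ⟨ν, hν⟩ := exists_type (hresn W hfW)
  obtain ⟨ρ, hρ⟩ := exists_type (hresn P hfP)
  have huniq : μ = ν + ρ := hμ'.unique ((hν.prod hρ).transport (Submodule.prodEquivOfIsCompl W P hc) fun v => by
    rw [Submodule.coe_prodEquivOfIsCompl', Submodule.coe_prodEquivOfIsCompl', map_add]
    rfl)
  let BW : LinearMap.BilinForm F W := B.compl₁₂ W.subtype W.subtype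
  let XW : Module.End F W := X.restrict hXW
  have hνX : HasType (XW - 1) ν := by
    rwa [show XW - 1 = f.restrict hfW from LinearMap.ext fun v => Subtype.ext rfl]
  have hBWX : ∀ u v, BW (XW u) (XW v) = BW u v := fun u v => hXB u v
  refine ⟨ν, huniq ▸ Multiset.le_add_right ν ρ, hν.sum_eq, even_counts (B := BW) h2 (fun u v => hBsymm _ _)
    (fun u hu => by
      by_contra h0
      obtain ⟨w, hw, hne⟩ := (hW u u.2 fun e => h0 (Subtype.ext e)).2
      exact hne (hu ⟨w, hw⟩)) hBWX hνX, fun hall => ?_⟩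
  obtain ⟨U, hU, hU0⟩ := exists_half (B := BW) (fun u v => hBsymm _ _) hBWX
    (fun a b h => Subtype.ext (hXi (congrArg Subtype.val h))) hνX hall
  refine ⟨U.map W.subtype, Submodule.map_subtype_le W U, ?_, ?_⟩
  · rintro _ ⟨u, hu, rfl⟩
    have h : QuadraticMap.polar (⇑Q) (u : ι → F) u = 0 := hU0 u hu u hu
    rw [QuadraticMap.polar_self, nsmul_eq_mul] at h
    exact (mul_eq_zero.1 h).resolve_left (by exact_mod_cast h2)
  · rw [Submodule.finrank_map_subtype_eq, hU]

/-- Diagonalisation recorded through determinants. -/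
theorem exists_diag_det {n : ℕ} (h2 : (2 : F) ≠ 0) {G : Matrix (Fin n) (Fin n) F} (hG : IsUnit G.det) (hsym : Gᵀ = G) :
    ∃ (b : Basis (Fin n) F (Fin n → F)) (a : Fin n → F) (s : F), (∀ i, a i ≠ 0) ∧ s ≠ 0 ∧
      ∏ i, a i = s ^ 2 * G.det ∧ ∀ i j, Matrix.toBilin' G (b i) (b j) = if i = j then a i else 0 := by
  classical
  have hS : (Matrix.toBilin' G).IsSymm := ⟨fun u v => by
    rw [Matrix.toBilin'_apply', Matrix.toBilin'_apply', Matrix.dotProduct_mulVec, ← Matrix.mulVec_transpose, hsym,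
      dotProduct_comm]⟩
  obtain ⟨b₀, a₀, ha₀, hb₀⟩ := exists_diag_basis h2 (Matrix.toBilin' G) hS
    (LinearMap.BilinForm.nondegenerate_toBilin'_iff_det_ne_zero.mpr hG.ne_zero)
  let e := finCongr (finrank_fin_fun F (n := n))
  let b := b₀.reindex e
  let P : Matrix (Fin n) (Fin n) F := Matrix.of fun j i => b i j
  have hdiag : Pᵀ * G * P = Matrix.diagonal fun i => a₀ (e.symm i) := by
    ext i j
    have h1 : (Pᵀ * G * P) i j = Matrix.toBilin' G (b i) (b j) := by
      simp [Matrix.toBilin'_apply', Matrix.mul_apply, dotProduct, Matrix.mulVec, P, Finset.sum_mul, Finset.mul_sum,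
        mul_assoc]
      exact Finset.sum_comm
    rw [h1, Matrix.diagonal_apply, Basis.reindex_apply, Basis.reindex_apply, hb₀]
    simp [e.symm.injective.eq_iff]
  have hdet : ∏ i, a₀ (e.symm i) = P.det ^ 2 * G.det := by
    rw [← Matrix.det_diagonal, ← hdiag, Matrix.det_mul, Matrix.det_mul, Matrix.det_transpose]; ring
  refine ⟨b, fun i => a₀ (e.symm i), P.det, fun i => ha₀ _, fun h0 => ?_, hdet, fun i j => ?_⟩
  · rw [h0, zero_pow two_ne_zero, zero_mul] at hdet
    exact (Finset.prod_ne_zero_iff.2 fun i _ => ha₀ (e.symm i)) hdet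
  · rw [Basis.reindex_apply, Basis.reindex_apply, hb₀]
    simp [e.symm.injective.eq_iff]

/-- Realisations in every discriminant class. -/
theorem oReal_class (h2 : (2 : F) ≠ 0) {μ : Multiset ℕ} (hpos : ∀ a ∈ μ, 0 < a)
    (hev : ∀ e : ℕ, Even e → Even (μ.count e)) (hodd : ∃ a ∈ μ, Odd a) {δ : F} (hδ : δ ≠ 0) :
    ∃ (n : ℕ) (G A : Matrix (Fin n) (Fin n) F),
      IsUnit G.det ∧ Gᵀ = G ∧ Aᵀ * G * A = G ∧ MType (A - 1) μ ∧ IsSquare (δ * G.det) := by
  classical
  obtain ⟨o, ho, c, rfl⟩ := hodd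
  obtain ⟨rest, rfl⟩ := Multiset.exists_cons_of_mem ho
  obtain ⟨m, H, A', k1, k2, k3, k4⟩ := oReal_of_even_counts (F := F) h2 rest
    (fun x hx => hpos x (Multiset.mem_cons_of_mem hx)) fun j hj _ => by
    have := hev j hj
    rwa [Multiset.count_cons_of_ne (fun e => Nat.not_even_iff_odd.mpr ⟨c, by omega⟩ hj)] at this
  obtain ⟨k, G₀, A₀, g1, g2, g3, g4⟩ := oReal_odd (F := F) h2 c
  have hk : k = 2 * c + 1 := by have := g4.sum_eq; simp at this; omega
  obtain ⟨s, hs0, hs⟩ : ∃ s : F, s ≠ 0 ∧ IsSquare (δ * (s ^ k * G₀.det * H.det)) := by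
    by_cases hsq : IsSquare (δ * (G₀.det * H.det))
    · exact ⟨1, one_ne_zero, by rwa [one_pow, one_mul]⟩
    · have hchar : ringChar F ≠ 2 := fun e => h2 (by
        haveI := ringChar.of_eq e; exact CharTwo.two_eq_zero)
      obtain ⟨α, hα⟩ := FiniteField.exists_nonsquare hchar
      have hα0 : α ≠ 0 := fun e => hα (e ▸ IsSquare.zero)
      refine ⟨α, hα0, ?_⟩
      have hne : δ * (G₀.det * H.det) ≠ 0 := mul_ne_zero hδ (mul_ne_zero g1.ne_zero k1.ne_zero)
      have h' : IsSquare (α * (δ * (G₀.det * H.det))) := by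
        rw [FiniteField.isSquare_iff hchar (mul_ne_zero hα0 hne), mul_pow,
          (FiniteField.pow_dichotomy hchar hα0).resolve_left fun e => hα ((FiniteField.isSquare_iff hchar hα0).2 e),
          (FiniteField.pow_dichotomy hchar hne).resolve_left fun e => hsq ((FiniteField.isSquare_iff hchar hne).2 e)]
        norm_num
      subst hk
      rw [show δ * (α ^ (2 * c + 1) * G₀.det * H.det) = (α ^ c) ^ 2 * (α * (δ * (G₀.det * H.det))) by ring]
      exact (IsSquare.sq _).mul h'
  obtain ⟨n, e⟩ : ∃ n : ℕ, Nonempty (Fin k ⊕ Fin m ≃ Fin n) := ⟨k + m, ⟨finSumFinEquiv⟩⟩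
  obtain ⟨e⟩ := e
  refine ⟨n, Matrix.reindex e e (Matrix.fromBlocks (s • G₀) 0 0 H), Matrix.reindex e e (Matrix.fromBlocks A₀ 0 0 A'),
    ?_, ?_, ?_, ?_, ?_⟩
  · rw [Matrix.det_reindex_self, Matrix.det_fromBlocks_zero₂₁, Matrix.det_smul]
    exact ((isUnit_iff_ne_zero.2 (pow_ne_zero _ hs0)).mul g1).mul k1
  · rw [Matrix.transpose_reindex, Matrix.fromBlocks_transpose, Matrix.transpose_smul, g2, k2]; simp
  · rw [Matrix.transpose_reindex]
    simp only [Matrix.reindex_apply, Matrix.submatrix_mul_equiv]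
    rw [Matrix.fromBlocks_transpose, Matrix.fromBlocks_multiply, Matrix.fromBlocks_multiply]
    simp [g3, k3]
  · rw [reindex_sub_one]
    refine MType.reindex ?_ e
    have e1 : Matrix.fromBlocks A₀ 0 0 A' - 1 = Matrix.fromBlocks (A₀ - 1) 0 0 (A' - 1) := by
      rw [← Matrix.fromBlocks_one, sub_eq_add_neg, Matrix.fromBlocks_neg, Matrix.fromBlocks_add]
      simp [sub_eq_add_neg]
    rw [e1]
    have h := mtype_fromBlocks g4 k4
    rwa [Multiset.singleton_add] at h
  · rw [Matrix.det_reindex_self, Matrix.det_fromBlocks_zero₂₁, Matrix.det_smul, Fintype.card_fin]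
    exact hs

/-- A unipotent element of `Ω` of given type. -/
theorem exists_unipotent (hQ : Nd Q) (hodd2 : Odd p) {μ : Multiset ℕ} (hμ : ∀ a ∈ μ, 0 < a ∧ a ≤ p)
    (hev : ∀ e : ℕ, Even e → Even (μ.count e)) (hodd : ∃ a ∈ μ, Odd a) (hsum : μ.sum = Fintype.card ι) :
    ∃ x : GL ι F, x ∈ Cfsg.Geo.omegaGL ⇑Q ∧ (x : Matrix ι ι F) ^ p = 1 ∧ MType ((x : Matrix ι ι F) - 1) μ := by
  classical
  have h2 : (2 : F) ≠ 0 := fun h => by
    have : p ∣ 2 := (CharP.cast_eq_zero_iff F p 2).1 (by exact_mod_cast h)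
    obtain rfl := (Nat.prime_dvd_prime_iff_eq Fact.out Nat.prime_two).1 this
    exact Nat.not_odd_iff_even.2 even_two hodd2
  let ι' := Fintype.equivFin ι
  let T₀ : (Fin (Fintype.card ι) → F) ≃ₗ[F] (ι → F) := LinearEquiv.funCongrLeft F F ι'
  let B := QuadraticMap.polarBilin Q
  let G₁ := LinearMap.BilinForm.toMatrix' (B.compl₁₂ T₀.toLinearMap T₀.toLinearMap)
  have hG₁B : ∀ u v, Matrix.toBilin' G₁ u v = B (T₀ u) (T₀ v) := fun u v => by
    simp [G₁, Matrix.toBilin'_toMatrix']
  have hG₁sym : G₁ᵀ = G₁ := by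
    ext i j
    simp [G₁, LinearMap.BilinForm.toMatrix'_apply, B, QuadraticMap.polar_comm]
  have hG₁ : IsUnit G₁.det := isUnit_iff_ne_zero.2 fun h0 => by
    obtain ⟨v, hv, hv0⟩ := Matrix.exists_vecMul_eq_zero_iff.2 h0
    refine hv (T₀.injective ((hQ (T₀ v) fun y => ?_).trans (map_zero T₀).symm))
    obtain ⟨y, rfl⟩ := T₀.surjective y
    show B (T₀ v) (T₀ y) = 0
    rw [← hG₁B, Matrix.toBilin'_apply', Matrix.dotProduct_mulVec, hv0, zero_dotProduct]
  obtain ⟨b₁, a₁, s₁, ha₁, hs₁, hd₁, hb₁⟩ := exists_diag_det h2 hG₁ hG₁sym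
  obtain ⟨n, G, A, hG, hsym, hA, hAt, hsq⟩ := oReal_class h2 (fun a ha => (hμ a ha).1) hev hodd hG₁.ne_zero
  obtain rfl : n = Fintype.card ι := by have := hAt.sum_eq; rw [hsum, Fintype.card_fin] at this; exact this.symm
  obtain ⟨b₂, a₂, s₂, ha₂, hs₂, hd₂, hb₂⟩ := exists_diag_det h2 hG hsym
  obtain ⟨g, hg⟩ := exists_isometry h2 (Matrix.toBilin' G₁) (Matrix.toBilin' G) b₁ b₂ a₁ a₂ hb₁ hb₂ ha₁ ha₂ (by
    obtain ⟨z, hz⟩ := hsq
    exact ⟨s₁ * s₂ * z, by rw [hd₁, hd₂]; linear_combination (s₁ ^ 2 * s₂ ^ 2) * hz⟩)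
  have hgi : Function.Injective g := (injective_iff_map_eq_zero g).2 fun v hv => by
    have hsep := (LinearMap.BilinForm.nondegenerate_toBilin'_iff_det_ne_zero.mpr hG.ne_zero).1 v
    exact hsep fun w => by rw [← hg, hv, map_zero, LinearMap.zero_apply]
  let T : (Fin (Fintype.card ι) → F) ≃ₗ[F] (ι → F) :=
    (LinearEquiv.ofBijective g ⟨hgi, LinearMap.injective_iff_surjective.1 hgi⟩).trans T₀
  have hT : ∀ u v, B (T u) (T v) = Matrix.toBilin' G u v := fun u v => by
    rw [← hg u v, hG₁B]; rfl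
  have hdetA := det_of_form hA hG
  let Au : GL (Fin (Fintype.card ι)) F := ((Matrix.isUnit_iff_isUnit_det A).mpr hdetA).unit
  let LA : (Fin (Fintype.card ι) → F) ≃ₗ[F] (Fin (Fintype.card ι) → F) :=
    { Matrix.toLin' A with
      invFun := fun v => ((Au⁻¹ : GL (Fin (Fintype.card ι)) F) : Matrix (Fin (Fintype.card ι)) (Fin (Fintype.card ι)) F) *ᵥ v
      left_inv := fun v => by
        show ((Au⁻¹ : GL (Fin (Fintype.card ι)) F) : Matrix (Fin (Fintype.card ι)) (Fin (Fintype.card ι)) F) *ᵥ (((Au : GL (Fin (Fintype.card ι)) F) : Matrix (Fin (Fintype.card ι)) (Fin (Fintype.card ι)) F) *ᵥ v) = v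
        rw [Matrix.mulVec_mulVec, Units.inv_mul, Matrix.one_mulVec]
      right_inv := fun v => by
        show ((Au : GL (Fin (Fintype.card ι)) F) : Matrix (Fin (Fintype.card ι)) (Fin (Fintype.card ι)) F) *ᵥ (((Au⁻¹ : GL (Fin (Fintype.card ι)) F) : Matrix (Fin (Fintype.card ι)) (Fin (Fintype.card ι)) F) *ᵥ v) = v
        rw [Matrix.mulVec_mulVec, Units.mul_inv, Matrix.one_mulVec] }
  let Y : (ι → F) ≃ₗ[F] (ι → F) := (T.symm.trans LA).trans T
  have hYQ : ∀ v, Q (Y v) = Q v := fun v => by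
    have h : B (Y v) (Y v) = B v v := by
      obtain ⟨u, rfl⟩ := T.surjective v
      simp only [Y, LinearEquiv.trans_apply, T.symm_apply_apply, hT]
      show Matrix.toBilin' G (A *ᵥ u) (A *ᵥ u) = Matrix.toBilin' G u u
      rw [Matrix.toBilin'_apply', Matrix.toBilin'_apply']
      conv_rhs => rw [← hA, ← Matrix.mulVec_mulVec, ← Matrix.mulVec_mulVec, Matrix.dotProduct_mulVec,
        Matrix.vecMul_transpose]
    simp only [B, QuadraticMap.polarBilin_apply_apply, QuadraticMap.polar_self, nsmul_eq_mul] at h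
    exact mul_left_cancel₀ (by exact_mod_cast h2) h
  have hAp : A ^ p = 1 := by
    haveI : Nonempty (Fin (Fintype.card ι)) := by
      obtain ⟨a, ha, -⟩ := hodd
      have := Multiset.le_sum_of_mem ha
      exact ⟨⟨0, by have := (hμ a ha).1; omega⟩⟩
    have h1 : (A - 1) ^ p = 0 := (hAt.pow_eq_zero_iff p).2 fun a ha => (hμ a ha).2
    rw [sub_pow_char_of_commute p (Commute.one_right A), one_pow, sub_eq_zero] at h1
    exact h1
  have hYp : Y ^ p = 1 := by
    have hk : ∀ (k : ℕ) u, (Y ^ k) (T u) = T ((A ^ k) *ᵥ u) := by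
      intro k
      induction k with
      | zero => intro u; simp
      | succ k ih =>
        intro u
        rw [pow_succ', LinearEquiv.mul_apply, ih, pow_succ', ← Matrix.mulVec_mulVec]
        simp only [Y, LinearEquiv.trans_apply, T.symm_apply_apply]
        rfl
    refine LinearEquiv.ext fun v => ?_
    obtain ⟨u, rfl⟩ := T.surjective v
    rw [hk, hAp, Matrix.one_mulVec]; rfl
  let gI : isoG Q := ⟨Y, hYQ⟩
  have hgI : gI ^ p = 1 := Subtype.ext hYp
  haveI : Finite (ι → F) := Pi.finite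
  refine ⟨isoMat Q gI, isoMat_mem_omega (mem_commutator_of_pow hQ (reg_of_two_ne_zero h2) hodd2 hgI), ?_, ?_⟩
  · rw [← Units.val_pow_eq_pow_val, isoMat_pow, hgI, isoMat_one, Units.val_one]
  · refine (show HasType (Matrix.toLin' (A - 1)) μ from hAt).transport T fun u => ?_
    rw [Matrix.toLin'_apply, Matrix.toLin'_apply, Matrix.sub_mulVec, Matrix.one_mulVec, Matrix.sub_mulVec,
      Matrix.one_mulVec, map_sub, isoMat_mulVec]
    congr 1
    show _ = (Y : (ι → F) ≃ₗ[F] (ι → F)) (T u)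
    simp only [Y, LinearEquiv.trans_apply, T.symm_apply_apply]
    rfl

/-- The partition condition forced by every element of order `p` fixing a suitable subspace. -/
theorem partition (hQ : Nd Q) (hp2 : Odd p) {m : ℕ} (hme : Even m) (hmn : m ≤ Fintype.card ι)
    (C : Submodule F (ι → F) → Prop)
    (hC : ∀ W, C W → finrank F W = m ∧ Cfsg.Geo.IsNondegenerateOn (QuadraticMap.polar ⇑Q) W)
    (H : ∀ x : GL ι F, x ∈ Cfsg.Geo.omegaGL ⇑Q → (x : Matrix ι ι F) ^ p = 1 →
      (∀ z : F, (x : Matrix ι ι F) ≠ z • 1) → ∃ W, C W ∧ W.map (Matrix.toLin' (x : Matrix ι ι F)) ≤ W) :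
    (∀ μ : Multiset ℕ, (∀ e ∈ μ, 0 < e ∧ e ≤ p) → (∀ e : ℕ, Even e → Even (μ.count e)) → μ.sum = Fintype.card ι →
      (∃ a ∈ μ, Odd a) → (∃ a ∈ μ, a ≠ 1) → ∃ ν : Multiset ℕ, ν ≤ μ ∧ ν.sum = m ∧ (∀ e : ℕ, Even e → Even (ν.count e)) ∧
        ((∀ a ∈ ν, Even a) → ∃ W, C W ∧ Cfsg.Geo.IsPlusTypeOn (⇑Q) W)) ∧
    (∀ μ : Multiset ℕ, (∀ e ∈ μ, 0 < e ∧ e ≤ p) → (∀ e : ℕ, Even e → Even (μ.count e)) → μ.sum = Fintype.card ι →
      ∃ ν : Multiset ℕ, ν ≤ μ ∧ ν.sum = m ∧ ∀ e : ℕ, Even e → Even (ν.count e)) := by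
  classical
  have h2 : (2 : F) ≠ 0 := fun h => by
    have : p ∣ 2 := (CharP.cast_eq_zero_iff F p 2).1 (by exact_mod_cast h)
    obtain rfl := (Nat.prime_dvd_prime_iff_eq Fact.out Nat.prime_two).1 this
    exact Nat.not_odd_iff_even.2 even_two hp2
  have main : ∀ μ : Multiset ℕ, (∀ e ∈ μ, 0 < e ∧ e ≤ p) → (∀ e : ℕ, Even e → Even (μ.count e)) →
      μ.sum = Fintype.card ι → (∃ a ∈ μ, Odd a) → (∃ a ∈ μ, a ≠ 1) →
      ∃ ν : Multiset ℕ, ν ≤ μ ∧ ν.sum = m ∧ (∀ e : ℕ, Even e → Even (ν.count e)) ∧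
        ((∀ a ∈ ν, Even a) → ∃ W, C W ∧ Cfsg.Geo.IsPlusTypeOn (⇑Q) W) := by
    intro μ hμ hev hsum hodd hne
    obtain ⟨x, hx, hxp, hxt⟩ := exists_unipotent hQ hp2 hμ hev hodd hsum
    haveI : Nonempty ι := Fintype.card_pos_iff.1 (by
      obtain ⟨a, ha, -⟩ := hodd
      have := Multiset.le_sum_of_mem ha
      have := (hμ a ha).1
      omega)
    obtain ⟨W, hCW, hinv⟩ := H x hx hxp fun z hz => by
      have hz1 : z = 1 := by
        rw [hz, smul_pow, one_pow] at hxp
        have h1 : z ^ p = 1 := by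
          have := congrFun (congrFun hxp (Classical.arbitrary ι)) (Classical.arbitrary ι)
          simpa using this
        exact frobenius_inj F p (by simp [frobenius_def, h1])
      obtain ⟨a, ha, ha1⟩ := hne
      exact ha1 (hxt.eq_zero_iff.1 (by rw [hz, hz1, one_smul, sub_self]) a ha)
    obtain ⟨ν, h1, h2', h3, h4⟩ := sub_type hQ h2 (fun v => by
      obtain ⟨h, -, hh⟩ := omega_iso hx
      rw [← hh]; exact h.2 v) hxt (hC W hCW).2 hinv
    exact ⟨ν, h1, h2'.trans (hC W hCW).1, h3, fun hall => ⟨W, hCW, h4 hall⟩⟩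
  refine ⟨main, fun μ hμ hev hsum => ?_⟩
  by_cases hne : ∃ a ∈ μ, a ≠ 1
  swap
  · push Not at hne
    have hrep : μ = Multiset.replicate (Multiset.card μ) 1 := Multiset.eq_replicate_card.2 hne
    have hcard : Multiset.card μ = Fintype.card ι := by rw [← hsum]; conv_rhs => rw [hrep]; simp
    refine ⟨Multiset.replicate m 1, ?_, by simp, fun e he => ?_⟩
    · rw [hrep, hcard]; exact (Multiset.replicate_le_replicate 1).2 hmn
    · rw [Multiset.count_replicate, if_neg (fun h => by subst h; exact Nat.not_even_one he)]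
      exact Even.zero
  by_cases hodd : ∃ a ∈ μ, Odd a
  · obtain ⟨ν, h1, h2', h3, -⟩ := main μ hμ hev hsum hodd hne
    exact ⟨ν, h1, h2', h3⟩
  push Not at hodd
  obtain ⟨a, ha, -⟩ := hne
  have hae : Even a := Nat.not_odd_iff_even.1 (hodd a ha)
  obtain ⟨hap, hale⟩ := hμ a ha
  obtain ⟨c, hc⟩ := hev a hae
  have hpos := Multiset.count_pos.2 ha
  obtain ⟨μ₁, rfl⟩ := Multiset.exists_cons_of_mem ha
  rw [Multiset.count_cons_self] at hc hpos
  obtain ⟨rest, rfl⟩ := Multiset.exists_cons_of_mem (Multiset.count_pos.1 (show 0 < μ₁.count a by omega))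
  have hrest : ∀ e ∈ rest, Even e := fun e he => Nat.not_odd_iff_even.1 (hodd e (by simp [he]))
  have hrev : ∀ e : ℕ, Even e → Even (rest.count e) := fun e he => by
    have := hev e he
    simp only [Multiset.count_cons, Nat.even_iff] at this ⊢
    split at this <;> omega
  have ha1 : Odd (a + 1) := hae.add_one
  have ha2 : Odd (a - 1) := Nat.Even.sub_odd hap hae odd_one
  have halt : a < p := lt_of_le_of_ne hale fun e => Nat.not_odd_iff_even.2 hae (e ▸ hp2)
  obtain ⟨ν, hν, hνm, hνev, -⟩ := main ((a + 1) ::ₘ (a - 1) ::ₘ rest) (fun e he => by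
      rcases Multiset.mem_cons.1 he with rfl | he
      · omega
      rcases Multiset.mem_cons.1 he with rfl | he
      · have := ha2.pos; omega
      · exact hμ e (by simp [he]))
    (fun e he => by
      rw [Multiset.count_cons_of_ne (fun h => Nat.not_even_iff_odd.2 ha1 (by rw [← h]; exact he)),
        Multiset.count_cons_of_ne (fun h => Nat.not_even_iff_odd.2 ha2 (by rw [← h]; exact he))]
      exact hrev e he)
    (by rw [← hsum]; simp; omega) ⟨a + 1, by simp, ha1⟩ ⟨a + 1, by simp, by omega⟩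
  have hsumEven : ∀ t : Multiset ℕ, t ≤ rest → Even t.sum := fun t ht =>
    Multiset.sum_induction (p := Even) _ (fun _ _ h h' => h.add h') Even.zero fun e he => hrest e (Multiset.mem_of_le ht he)
  by_cases h1 : a + 1 ∈ ν
  · obtain ⟨t, rfl⟩ := Multiset.exists_cons_of_mem h1
    rw [Multiset.cons_le_cons_iff] at hν
    by_cases h2' : a - 1 ∈ t
    · obtain ⟨t, rfl⟩ := Multiset.exists_cons_of_mem h2'
      rw [Multiset.cons_le_cons_iff] at hν
      refine ⟨a ::ₘ a ::ₘ t, Multiset.cons_le_cons _ (Multiset.cons_le_cons _ hν), by rw [← hνm]; simp; omega,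
        fun e he => ?_⟩
      have := hνev e he
      rw [Multiset.count_cons_of_ne (fun h => Nat.not_even_iff_odd.2 ha1 (by rw [← h]; exact he)),
        Multiset.count_cons_of_ne (fun h => Nat.not_even_iff_odd.2 ha2 (by rw [← h]; exact he))] at this
      simp only [Multiset.count_cons, Nat.even_iff] at this ⊢
      split <;> omega
    · exfalso
      have h := hsumEven t ((Multiset.le_cons_of_notMem h2').1 hν)
      rw [Multiset.sum_cons] at hνm
      rw [← hνm] at hme
      exact Nat.not_even_iff_odd.2 (ha1.add_even h) hme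
  · have hν' := (Multiset.le_cons_of_notMem h1).1 hν
    by_cases h2' : a - 1 ∈ ν
    · exfalso
      obtain ⟨t, rfl⟩ := Multiset.exists_cons_of_mem h2'
      rw [Multiset.cons_le_cons_iff] at hν'
      have h := hsumEven t hν'
      rw [Multiset.sum_cons] at hνm
      rw [← hνm] at hme
      exact Nat.not_even_iff_odd.2 (ha2.add_even h) hme
    · exact ⟨ν, ((Multiset.le_cons_of_notMem h2').1 hν').trans ((Multiset.le_cons_self _ _).trans (Multiset.le_cons_self _ _)),
        hνm, hνev⟩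

end

end Cfsg.Agent.Lib.Elusive.OrthUnipotent
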