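import Cfsg.Agent.Lib.Elusive.Semisimple
import Cfsg.Agent.Lib.Forms.Alternating
import Cfsg.Agent.Lib.Forms.SympStd

/-!
Elements of odd prime order `r ≠ p` of symplectic groups with prescribed fixed space.
-/

set_option autoImplicit false

namespace Cfsg.Agent.Lib.Elusive

open Module Polynomial Cfsg.Agent.Lib.Forms

universe u

variable {F : Type u} [Field F]

/-- The standard alternating form on `s` planes. -/
def planes (s : ℕ) : LinearMap.BilinForm F (Fin s → F × F) :=
  LinearMap.mk₂ F (fun u v => ∑ k, ((u k).1 * (v k).2 - (u k).2 * (v k).1))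
    (fun a b c => by
      rw [← Finset.sum_add_distrib]
      exact Finset.sum_congr rfl fun k _ => by simp; ring)
    (fun s a b => by
      rw [smul_eq_mul, Finset.mul_sum]
      exact Finset.sum_congr rfl fun k _ => by simp; ring)
    (fun a b c => by
      rw [← Finset.sum_add_distrib]
      exact Finset.sum_congr rfl fun k _ => by simp; ring)
    (fun s a b => by
      rw [smul_eq_mul, Finset.mul_sum]
      exact Finset.sum_congr rfl fun k _ => by simp; ring)

theorem planes_apply {s : ℕ} (u v : Fin s → F × F) :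
    planes s u v = ∑ k, ((u k).1 * (v k).2 - (u k).2 * (v k).1) := rfl

/-- The anti-symmetrised trace form. -/
noncomputable def traceAlt {K : Type*} [Field K] [Algebra F K] (σ : K →ₐ[F] K) (α : K) (t : ℕ) :
    LinearMap.BilinForm F (Fin t → K) :=
  LinearMap.mk₂ F (fun u v => ∑ k, Algebra.trace F K (α * (u k * σ (v k) - σ (u k) * v k)))
    (fun a b c => by
      rw [← Finset.sum_add_distrib]
      refine Finset.sum_congr rfl fun k _ => ?_
      rw [← map_add]
      congr 1
      simp only [Pi.add_apply, map_add]; ring)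
    (fun s a b => by
      rw [Finset.smul_sum]
      refine Finset.sum_congr rfl fun k _ => ?_
      rw [← map_smul (Algebra.trace F K)]
      congr 1
      simp only [Pi.smul_apply, Algebra.smul_def, map_mul, AlgHom.commutes]; ring)
    (fun a b c => by
      rw [← Finset.sum_add_distrib]
      refine Finset.sum_congr rfl fun k _ => ?_
      rw [← map_add]
      congr 1
      simp only [Pi.add_apply, map_add]; ring)
    (fun s a b => by
      rw [Finset.smul_sum]
      refine Finset.sum_congr rfl fun k _ => ?_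
      rw [← map_smul (Algebra.trace F K)]
      congr 1
      simp only [Pi.smul_apply, Algebra.smul_def, map_mul, AlgHom.commutes]; ring)

theorem traceAlt_apply {K : Type*} [Field K] [Algebra F K] (σ : K →ₐ[F] K) (α : K) {t : ℕ}
    (u v : Fin t → K) :
    traceAlt σ α t u v = ∑ k, Algebra.trace F K (α * (u k * σ (v k) - σ (u k) * v k)) := rfl

variable [Fintype F] [DecidableEq F] {r : ℕ} [Fact r.Prime] {p : ℕ} [Fact p.Prime] [CharP F p]

/-- An element of order `r` with fixed space of dimension `2 s`, `i = 2 b` the order of `q` mod `r`. -/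
theorem exists_symp_elt (hrp : r ≠ p) (hr2 : r ≠ 2) {b : ℕ}
    (hi : orderOf (Fintype.card F : ZMod r) = 2 * b) {d t s : ℕ} (hd : d = t * b + s) :
    ∃ A : Matrix.symplecticGroup (Fin d) F,
      (∀ v, ((Matrix.toLin' (A : Matrix (Fin d ⊕ Fin d) (Fin d ⊕ Fin d) F)) ^ r) v = v) ∧
        finrank F (LinearMap.ker (Matrix.toLin' (A : Matrix (Fin d ⊕ Fin d) (Fin d ⊕ Fin d) F) -
          (1 : F) • LinearMap.id)) = 2 * s := by
  classical
  have hr : r.Prime := Fact.out
  obtain ⟨g, hg⟩ := UniqueFactorizationMonoid.exists_mem_normalizedFactors (cyclotomic_ne_zero r F)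
    fun hu => (degree_cyclotomic_pos r F hr.pos).ne' (degree_eq_zero_of_isUnit hu)
  obtain ⟨hgm, hirr, hdeg⟩ := factor_cyclotomic hrp hg
  rw [Nat.card_eq_fintype_card, hi] at hdeg
  have hbpos : 0 < b := by
    have := hirr.natDegree_pos
    omega
  haveI : Fact (Irreducible g) := ⟨hirr⟩
  let pb := AdjoinRoot.powerBasis' hgm
  haveI : FiniteDimensional F (AdjoinRoot g) := pb.finite
  haveI : Finite (AdjoinRoot g) := Module.finite_of_finite F
  set ζ := AdjoinRoot.root g with hζ
  have hζr : ζ ^ r = 1 := by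
    have hdvd : g ∣ X ^ r - 1 :=
      (UniqueFactorizationMonoid.dvd_of_mem_normalizedFactors hg).trans (cyclotomic.dvd_X_pow_sub_one r F)
    have h := AdjoinRoot.mk_eq_zero.2 hdvd
    simpa [sub_eq_zero] using h
  have hζ1 : ζ ≠ 1 := fun h => by
    have h' : g ∣ X - C (1 : F) := AdjoinRoot.mk_eq_zero.1 (by simp [← hζ, h])
    have := natDegree_le_of_dvd h' (X_sub_C_ne_zero 1)
    rw [natDegree_X_sub_C] at this
    omega
  have hζ0 : ζ ≠ 0 := fun h => by rw [h, zero_pow hr.ne_zero] at hζr; exact zero_ne_one hζr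
  let σ : AdjoinRoot g →ₐ[F] AdjoinRoot g := (FiniteField.frobeniusAlgHom F (AdjoinRoot g)) ^ b
  have hfr : ∀ (j : ℕ) (z : AdjoinRoot g),
      ((FiniteField.frobeniusAlgHom F (AdjoinRoot g)) ^ j) z = z ^ (Fintype.card F ^ j) := by
    intro j
    induction j with
    | zero => intro z; simp
    | succ j ih => intro z; rw [pow_succ', AlgHom.mul_apply, ih, pow_succ, pow_mul]; rfl
  have hσσ : ∀ z, σ (σ z) = z := fun z => by
    have h : σ * σ = 1 := by
      show FiniteField.frobeniusAlgHom F (AdjoinRoot g) ^ b * FiniteField.frobeniusAlgHom F (AdjoinRoot g) ^ b = 1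
      rw [← pow_add, ← two_mul, show 2 * b = orderOf (FiniteField.frobeniusAlgHom F (AdjoinRoot g)) by
        rw [FiniteField.orderOf_frobeniusAlgHom, pb.finrank, AdjoinRoot.powerBasis'_dim, hdeg]]
      exact pow_orderOf_eq_one _
    exact DFunLike.congr_fun h z
  have hσζ : σ ζ = ζ⁻¹ := by
    refine eq_inv_of_mul_eq_one_left ?_
    rw [show σ ζ = ζ ^ (Fintype.card F ^ b) from hfr b ζ, ← pow_succ]
    have hq : (Fintype.card F : ZMod r) ^ b = -1 := by
      refine (sq_eq_one_iff.1 ?_).resolve_left ?_
      · rw [← pow_mul, mul_comm, ← hi, pow_orderOf_eq_one]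
      · intro h
        have := Nat.le_of_dvd hbpos (orderOf_dvd_of_pow_eq_one h)
        omega
    obtain ⟨c, hc⟩ : r ∣ Fintype.card F ^ b + 1 := by
      rw [← ZMod.natCast_eq_zero_iff]
      push_cast
      rw [hq, neg_add_cancel]
    rw [hc, pow_mul, hζr, one_pow]
  have hθ : ζ - σ ζ ≠ 0 := by
    rw [hσζ, sub_ne_zero]
    intro h
    have h2 : ζ ^ 2 = 1 := by rw [sq]; nth_rw 2 [h]; exact mul_inv_cancel₀ hζ0
    have := pow_gcd_eq_one.2 ⟨h2, hζr⟩
    rw [((Nat.coprime_primes Nat.prime_two hr).2 hr2.symm).gcd_eq_one, pow_one] at this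
    exact hζ1 this
  have htr : ∀ z, Algebra.trace F (AdjoinRoot g) (σ z) = Algebra.trace F (AdjoinRoot g) z := fun z => by
    exact Algebra.trace_eq_of_algEquiv (AlgEquiv.ofBijective σ
      ⟨fun a b h => by rw [← hσσ a, h, hσσ], fun a => ⟨σ a, hσσ a⟩⟩) z
  -- the model
  let BK : LinearMap.BilinForm F (Fin t → AdjoinRoot g) := traceAlt σ ζ t
  let B : LinearMap.BilinForm F ((Fin t → AdjoinRoot g) × (Fin s → F × F)) :=
    BK.compl₁₂ (LinearMap.fst F _ _) (LinearMap.fst F _ _) +
      (planes s).compl₁₂ (LinearMap.snd F _ _) (LinearMap.snd F _ _)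
  have hB : ∀ u v, B u v = BK u.1 v.1 + planes s u.2 v.2 := fun u v => rfl
  have hBalt : B.IsAlt := fun u => by
    rw [hB, traceAlt_apply, planes_apply,
      Finset.sum_eq_zero (fun k _ => by rw [mul_comm (u.1 k) (σ (u.1 k)), sub_self, mul_zero, map_zero]),
      Finset.sum_eq_zero (fun k _ => by ring), add_zero]
  have hBK : ∀ (z w : AdjoinRoot g), Algebra.trace F (AdjoinRoot g) (ζ * (z * σ w - σ z * w)) =
      Algebra.trace F (AdjoinRoot g) ((ζ - σ ζ) * z * σ w) := by
    intro z w
    have h := htr (ζ * (σ z * w))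
    rw [map_mul σ, map_mul σ, hσσ] at h
    rw [mul_sub, map_sub, ← h, ← map_sub]
    congr 1
    ring
  have hBsep : B.SeparatingLeft := fun u hu => by
    refine Prod.ext (funext fun k => ?_) (funext fun k => ?_)
    · have hk : ∀ w, Algebra.trace F (AdjoinRoot g) ((ζ - σ ζ) * u.1 k * w) = 0 := fun w => by
        have h := hu (Pi.single k (σ w), 0)
        rw [hB, map_zero, add_zero, traceAlt_apply,
          Finset.sum_eq_single k (fun b _ hb => by simp [hb]) (by simp)] at h
        simp only [Pi.single_eq_same] at h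
        rw [hBK, hσσ] at h
        exact h
      have h0 := (traceForm_nondegenerate F (AdjoinRoot g)).1 ((ζ - σ ζ) * u.1 k) (fun w => by
        rw [Algebra.traceForm_apply]; exact hk w)
      exact (mul_eq_zero.1 h0).resolve_left hθ
    · have h := hu (0, Pi.single k ((0, 1) : F × F))
      have h' := hu (0, Pi.single k ((1, 0) : F × F))
      rw [hB, map_zero, zero_add, planes_apply,
        Finset.sum_eq_single k (fun b _ hb => by simp [hb]) (by simp)] at h h'
      exact Prod.ext (by simpa using h) (by simpa using h')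
  have hfin : finrank F ((Fin t → AdjoinRoot g) × (Fin s → F × F)) =
      finrank F (Fin d ⊕ Fin d → F) := by
    rw [Module.finrank_prod, Module.finrank_pi_fintype F, Module.finrank_pi_fintype F, pb.finrank,
      AdjoinRoot.powerBasis'_dim, hdeg, Module.finrank_pi, Fintype.card_sum, Fintype.card_fin,
      Finset.sum_const, Finset.sum_const, Finset.card_univ, Finset.card_univ, Fintype.card_fin,
      Fintype.card_fin, Module.finrank_prod, Module.finrank_self, smul_eq_mul, smul_eq_mul, hd]
    ring
  obtain ⟨e, he⟩ := exists_alt_isometry B hBalt hBsep (stdB d F) (stdB_isAlt d)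
    (stdB_nondegenerate d).1 hfin
  let a : (Fin t → AdjoinRoot g) →ₗ[F] (Fin t → AdjoinRoot g) := Algebra.lsmul F F _ ζ
  let x := a.prodMap (LinearMap.id : (Fin s → F × F) →ₗ[F] (Fin s → F × F))
  have hx : ∀ v, (x ^ r) v = v := fun v => by
    have hpow : ∀ (j : ℕ) (v : (Fin t → AdjoinRoot g) × (Fin s → F × F)),
        (x ^ j) v = (ζ ^ j • v.1, v.2) := by
      intro j
      induction j with
      | zero => simp
      | succ j ih => intro v; simp [pow_succ', Module.End.mul_apply, ih, x, a, mul_smul]
    simp [hpow, hζr]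
  have hxB : ∀ u v, B (x u) (x v) = B u v := fun u v => by
    rw [hB, hB, traceAlt_apply, traceAlt_apply]
    congr 1
    refine Finset.sum_congr rfl fun k _ => ?_
    congr 1
    simp only [x, a, LinearMap.prodMap_apply, Algebra.lsmul_coe, Pi.smul_apply, smul_eq_mul, map_mul, hσζ]
    field_simp
  let X : Module.End F (Fin d ⊕ Fin d → F) := e.conj x
  have hXmem : LinearMap.toMatrix' X ∈ Matrix.symplecticGroup (Fin d) F := by
    refine (stdB_iff_matrix d _).1 fun u v => ?_
    rw [← Matrix.toLin'_apply, ← Matrix.toLin'_apply, Matrix.toLin'_toMatrix']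
    show stdB d F (e (x (e.symm u))) (e (x (e.symm v))) = _
    rw [he, hxB, ← he, e.apply_symm_apply, e.apply_symm_apply]
  have hpowX : ∀ (j : ℕ) v, (X ^ j) v = e ((x ^ j) (e.symm v)) := by
    intro j
    induction j with
    | zero => simp
    | succ j ih =>
      intro v
      rw [pow_succ', pow_succ', Module.End.mul_apply, Module.End.mul_apply, ih]
      simp [X, LinearEquiv.conj_apply]
  refine ⟨⟨_, hXmem⟩, fun v => ?_, ?_⟩
  · rw [Matrix.toLin'_toMatrix', hpowX, hx, e.apply_symm_apply]
  rw [Matrix.toLin'_toMatrix']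
  have hker : LinearMap.ker (x - (1 : F) • LinearMap.id) =
      LinearMap.range (LinearMap.inr F (Fin t → AdjoinRoot g) (Fin s → F × F)) := by
    ext ⟨v, w⟩
    constructor
    · intro h
      rw [LinearMap.mem_ker, LinearMap.sub_apply, sub_eq_zero] at h
      have h1 : ζ • v = v := by simpa [x, a] using congrArg Prod.fst h
      refine ⟨w, Prod.ext ?_ rfl⟩
      funext j
      by_contra hv
      exact hζ1 (mul_right_cancel₀ (b := v j) (fun h0 => hv h0.symm)
        (by rw [one_mul]; exact congrFun h1 j))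
    · rintro ⟨w', hw⟩
      rw [← hw]
      simp [x]
  have : LinearMap.ker (X - (1 : F) • LinearMap.id) =
      (LinearMap.ker (x - (1 : F) • LinearMap.id)).map (e : _ →ₗ[F] _) := by
    ext v
    rw [Submodule.mem_map_equiv, LinearMap.mem_ker, LinearMap.mem_ker, ← e.symm.map_eq_zero_iff]
    simp [X, LinearEquiv.conj_apply]
  rw [this, LinearEquiv.finrank_map_eq, hker, LinearMap.finrank_range_of_inj LinearMap.inr_injective,
    Module.finrank_pi_fintype F, Finset.sum_const, Finset.card_univ, Fintype.card_fin,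
    Module.finrank_prod, Module.finrank_self, smul_eq_mul, mul_comm]

end Cfsg.Agent.Lib.Elusive
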