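import Cfsg.Agent.Lib.Elusive.SympField
import Cfsg.Agent.Lib.Elusive.SympModels
import Mathlib.FieldTheory.Finite.Basic

/-!
Elements of symplectic groups centralising no field extension.
-/

set_option autoImplicit false

namespace Cfsg.Agent.Lib.Elusive.SympField

open Module Polynomial Cfsg.Agent.Lib.Forms

universe u

variable {F : Type u} [Field F] [Fintype F]

theorem expand_pow_card (b : ℕ) (h : F[X]) :
    expand F (Fintype.card F ^ b) h = h ^ (Fintype.card F ^ b) := by
  induction b with
  | zero => simp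
  | succ b ih =>
    rw [pow_succ, expand_mul, FiniteField.expand_card, map_pow, ih, ← pow_mul]

omit [Fintype F] in
theorem finrank_submodule_prod {U V : Type*} [AddCommGroup U] [Module F U] [FiniteDimensional F U]
    [AddCommGroup V] [Module F V] [FiniteDimensional F V] (P : Submodule F U) (Q : Submodule F V) :
    finrank F (P.prod Q) = finrank F P + finrank F Q := by
  have h : P.prod Q = LinearMap.range (P.subtype.prodMap Q.subtype) := by
    rw [LinearMap.range_prodMap, Submodule.range_subtype, Submodule.range_subtype]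
  rw [h, LinearMap.finrank_range_of_inj (P.subtype_injective.prodMap Q.subtype_injective), Module.finrank_prod]

variable [DecidableEq F] {r : ℕ} [Fact r.Prime] {p : ℕ} [Fact p.Prime] [CharP F p]

/-- An element of odd order `i` of `q`: the kernel of `g(A)` is a single irreducible piece. -/
theorem exists_pair_elt (hrp : r ≠ p) (hr2 : r ≠ 2)
    (hi : Odd (orderOf (Fintype.card F : ZMod r))) {d : ℕ} (hd : orderOf (Fintype.card F : ZMod r) ≤ d) :
    ∃ (A : Matrix.symplecticGroup (Fin d) F) (g : F[X]) (W : Submodule F (Fin d ⊕ Fin d → F)),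
      Matrix.toLin' (A : Matrix (Fin d ⊕ Fin d) (Fin d ⊕ Fin d) F) ^ r = 1 ∧
      finrank F (LinearMap.ker (aeval (Matrix.toLin' (A : Matrix (Fin d ⊕ Fin d) (Fin d ⊕ Fin d) F)) g)) =
        orderOf (Fintype.card F : ZMod r) ∧
      (∀ v ∈ W, Matrix.toLin' (A : Matrix (Fin d ⊕ Fin d) (Fin d ⊕ Fin d) F) v = (1 : F) • v) ∧
      2 * (d - orderOf (Fintype.card F : ZMod r)) ≤ finrank F W := by
  classical
  have hr : r.Prime := Fact.out
  obtain ⟨g, hg⟩ := UniqueFactorizationMonoid.exists_mem_normalizedFactors (cyclotomic_ne_zero r F)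
    fun hu => (degree_cyclotomic_pos r F hr.pos).ne' (degree_eq_zero_of_isUnit hu)
  obtain ⟨hgm, hirr, hdeg⟩ := factor_cyclotomic hrp hg
  rw [Nat.card_eq_fintype_card] at hdeg
  haveI : Fact (Irreducible g) := ⟨hirr⟩
  let pb := AdjoinRoot.powerBasis' hgm
  haveI : FiniteDimensional F (AdjoinRoot g) := pb.finite
  haveI : Finite (AdjoinRoot g) := Module.finite_of_finite F
  set ζ := AdjoinRoot.root g with hζ
  have hfinK : finrank F (AdjoinRoot g) = g.natDegree := by
    rw [pb.finrank, AdjoinRoot.powerBasis'_dim]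
  have hζr : ζ ^ r = 1 := by
    have hdvd : g ∣ X ^ r - 1 :=
      (UniqueFactorizationMonoid.dvd_of_mem_normalizedFactors hg).trans (cyclotomic.dvd_X_pow_sub_one r F)
    have h := AdjoinRoot.mk_eq_zero.2 hdvd
    simpa [sub_eq_zero] using h
  have hg1 : aeval (1 : F) g ≠ 0 := fun hev => by
    have h' : cyclotomic r F = g * (cyclotomic r F / g) :=
      (EuclideanDomain.mul_div_cancel' hirr.ne_zero
        (UniqueFactorizationMonoid.dvd_of_mem_normalizedFactors hg)).symm
    have h1 := congrArg (eval (1 : F)) h'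
    rw [eval_one_cyclotomic_prime, eval_mul, show eval (1 : F) g = 0 from hev, zero_mul] at h1
    exact hrp ((Nat.prime_dvd_prime_iff_eq Fact.out hr).1 ((CharP.cast_eq_zero_iff F p r).1 h1)).symm
  have hζg : aeval ζ g = 0 := by rw [AdjoinRoot.aeval_eq]; exact AdjoinRoot.mk_self
  have hζ0 : ζ ≠ 0 := fun h => by rw [h, zero_pow hr.ne_zero] at hζr; exact zero_ne_one hζr
  have hζinv : ζ ^ (r - 1) = ζ⁻¹ := eq_inv_of_mul_eq_one_left (by
    rw [← pow_succ, Nat.sub_add_cancel hr.one_le, hζr])
  have hginv : aeval (ζ ^ (r - 1)) g ≠ 0 := fun h => by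
    rw [hζinv] at h
    let σ : AdjoinRoot g →ₐ[F] AdjoinRoot g := AdjoinRoot.liftAlgHom g (Algebra.ofId F _) ζ⁻¹ h
    have hσ : σ ζ = ζ⁻¹ := AdjoinRoot.liftAlgHom_root _ _ _ _
    have hσσ : σ.comp σ = AlgHom.id F _ := AdjoinRoot.algHom_ext (by
      rw [AlgHom.comp_apply, hσ, map_inv₀, hσ, inv_inv]; rfl)
    let e : AdjoinRoot g ≃ₐ[F] AdjoinRoot g := AlgEquiv.ofAlgHom σ σ hσσ hσσ
    have he2 : orderOf e = 2 := orderOf_eq_prime
      (AlgEquiv.ext fun z => by rw [pow_two, AlgEquiv.mul_apply]; exact DFunLike.congr_fun hσσ z)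
      (fun he => by
        have h1 : ζ⁻¹ = ζ := hσ.symm.trans (DFunLike.congr_fun he ζ)
        have h2 : ζ ^ 2 = 1 := by rw [sq]; nth_rw 1 [← h1]; exact inv_mul_cancel₀ hζ0
        have := pow_gcd_eq_one.2 ⟨h2, hζr⟩
        rw [((Nat.coprime_primes Nat.prime_two hr).2 hr2.symm).gcd_eq_one, pow_one] at this
        refine hg1 ((map_eq_zero (algebraMap F (AdjoinRoot g))).1 ?_)
        rw [← aeval_algebraMap_apply, map_one, ← this]
        exact hζg)
    have h2d : 2 ∣ Nat.card (AdjoinRoot g ≃ₐ[F] AdjoinRoot g) := he2 ▸ orderOf_dvd_natCard e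
    rw [IsGalois.card_aut_eq_finrank, hfinK, hdeg] at h2d
    exact Nat.not_even_iff_odd.2 hi (even_iff_two_dvd.2 h2d)
  set m := d - g.natDegree with hm
  let Φ : AdjoinRoot g × F →ₐ[F] Module.End F (AdjoinRoot g × (Fin m → F)) :=
    (LinearMap.prodMapAlgHom F (AdjoinRoot g) (Fin m → F)).comp
      (((Algebra.lsmul F F (AdjoinRoot g)).comp (AlgHom.fst F _ _)).prod
        ((Algebra.lsmul F F (Fin m → F)).comp (AlgHom.snd F _ _)))
  have hΦ : ∀ (a : AdjoinRoot g × F) v, Φ a v = (a.1 * v.1, a.2 • v.2) := fun a v => rfl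
  have hfin : finrank F (AdjoinRoot g × (Fin m → F)) = finrank F (Fin d → F) := by
    rw [Module.finrank_prod, hfinK, finrank_fin_fun, finrank_fin_fun, hm]; omega
  let e := LinearEquiv.ofFinrankEq _ _ hfin
  let Ψ : AdjoinRoot g × F →ₐ[F] Matrix (Fin d) (Fin d) F :=
    (LinearMap.toMatrixAlgEquiv'.toAlgHom.comp (e.conjAlgEquiv F).toAlgHom).comp Φ
  have hΨ : ∀ a v, (Ψ a).mulVec (e v) = e (Φ a v) := fun a v => by
    show (LinearMap.toMatrix' (e.conjAlgEquiv F (Φ a))).mulVec (e v) = _
    rw [LinearMap.toMatrix'_mulVec]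
    simp
  set A := Ψ (ζ, 1) with hA
  set A' := Ψ (ζ ^ (r - 1), 1) with hA'
  have hAA : A * A' = 1 ∧ A' * A = 1 := by
    constructor <;> rw [hA, hA', ← map_mul, ← map_one Ψ] <;> congr 1 <;>
      refine Prod.ext ?_ (one_mul _)
    · show ζ * ζ ^ (r - 1) = 1
      rw [← pow_succ', Nat.sub_add_cancel hr.one_le, hζr]
    · show ζ ^ (r - 1) * ζ = 1
      rw [← pow_succ, Nat.sub_add_cancel hr.one_le, hζr]
  have hAr : A ^ r = 1 ∧ A' ^ r = 1 := by
    constructor <;> rw [← map_one Ψ]
    · rw [hA, ← map_pow, Prod.pow_mk, hζr, one_pow]; rfl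
    · rw [hA', ← map_pow, Prod.pow_mk, ← pow_mul, mul_comm, pow_mul, hζr, one_pow, one_pow]; rfl
  let M : Matrix (Fin d ⊕ Fin d) (Fin d ⊕ Fin d) F := Matrix.fromBlocks A 0 0 A'.transpose
  have hM : M ∈ Matrix.symplecticGroup (Fin d) F := by
    rw [SymplecticGroup.mem_iff]
    simp [M, Matrix.J, Matrix.fromBlocks_transpose, Matrix.fromBlocks_multiply,
      ← Matrix.transpose_mul, hAA.1, hAA.2]
  have hMr : M ^ r = 1 := by
    rw [Matrix.fromBlocks_diagonal_pow, hAr.1, ← Matrix.transpose_pow, hAr.2, Matrix.transpose_one,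
      Matrix.fromBlocks_one]
  have hdet : ∀ h : F[X], Matrix.toLin' (aeval M h) = aeval (Matrix.toLin' M) h := fun h =>
    (aeval_algHom_apply (Matrix.toLinAlgEquiv' (R := F) (n := Fin d ⊕ Fin d)).toAlgHom M h).symm
  have hblock : ∀ h : F[X], aeval M h = Matrix.fromBlocks (aeval A h) 0 0 (aeval A' h).transpose := by
    intro h
    induction h using Polynomial.induction_on' with
    | add a b ha hb => simp [ha, hb, Matrix.fromBlocks_add, Matrix.transpose_add]
    | monomial j c =>
      simp [M, aeval_monomial, Matrix.fromBlocks_diagonal_pow, Algebra.algebraMap_eq_smul_one,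
        Matrix.fromBlocks_smul, Matrix.transpose_smul, Matrix.transpose_pow]
  have hmv : ∀ (P Q : Matrix (Fin d) (Fin d) F) (v : Fin d ⊕ Fin d → F),
      (Matrix.fromBlocks P 0 0 Q).mulVec v =
        Sum.elim (P.mulVec (v ∘ Sum.inl)) (Q.mulVec (v ∘ Sum.inr)) := fun P Q v => by
    rw [Matrix.fromBlocks_mulVec]; simp
  have hgA' : Function.Injective (Matrix.mulVec (aeval A' g).transpose) := by
    rw [Matrix.mulVec_injective_iff_isUnit, Matrix.isUnit_transpose, ← Matrix.mulVec_injective_iff_isUnit]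
    intro u v huv
    obtain ⟨u, rfl⟩ := e.surjective u
    obtain ⟨v, rfl⟩ := e.surjective v
    rw [hA', aeval_algHom_apply, hΨ, hΨ, hΦ, hΦ, aeval_prod_apply] at huv
    have h := e.injective huv
    rw [Prod.mk.injEq] at h
    exact congrArg e (Prod.ext (mul_left_cancel₀ hginv h.1) (smul_right_injective _ hg1 h.2))
  refine ⟨⟨M, hM⟩, g,
    LinearMap.ker (Matrix.toLin' M - (1 : F) • LinearMap.id), ?_, ?_,
    fun v hv => by
      rw [LinearMap.mem_ker, LinearMap.sub_apply, sub_eq_zero] at hv
      exact hv, ?_⟩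
  · show Matrix.toLin' M ^ r = 1
    rw [← Matrix.toLin'_pow, hMr, Matrix.toLin'_one]; rfl
  · let j : AdjoinRoot g →ₗ[F] (Fin d ⊕ Fin d → F) :=
      { toFun := fun z => Sum.elim (e (z, 0)) 0
        map_add' := fun a b => by
          ext i; rcases i with i | i
          · show e (a + b, 0) i = (e (a, 0) + e (b, 0)) i
            rw [← map_add, Prod.mk_add_mk, add_zero]
          · simp
        map_smul' := fun c a => by
          ext i; rcases i with i | i
          · show e (c • a, 0) i = (c • e (a, 0)) i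
            rw [← map_smul, Prod.smul_mk, smul_zero]
          · simp }
    have hj : Function.Injective j := fun a b h =>
      congrArg Prod.fst (e.injective (funext fun i => congrFun h (Sum.inl i)))
    have hker : LinearMap.ker (aeval (Matrix.toLin' M) g) = LinearMap.range j := by
      ext v
      rw [LinearMap.mem_ker, ← hdet, Matrix.toLin'_apply, hblock, hmv]
      constructor
      · intro h
        obtain ⟨⟨z, w⟩, hzw⟩ := e.surjective (v ∘ Sum.inl)
        have h1 : (aeval A g).mulVec (v ∘ Sum.inl) = 0 := funext fun i => congrFun h (Sum.inl i)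
        have h2 : v ∘ Sum.inr = 0 := hgA' (by
          rw [Matrix.mulVec_zero]; exact funext fun i => congrFun h (Sum.inr i))
        rw [← hzw, hA, aeval_algHom_apply, hΨ, hΦ, aeval_prod_apply, LinearEquiv.map_eq_zero_iff,
          Prod.mk_eq_zero] at h1
        have hw : w = 0 := (smul_eq_zero.1 h1.2).resolve_left hg1
        refine ⟨z, funext fun i => ?_⟩
        rcases i with i | i
        · show e (z, 0) i = _
          rw [← hw, hzw]; rfl
        · exact (congrFun h2 i).symm
      · rintro ⟨z, rfl⟩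
        have h1 : (aeval A g).mulVec (e (z, 0)) = 0 := by
          rw [hA, aeval_algHom_apply, hΨ, hΦ, aeval_prod_apply, LinearEquiv.map_eq_zero_iff, Prod.mk_eq_zero]
          exact ⟨by rw [hζg, zero_mul], smul_zero _⟩
        ext i; rcases i with i | i
        · exact congrFun h1 i
        · exact congrFun (Matrix.mulVec_zero _) i
    show finrank F (LinearMap.ker (aeval (Matrix.toLin' M) g)) = _
    rw [hker, LinearMap.finrank_range_of_inj hj, hfinK, hdeg]
  · have hfix : ∀ z : AdjoinRoot g, (Ψ (z, 1) - 1).rank + m ≤ d := by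
      intro z
      have hinj : Function.Injective (e.toLinearMap ∘ₗ LinearMap.inr F (AdjoinRoot g) (Fin m → F)) :=
        e.injective.comp LinearMap.inr_injective
      have h1 : m ≤ finrank F (LinearMap.ker (Ψ (z, 1) - 1).mulVecLin) := by
        have h2 : LinearMap.range (e.toLinearMap ∘ₗ LinearMap.inr F (AdjoinRoot g) (Fin m → F)) ≤
            LinearMap.ker (Ψ (z, 1) - 1).mulVecLin := by
          rintro _ ⟨w, rfl⟩
          rw [LinearMap.mem_ker, Matrix.mulVecLin_apply, Matrix.sub_mulVec, Matrix.one_mulVec]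
          show (Ψ (z, 1)).mulVec (e (0, w)) - e (0, w) = 0
          rw [hΨ, hΦ]; simp
        have h3 := Submodule.finrank_mono h2
        rwa [LinearMap.finrank_range_of_inj hinj, finrank_fin_fun] at h3
      have h4 := LinearMap.finrank_range_add_finrank_ker (Ψ (z, 1) - 1).mulVecLin
      rw [finrank_fin_fun] at h4
      rw [Matrix.rank]
      omega
    let P := (LinearMap.ker (A - 1).mulVecLin).prod (LinearMap.ker (A'.transpose - 1).mulVecLin)
    let s := (LinearEquiv.sumArrowLequivProdArrow (Fin d) (Fin d) F F).symm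
    have hle : P.map (s : _ →ₗ[F] _) ≤ LinearMap.ker (Matrix.toLin' M - (1 : F) • LinearMap.id) := by
      rintro _ ⟨⟨u, v⟩, ⟨hu, hv⟩, rfl⟩
      rw [SetLike.mem_coe, LinearMap.mem_ker, Matrix.mulVecLin_apply, Matrix.sub_mulVec, Matrix.one_mulVec,
        sub_eq_zero] at hu hv
      rw [LinearMap.mem_ker, LinearMap.sub_apply, Matrix.toLin'_apply, LinearMap.smul_apply,
        LinearMap.id_apply, one_smul, sub_eq_zero, LinearEquiv.coe_coe]
      show M.mulVec _ = _
      rw [hmv]
      ext i; rcases i with i | i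
      · exact congrFun hu i
      · exact congrFun hv i
    have h := Submodule.finrank_mono hle
    rw [LinearEquiv.finrank_map_eq, finrank_submodule_prod] at h
    have ha : d ≤ finrank F (LinearMap.ker (A - 1).mulVecLin) + g.natDegree := by
      have h1 := hfix ζ
      have h2 := LinearMap.finrank_range_add_finrank_ker (A - 1).mulVecLin
      rw [finrank_fin_fun] at h2
      rw [← hA, Matrix.rank] at h1
      omega
    have hb : d ≤ finrank F (LinearMap.ker (A'.transpose - 1).mulVecLin) + g.natDegree := by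
      have h1 := hfix (ζ ^ (r - 1))
      rw [← hA', ← Matrix.rank_transpose, Matrix.transpose_sub, Matrix.transpose_one, Matrix.rank] at h1
      have h2 := LinearMap.finrank_range_add_finrank_ker (A'.transpose - 1).mulVecLin
      rw [finrank_fin_fun] at h2
      omega
    rw [← hdeg]
    show 2 * (d - g.natDegree) ≤ finrank F (LinearMap.ker (Matrix.toLin' M - (1 : F) • LinearMap.id))
    omega

end Cfsg.Agent.Lib.Elusive.SympField
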