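import Cfsg.Agent.Lib.Elusive.Semisimple
import Cfsg.Agent.Lib.Elusive.SLConj
import Cfsg.Agent.Lib.Elusive.SympFieldModels
import Cfsg.Agent.Lib.Forms.UnitaryTI
import Cfsg.Agent.S5979

/-!
Unitary groups and pairs of complementary totally singular subspaces.
-/

set_option autoImplicit false

namespace Cfsg.Agent.Lib.Elusive.PolarPair

open Module Cfsg.Agent.Lib.Elusive Cfsg.Agent.Lib.Forms Cfsg.Agent.Lib.Classical
open scoped Matrix

universe u

variable {F : Type u} [Field F]

section
variable [Fintype F] {q n m : ℕ} {U W : Submodule F (Fin n → F)}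

/-- A complementary pair of totally singular halves. -/
structure Pair (n m q : ℕ) (U W : Submodule F (Fin n → F)) : Prop where
  card : Fintype.card F = q ^ 2
  dim : n = 2 * m
  compl : IsCompl U W
  dimU : finrank F U = m
  dimW : finrank F W = m
  tsU : ∀ u ∈ U, ∀ v ∈ U, Cfsg.hermForm n F q u v = 0
  tsW : ∀ u ∈ W, ∀ v ∈ W, Cfsg.hermForm n F q u v = 0

theorem ts_le (hF : Fintype.card F = q ^ 2) {S : Submodule F (Fin n → F)}
    (hS : ∀ u ∈ S, ∀ v ∈ S, Cfsg.hermForm n F q u v = 0) : 2 * finrank F S ≤ n := by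
  have H := hermData hF n
  have h1 := H.finrank_perp'_eq S
  have h2 : finrank F S ≤ finrank F (H.perp' S) := Submodule.finrank_mono fun v hv => H.mem_perp'.2 (hS v hv)
  rw [finrank_fin_fun] at h1
  omega

/-- An invariant pair forces even eigenspaces for eigenvalues of norm one. -/
theorem ker_even (P : Pair n m q U W) {X : Module.End F (Fin n → F)}
    (hX : ∀ u v, Cfsg.hermForm n F q (X u) (X v) = Cfsg.hermForm n F q u v) (hU : ∀ v ∈ U, X v ∈ U)
    (hW : ∀ v ∈ W, X v ∈ W) {z : F} (hz : z ^ (q + 1) = 1) :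
    Even (finrank F (LinearMap.ker (X - z • LinearMap.id))) := by
  have H := hermData P.card n
  set h := Cfsg.hermForm n F q
  have tsU : ∀ u ∈ U, ∀ v ∈ U, h u v = 0 := P.tsU
  have tsW : ∀ u ∈ W, ∀ v ∈ W, h u v = 0 := P.tsW
  have hinj : Function.Injective X := (injective_iff_map_eq_zero _).2 fun v hv => by
    by_contra h0
    obtain ⟨y, hy⟩ := H.sep v h0
    exact hy (by rw [← hX, hv, H.zero_left])
  have hUsurj : ∀ u ∈ U, ∃ u' ∈ U, X u' = u := by
    have he : U.map X = U := Submodule.eq_of_le_of_finrank_eq (by rintro _ ⟨v, hv, rfl⟩; exact hU v hv)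
      (LinearEquiv.finrank_eq (Submodule.equivMapOfInjective X hinj U).symm)
    intro u hu
    rw [← he] at hu
    exact hu
  set L := X - z • LinearMap.id with hL
  set K := LinearMap.ker L
  have hLv : ∀ v, L v = X v - z • v := fun v => by simp [hL]
  have hK : ∀ {v}, v ∈ K ↔ X v = z • v := fun {v} => by simp [K, hLv, sub_eq_zero]
  -- rank and nullity on `U`
  have hr := LinearMap.finrank_range_add_finrank_ker (L.domRestrict U)
  rw [P.dimU, LinearMap.range_domRestrict, LinearMap.ker_domRestrict,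
    ← Submodule.finrank_map_subtype_eq U, Submodule.map_comap_subtype] at hr
  set RU := U.map L
  have hRU : RU ≤ U := by
    rintro _ ⟨u, hu, rfl⟩
    rw [hLv]; exact U.sub_mem (hU u hu) (U.smul_mem z hu)
  have hpU : U ≤ H.perp' RU := fun v hv => H.mem_perp'.2 fun x hx => tsU v hv x (hRU hx)
  have htop : W ⊔ H.perp' RU = ⊤ := eq_top_iff.2 (by
    rw [← P.compl.sup_eq_top, sup_comm U]
    exact sup_le_sup_left hpU W)
  have hs := Submodule.finrank_sup_add_finrank_inf_eq W (H.perp' RU)
  rw [htop, finrank_top, P.dimW, finrank_fin_fun] at hs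
  have hperp := H.finrank_perp'_eq RU
  rw [finrank_fin_fun] at hperp
  have hWK : W ⊓ H.perp' RU = W ⊓ K := by
    ext w
    simp only [Submodule.mem_inf, H.mem_perp']
    refine and_congr_right fun hw => ?_
    have key : ∀ u, h w (L u) = z ^ q * h (z • w - X w) (X u) := fun u => by
      have e1 : z • w - X w = z • w + (-1 : F) • X w := by rw [neg_one_smul, sub_eq_add_neg]
      rw [hLv, e1, H.add_left, H.smul_left, H.smul_left, hX, show X u - z • u = X u + (-z) • u by
        rw [neg_smul, sub_eq_add_neg], H.add_right, H.smul_right, map_neg, conjQ_apply]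
      linear_combination -(h w (X u)) * hz
    constructor
    · intro hperp
      rw [hK]
      by_contra hne
      obtain ⟨y, hy⟩ := H.sep (z • w - X w) (sub_ne_zero.2 (Ne.symm hne))
      obtain ⟨u, hu, w', hw', rfl⟩ := Submodule.mem_sup.1 (P.compl.sup_eq_top ▸ Submodule.mem_top (x := y))
      obtain ⟨u', hu', rfl⟩ := hUsurj u hu
      refine hy ?_
      have h0 := hperp (L u') ⟨u', hu', rfl⟩
      rw [key] at h0
      have hzq : z ^ q ≠ 0 := fun e => by rw [pow_succ, e, zero_mul] at hz; exact zero_ne_one hz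
      rw [H.add_right, (mul_eq_zero.1 h0).resolve_left hzq,
        tsW _ (W.sub_mem (W.smul_mem z hw) (hW w hw)) w' hw', add_zero]
    · rintro hwK _ ⟨u, hu, rfl⟩
      rw [key, hK.1 hwK, sub_self, H.zero_left, mul_zero]
  rw [hWK] at hs
  have hsum : (U ⊓ K) ⊔ (W ⊓ K) = K := le_antisymm (sup_le inf_le_right inf_le_right) fun v hv => by
    obtain ⟨u, hu, w, hw, rfl⟩ := Submodule.mem_sup.1 (P.compl.sup_eq_top ▸ Submodule.mem_top (x := v))
    have h0 : L u + L w = 0 := by rw [← map_add]; exact hv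
    have hLw : L w ∈ W := by rw [hLv]; exact W.sub_mem (hW w hw) (W.smul_mem z hw)
    have hu0 : L u = 0 := Submodule.disjoint_def.1 P.compl.disjoint _ (hRU ⟨u, hu, rfl⟩) (by
      rw [eq_neg_of_add_eq_zero_left h0]; exact W.neg_mem hLw)
    rw [hu0, zero_add] at h0
    exact Submodule.add_mem_sup ⟨hu, hu0⟩ ⟨hw, h0⟩
  have hdis : (U ⊓ K) ⊓ (W ⊓ K) = ⊥ := eq_bot_iff.2 fun v hv =>
    (Submodule.mem_bot F).2 (Submodule.disjoint_def.1 P.compl.disjoint v hv.1.1 hv.2.1)
  have hk := Submodule.finrank_sup_add_finrank_inf_eq (U ⊓ K) (W ⊓ K)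
  rw [hsum, hdis, finrank_bot] at hk
  have := P.dim
  have hr' : finrank F RU + finrank F (U ⊓ K : Submodule F (Fin n → F)) = m := hr
  exact ⟨finrank F (U ⊓ K : Submodule F (Fin n → F)), by omega⟩

/-- An interchanged pair bounds the eigenspaces. -/
theorem ker_le_swap (P : Pair n m q U W) {X : Module.End F (Fin n → F)}
    (hUW : ∀ v ∈ U, X v ∈ W) {z : F} (hz : z ≠ 0) :
    finrank F (LinearMap.ker (X - z • LinearMap.id)) ≤ m := by
  set K := LinearMap.ker (X - z • LinearMap.id)
  have hdis : U ⊓ K = ⊥ := eq_bot_iff.2 fun v hv => by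
    have h1 : X v = z • v := by simpa [K, sub_eq_zero] using hv.2
    have h2 : v ∈ W := by
      have := W.smul_mem z⁻¹ (hUW v hv.1)
      rwa [h1, inv_smul_smul₀ hz] at this
    exact (Submodule.mem_bot F).2 (Submodule.disjoint_def.1 P.compl.disjoint v hv.1 h2)
  have h1 := Submodule.finrank_sup_add_finrank_inf_eq U K
  have h2 := Submodule.finrank_le (U ⊔ K)
  rw [hdis, finrank_bot, P.dimU] at h1
  rw [finrank_fin_fun] at h2
  have := P.dim
  omega

/-- A hyperbolic frame adapted to the pair. -/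
theorem exists_frame (P : Pair n m q U W) :
    ∃ e : (Fin m ⊕ Fin m → F) ≃ₗ[F] (Fin n → F),
      (∀ x y, Cfsg.hermForm n F q (e x) (e y) = ∑ i, (x (.inl i) * y (.inr i) ^ q + x (.inr i) * y (.inl i) ^ q)) ∧
      (∀ x, e x ∈ U ↔ ∀ i, x (.inr i) = 0) ∧ (∀ x, e x ∈ W ↔ ∀ i, x (.inl i) = 0) := by
  classical
  have H := hermData P.card n
  set h := Cfsg.hermForm n F q
  have tsU : ∀ u ∈ U, ∀ v ∈ U, h u v = 0 := P.tsU
  have tsW : ∀ u ∈ W, ∀ v ∈ W, h u v = 0 := P.tsW
  let b : Basis (Fin m) F U := (Module.finBasis F U).reindex (finCongr P.dimU)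
  let pr := Submodule.projectionOnto U W P.compl
  have hrep : ∀ i, ∃ y ∈ W, ∀ u : U, h (u : Fin n → F) y = b.repr u i := by
    intro i
    obtain ⟨y, hy⟩ := H.exists_rep ((b.coord i) ∘ₗ pr)
    obtain ⟨u, hu, w, hw, rfl⟩ := Submodule.mem_sup.1 (P.compl.sup_eq_top ▸ Submodule.mem_top (x := y))
    have hzero : ∀ z ∈ W, h z u = 0 := fun z hz => by
      have := hy z
      rw [H.add_right, tsW z hz w hw, add_zero] at this
      rw [this]
      simp [pr, Submodule.projectionOnto_apply_of_mem_right P.compl hz]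
    refine ⟨w, hw, fun v => ?_⟩
    have := hy v
    rw [H.add_right, tsU v v.2 u hu, zero_add] at this
    rw [this]
    simp [pr, Submodule.projectionOnto_apply_left]
  choose y hy hyU using hrep
  let L : (Fin m ⊕ Fin m → F) →ₗ[F] (Fin n → F) :=
    Fintype.linearCombination F (Sum.elim (fun i => (b i : Fin n → F)) y)
  have hLx : ∀ x, L x = ∑ i, x (.inl i) • (b i : Fin n → F) + ∑ i, x (.inr i) • y i := fun x => by
    simp [L, Fintype.linearCombination_apply, Fintype.sum_sum_type]
  have hpair : ∀ i j, h (b i : Fin n → F) (y j) = if i = j then 1 else 0 := fun i j => by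
    rw [hyU, Basis.repr_self, Finsupp.single_apply]
  have hpair' : ∀ i j, h (y j) (b i : Fin n → F) = if i = j then 1 else 0 := fun i j => by
    rw [H.herm, hpair]; split_ifs <;> simp
  let hl : (Fin n → F) → (Fin n → F) →ₗ[F] F := fun w =>
    { toFun := fun v => h v w
      map_add' := fun a c => H.add_left a c w
      map_smul' := fun c a => H.smul_left c a w }
  have hleft : ∀ x w, h (L x) w = ∑ i, x (.inl i) * h (b i : Fin n → F) w + ∑ i, x (.inr i) * h (y i) w := fun x w => by
    show hl w (L x) = _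
    rw [hLx, map_add, map_sum, map_sum]
    congr 1 <;> refine Finset.sum_congr rfl fun i _ => ?_ <;> rw [map_smul] <;> rfl
  have hb : ∀ x i, h (L x) (b i : Fin n → F) = x (.inr i) := fun x i => by
    rw [hleft]; simp [tsU _ (b _).2 _ (b i).2, hpair']
  have hyy : ∀ x i, h (L x) (y i) = x (.inl i) := fun x i => by
    rw [hleft]; simp [tsW _ (hy _) _ (hy i), hpair]
  have hinj : Function.Injective L := (injective_iff_map_eq_zero _).2 fun x hx => by
    funext i
    rcases i with i | i
    · rw [← hyy x i, hx, H.zero_left]; rfl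
    · rw [← hb x i, hx, H.zero_left]; rfl
  have hbij : Function.Bijective L := ⟨hinj, (LinearMap.injective_iff_surjective_of_finrank_eq_finrank (by
    rw [finrank_fin_fun, Module.finrank_pi, Fintype.card_sum, Fintype.card_fin, P.dim]; omega)).1 hinj⟩
  refine ⟨LinearEquiv.ofBijective L hbij, fun x x' => ?_, fun x => ?_, fun x => ?_⟩
  · show h (L x) (L x') = _
    have hR : ∀ v, h v (L x') = ∑ i, x' (.inl i) ^ q * h v (b i : Fin n → F) + ∑ i, x' (.inr i) ^ q * h v (y i) := fun v => by
      rw [H.herm, hleft, map_add, map_sum, map_sum]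
      congr 1 <;> refine Finset.sum_congr rfl fun i _ => ?_ <;> rw [map_mul, ← H.herm, conjQ_apply]
    simp only [hR, hb, hyy]
    rw [← Finset.sum_add_distrib]
    exact Finset.sum_congr rfl fun i _ => by ring
  · show L x ∈ U ↔ _
    refine ⟨fun hx i => ?_, fun hx => ?_⟩
    · rw [← hb x i, tsU _ hx _ (b i).2]
    · rw [hLx]; simp only [hx, zero_smul, Finset.sum_const_zero, add_zero]
      exact Submodule.sum_mem _ fun i _ => U.smul_mem _ (b i).2
  · show L x ∈ W ↔ _
    refine ⟨fun hx i => ?_, fun hx => ?_⟩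
    · rw [← hyy x i, tsW _ hx _ (hy i)]
    · rw [hLx]; simp only [hx, zero_smul, Finset.sum_const_zero, zero_add]
      exact Submodule.sum_mem _ fun i _ => W.smul_mem _ (hy i)

/-- A diagonal element fixing both members. -/
theorem exists_member (P : Pair n m q U W) (a : Fin m → F) (ha : ∀ i, a i ≠ 0) :
    ∃ g ∈ Cfsg.GU n F q, U.map (Matrix.toLin' (g : Matrix (Fin n) (Fin n) F)) = U ∧
      W.map (Matrix.toLin' (g : Matrix (Fin n) (Fin n) F)) = W ∧
      (g : Matrix (Fin n) (Fin n) F).det = ∏ i, a i * (a i ^ q)⁻¹ ∧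
      ∃ T : (Fin m ⊕ Fin m → F) ≃ₗ[F] (Fin n → F), ∀ x,
        Matrix.toLin' (g : Matrix (Fin n) (Fin n) F) (T x) = T (Matrix.toLin' (Matrix.diagonal (Sum.elim a fun i => (a i ^ q)⁻¹)) x) := by
  classical
  obtain ⟨e, he, heU, heW⟩ := exists_frame P
  set s : Fin m ⊕ Fin m → F := Sum.elim a fun i => (a i ^ q)⁻¹
  have hs : ∀ i, s i ≠ 0 := by
    rintro (i | i)
    · exact ha i
    · exact inv_ne_zero (pow_ne_zero _ (ha i))
  set Y := e.conj (Matrix.toLin' (Matrix.diagonal s)) with hY
  have hdet : (LinearMap.toMatrix' Y).det = ∏ i, s i := by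
    rw [LinearMap.det_toMatrix', hY, LinearEquiv.conj_apply, LinearMap.comp_assoc, LinearMap.det_conj,
      LinearMap.det_toLin', Matrix.det_diagonal]
  let g : GL (Fin n) F := Matrix.GeneralLinearGroup.mkOfDetNeZero (LinearMap.toMatrix' Y)
    (by rw [hdet]; exact Finset.prod_ne_zero_iff.2 fun i _ => hs i)
  have hg : Matrix.toLin' (g : Matrix (Fin n) (Fin n) F) = Y := Matrix.toLin'_toMatrix' Y
  have hYe : ∀ x, Y (e x) = e (Matrix.toLin' (Matrix.diagonal s) x) := fun x => by
    simp [hY, LinearEquiv.conj_apply]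
  have hYinj : Function.Injective Y := fun u v h => by
    have := congrArg (Matrix.toLin' ((g⁻¹ : GL (Fin n) F) : Matrix (Fin n) (Fin n) F)) (hg.symm ▸ h)
    simpa [Matrix.toLin'_apply, Matrix.mulVec_mulVec] using this
  refine ⟨g, Herm.mem_GU.2 fun u v => ?_, ?_, ?_, ?_, e, fun x => by rw [hg, hYe]⟩
  · rw [← Matrix.toLin'_apply, ← Matrix.toLin'_apply, hg]
    obtain ⟨u, rfl⟩ := e.surjective u
    obtain ⟨v, rfl⟩ := e.surjective v
    rw [hYe, hYe, he, he]
    refine Finset.sum_congr rfl fun i _ => ?_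
    simp only [Matrix.toLin'_apply, Matrix.mulVec_diagonal, s, Sum.elim_inl, Sum.elim_inr, mul_pow, inv_pow,
      Herm.conj_conj P.card]
    have h1 := pow_ne_zero q (ha i)
    field_simp [ha i]
  · rw [hg]
    refine Submodule.eq_of_le_of_finrank_eq ?_ (LinearEquiv.finrank_eq (Submodule.equivMapOfInjective Y hYinj U).symm)
    rintro _ ⟨u, hu, rfl⟩
    obtain ⟨x, rfl⟩ := e.surjective u
    rw [hYe, heU]
    intro i
    simp [Matrix.toLin'_apply, Matrix.mulVec_diagonal, (heU x).1 hu i]
  · rw [hg]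
    refine Submodule.eq_of_le_of_finrank_eq ?_ (LinearEquiv.finrank_eq (Submodule.equivMapOfInjective Y hYinj W).symm)
    rintro _ ⟨u, hu, rfl⟩
    obtain ⟨x, rfl⟩ := e.surjective u
    rw [hYe, heW]
    intro i
    simp [Matrix.toLin'_apply, Matrix.mulVec_diagonal, (heW x).1 hu i]
  · show (LinearMap.toMatrix' Y).det = _
    rw [hdet, Fintype.prod_sum_type, ← Finset.prod_mul_distrib]
    rfl

/-- A transvection of determinant one. -/
theorem exists_transvection {p : ℕ} [Fact p.Prime] [CharP F p] (P : Pair n m q U W) (hm : 0 < m) :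
    ∃ x ∈ Cfsg.GU n F q, (x : Matrix (Fin n) (Fin n) F).det = 1 ∧
      (x : Matrix (Fin n) (Fin n) F) ^ p = 1 ∧
      finrank F (LinearMap.ker (Matrix.toLin' (x : Matrix (Fin n) (Fin n) F) - (1 : F) • LinearMap.id)) + 1 = n := by
  classical
  have H := hermData P.card n
  set h := Cfsg.hermForm n F q with hh
  have tsU : ∀ u ∈ U, ∀ v ∈ U, h u v = 0 := P.tsU
  have tsW : ∀ u ∈ W, ∀ v ∈ W, h u v = 0 := P.tsW
  obtain ⟨v, hv, hv0⟩ := Submodule.exists_mem_ne_zero_of_ne_bot (p := U) fun e => by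
    have := P.dimU; rw [e, finrank_bot] at this; omega
  obtain ⟨κ, hκ0, hκ⟩ := exists_skew (isUnitary_hermForm P.card n)
  have hvv := tsU v hv v hv
  let φ : (Fin n → F) →ₗ[F] F :=
    { toFun := fun x => h x v
      map_add' := fun a c => H.add_left a c v
      map_smul' := fun c a => H.smul_left c a v }
  let T : Module.End F (Fin n → F) := LinearMap.id + (κ • φ).smulRight v
  have hT : ∀ x, T x = x + (κ * h x v) • v := fun x => rfl
  have hTT : ∀ (j : ℕ) x, (T ^ j) x = x + (j : F) • ((κ * h x v) • v) := by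
    intro j
    induction j with
    | zero => intro x; simp
    | succ j ih =>
      intro x
      rw [pow_succ, Module.End.mul_apply, ih, hT, H.add_left, H.smul_left, hvv, mul_zero, add_zero, Nat.cast_succ,
        add_smul, one_smul]
      abel
  have hTp : T ^ p = 1 := LinearMap.ext fun x => by
    rw [hTT, CharP.cast_eq_zero, zero_smul, add_zero]; rfl
  have hdp : (LinearMap.toMatrix' T).det = 1 := by
    have h1 : LinearMap.det T ^ p = 1 := by rw [← map_pow, hTp, map_one]
    rw [LinearMap.det_toMatrix']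
    exact frobenius_inj F p (by simp [frobenius_def, h1])
  let g : GL (Fin n) F := Matrix.GeneralLinearGroup.mkOfDetNeZero (LinearMap.toMatrix' T) (by rw [hdp]; exact one_ne_zero)
  have hg : Matrix.toLin' (g : Matrix (Fin n) (Fin n) F) = T := Matrix.toLin'_toMatrix' T
  refine ⟨g, Herm.mem_GU.2 fun a c => ?_, hdp, Matrix.toLin'.injective (by rw [Matrix.toLin'_pow, hg, hTp, Matrix.toLin'_one]; rfl), ?_⟩
  · rw [← Matrix.toLin'_apply, ← Matrix.toLin'_apply, hg, hT, hT, ← hh]
    simp only [H.add_left, H.add_right, H.smul_left, H.smul_right, hvv]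
    rw [show h v c = conjQ P.card (h c v) from H.herm v c]
    rw [map_mul]
    linear_combination (h a v * conjQ P.card (h c v)) * hκ
  · have hk : LinearMap.ker (Matrix.toLin' (g : Matrix (Fin n) (Fin n) F) - (1 : F) • LinearMap.id) = LinearMap.ker φ := by
      ext x
      rw [hg, LinearMap.mem_ker, LinearMap.mem_ker, LinearMap.sub_apply, LinearMap.smul_apply, one_smul, hT,
        LinearMap.id_apply, add_sub_cancel_left, smul_eq_zero, or_iff_left hv0, mul_eq_zero, or_iff_right hκ0]
      rfl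
    obtain ⟨w, hw⟩ := H.sep v hv0
    have hne : φ ≠ 0 := fun e => hw (H.eq_zero_comm.1 (LinearMap.congr_fun e w))
    have hsum := LinearMap.finrank_range_add_finrank_ker φ
    rw [LinearMap.range_eq_top.2 (LinearMap.surjective hne), finrank_top, Module.finrank_self, finrank_fin_fun] at hsum
    rw [hk]; omega

/-- An element of order `r` with moved space of odd dimension `b`. -/
theorem exists_moved {p : ℕ} [Fact p.Prime] [CharP F p] {r : ℕ} [Fact r.Prime] (hrp : r ≠ p)
    (hF : Fintype.card F = q ^ 2) {b : ℕ} (hb : Odd b) (hb3 : 3 ≤ b) (hbn : b ≤ n)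
    (hord : orderOf (-(q : ZMod r)) = b) :
    ∃ x ∈ Cfsg.GU n F q, (x : Matrix (Fin n) (Fin n) F).det = 1 ∧ (x : Matrix (Fin n) (Fin n) F) ^ r = 1 ∧
      finrank F (LinearMap.ker (Matrix.toLin' (x : Matrix (Fin n) (Fin n) F) - (1 : F) • LinearMap.id)) + b = n := by
  classical
  have hr : r.Prime := Fact.out
  have hordQ : orderOf (Fintype.card F : ZMod r) = b := by
    rw [hF, Nat.cast_pow, ← neg_sq, Nat.Coprime.orderOf_pow (by rw [hord]; exact Nat.coprime_two_right.2 hb), hord]
  have hqb : r ∣ q ^ b + 1 := by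
    rw [← ZMod.natCast_eq_zero_iff]
    push_cast
    have h1 := pow_orderOf_eq_one (-(q : ZMod r))
    rw [hord, hb.neg_pow] at h1
    linear_combination -h1
  have hcard : r ∣ Nat.card (Cfsg.GU b F q) := by
    rw [Herm.card_GU hF]
    refine (hqb.trans ?_).trans (dvd_mul_left _ _)
    have he : Even (b - 1) := Nat.Odd.sub_odd hb odd_one
    have := Finset.dvd_prod_of_mem (fun i => if Even i then q ^ (i + 1) + 1 else q ^ (i + 1) - 1)
      (Finset.mem_range.2 (show b - 1 < b by omega))
    simp only [if_pos he, Nat.sub_add_cancel (show 1 ≤ b by omega)] at this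
    exact this
  obtain ⟨⟨g, hgU⟩, hg⟩ := exists_prime_orderOf_dvd_card' r hcard
  have hgr : g ^ r = 1 := by
    have := congrArg Subtype.val (pow_orderOf_eq_one (⟨g, hgU⟩ : Cfsg.GU b F q))
    rwa [hg] at this
  set A := (g : Matrix (Fin b) (Fin b) F) with hA
  have hAr : A ^ r = 1 := by rw [hA, ← Units.val_pow_eq_pow_val, hgr, Units.val_one]
  have hAker : finrank F (LinearMap.ker (Matrix.toLin' A - (1 : F) • LinearMap.id)) = 0 := by
    obtain ⟨R, hS⟩ := step_pow (r := r) (x := Matrix.toLin' A) hrp one_ne_zero fun v => by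
      rw [← Matrix.toLin'_pow, hAr, one_pow, one_smul, Matrix.toLin'_one, LinearMap.id_apply]
    rw [Nat.card_eq_fintype_card, hordQ] at hS
    have hsum := hS.finrank_add
    rw [finrank_fin_fun] at hsum
    have hdvd := hS.dvd R hS.invR (by rw [inf_comm]; exact hS.isCompl.inf_eq_bot)
    rcases Nat.eq_zero_or_pos (finrank F R) with h0 | h0
    · exfalso
      have hker := hS.isCompl.sup_eq_top
      rw [Submodule.finrank_eq_zero.1 h0, sup_bot_eq] at hker
      have hA1 : A = 1 := Matrix.toLin'.injective (by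
        rw [sub_eq_zero.1 (LinearMap.ker_eq_top.1 hker), one_smul, Matrix.toLin'_one])
      have : g = 1 := Units.ext hA1
      subst this
      rw [show (⟨1, hgU⟩ : Cfsg.GU b F q) = 1 from rfl, orderOf_one] at hg
      exact hr.one_lt.ne hg
    · have := Nat.le_of_dvd h0 hdvd; omega
  have hAdet : A.det = 1 := by
    have h1 : A.det ^ (q + 1) = 1 := Herm.det_norm hF hgU
    have h2 : A.det ^ r = 1 := by rw [← Matrix.det_pow, hAr, Matrix.det_one]
    have hco : Nat.Coprime r (q + 1) := hr.coprime_iff_not_dvd.2 fun h => by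
      have h' : -(q : ZMod r) = 1 := by
        rw [← ZMod.natCast_eq_zero_iff] at h
        push_cast at h
        linear_combination -h
      rw [h', orderOf_one] at hord
      omega
    have := pow_gcd_eq_one.2 ⟨h2, h1⟩
    rwa [hco.gcd_eq_one, pow_one] at this
  obtain ⟨s, rfl⟩ : ∃ s, n = b + s := ⟨n - b, by omega⟩
  let σ : Fin b ⊕ Fin s ≃ Fin (b + s) := finSumFinEquiv
  let M : Matrix (Fin (b + s)) (Fin (b + s)) F := Matrix.reindexAlgEquiv F F σ (Matrix.fromBlocks A 0 0 1)
  have hMdet : M.det = 1 := by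
    simp only [M, Matrix.det_reindexAlgEquiv, Matrix.det_fromBlocks_zero₂₁, hAdet, Matrix.det_one, mul_one]
  have hMv : ∀ v, M *ᵥ v = (Sum.elim (A *ᵥ (v ∘ σ ∘ Sum.inl)) (v ∘ σ ∘ Sum.inr)) ∘ σ.symm := fun v => by
    show ((Matrix.fromBlocks A 0 0 1).submatrix σ.symm σ.symm) *ᵥ v = _
    rw [Matrix.submatrix_mulVec_equiv, Equiv.symm_symm, Matrix.fromBlocks_mulVec, Matrix.one_mulVec,
      Matrix.zero_mulVec, Matrix.zero_mulVec, zero_add, add_zero]
    rfl
  refine ⟨Matrix.GeneralLinearGroup.mkOfDetNeZero M (by rw [hMdet]; exact one_ne_zero), Herm.mem_GU.2 fun u v => ?_,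
    hMdet, ?_, ?_⟩
  · show Cfsg.hermForm (b + s) F q (M *ᵥ u) (M *ᵥ v) = _
    have hsplit : ∀ u v : Fin (b + s) → F, Cfsg.hermForm (b + s) F q u v =
        Cfsg.hermForm b F q (u ∘ σ ∘ Sum.inl) (v ∘ σ ∘ Sum.inl) + Cfsg.hermForm s F q (u ∘ σ ∘ Sum.inr) (v ∘ σ ∘ Sum.inr) := by
      intro u v
      simp only [Cfsg.hermForm]
      rw [← σ.sum_comp, Fintype.sum_sum_type]
      rfl
    rw [hsplit, hsplit u v, hMv, hMv]
    have e1 : ∀ (f : Fin b → F) (k : Fin s → F), (Sum.elim f k ∘ σ.symm) ∘ σ ∘ Sum.inl = f := fun f k => funext fun i => by simp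
    have e2 : ∀ (f : Fin b → F) (k : Fin s → F), (Sum.elim f k ∘ σ.symm) ∘ σ ∘ Sum.inr = k := fun f k => funext fun i => by simp
    rw [e1, e1, e2, e2, hA, Herm.mem_GU.1 hgU]
  · show M ^ r = 1
    rw [← map_pow, Matrix.fromBlocks_diagonal_pow, hAr, one_pow, Matrix.fromBlocks_one, map_one]
  · show finrank F (LinearMap.ker (Matrix.toLin' M - (1 : F) • LinearMap.id)) + b = b + s
    refine (congrArg (· + b) (Cfsg.Agent.S5979.ker_conj_eq (T := (LinearEquiv.funCongrLeft F F σ).trans (LinearEquiv.sumArrowLequivProdArrow (Fin b) (Fin s) F F))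
      (Y := (Matrix.toLin' A).prodMap LinearMap.id) (fun v => by
        rw [Matrix.toLin'_apply, hMv]
        ext i <;> simp [LinearEquiv.funCongrLeft_apply, LinearMap.funLeft_apply, Function.comp_def] <;> rfl) 1)).trans ?_
    have hk : LinearMap.ker ((Matrix.toLin' A).prodMap LinearMap.id - (1 : F) • LinearMap.id) =
        (LinearMap.ker (Matrix.toLin' A - (1 : F) • LinearMap.id)).prod (⊤ : Submodule F (Fin s → F)) := by
      ext x
      simp [Prod.ext_iff]
    show _ + b = _
    rw [hk, SympField.finrank_submodule_prod, hAker, finrank_top, finrank_fin_fun]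
    omega

end

end Cfsg.Agent.Lib.Elusive.PolarPair
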