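import Cfsg.Agent.Lib.Elusive.SLConj
import Cfsg.Prelude.Def_GeometricClasses

/-!
Elements of prime order and the normaliser of a Singer cycle.
-/

set_option autoImplicit false

namespace Cfsg.Agent.Lib.Elusive.Singer

open Module Cfsg.Agent.Lib.Elusive
open scoped Matrix

universe u

variable {F : Type u} [Field F] {n : ℕ}

/-- A degree `n` field of `n × n` matrices makes `F^n` one-dimensional. -/
theorem exists_coords (hn : 0 < n) {K : Subalgebra F (Matrix (Fin n) (Fin n) F)}
    (hK : Cfsg.Geo.IsFieldSubalgebra n K) :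
    ∃ (E : Type u) (_ : Field E) (_ : Algebra F E), finrank F E = n ∧
      ∃ (ι : E →ₐ[F] Matrix (Fin n) (Fin n) F) (e : (Fin n → F) ≃ₗ[F] E),
        (∀ k, k ∈ K ↔ ∃ a, ι a = k) ∧ ∀ a v, e (ι a *ᵥ v) = a * e v := by
  classical
  haveI : Nontrivial K := Module.nontrivial_of_finrank_pos (R := F) (by rw [hK.finrank_eq]; omega)
  letI : CommRing K := { (inferInstance : Ring K) with
    mul_comm := fun a b => Subtype.ext (hK.comm a a.2 b b.2) }
  have hfield : IsField K := by
    refine ⟨exists_pair_ne K, mul_comm, @fun a ha => ?_⟩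
    obtain ⟨b, hb, hab⟩ := hK.inv a a.2 (fun h => ha (Subtype.ext h))
    exact ⟨⟨b, hb⟩, Subtype.ext hab⟩
  letI : Field K := hfield.toField
  let v₀ : Fin n → F := Pi.single ⟨0, hn⟩ 1
  let L : K →ₗ[F] (Fin n → F) :=
    { toFun := fun a => (a : Matrix (Fin n) (Fin n) F) *ᵥ v₀
      map_add' := fun a b => by simp [Matrix.add_mulVec]
      map_smul' := fun c a => by simp [Matrix.smul_mulVec] }
  have hinj : Function.Injective L := by
    rw [injective_iff_map_eq_zero]
    intro a ha
    by_contra h0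
    obtain ⟨b, hb, hab⟩ := hK.inv a a.2 fun h => h0 (Subtype.ext h)
    have hba : b * (a : Matrix (Fin n) (Fin n) F) = 1 := mul_eq_one_comm.1 hab
    have : v₀ = 0 := by
      rw [← Matrix.one_mulVec v₀, ← hba, ← Matrix.mulVec_mulVec]
      show b *ᵥ L a = 0
      rw [ha, Matrix.mulVec_zero]
    have := congrFun this ⟨0, hn⟩
    simp [v₀] at this
  let eL : K ≃ₗ[F] (Fin n → F) :=
    LinearMap.linearEquivOfInjective L hinj (by rw [hK.finrank_eq, finrank_fin_fun])
  refine ⟨K, inferInstance, inferInstance, hK.finrank_eq, K.val, eL.symm,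
    fun k => ⟨fun h => ⟨⟨k, h⟩, rfl⟩, fun ⟨a, ha⟩ => ha ▸ a.2⟩, fun a v => ?_⟩
  apply eL.injective
  rw [LinearEquiv.apply_symm_apply]
  show _ = (((a * eL.symm v : K)) : Matrix (Fin n) (Fin n) F) *ᵥ v₀
  rw [Subalgebra.coe_mul, ← Matrix.mulVec_mulVec]
  conv_lhs => rw [← eL.apply_symm_apply v]
  rfl

/-- An element of the normaliser fixing two independent vectors is trivial. -/
theorem eq_one_of_fixed (hn : n.Prime) {K : Subalgebra F (Matrix (Fin n) (Fin n) F)}
    (hK : Cfsg.Geo.IsFieldSubalgebra n K) {g : GL (Fin n) F}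
    (hg : g ∈ Cfsg.Geo.subalgebraNormalizer K)
    {v w : Fin n → F} (hv : (g : Matrix (Fin n) (Fin n) F) *ᵥ v = v)
    (hw : (g : Matrix (Fin n) (Fin n) F) *ᵥ w = w) (hv0 : v ≠ 0) (hvw : ∀ c : F, c • v ≠ w) :
    g = 1 := by
  classical
  obtain ⟨E, _, _, hE, ι, e, hι, he⟩ := exists_coords hn.pos hK
  set G : Matrix (Fin n) (Fin n) F := (g : Matrix (Fin n) (Fin n) F) with hG
  set u := e v with hu
  have hu0 : u ≠ 0 := fun h => hv0 (e.injective (by rw [map_zero]; exact h))
  set k := e w * u⁻¹ with hk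
  have hkv : ι k *ᵥ v = w := e.injective (by rw [he, ← hu, hk, inv_mul_cancel_right₀ hu0])
  have hcomm : G * ι k = ι k * G := by
    obtain ⟨a', ha'⟩ := (hι _).1 ((hg (ι k)).1 ((hι _).2 ⟨k, rfl⟩))
    have h1 : G * ι k = ι a' * G := by
      rw [ha']
      exact (Units.inv_mul_cancel_right _ g).symm
    have h2 : ι a' *ᵥ v = w := by
      conv_lhs => rw [← hv, Matrix.mulVec_mulVec, ← h1, ← Matrix.mulVec_mulVec, hkv, hw]
    have h3 : a' = k := by
      have := congrArg e (h2.trans hkv.symm)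
      rw [he, he] at this
      exact mul_right_cancel₀ hu0 this
    rw [h1, h3]
  let S : Subalgebra F E := (Subalgebra.centralizer F {G}).comap ι
  have hkS : k ∈ S := by
    show ι k ∈ Subalgebra.centralizer F {G}
    rw [Subalgebra.mem_centralizer_iff]
    rintro x rfl
    exact hcomm
  haveI : FiniteDimensional F E := Module.finite_of_finrank_pos (by rw [hE]; exact hn.pos)
  haveI := Subalgebra.isSimpleOrder_of_finrank_prime F E (hE.symm ▸ hn)
  have hS : S = ⊤ := by
    rcases eq_bot_or_eq_top S with h | h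
    · rw [h, Algebra.mem_bot] at hkS
      obtain ⟨c, hc⟩ := hkS
      refine absurd ?_ (hvw c)
      rw [← hkv, ← hc, AlgHom.commutes, Algebra.algebraMap_eq_smul_one, Matrix.smul_mulVec,
        Matrix.one_mulVec]
    · exact h
  refine Units.ext (Matrix.toLin'.injective (LinearMap.ext fun z => ?_))
  rw [Units.val_one, Matrix.toLin'_one, LinearMap.id_apply, Matrix.toLin'_apply]
  set a := e z * u⁻¹ with ha
  have hz : ι a *ᵥ v = z := e.injective (by rw [he, ← hu, ha, inv_mul_cancel_right₀ hu0])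
  have haS : a ∈ S := hS ▸ Algebra.mem_top
  have hca : G * ι a = ι a * G := (Subalgebra.mem_centralizer_iff F).1 haS G rfl
  rw [← hG, ← hz, Matrix.mulVec_mulVec, hca, ← Matrix.mulVec_mulVec, hv]

/-- A semilinear map normalises the field. -/
theorem mem_normalizer {K : Subalgebra F (Matrix (Fin n) (Fin n) F)} {E : Type*} [Field E] [Algebra F E]
    {ι : E →ₐ[F] Matrix (Fin n) (Fin n) F} {e : (Fin n → F) ≃ₗ[F] E}
    (hι : ∀ k, k ∈ K ↔ ∃ a, ι a = k) (he : ∀ a v, e (ι a *ᵥ v) = a * e v)
    {g : GL (Fin n) F} (τ : E → E) (hτ : Function.Surjective τ)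
    (hg : ∀ a v, e ((g : Matrix (Fin n) (Fin n) F) *ᵥ (ι a *ᵥ v)) = τ a * e ((g : Matrix (Fin n) (Fin n) F) *ᵥ v)) :
    g ∈ Cfsg.Geo.subalgebraNormalizer K := by
  have hga : ∀ a, (g : Matrix (Fin n) (Fin n) F) * ι a = ι (τ a) * g := fun a => by
    apply Matrix.toLin'.injective
    refine LinearMap.ext fun v => e.injective ?_
    rw [Matrix.toLin'_apply, Matrix.toLin'_apply, ← Matrix.mulVec_mulVec, ← Matrix.mulVec_mulVec, hg, he]
  intro k
  constructor
  · intro hk
    obtain ⟨a, rfl⟩ := (hι k).1 hk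
    refine (hι _).2 ⟨τ a, ?_⟩
    rw [hga, mul_assoc, Units.mul_inv, mul_one]
  · intro hk
    obtain ⟨b, hb⟩ := (hι _).1 hk
    obtain ⟨a, rfl⟩ := hτ b
    refine (hι k).2 ⟨a, ?_⟩
    have h1 : ι (τ a) * (g : Matrix (Fin n) (Fin n) F) = (g : Matrix (Fin n) (Fin n) F) * k := by
      rw [hb]
      exact Units.inv_mul_cancel_right _ g
    rw [← hga] at h1
    exact g.isUnit.mul_left_cancel h1

section Finite

variable [Fintype F]

/-- The Frobenius map of the field, as a linear map of `F^n`. -/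
theorem exists_frobenius (hn : n.Prime) {K : Subalgebra F (Matrix (Fin n) (Fin n) F)}
    (hK : Cfsg.Geo.IsFieldSubalgebra n K) :
    ∃ X : Module.End F (Fin n → F), (∀ v, (X ^ n) v = v) ∧ X ≠ 1 ∧
      (∀ g : GL (Fin n) F, (∀ v, (g : Matrix (Fin n) (Fin n) F) *ᵥ v = X v) →
        g ∈ Cfsg.Geo.subalgebraNormalizer K) ∧
      ∀ c : Fin n → F, (∀ v, ∑ j, c j • (X ^ (j : ℕ)) v = 0) → c = 0 := by
  classical
  obtain ⟨E, _, _, hE, ι, e, hι, he⟩ := exists_coords hn.pos hK
  haveI : FiniteDimensional F E := Module.finite_of_finrank_pos (by rw [hE]; exact hn.pos)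
  haveI : Finite E := Module.finite_of_finite F
  let σ : E →ₐ[F] E := FiniteField.frobeniusAlgHom F E
  have hord : orderOf σ = n := (FiniteField.orderOf_frobeniusAlgHom F E).trans hE
  let X : Module.End F (Fin n → F) := e.symm.conj σ.toLinearMap
  have hX : ∀ v, e (X v) = σ (e v) := fun v => by simp [X, LinearEquiv.conj_apply]
  have hXpow : ∀ (j : ℕ) v, e ((X ^ j) v) = (σ ^ j) (e v) := by
    intro j
    induction j with
    | zero => intro v; simp
    | succ j ih =>
      intro v
      rw [pow_succ', Module.End.mul_apply, hX, ih, pow_succ', AlgHom.mul_apply]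
  refine ⟨X, fun v => e.injective (by
    rw [hXpow, show σ ^ n = 1 from orderOf_dvd_iff_pow_eq_one.1 hord.dvd, AlgHom.one_apply]), fun h1 => ?_,
    fun g hgv => mem_normalizer hι he σ (fun b => Finite.surjective_of_injective σ.injective b)
      (fun a v => by rw [hgv, hgv, hX, hX, he, map_mul]), fun c hc => ?_⟩
  · have h2 : σ = 1 := AlgHom.ext fun a => by
      have := hX (e.symm a)
      rw [h1, Module.End.one_apply, LinearEquiv.apply_symm_apply] at this
      rw [AlgHom.one_apply]
      exact this.symm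
    rw [h2, orderOf_one] at hord
    exact hn.one_lt.ne hord
  · have hinj : Function.Injective (fun j : Fin n => σ ^ (j : ℕ)) := fun i j hij =>
      Fin.ext (pow_injOn_Iio_orderOf (show (i : ℕ) ∈ Set.Iio (orderOf σ) from hord ▸ i.2)
        (show (j : ℕ) ∈ Set.Iio (orderOf σ) from hord ▸ j.2) hij)
    have hli := (linearIndependent_algHom_toLinearMap F E E).comp _ hinj
    have h0 : ∑ j : Fin n, algebraMap F E (c j) • (σ ^ (j : ℕ)).toLinearMap = 0 := LinearMap.ext fun a => by
      have := congrArg e (hc (e.symm a))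
      simp only [map_sum, map_smul, map_zero, hXpow, LinearEquiv.apply_symm_apply] at this
      simpa [Algebra.smul_def] using this
    exact funext fun j => (map_eq_zero (algebraMap F E)).1
      (Fintype.linearIndependent_iff.1 hli (fun j => algebraMap F E (c j)) h0 j)

/-- Maps of order `n` in dimension `n` when `q` has order `n - 1` mod `n`: cyclic, with enough
determinants in the centraliser. -/
theorem shift_data [Fact n.Prime] (hn3 : 3 ≤ n) {p : ℕ} [Fact p.Prime] [CharP F p] (hnp : n ≠ p)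
    (hi : orderOf (Fintype.card F : ZMod n) = n - 1)
    {x : Module.End F (Fin n → F)} (hx : ∀ v, (x ^ n) v = v) (hne : x ≠ 1) :
    (∃ b : Basis (Fin n) F (Fin n → F), ∀ j : Fin n, x (b j) = b ⟨((j : ℕ) + 1) % n, Nat.mod_lt _ (by omega)⟩) ∧
    ∀ δ : F, δ ≠ 0 → ∃ C : Module.End F (Fin n → F), (∀ v, C (x v) = x (C v)) ∧ LinearMap.det C = δ := by
  classical
  obtain ⟨R, hs⟩ := step_pow (r := n) (x := x) hnp (one_ne_zero : (1 : F) ≠ 0)
    (fun v => by rw [hx, one_pow, one_smul])
  rw [Nat.card_eq_fintype_card, hi] at hs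
  set C := LinearMap.ker (x - (1 : F) • LinearMap.id) with hCdef
  have hC : ∀ v, v ∈ C ↔ x v = v := fun v => by simp [C, sub_eq_zero]
  have hsum := hs.finrank_add
  rw [finrank_fin_fun] at hsum
  have hRne : R ≠ ⊥ := fun h => hne (LinearMap.ext fun v => by
    have htop : C = ⊤ := by
      have := hs.isCompl.sup_eq_top
      rwa [h, sup_bot_eq] at this
    exact (hC v).1 (htop ▸ trivial))
  have hRd : finrank F R = n - 1 := by
    have h1 := hs.dvd R hs.invR (by rw [inf_comm]; exact hs.isCompl.inf_eq_bot)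
    have h2 : finrank F R ≠ 0 := fun h => hRne (Submodule.finrank_eq_zero.1 h)
    have h3 := Nat.le_of_dvd (Nat.pos_of_ne_zero h2) h1
    obtain ⟨m, hm⟩ := h1
    rcases m with _ | _ | m
    · simp [hm] at h2
    · simpa using hm
    · exfalso
      have h4 : (n - 1) * (m + 1 + 1) = (n - 1) * m + (n - 1) + (n - 1) := by ring
      omega
  have hCd : finrank F C = 1 := by omega
  refine ⟨?_, fun δ _ => ?_⟩
  · obtain ⟨c, hc, hc0⟩ := Submodule.exists_mem_ne_zero_of_ne_bot
      (show C ≠ ⊥ from fun h => by rw [h, finrank_bot] at hCd; omega)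
    obtain ⟨r, hr, hr0⟩ := Submodule.exists_mem_ne_zero_of_ne_bot hRne
    let f : Fin n → (Fin n → F) := fun j => (x ^ (j : ℕ)) (c + r)
    have hshift : ∀ j : Fin n, x (f j) = f ⟨((j : ℕ) + 1) % n, Nat.mod_lt _ (by omega)⟩ := by
      intro j
      show x ((x ^ (j : ℕ)) (c + r)) = (x ^ (((j : ℕ) + 1) % n)) (c + r)
      rw [← Module.End.mul_apply, ← pow_succ',
        pow_eq_pow_mod ((j : ℕ) + 1) (show x ^ n = 1 from LinearMap.ext hx)]
    set W := Submodule.span F (Set.range f) with hW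
    have hfW : ∀ j, f j ∈ W := fun j => Submodule.subset_span ⟨j, rfl⟩
    have hWinv : Inv x W := fun v hv => by
      induction hv using Submodule.span_induction with
      | mem v hv => obtain ⟨j, rfl⟩ := hv; rw [hshift]; exact hfW _
      | zero => simp
      | add a b _ _ ha hb => rw [map_add]; exact W.add_mem ha hb
      | smul t a _ ha => rw [map_smul]; exact W.smul_mem t ha
    have hsumC : ∀ v, ∑ j : Fin n, (x ^ (j : ℕ)) v ∈ C := fun v => by
      have h1 := LinearMap.congr_fun (mul_geom_sum x n) v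
      rw [Module.End.mul_apply, show x ^ n = 1 from LinearMap.ext hx, sub_self,
        LinearMap.zero_apply, LinearMap.sub_apply, sub_eq_zero, Module.End.one_apply] at h1
      rw [hC, Fin.sum_univ_eq_sum_range (fun j => (x ^ j) v), ← LinearMap.sum_apply]
      exact h1
    have hxR : ∀ (j : ℕ), ∀ z ∈ R, (x ^ j) z ∈ R := fun j => Inv.pow hs.invR j
    have hxC : ∀ (j : ℕ), (x ^ j) c = c := by
      intro j
      induction j with
      | zero => rfl
      | succ j ih => rw [pow_succ', Module.End.mul_apply, ih]; exact (hC c).1 hc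
    have hcW : c ∈ W := by
      have h0 : ∑ j : Fin n, (x ^ (j : ℕ)) r = 0 := (Submodule.mem_bot F).1
        (hs.isCompl.inf_eq_bot ▸ ⟨hsumC r, R.sum_mem fun j _ => hxR j r hr⟩)
      have h1 : ∑ j : Fin n, f j = (n : F) • c := by
        simp only [f, map_add, Finset.sum_add_distrib, h0, add_zero, hxC]
        simp [Finset.sum_const, Nat.cast_smul_eq_nsmul]
      have hnF : (n : F) ≠ 0 := fun h =>
        hnp ((Nat.prime_dvd_prime_iff_eq Fact.out (Fact.out : n.Prime)).1
          ((CharP.cast_eq_zero_iff F p n).1 h)).symm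
      rw [← inv_smul_smul₀ hnF c, ← h1]
      exact W.smul_mem _ (W.sum_mem fun j _ => hfW j)
    have hrW : r ∈ W := by
      have h0 : c + r ∈ W := by
        have := hfW ⟨0, by omega⟩
        simpa [f] using this
      simpa using W.sub_mem h0 hcW
    have hRW : R ≤ W := by
      have h1 := hs.dvd (W ⊓ R) (hWinv.inf hs.invR) (eq_bot_iff.2 (le_trans
        (inf_le_inf_right C inf_le_right) (by rw [inf_comm, hs.isCompl.inf_eq_bot])))
      have h2 : finrank F (W ⊓ R : Submodule F (Fin n → F)) ≠ 0 := fun h =>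
        hr0 ((Submodule.mem_bot F).1 (Submodule.finrank_eq_zero.1 h ▸ ⟨hrW, hr⟩))
      have h3 := Nat.le_of_dvd (Nat.pos_of_ne_zero h2) h1
      have h4 : W ⊓ R = R := Submodule.eq_of_le_of_finrank_le inf_le_right (hRd ▸ h3)
      exact h4 ▸ inf_le_left
    have htop : W = ⊤ := by
      rw [eq_top_iff, ← hs.isCompl.sup_eq_top]
      refine sup_le (fun v hv => ?_) hRW
      obtain ⟨t, ht⟩ := (finrank_eq_one_iff_of_nonzero' (⟨c, hc⟩ : C)
        (fun h => hc0 (congrArg Subtype.val h))).1 hCd ⟨v, hv⟩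
      have := congrArg Subtype.val ht
      change t • c = v at this
      rw [← this]
      exact W.smul_mem t hcW
    have hcard : Fintype.card (Fin n) = finrank F (Fin n → F) := by simp
    exact ⟨basisOfTopLeSpanOfCardEqFinrank f htop.ge hcard, fun j => by
      simp only [coe_basisOfTopLeSpanOfCardEqFinrank]; exact hshift j⟩
  · obtain ⟨C', hC', hd⟩ := exists_comm_det hs.isCompl (hs.eig C le_rfl) hs.invR δ
    exact ⟨C', hC', by rw [hd, hCd, pow_one]⟩

theorem det_pow_self_eq_one {X : Module.End F (Fin n → F)} (hX : ∀ v, (X ^ n) v = v) :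
    LinearMap.det X ^ n = 1 := by
  rw [← map_pow, show X ^ n = 1 from LinearMap.ext hX, map_one]

omit [Fintype F] in
/-- Turn an invertible linear map of determinant one into a matrix. -/
theorem exists_sl_of_map {X : Module.End F (Fin n → F)} (hd : LinearMap.det X = 1) :
    ∃ g : Matrix.SpecialLinearGroup (Fin n) F, Matrix.toLin' (g : Matrix (Fin n) (Fin n) F) = X ∧
      ∀ v, ((Matrix.SpecialLinearGroup.toGL g : GL (Fin n) F) : Matrix (Fin n) (Fin n) F) *ᵥ v = X v :=
  ⟨⟨LinearMap.toMatrix' X, by rw [LinearMap.det_toMatrix', hd]⟩, Matrix.toLin'_toMatrix' X, fun v => by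
    show (LinearMap.toMatrix' X) *ᵥ v = X v
    rw [← Matrix.toLin'_apply, Matrix.toLin'_toMatrix']⟩

/-- When `q` has order `n - 1` modulo `n`, every element of order `n` has a conjugate in the normaliser. -/
theorem forall_conj [Fact n.Prime] (hn3 : 3 ≤ n) {p : ℕ} [Fact p.Prime] [CharP F p] (hnp : n ≠ p)
    (hi : orderOf (Fintype.card F : ZMod n) = n - 1)
    {K : Subalgebra F (Matrix (Fin n) (Fin n) F)} (hK : Cfsg.Geo.IsFieldSubalgebra n K)
    (x : Matrix.SpecialLinearGroup (Fin n) F) {z : F}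
    (hz : ((x ^ n : Matrix.SpecialLinearGroup (Fin n) F) : Matrix (Fin n) (Fin n) F) = z • (1 : Matrix (Fin n) (Fin n) F))
    (hns : ∀ z : F, (x : Matrix (Fin n) (Fin n) F) ≠ z • (1 : Matrix (Fin n) (Fin n) F)) :
    ∃ P : Matrix.SpecialLinearGroup (Fin n) F,
      Matrix.SpecialLinearGroup.toGL (P⁻¹ * x * P) ∈ Cfsg.Geo.subalgebraNormalizer K := by
  have hn : n.Prime := Fact.out
  have hndvd : ¬ n ∣ Fintype.card F - 1 := fun h => by
    have := (dvd_card_sub_one_iff (r := n)).1 h
    omega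
  have hroot : ∀ d : F, d ^ n = 1 → d = 1 := fun d hd => by
    have hd0 : d ≠ 0 := fun h => by simp [h, hn.ne_zero] at hd
    have h1 : orderOf d ∣ Fintype.card F - 1 :=
      orderOf_dvd_of_pow_eq_one (FiniteField.pow_card_sub_one_eq_one d hd0)
    rcases (Nat.dvd_prime hn).1 (orderOf_dvd_of_pow_eq_one hd) with h | h
    · exact orderOf_eq_one_iff.1 h
    · exact absurd (h ▸ h1) hndvd
  set X := Matrix.toLin' (x : Matrix (Fin n) (Fin n) F) with hX
  have hXz : ∀ v, (X ^ n) v = z • v := fun v => by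
    rw [hX, ← Matrix.toLin'_pow, ← Matrix.SpecialLinearGroup.coe_pow, hz, map_smul, Matrix.toLin'_one]
    rfl
  have hz0 : z ≠ 0 := fun h => by
    have hd := congrArg Matrix.det hz
    haveI : Nonempty (Fin n) := ⟨⟨0, hn.pos⟩⟩
    rw [Matrix.SpecialLinearGroup.det_coe, h, zero_smul, Matrix.det_zero] at hd
    exact one_ne_zero hd
  obtain ⟨l, hl, hlk⟩ := exists_root (r := n) hndvd hz0
  set Y : Module.End F (Fin n → F) := l⁻¹ • X with hY
  have hYk : ∀ v, (Y ^ n) v = v := fun v => by
    rw [hY, _root_.smul_pow, LinearMap.smul_apply, hXz, smul_smul, inv_pow, hlk, inv_mul_cancel₀ hz0, one_smul]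
  have hdY : LinearMap.det Y = 1 := hroot _ (det_pow_self_eq_one hYk)
  have hl1 : l = 1 := by
    rw [hY, LinearMap.det_smul, hX, LinearMap.det_toLin', x.det_coe, mul_one, Module.finrank_fin_fun,
      inv_pow, inv_eq_one] at hdY
    exact hroot l hdY
  have hXk : ∀ v, (X ^ n) v = v := fun v => by rw [hXz, ← hlk, hl1, one_pow, one_smul]
  have hne : X ≠ 1 := fun h => hns 1 (Matrix.toLin'.injective (by
    rw [← hX, h, one_smul, Matrix.toLin'_one]; rfl))
  obtain ⟨G, hGk, hG1, hGmem, -⟩ := exists_frobenius hn hK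
  obtain ⟨g, hg, hgv⟩ := exists_sl_of_map (hroot _ (det_pow_self_eq_one hGk))
  obtain ⟨⟨b, hb⟩, -⟩ := shift_data hn3 hnp hi hXk hne
  obtain ⟨⟨b', hb'⟩, hcent⟩ := shift_data hn3 hnp hi hGk hG1
  let T := b'.equiv b (Equiv.refl _)
  obtain ⟨P, hP⟩ := exists_sl_conj (A := x) (y := G) T (fun v => by
    suffices h : T.toLinearMap ∘ₗ G = X ∘ₗ T.toLinearMap from LinearMap.congr_fun h v
    refine b'.ext fun j => ?_
    simp only [LinearMap.comp_apply, LinearEquiv.coe_coe, T, hb' j, Basis.equiv_apply,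
      Equiv.refl_apply, hb j]) hcent
  exact ⟨P, (Subtype.ext (Matrix.toLin'.injective (hP.trans hg.symm)) : P⁻¹ * x * P = g) ▸ hGmem _ hgv⟩

end Finite

end Cfsg.Agent.Lib.Elusive.Singer
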