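import Cfsg.Agent.Lib.Forms.Alternating
import Cfsg.Agent.Lib.Forms.SympStd

/-!
Skew-adjoint square roots of scalars on symplectic spaces over finite fields of odd order.
-/

set_option autoImplicit false

namespace Cfsg.Agent.Lib.Elusive

open Module Cfsg.Agent.Lib.Forms

universe u

variable {F : Type u} [Field F]

/-- The standard skew map with square `μ`. -/
def rootStd (μ : F) (m : ℕ) : (Fin m ⊕ Fin m → F) →ₗ[F] (Fin m ⊕ Fin m → F) where
  toFun v := Sum.elim (fun i => μ * v (.inr i)) (fun i => v (.inl i))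
  map_add' a b := by ext (i | i) <;> simp [mul_add]
  map_smul' c a := by ext (i | i) <;> simp [mul_left_comm]

theorem rootStd_inl (μ : F) {m : ℕ} (v : Fin m ⊕ Fin m → F) (i : Fin m) :
    rootStd μ m v (.inl i) = μ * v (.inr i) := rfl

theorem rootStd_inr (μ : F) {m : ℕ} (v : Fin m ⊕ Fin m → F) (i : Fin m) :
    rootStd μ m v (.inr i) = v (.inl i) := rfl

theorem rootStd_sq (μ : F) {m : ℕ} (v : Fin m ⊕ Fin m → F) :
    rootStd μ m (rootStd μ m v) = μ • v := by
  ext (i | i) <;> simp [rootStd_inl, rootStd_inr]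

theorem stdB_sum {m : ℕ} (u v : Fin m ⊕ Fin m → F) :
    stdB m F u v = ∑ i, (u (.inr i) * v (.inl i) - u (.inl i) * v (.inr i)) := by
  rw [stdB_apply, Cfsg.sympForm, dotProduct, Fintype.sum_sum_type, ← Finset.sum_add_distrib]
  refine Finset.sum_congr rfl fun i _ => ?_
  simp [Matrix.mulVec, dotProduct, Fintype.sum_sum_type, Matrix.J, Matrix.one_apply]
  ring

theorem rootStd_skew (μ : F) {m : ℕ} (u v : Fin m ⊕ Fin m → F) :
    stdB m F (rootStd μ m u) v = - stdB m F u (rootStd μ m v) := by
  rw [stdB_sum, stdB_sum, ← Finset.sum_neg_distrib]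
  refine Finset.sum_congr rfl fun i _ => ?_
  simp only [rootStd_inl, rootStd_inr]; ring

variable [Fintype F]

theorem exists_norm (hodd : Odd (Fintype.card F)) {μ : F} (hμ : μ ≠ 0) (c : F) :
    ∃ s t : F, s ^ 2 - μ * t ^ 2 = c := by
  obtain ⟨s, t, h⟩ := FiniteField.exists_root_sum_quadratic (R := F)
    (f := Polynomial.X ^ 2 - Polynomial.C c) (g := Polynomial.C (-μ) * Polynomial.X ^ 2)
    (Polynomial.degree_X_pow_sub_C two_pos c) (Polynomial.degree_C_mul_X_pow 2 (neg_ne_zero.2 hμ))
    (Nat.odd_iff.1 hodd)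
  simp only [Polynomial.eval_sub, Polynomial.eval_pow, Polynomial.eval_X, Polynomial.eval_C,
    Polynomial.eval_mul] at h
  exact ⟨s, t, by linear_combination h⟩

theorem two_ne (hodd : Odd (Fintype.card F)) : (2 : F) ≠ 0 :=
  Ring.two_ne_zero fun h => by
    rw [FiniteField.even_card_iff_char_two, ← Nat.even_iff] at h
    exact Nat.not_odd_iff_even.2 h hodd

variable {V : Type u} [AddCommGroup V] [Module F V] [FiniteDimensional F V]
  {B : LinearMap.BilinForm F V} {J : V →ₗ[F] V} {μ : F}

theorem exists_family (hodd : Odd (Fintype.card F)) (hA : B.IsAlt) (hμ : μ ≠ 0)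
    (hJ : ∀ u v, B (J u) v = - B u (J v)) (hJJ : ∀ v, J (J v) = μ • v) :
    ∀ (n : ℕ) (P : Submodule F V), finrank F P ≤ n → (∀ v ∈ P, J v ∈ P) →
      (∀ u ∈ P, (∀ w ∈ P, B u w = 0) → u = 0) →
      ∃ (m : ℕ) (a : Fin m → V), (∀ i, a i ∈ P) ∧ (∀ i j, B (a i) (J (a j)) = if i = j then -1 else 0) ∧
        (∀ i j, B (a i) (a j) = 0) ∧
        ∀ v ∈ P, (∀ i, B (a i) v = 0 ∧ B (J (a i)) v = 0) → v = 0 := by
  intro n
  induction n with
  | zero =>
    intro P hP hinv hnd
    refine ⟨0, Fin.elim0, fun i => i.elim0, fun i => i.elim0, fun i => i.elim0, fun v hv _ => ?_⟩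
    have : P = ⊥ := Submodule.finrank_eq_zero.1 (by omega)
    rwa [this, Submodule.mem_bot] at hv
  | succ n ih =>
    intro P hP hinv hnd
    by_cases hbot : P = ⊥
    · refine ⟨0, Fin.elim0, fun i => i.elim0, fun i => i.elim0, fun i => i.elim0, fun v hv _ => ?_⟩
      rwa [hbot, Submodule.mem_bot] at hv
    obtain ⟨w, hw, hw0⟩ : ∃ w ∈ P, B w (J w) ≠ 0 := by
      by_contra h
      push Not at h
      obtain ⟨u, hu, hu0⟩ := Submodule.exists_mem_ne_zero_of_ne_bot hbot
      refine hu0 (hnd u hu fun v hv => ?_)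
      have hz : ∀ x ∈ P, ∀ y ∈ P, B x (J y) = 0 := by
        intro x hx y hy
        have h1 := h (x + y) (P.add_mem hx hy)
        simp only [map_add, LinearMap.add_apply, h x hx, h y hy, zero_add, add_zero] at h1
        have h2 : B y (J x) = B x (J y) := by
          rw [← hA.neg_eq, hJ, neg_neg]
        rw [h2, ← two_mul] at h1
        exact (mul_eq_zero.1 h1).resolve_left (two_ne hodd)
      have := hz u hu (J v) (hinv v hv)
      rw [hJJ, map_smul, smul_eq_mul] at this
      exact (mul_eq_zero.1 this).resolve_left hμ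
    obtain ⟨s, t, hst⟩ := exists_norm hodd hμ (-1 / B w (J w))
    set a := s • w + t • J w with ha
    have haP : a ∈ P := P.add_mem (P.smul_mem s hw) (P.smul_mem t (hinv w hw))
    have hJwJw : B (J w) (J (J w)) = -μ * B w (J w) := by
      rw [hJJ, map_smul, smul_eq_mul, ← hA.neg_eq]; ring
    have hflip : B (J w) w = - B w (J w) := (hA.neg_eq w (J w)).symm
    have ha1 : B a (J a) = -1 := by
      have h' : (s ^ 2 - μ * t ^ 2) * B w (J w) = -1 := by rw [hst, div_mul_cancel₀ _ hw0]
      simp only [ha, map_add, map_smul, LinearMap.add_apply, LinearMap.smul_apply, smul_eq_mul, hJwJw,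
        hA.self_eq_zero, hJJ, hflip]
      linear_combination h'
    have ha2 : B (J a) a = 1 := by rw [hJ, ha1, neg_neg]
    have haa : B a a = 0 := hA.self_eq_zero a
    have hJJa : B (J a) (J a) = 0 := hA.self_eq_zero _
    let P' := P ⊓ LinearMap.ker (B a) ⊓ LinearMap.ker (B (J a))
    have hmem : ∀ {v}, v ∈ P' ↔ v ∈ P ∧ B a v = 0 ∧ B (J a) v = 0 := fun {v} => by
      simp [P', LinearMap.mem_ker, and_assoc]
    have hproj : ∀ v ∈ P, v - B (J a) v • a + B a v • J a ∈ P' := by
      intro v hv
      rw [hmem]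
      refine ⟨P.add_mem (P.sub_mem hv (P.smul_mem _ haP)) (P.smul_mem _ (hinv a haP)), ?_, ?_⟩ <;>
        simp only [map_add, map_sub, map_smul, smul_eq_mul, ha1, ha2, haa, hJJa] <;> ring
    obtain ⟨m, f, hf1, hf2, hf3, hf4⟩ := ih P' (by
        have hlt : P' < P := lt_of_le_of_ne (fun v hv => (hmem.1 hv).1) fun h => by
          have := (hmem.1 (show a ∈ P' by rw [h]; exact haP)).2.2
          rw [ha2] at this
          exact one_ne_zero this
        have := Submodule.finrank_lt_finrank_of_lt hlt
        omega)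
      (fun v hv => by
        obtain ⟨h1, h2, h3⟩ := hmem.1 hv
        refine hmem.2 ⟨hinv v h1, ?_, ?_⟩
        · linear_combination (hJ a v) - h3
        · rw [hJ, hJJ, map_smul, smul_eq_mul, h2, mul_zero, neg_zero])
      (fun u hu h => hnd u (hmem.1 hu).1 fun v hv => by
        obtain ⟨-, h2, h3⟩ := hmem.1 hu
        have := h _ (hproj v hv)
        simp only [map_add, map_sub, map_smul, smul_eq_mul] at this
        rw [← hA.neg_eq a u, ← hA.neg_eq (J a) u, h2, h3] at this
        simpa using this)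
    have hfP : ∀ i, f i ∈ P ∧ B a (f i) = 0 ∧ B (J a) (f i) = 0 := fun i => hmem.1 (hf1 i)
    refine ⟨m + 1, Fin.cons a f, ?_, ?_, ?_, ?_⟩
    · intro i
      induction i using Fin.cases with
      | zero => exact haP
      | succ i => exact (hfP i).1
    · intro i j
      induction i using Fin.cases with
      | zero =>
        induction j using Fin.cases with
        | zero => simpa using ha1
        | succ j =>
          simp only [Fin.cons_zero, Fin.cons_succ, (Fin.succ_ne_zero j).symm, if_false]
          linear_combination (hJ a (f j)) - (hfP j).2.2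
      | succ i =>
        induction j using Fin.cases with
        | zero =>
          simp only [Fin.cons_zero, Fin.cons_succ, Fin.succ_ne_zero i, if_false]
          rw [← hA.neg_eq, (hfP i).2.2, neg_zero]
        | succ j => simpa using hf2 i j
    · intro i j
      induction i using Fin.cases with
      | zero =>
        induction j using Fin.cases with
        | zero => exact haa
        | succ j => exact (hfP j).2.1
      | succ i =>
        induction j using Fin.cases with
        | zero => simp only [Fin.cons_zero, Fin.cons_succ]; rw [← hA.neg_eq, (hfP i).2.1, neg_zero]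
        | succ j => simpa using hf3 i j
    · intro v hv h
      have h0 := h 0
      simp only [Fin.cons_zero] at h0
      exact hf4 v (hmem.2 ⟨hv, h0⟩) fun i => by simpa using h i.succ

/-- Coordinates in which a skew square root of `μ` is standard. -/
theorem exists_root_frame (hodd : Odd (Fintype.card F)) (hA : B.IsAlt) (hB : B.SeparatingLeft) (hμ : μ ≠ 0)
    (hJ : ∀ u v, B (J u) v = - B u (J v)) (hJJ : ∀ v, J (J v) = μ • v) :
    ∃ (m : ℕ) (e : (Fin m ⊕ Fin m → F) ≃ₗ[F] V),
      (∀ u v, B (e u) (e v) = stdB m F u v) ∧ ∀ v, J (e v) = e (rootStd μ m v) := by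
  classical
  obtain ⟨m, a, -, h1, h2, h3⟩ := exists_family hodd hA hμ hJ hJJ (finrank F V) ⊤ (by rw [finrank_top])
    (fun _ _ => trivial) fun u _ h => hB u fun w => h w trivial
  let L : (Fin m ⊕ Fin m → F) →ₗ[F] V := Fintype.linearCombination F (Sum.elim a fun i => J (a i))
  have hL : ∀ u, L u = ∑ i, u (.inl i) • a i + ∑ i, u (.inr i) • J (a i) := fun u => by
    simp [L, Fintype.linearCombination_apply, Fintype.sum_sum_type]
  have h1' : ∀ i j, B (J (a i)) (a j) = if i = j then 1 else 0 := fun i j => by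
    rw [hJ, h1]; split_ifs <;> simp
  have h2' : ∀ i j, B (J (a i)) (J (a j)) = 0 := fun i j => by
    rw [hJ, hJJ, map_smul, h2, smul_zero, neg_zero]
  have hLa : ∀ u j, B (L u) (a j) = u (.inr j) := fun u j => by
    simp [hL, h2, h1']
  have hLJ : ∀ u j, B (L u) (J (a j)) = - u (.inl j) := fun u j => by
    simp [hL, h2', h1]
  have hiso : ∀ u v, B (L u) (L v) = stdB m F u v := fun u v => by
    conv_lhs => rw [hL v]
    simp only [map_add, map_sum, map_smul, hLa, hLJ, smul_eq_mul]
    rw [stdB_sum, ← Finset.sum_add_distrib]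
    exact Finset.sum_congr rfl fun i _ => by ring
  have hinj : Function.Injective L := (injective_iff_map_eq_zero _).2 fun u hu =>
    (stdB_nondegenerate m).1 u fun v => by rw [← hiso, hu, map_zero, LinearMap.zero_apply]
  have hsurj : Function.Surjective L := fun v => by
    let c : Fin m ⊕ Fin m → F := Sum.elim (fun j => - B v (J (a j))) (fun j => B v (a j))
    refine ⟨c, (sub_eq_zero.1 (h3 (v - L c) trivial fun i => ?_)).symm⟩
    constructor <;>
      rw [← hA.neg_eq, neg_eq_zero, map_sub, LinearMap.sub_apply] <;> simp [hLa, hLJ, c]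
  refine ⟨m, LinearEquiv.ofBijective L ⟨hinj, hsurj⟩, hiso, fun v => ?_⟩
  show J (L v) = L (rootStd μ m v)
  simp only [hL, map_add, map_sum, map_smul, hJJ, smul_smul, rootStd_inl, rootStd_inr]
  rw [add_comm]
  congr 1
  exact Finset.sum_congr rfl fun i _ => by rw [mul_comm]

omit [Fintype F] in
/-- Every symplectic space has a skew square root of every scalar. -/
theorem exists_skew_root (hA : B.IsAlt) (hB : B.SeparatingLeft) (μ : F) :
    ∃ J : V →ₗ[F] V, (∀ u v, B (J u) v = - B u (J v)) ∧ ∀ v, J (J v) = μ • v := by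
  obtain ⟨m, k, b, -, -, -, h4⟩ := exists_altBasis B hA
  obtain rfl : k = 0 := by
    by_contra hk
    exact b.ne_zero (Sum.inr ⟨0, Nat.pos_of_ne_zero hk⟩) (hB _ fun v => h4 _ v)
  obtain ⟨e, he⟩ := exists_alt_isometry (stdB m F) (stdB_isAlt m) (stdB_nondegenerate m).1 B hA hB (by
    rw [Module.finrank_eq_card_basis b]; simp)
  refine ⟨e.conj (rootStd μ m), fun u v => ?_, fun v => ?_⟩
  · obtain ⟨u, rfl⟩ := e.surjective u
    obtain ⟨v, rfl⟩ := e.surjective v
    simp [LinearEquiv.conj_apply, he, rootStd_skew]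
  · simp [LinearEquiv.conj_apply, rootStd_sq]

end Cfsg.Agent.Lib.Elusive
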