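import Mathlib

/-!
Arithmetic of a subfield of a finite field.
-/

set_option autoImplicit false

namespace Cfsg.Agent.Lib.Elusive

variable {F : Type*} [Field F] [Fintype F] {F₀ : Subfield F}

theorem mem_of_pow_natCard {z : F} (hz : z ^ Nat.card F₀ = z) : z ∈ F₀ := by
  classical
  by_contra hmem
  haveI := Fintype.ofFinite F₀
  rw [Nat.card_eq_fintype_card] at hz
  have h1 : 1 < Fintype.card F₀ := Fintype.one_lt_card
  let P : Polynomial F := Polynomial.X ^ Fintype.card F₀ - Polynomial.X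
  have hP : P ≠ 0 := FiniteField.X_pow_card_sub_X_ne_zero F h1
  have hdeg : P.natDegree = Fintype.card F₀ := FiniteField.X_pow_card_sub_X_natDegree_eq F h1
  have hsub : insert z (Finset.univ.image fun a : F₀ => (a : F)) ⊆ P.roots.toFinset := by
    intro w hw
    rw [Multiset.mem_toFinset, Polynomial.mem_roots hP, Polynomial.IsRoot, Polynomial.eval_sub,
      Polynomial.eval_pow, Polynomial.eval_X, sub_eq_zero]
    rcases Finset.mem_insert.1 hw with rfl | h
    · exact hz
    · obtain ⟨a, -, rfl⟩ := Finset.mem_image.1 h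
      rw [← SubmonoidClass.coe_pow, FiniteField.pow_card]
  have h := (Finset.card_le_card hsub).trans ((Multiset.toFinset_card_le _).trans (Polynomial.card_roots' P))
  rw [hdeg, Finset.card_insert_of_notMem (by simpa using hmem),
    Finset.card_image_of_injective _ Subtype.val_injective, Finset.card_univ] at h
  omega

variable {k : ℕ} (hqk : Fintype.card F = Nat.card F₀ ^ k)

include hqk

theorem exists_sub_one_eq : ∃ S, Fintype.card F - 1 = (Nat.card F₀ - 1) * S ∧
    (Odd (Nat.card F₀) → (Odd S ↔ Odd k)) := by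
  haveI := Fintype.ofFinite F₀
  refine ⟨∑ j ∈ Finset.range k, Nat.card F₀ ^ j, ?_, fun ho => ?_⟩
  · rw [hqk, mul_comm, geom_sum_mul_of_one_le Nat.card_pos]
  · rw [Finset.odd_sum_iff_odd_card_odd, Finset.filter_true_of_mem (fun j _ => ho.pow),
      Finset.card_range]

/-- Elements of the subfield are squares when the degree is two. -/
theorem isSquare_of_mem (hk : k = 2) (hodd : Odd (Nat.card F₀)) (h2 : ringChar F ≠ 2) {z : F} (hz : z ∈ F₀) :
    IsSquare z := by
  classical
  rcases eq_or_ne z 0 with rfl | hz0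
  · exact IsSquare.zero
  haveI := Fintype.ofFinite F₀
  rw [FiniteField.isSquare_iff h2 hz0, hqk, hk]
  obtain ⟨w, hw⟩ := hodd
  rw [show Nat.card F₀ ^ 2 / 2 = (Nat.card F₀ - 1) * (w + 1) by
    rw [hw, Nat.add_sub_cancel]
    have : (2 * w + 1) ^ 2 = 2 * (2 * w * (w + 1)) + 1 := by ring
    omega, pow_mul]
  have h := congrArg Subtype.val (FiniteField.pow_card_sub_one_eq_one (⟨z, hz⟩ : F₀)
    (fun h => hz0 (congrArg Subtype.val h)))
  rw [SubmonoidClass.coe_pow] at h
  rw [Nat.card_eq_fintype_card, h]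
  exact one_pow _

/-- When the degree is odd every element is a square times an element of the subfield. -/
theorem exists_mul_sq (hk : Odd k) {δ : F} (hδ : δ ≠ 0) (hodd : Odd (Nat.card F₀)) :
    ∃ (d : F₀) (s : F), d ≠ 0 ∧ δ = (d : F) * s ^ 2 := by
  obtain ⟨S, hS, hSodd⟩ := exists_sub_one_eq hqk
  obtain ⟨u, hu⟩ := (hSodd hodd).2 hk
  have hmem : δ ^ S ∈ F₀ := by
    refine mem_of_pow_natCard ?_
    haveI := Fintype.ofFinite F₀
    have h1 : 1 ≤ Nat.card F₀ := Nat.card_pos
    calc (δ ^ S) ^ Nat.card F₀ = (δ ^ S) ^ (Nat.card F₀ - 1) * δ ^ S := by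
          rw [← pow_succ, Nat.sub_add_cancel h1]
      _ = δ ^ S := by rw [← pow_mul, mul_comm S, ← hS, FiniteField.pow_card_sub_one_eq_one δ hδ, one_mul]
  refine ⟨⟨δ ^ S, hmem⟩, (δ⁻¹) ^ u, fun h => pow_ne_zero S hδ (congrArg Subtype.val h), ?_⟩
  show δ = δ ^ S * ((δ⁻¹) ^ u) ^ 2
  rw [hu, pow_succ, ← pow_mul, inv_pow, mul_comm u 2, mul_comm (δ ^ (2 * u)) δ, mul_assoc,
    mul_inv_cancel₀ (pow_ne_zero _ hδ), mul_one]

end Cfsg.Agent.Lib.Elusive
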