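import Cfsg.Agent.Lib.Elusive.Involution
import Cfsg.Agent.Lib.Forms.SubfieldBasic

/-!
Models of unipotent elements over a subfield.
-/

set_option autoImplicit false

namespace Cfsg.Agent.Lib.Elusive

open Module Cfsg.Agent.Lib.Jordan Cfsg.Agent.Lib.Forms
open scoped Matrix

variable {F : Type*} [Field F]

theorem model_entry {κ : Type} [Fintype κ] [DecidableEq κ] (d : κ → ℕ) (a b : (k : κ) × Fin (d k)) :
    LinearMap.toMatrix' (model (F := F) d) a b =
      if (b.2 : ℕ) + 1 < d b.1 ∧ a.1 = b.1 ∧ (a.2 : ℕ) = b.2 + 1 then 1 else 0 := by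
  rw [LinearMap.toMatrix'_apply]
  rw [model_single]
  by_cases h : (b.2 : ℕ) + 1 < d b.1
  · rw [dif_pos h, Pi.single_apply]
    refine if_congr ?_ rfl rfl
    constructor
    · rintro rfl; exact ⟨h, rfl, rfl⟩
    · rintro ⟨-, h1, h2⟩
      obtain ⟨ka, ia⟩ := a
      obtain ⟨kb, ib⟩ := b
      simp only at h1
      subst h1
      exact congrArg _ (Fin.ext h2)
  · rw [dif_neg h, if_neg fun h' => h h'.1]
    rfl

theorem hasType_submatrix {ι κ : Type} [Fintype ι] [DecidableEq ι] [Fintype κ] [DecidableEq κ]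
    (e : ι ≃ κ) {M : Matrix κ κ F} {μ : Multiset ℕ} (h : HasType (Matrix.toLin' M) μ) :
    HasType (Matrix.toLin' (M.submatrix e e)) μ :=
  h.transport (LinearEquiv.funCongrLeft F F e) fun v => by
    show (M *ᵥ v) ∘ e = M.submatrix e e *ᵥ (v ∘ e)
    rw [Matrix.submatrix_mulVec_equiv, Function.comp_assoc, Equiv.self_comp_symm, Function.comp_id]

/-- A nilpotent matrix over a subfield with given type there and above. -/
theorem exists_model_mat {K : Type*} [Field K] (φ : K →+* F) {n : ℕ} (μ : Multiset ℕ)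
    (hμ : ∀ a ∈ μ, 0 < a) (hs : μ.sum = n) :
    ∃ J : Matrix (Fin n) (Fin n) K,
      HasType (Matrix.toLin' J) μ ∧ HasType (Matrix.toLin' (J.map φ)) μ := by
  haveI : DecidableEq μ.ToType := Classical.decEq _
  let d : μ.ToType → ℕ := fun a => (a : ℕ)
  have h1 := hasType_model (F := K) d (fun a => hμ _ Multiset.coe_mem)
  have h2 := hasType_model (F := F) d (fun a => hμ _ Multiset.coe_mem)
  rw [Multiset.map_univ_coe] at h1 h2
  rw [← Matrix.toLin'_toMatrix' (model (F := K) d)] at h1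
  rw [← Matrix.toLin'_toMatrix' (model (F := F) d)] at h2
  have hmap : (LinearMap.toMatrix' (model (F := K) d)).map φ = LinearMap.toMatrix' (model (F := F) d) := by
    ext a b
    rw [Matrix.map_apply, model_entry, model_entry]
    split_ifs <;> simp
  obtain ⟨e⟩ : Nonempty (Fin n ≃ (k : μ.ToType) × Fin (d k)) := by
    refine ⟨(Fintype.equivFinOfCardEq ?_).symm⟩
    have h := h1.sum_eq
    rw [hs, Module.finrank_pi] at h
    exact h.symm
  refine ⟨(LinearMap.toMatrix' (model (F := K) d)).submatrix e e, hasType_submatrix e h1, ?_⟩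
  rw [← Matrix.submatrix_map, hmap]
  exact hasType_submatrix e h2

variable {n : ℕ} {F₀ : Subfield F}

theorem mem_subfield_of_map {g : Matrix.SpecialLinearGroup (Fin n) F} {c : F} (hc : c ≠ 0)
    {M : Matrix (Fin n) (Fin n) F₀}
    (hg : (g : Matrix (Fin n) (Fin n) F) = c • M.map F₀.subtype) :
    g ∈ (Cfsg.Geo.subfieldSubgroup F₀ 1).comap (Matrix.SpecialLinearGroup.toGL : Matrix.SpecialLinearGroup (Fin n) F →* GL (Fin n) F) := by
  have hM : M.det ≠ 0 := fun h => by
    have hdet := g.det_coe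
    rw [hg, Matrix.det_smul, ← RingHom.mapMatrix_apply, ← RingHom.map_det, h, map_zero, mul_zero] at hdet
    exact zero_ne_one hdet
  refine mem_subfieldSubgroup_iff.2 ⟨Matrix.GeneralLinearGroup.mkOfDetNeZero M hM, Units.mk0 c hc, fun u => ?_⟩
  simp only [ratVec, Units.val_one, Matrix.one_mulVec]
  show (g : Matrix (Fin n) (Fin n) F) *ᵥ _ = c • _
  rw [hg, Matrix.smul_mulVec, mulVec_map_mulVec]
  rfl

theorem exists_map_of_mem {g : Matrix.SpecialLinearGroup (Fin n) F}
    (hg : g ∈ (Cfsg.Geo.subfieldSubgroup F₀ 1).comap (Matrix.SpecialLinearGroup.toGL : Matrix.SpecialLinearGroup (Fin n) F →* GL (Fin n) F)) :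
    ∃ (c : F) (M : Matrix (Fin n) (Fin n) F₀), c ≠ 0 ∧
      (g : Matrix (Fin n) (Fin n) F) = c • M.map F₀.subtype := by
  classical
  obtain ⟨g₀, c, hgc⟩ := mem_subfieldSubgroup_iff.1 hg
  refine ⟨c, g₀, c.ne_zero, ?_⟩
  ext i j
  have hcol : ∀ j, (fun i => ((Pi.single j (1 : F₀) : Fin n → F₀) i : F)) = Pi.single j 1 := fun j => by
    funext i; rcases eq_or_ne i j with rfl | h <;> simp [*]
  have h := congrFun (hgc (Pi.single j 1)) i
  simp only [ratVec, Units.val_one, Matrix.one_mulVec, hcol, Pi.smul_apply] at h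
  rw [Matrix.mulVec_single_one, Matrix.col_apply] at h
  simpa using h

/-- The `SL`-conjugation statement read in matrices. -/
theorem coe_eq_of_toLin' {g : Matrix.SpecialLinearGroup (Fin n) F} {c : F} {M : Matrix (Fin n) (Fin n) F}
    (h : Matrix.toLin' (g : Matrix (Fin n) (Fin n) F) = c • Matrix.toLin' M) :
    (g : Matrix (Fin n) (Fin n) F) = c • M :=
  Matrix.toLin'.injective (by rw [h, map_smul])

end Cfsg.Agent.Lib.Elusive
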