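import Cfsg.Agent.Lib.Elusive.SLConj
import Cfsg.Agent.Lib.Elusive.SubfieldArith
import Mathlib.LinearAlgebra.Matrix.Transvection

/-!
Rational models over a subfield of semisimple elements of prime order.
-/

set_option autoImplicit false

namespace Cfsg.Agent.Lib.Elusive.SubfieldOdd

open Module Polynomial

variable {F : Type*} [Field F] {V : Type*} [AddCommGroup V] [Module F V] [FiniteDimensional F V]
  {y : Module.End F V}

theorem exists_killed {W : Submodule F V} (hW : Inv y W) : ∀ (s : Multiset F[X]) (v : V), v ∈ W → v ≠ 0 →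
    Polynomial.aeval y s.prod v = 0 → ∃ g ∈ s, ∃ w ∈ W, w ≠ 0 ∧ Polynomial.aeval y g w = 0 := by
  intro s
  induction s using Multiset.induction with
  | empty => intro v _ hv0 h; simp at h; exact absurd h hv0
  | cons g s ih =>
    intro v hv hv0 h
    rw [Multiset.prod_cons, map_mul, Module.End.mul_apply] at h
    by_cases hw : Polynomial.aeval y s.prod v = 0
    · obtain ⟨g', hg', rest⟩ := ih v hv hv0 hw
      exact ⟨g', Multiset.mem_cons_of_mem hg', rest⟩
    · exact ⟨g, Multiset.mem_cons_self g s, _, hW.aeval _ v hv, hw, h⟩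

/-- A basis of `W` in which the entries of `y` at `(j, l)` lie in `A (j = l)`. -/
def Fam (A : Prop → Set F) (y : Module.End F V) (W : Submodule F V) : Prop :=
  ∃ (m : ℕ) (v : Fin m → V), LinearIndependent F v ∧ Submodule.span F (Set.range v) = W ∧
    ∀ j, ∃ c : Fin m → F, y (v j) = ∑ l, c l • v l ∧ ∀ l, c l ∈ A (j = l)

variable {A : Prop → Set F}

omit [FiniteDimensional F V] in
theorem Fam.inv {W : Submodule F V} (h : Fam A y W) : Inv y W := by
  obtain ⟨m, v, -, hs, hc⟩ := h
  intro u hu
  rw [← hs] at hu ⊢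
  induction hu using Submodule.span_induction with
  | mem u hu =>
    obtain ⟨j, rfl⟩ := hu
    obtain ⟨c, hcj, -⟩ := hc j
    rw [hcj]
    exact Submodule.sum_mem _ fun l _ => Submodule.smul_mem _ _ (Submodule.subset_span ⟨l, rfl⟩)
  | zero => simp
  | add u w _ _ hu hw => rw [map_add]; exact Submodule.add_mem _ hu hw
  | smul a u _ hu => rw [map_smul]; exact Submodule.smul_mem _ _ hu

omit [FiniteDimensional F V] in
theorem Fam.sup {U W : Submodule F V} (hU : Fam A y U) (hW : Fam A y W) (hUW : Disjoint U W)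
    (h0 : (0 : F) ∈ A False) : Fam A y (U ⊔ W) := by
  obtain ⟨m, v, hv, hvs, hvc⟩ := hU
  obtain ⟨m', w, hw, hws, hwc⟩ := hW
  let e : Fin (m + m') ≃ Fin m ⊕ Fin m' := finSumFinEquiv.symm
  refine ⟨m + m', Sum.elim v w ∘ e, ?_, ?_, fun j => ?_⟩
  · exact ((LinearIndependent.sum_type hv hw (by rwa [hvs, hws]))).comp _ e.injective
  · rw [Set.range_comp, e.surjective.range_eq, Set.image_univ, Set.Sum.elim_range, Submodule.span_union, hvs, hws]
  · have hsum : ∀ c : Fin m ⊕ Fin m' → F,
        ∑ l : Fin (m + m'), c (e l) • (Sum.elim v w ∘ e) l = (∑ l, c (Sum.inl l) • v l) + ∑ l, c (Sum.inr l) • w l := by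
      intro c
      exact (e.sum_comp (fun s => c s • Sum.elim v w s)).trans (Fintype.sum_sum_type _)
    have hA : ∀ {P Q : Prop} {a : F}, a ∈ A P → (P ↔ Q) → a ∈ A Q := fun h hPQ => propext hPQ ▸ h
    rcases hj : e j with a | b
    · obtain ⟨c, hc, hcA⟩ := hvc a
      refine ⟨fun l => Sum.elim c 0 (e l), ?_, fun l => ?_⟩
      · rw [hsum, Function.comp_apply, hj, Sum.elim_inl, hc]
        simp
      · rcases hl : e l with a' | b'
        · simp only [hl, Sum.elim_inl]
          refine hA (hcA a') ⟨fun h => e.injective (by rw [hj, hl, h]), fun h => ?_⟩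
          rw [h, hl] at hj
          exact (Sum.inl_injective hj).symm
        · simp only [hl, Sum.elim_inr]
          refine hA h0 ⟨False.elim, fun h => ?_⟩
          rw [h, hl] at hj
          simp at hj
    · obtain ⟨c, hc, hcA⟩ := hwc b
      refine ⟨fun l => Sum.elim 0 c (e l), ?_, fun l => ?_⟩
      · rw [hsum, Function.comp_apply, hj, Sum.elim_inr, hc]
        simp
      · rcases hl : e l with a' | b'
        · simp only [hl, Sum.elim_inl]
          refine hA h0 ⟨False.elim, fun h => ?_⟩
          rw [h, hl] at hj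
          simp at hj
        · simp only [hl, Sum.elim_inr]
          refine hA (hcA b') ⟨fun h => e.injective (by rw [hj, hl, h]), fun h => ?_⟩
          rw [h, hl] at hj
          exact (Sum.inr_injective hj).symm

/-- Families on all invariant subspaces from families on small ones. -/
theorem fam_of_small (h0 : (0 : F) ∈ A False) {r : ℕ} {z : F} (hz : z ≠ 0) (hr : (r : F) ≠ 0)
    (hy : ∀ v, (y ^ r) v = z • v)
    (hsmall : ∀ W : Submodule F V, Inv y W → W ≠ ⊥ → ∃ U ≤ W, U ≠ ⊥ ∧ Fam A y U) :
    ∀ W : Submodule F V, Inv y W → Fam A y W := by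
  intro W
  induction hd : finrank F W using Nat.strong_induction_on generalizing W with
  | _ d ih =>
    intro hW
    rcases eq_or_ne W ⊥ with rfl | hne
    · exact ⟨0, Fin.elim0, linearIndependent_empty_type, by simp [Set.range_eq_empty], fun j => j.elim0⟩
    obtain ⟨U, hUW, hU0, hU⟩ := hsmall W hW hne
    obtain ⟨W', hW', hc⟩ := exists_invariant_compl hz hr hy hU.inv
    have hsup : U ⊔ W' ⊓ W = W := by
      rw [← sup_inf_assoc_of_le W' hUW, hc.sup_eq_top, top_inf_eq]
    have hdis : Disjoint U (W' ⊓ W) := hc.disjoint.mono_right inf_le_left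
    have hlt : W' ⊓ W < W := lt_of_le_of_ne inf_le_right fun h =>
      hU0 (eq_bot_iff.2 fun u hu => (Submodule.mem_bot F).1 (Submodule.disjoint_def.1 hdis u hu (h.symm ▸ hUW hu) ▸ zero_mem _))
    rw [← hsup]
    exact hU.sup (ih _ (hd ▸ Submodule.finrank_lt_finrank_of_lt hlt) _ rfl (hW'.inf hW)) hdis h0

/-- The cyclic family of an irreducible polynomial. -/
theorem fam_cyclic {g : F[X]} (hgm : g.Monic) (hirr : Irreducible g)
    (hA : ∀ j P, (P ∨ g.natDegree ≠ 1) → -g.coeff j ∈ A P)
    (h1 : ∀ P, (1 : F) ∈ A P ∨ g.natDegree = 1) (h0 : ∀ P, (0 : F) ∈ A P ∨ g.natDegree = 1)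
    {W : Submodule F V} (hW : Inv y W) {w : V} (hw : w ∈ W) (hw0 : w ≠ 0)
    (hgw : Polynomial.aeval y g w = 0) : ∃ U ≤ W, U ≠ ⊥ ∧ Fam A y U := by
  classical
  set e := g.natDegree
  have he : 0 < e := hirr.natDegree_pos
  let v : Fin e → V := fun j => (y ^ (j : ℕ)) w
  have hlow : ∀ c : Fin e → F, Polynomial.aeval y (∑ j, C (c j) * X ^ (j : ℕ)) w = ∑ j, c j • v j := by
    intro c
    simp [v, map_sum, LinearMap.sum_apply, Module.End.mul_apply, Module.algebraMap_end_apply]
  refine ⟨Submodule.span F (Set.range v), ?_, ?_, e, v, ?_, rfl, fun j => ?_⟩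
  · rw [Submodule.span_le]
    rintro _ ⟨j, rfl⟩
    exact hW.pow _ w hw
  · intro h
    have : v ⟨0, he⟩ ∈ Submodule.span F (Set.range v) := Submodule.subset_span ⟨_, rfl⟩
    rw [h, Submodule.mem_bot] at this
    exact hw0 (by simpa [v] using this)
  · rw [Fintype.linearIndependent_iff]
    intro c hc
    set P := ∑ j : Fin e, C (c j) * X ^ (j : ℕ) with hP
    have hcoef : ∀ j : Fin e, P.coeff j = c j := fun j => by
      simp only [hP, finsetSum_coeff, coeff_C_mul_X_pow]
      rw [Finset.sum_eq_single j (fun l _ hl => if_neg fun h => hl (Fin.ext h.symm)) (by simp)]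
      simp
    by_contra hcon
    push Not at hcon
    obtain ⟨j, hj⟩ := hcon
    have hP0 : P ≠ 0 := fun h => hj (by rw [← hcoef, h, coeff_zero])
    have hdeg : P.natDegree < e := by
      refine Nat.lt_of_le_of_lt (natDegree_sum_le_of_forall_le _ _ (n := e - 1) fun l _ =>
        (natDegree_C_mul_X_pow_le _ _).trans (by omega)) (by omega)
    obtain ⟨a, b, hab⟩ := (hirr.coprime_iff_not_dvd).2 fun hdvd =>
      absurd (natDegree_le_of_dvd hdvd hP0) (by omega)
    have := congrArg (fun Q => Polynomial.aeval y Q w) hab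
    simp only [map_add, map_mul, map_one, LinearMap.add_apply, Module.End.mul_apply, hgw, map_zero,
      zero_add, Module.End.one_apply] at this
    rw [hP, hlow, hc, map_zero] at this
    exact hw0 this.symm
  · have hlast : (y ^ e) w = ∑ l : Fin e, -g.coeff l • v l := by
      have h := hgw
      rw [Polynomial.aeval_eq_sum_range, LinearMap.sum_apply, Finset.sum_range_succ] at h
      simp only [LinearMap.smul_apply] at h
      rw [show g.coeff g.natDegree = 1 from hgm, one_smul] at h
      rw [Fin.sum_univ_eq_sum_range (fun l => -g.coeff l • (y ^ l) w), ← neg_eq_of_add_eq_zero_right h,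
        ← Finset.sum_neg_distrib]
      exact Finset.sum_congr rfl fun l _ => (neg_smul _ _).symm
    rcases Nat.lt_or_ge ((j : ℕ) + 1) e with hlt | hge
    · refine ⟨fun l => if l = ⟨j + 1, hlt⟩ then 1 else 0, ?_, fun l => ?_⟩
      · simp [v, ite_smul, pow_succ', Module.End.mul_apply]
      · dsimp only
        have hne : g.natDegree ≠ 1 := by omega
        split_ifs
        · exact (h1 _).resolve_right hne
        · exact (h0 _).resolve_right hne
    · refine ⟨fun l => -g.coeff l, ?_, fun l => hA _ _ ?_⟩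
      swap
      · rcases eq_or_ne j l with h | h
        · exact Or.inl h
        · refine Or.inr fun h1' => h (Fin.ext ?_)
          have := j.2
          have := l.2
          omega
      rw [← hlast]
      show y ((y ^ (j : ℕ)) w) = _
      rw [← Module.End.mul_apply, ← pow_succ', show (j : ℕ) + 1 = e by have := j.2; omega]

section Power

variable {r : ℕ} [Fact r.Prime] {p : ℕ} [Fact p.Prime] [CharP F p]

theorem natCast_ne_zero (hrp : r ≠ p) : (r : F) ≠ 0 := fun h =>
  hrp ((Nat.prime_dvd_prime_iff_eq Fact.out (Fact.out : r.Prime)).1 ((CharP.cast_eq_zero_iff F p r).1 h)).symm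

/-- The centralizer of a map with scalar `r`-th power has every determinant. -/
theorem cent_det [Finite F] (hrp : r ≠ p) {z : F} (hz : z ≠ 0) (hy : ∀ v, (y ^ r) v = z • v)
    (hV : 0 < finrank F V) {δ : F} (hδ : δ ≠ 0) :
    ∃ C : Module.End F V, (∀ v, C (y v) = y (C v)) ∧ LinearMap.det C = δ := by
  classical
  have hr : r.Prime := Fact.out
  haveI : Nontrivial V := Module.nontrivial_of_finrank_pos (R := F) hV
  obtain ⟨v, hv⟩ := exists_ne (0 : V)
  have hne : (X ^ r - C z : F[X]) ≠ 0 := X_pow_sub_C_ne_zero hr.pos z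
  obtain ⟨u, hu⟩ := UniqueFactorizationMonoid.prod_normalizedFactors hne
  have hprod : Polynomial.aeval y (UniqueFactorizationMonoid.normalizedFactors (X ^ r - C z : F[X])).prod v = 0 := by
    have h : Polynomial.aeval y (((u⁻¹ : (F[X])ˣ) : F[X]) * (X ^ r - C z)) v = 0 := by
      rw [map_mul, Module.End.mul_apply, map_sub, map_pow, aeval_X, aeval_C, LinearMap.sub_apply, hy,
        Module.algebraMap_end_apply, sub_self, map_zero]
    rwa [← hu, mul_comm, mul_assoc, Units.mul_inv, mul_one] at h
  obtain ⟨g, hg, w, -, hw0, hgw⟩ := exists_killed (y := y) (W := ⊤) (fun _ _ => trivial) _ v trivial hv hprod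
  have hirr := UniqueFactorizationMonoid.irreducible_of_normalized_factor g hg
  have hU : Inv y (LinearMap.ker (Polynomial.aeval y g)) := fun u hu => by
    rw [LinearMap.mem_ker] at hu ⊢
    have hc : Polynomial.aeval y g * y = y * Polynomial.aeval y g := by
      have hx := Polynomial.aeval_X (R := F) y
      calc Polynomial.aeval y g * y = Polynomial.aeval y (g * X) := by rw [map_mul, hx]
        _ = Polynomial.aeval y (X * g) := by rw [mul_comm]
        _ = _ := by rw [map_mul, hx]
    rw [← Module.End.mul_apply, hc, Module.End.mul_apply, hu, map_zero]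
  obtain ⟨W, hW, hUW⟩ := exists_invariant_compl hz (natCast_ne_zero hrp) hy hU
  set U := LinearMap.ker (Polynomial.aeval y g)
  have hUpos : 0 < finrank F U := Nat.pos_of_ne_zero fun h0 =>
    hw0 ((Submodule.mem_bot F).1 (Submodule.finrank_eq_zero.1 h0 ▸ LinearMap.mem_ker.2 hgw))
  have hres : Polynomial.aeval (y.restrict hU) g = 0 := by
    have key : ∀ (Q : F[X]) (a : U), ((Polynomial.aeval (y.restrict hU) Q) a : V) = Polynomial.aeval y Q a := by
      intro Q
      induction Q using Polynomial.induction_on' with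
      | add P Q hP hQ => intro a; simp [hP, hQ]
      | monomial j c =>
        intro a
        simp only [Polynomial.aeval_monomial, Module.End.mul_apply, Module.algebraMap_end_apply,
          Module.End.pow_restrict _ (h := hU)]
        rfl
    exact LinearMap.ext fun a => Subtype.ext ((key g a).trans (LinearMap.mem_ker.1 a.2))
  obtain ⟨C₀, hC₀, hdet⟩ := cent_irreducible hirr hres hUpos hδ
  let e := Submodule.prodEquivOfIsCompl U W hUW
  refine ⟨e.conj (C₀.prodMap (LinearMap.id : W →ₗ[F] W)), fun v => ?_, ?_⟩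
  · conv_lhs => rw [prod_conj hUW hU hW]
    conv_rhs => rw [prod_conj hUW hU hW]
    obtain ⟨⟨a, b⟩, rfl⟩ := e.surjective v
    simp only [LinearEquiv.conj_apply, LinearMap.comp_apply, LinearEquiv.coe_coe,
      LinearMap.prodMap_apply, LinearEquiv.symm_apply_apply, LinearMap.id_apply, e]
    rw [hC₀]
  · rw [LinearEquiv.conj_apply, LinearMap.comp_assoc, LinearMap.det_conj, LinearMap.det_prodMap,
      LinearMap.det_id, mul_one, hdet]

end Power

section Rational

variable {n : ℕ} {F₀ : Subfield F}

/-- Families with entries in the subfield give matrices over it. -/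
theorem exists_matrix {y : Module.End F (Fin n → F)} (h : Fam (fun _ => (F₀ : Set F)) y ⊤) :
    ∃ (T : (Fin n → F) ≃ₗ[F] (Fin n → F)) (M : Matrix (Fin n) (Fin n) F₀),
      ∀ v, T (Matrix.toLin' (M.map F₀.subtype) v) = y (T v) := by
  classical
  obtain ⟨m, v, hli, hsp, hc⟩ := h
  have hm : m = n := by
    have := finrank_span_eq_card hli
    rw [hsp, finrank_top, finrank_fin_fun, Fintype.card_fin] at this
    exact this.symm
  subst hm
  choose c hc hcA using hc
  let b : Basis (Fin m) F (Fin m → F) := Basis.mk hli (hsp ▸ le_rfl)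
  refine ⟨b.equivFun.symm, fun l j => ⟨c j l, hcA j l⟩, fun u => ?_⟩
  have hb : ∀ j, b j = v j := fun j => congrFun (Basis.coe_mk _ _) j
  simp only [Basis.equivFun_symm_apply, hb, map_sum, map_smul, hc, Finset.smul_sum, smul_smul]
  rw [Finset.sum_comm]
  refine Finset.sum_congr rfl fun j _ => ?_
  rw [← Finset.sum_smul, Matrix.toLin'_apply]
  congr 1
  simp only [Matrix.mulVec, dotProduct, Matrix.map_apply]
  exact Finset.sum_congr rfl fun l _ => mul_comm _ _

theorem rank_map {K : Type*} [Field K] (φ : K →+* F) (M : Matrix (Fin n) (Fin n) K) :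
    (M.map φ).rank = M.rank := by
  classical
  obtain ⟨L, L', D, hD⟩ := Matrix.Pivot.exists_list_transvec_mul_mul_list_transvec_eq_diagonal M
  have hdet : ∀ L : List (Matrix.TransvectionStruct (Fin n) K),
      (L.map Matrix.TransvectionStruct.toMatrix).prod.det = 1 := Matrix.TransvectionStruct.det_toMatrix_prod
  have h1 : M.rank = (Matrix.diagonal D).rank := by
    rw [← hD, Matrix.rank_mul_eq_left_of_isUnit_det _ _ (by rw [hdet]; exact isUnit_one),
      Matrix.rank_mul_eq_right_of_isUnit_det _ _ (by rw [hdet]; exact isUnit_one)]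
  have h2 : (M.map φ).rank = ((Matrix.diagonal D).map φ).rank := by
    rw [← hD, Matrix.map_mul, Matrix.map_mul, Matrix.rank_mul_eq_left_of_isUnit_det _ _ ?_,
      Matrix.rank_mul_eq_right_of_isUnit_det _ _ ?_] <;>
    · rw [← RingHom.mapMatrix_apply, ← RingHom.map_det, hdet, map_one]; exact isUnit_one
  rw [h1, h2, Matrix.diagonal_map (map_zero φ), Matrix.rank_diagonal, Matrix.rank_diagonal]
  simp

end Rational

end Cfsg.Agent.Lib.Elusive.SubfieldOdd
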