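import Cfsg.Agent.Lib.Elusive.SubfieldModel
import Cfsg.Agent.Lib.Elusive.SubfieldOdd
import Cfsg.Agent.Lib.Classical.Order

/-!
Odd prime order elements and subfield subgroups: the index and the test multisets.
-/

set_option autoImplicit false

namespace Cfsg.Agent.Lib.Elusive.SubfieldTests

open Module

section Index

variable {F : Type*} [Field F] [Fintype F] {F₀ : Subfield F}

theorem not_dvd_index {n k r : ℕ} [Fact r.Prime] (hn : 2 ≤ n) (hqk : Fintype.card F = Nat.card F₀ ^ k)
    (hrk : ¬ r ∣ k) (hrq : ¬ r ∣ Nat.card F₀)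
    (hord : ∀ j, 2 ≤ j → j ≤ n → r ∣ Fintype.card F ^ j - 1 → r ∣ Nat.card F₀ ^ j - 1) :
    ¬ r ∣ ((Cfsg.Geo.subfieldSubgroup F₀ 1).comap (Matrix.SpecialLinearGroup.toGL : Matrix.SpecialLinearGroup (Fin n) F →* GL (Fin n) F)).index := by
  classical
  have hr : r.Prime := Fact.out
  haveI : Nonempty (Fin n) := ⟨⟨0, by omega⟩⟩
  haveI := Fintype.ofFinite F₀
  set H := (Cfsg.Geo.subfieldSubgroup F₀ 1).comap (Matrix.SpecialLinearGroup.toGL : Matrix.SpecialLinearGroup (Fin n) F →* GL (Fin n) F)
  let φ : Matrix.SpecialLinearGroup (Fin n) F₀ →* Matrix.SpecialLinearGroup (Fin n) F :=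
    Matrix.SpecialLinearGroup.map F₀.subtype
  have hφ : Function.Injective φ := fun a b h => by
    refine Subtype.ext (Matrix.map_injective Subtype.val_injective ?_)
    exact congrArg Subtype.val h
  have hle : φ.range ≤ H := by
    rintro _ ⟨g, rfl⟩
    refine mem_subfield_of_map one_ne_zero (M := (g : Matrix (Fin n) (Fin n) F₀)) ?_
    rw [one_smul]; rfl
  intro hdvd
  obtain ⟨w, hw⟩ := hdvd.trans (Subgroup.index_dvd_of_le hle)
  have hcard := Subgroup.card_mul_index φ.range
  rw [← Nat.card_congr (MonoidHom.ofInjective hφ).toEquiv, hw] at hcard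
  have hG := Cfsg.Agent.Lib.Classical.card_GL_eq_units_mul_card_SL (ι := Fin n) (R := F)
  have hG₀ := Cfsg.Agent.Lib.Classical.card_GL_eq_units_mul_card_SL (ι := Fin n) (R := F₀)
  obtain ⟨S, hS, -⟩ := exists_sub_one_eq hqk
  rw [Matrix.card_GL_field, Nat.card_units, Nat.card_eq_fintype_card (α := F), hS, ← hcard] at hG
  rw [Matrix.card_GL_field, Nat.card_units] at hG₀
  set q₀ := Nat.card F₀ with hq₀
  rw [← Nat.card_eq_fintype_card, ← hq₀] at hG₀
  have hkpos : 1 ≤ k := Nat.one_le_iff_ne_zero.2 fun h => hrk (h ▸ dvd_zero r)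
  have hq1 : 1 < q₀ := by rw [hq₀, Nat.card_eq_fintype_card]; exact Fintype.one_lt_card
  have hS0 : 0 < S := Nat.pos_of_ne_zero fun h => by
    rw [h, mul_zero] at hS
    have := Fintype.one_lt_card (α := F)
    omega
  have hne : ∀ b, ¬ r ∣ q₀ ^ b := fun b h => hrq (hr.dvd_of_dvd_pow h)
  have hpt : ∀ i : Fin n, ∃ O, Fintype.card F ^ n - Fintype.card F ^ (i : ℕ) = (q₀ ^ n - q₀ ^ (i : ℕ)) * O ∧
      (((i : ℕ) + 1 = n → ∃ b, O = q₀ ^ b * S) ∧ ((i : ℕ) + 1 < n → ¬ r ∣ O)) := by
    intro i
    have hin : (i : ℕ) ≤ n := i.2.le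
    set T := ∑ l ∈ Finset.range k, (q₀ ^ (n - i)) ^ l with hT
    have e3 : Fintype.card F ^ (n - i) - 1 = (q₀ ^ (n - i) - 1) * T := by
      rw [mul_comm (q₀ ^ (n - i) - 1), geom_sum_mul_of_one_le (Nat.one_le_pow _ _ Nat.card_pos),
        ← pow_mul, hqk, ← pow_mul, mul_comm k]
    refine ⟨q₀ ^ ((k - 1) * i) * T, ?_, fun hlast => ⟨(k - 1) * i, ?_⟩, fun hlt => ?_⟩
    · have e1 : q₀ ^ n - q₀ ^ (i : ℕ) = q₀ ^ (i : ℕ) * (q₀ ^ (n - i) - 1) := by
        rw [Nat.mul_sub, mul_one, ← pow_add, Nat.add_sub_cancel' hin]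
      have e2 : Fintype.card F ^ n - Fintype.card F ^ (i : ℕ) =
          Fintype.card F ^ (i : ℕ) * (Fintype.card F ^ (n - i) - 1) := by
        rw [Nat.mul_sub, mul_one, ← pow_add, Nat.add_sub_cancel' hin]
      have e4 : Fintype.card F ^ (i : ℕ) = q₀ ^ (i : ℕ) * q₀ ^ ((k - 1) * i) := by
        rw [hqk, ← pow_mul, ← pow_add]
        congr 1
        have h1 : k * (i : ℕ) = (k - 1 + 1) * i := by rw [Nat.sub_add_cancel hkpos]
        rw [h1, add_mul, one_mul]
        omega
      rw [e1, e2, e3, e4]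
      ring
    · rw [show n - (i : ℕ) = 1 by omega, pow_one, pow_one, hS] at e3
      rw [Nat.eq_of_mul_eq_mul_left (by omega) e3]
    · intro h
      rcases hr.dvd_mul.1 h with h | h
      · exact hne _ h
      have h1 : r ∣ Fintype.card F ^ (n - i) - 1 := e3 ▸ h.mul_left _
      have h2 := hord (n - i) (by omega) (by omega) h1
      rw [← ZMod.natCast_eq_zero_iff, Nat.cast_sub (Nat.one_le_pow _ _ (by omega)), Nat.cast_one,
        sub_eq_zero] at h2
      rw [← ZMod.natCast_eq_zero_iff, hT, Nat.cast_sum] at h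
      simp only [Nat.cast_pow] at h h2
      rw [Finset.sum_congr rfl fun l _ => by rw [h2, one_pow], Finset.sum_const, Finset.card_range,
        nsmul_one, ZMod.natCast_eq_zero_iff] at h
      exact hrk h
  choose O hOe hOlast hOlt using hpt
  rw [Finset.prod_congr rfl fun i _ => hOe i, Finset.prod_mul_distrib] at hG
  have hpos : 0 < ∏ i : Fin n, (q₀ ^ n - q₀ ^ (i : ℕ)) := Finset.prod_pos fun i _ =>
    Nat.sub_pos_of_lt (Nat.pow_lt_pow_right hq1 i.2)
  have hprod : ∏ i, O i = S * (r * w) := by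
    refine Nat.eq_of_mul_eq_mul_left hpos (hG.trans ?_)
    rw [hG₀]; ring
  let L : Fin n := ⟨n - 1, by omega⟩
  obtain ⟨b, hb⟩ := hOlast L (by show n - 1 + 1 = n; omega)
  rw [← Finset.mul_prod_erase _ _ (Finset.mem_univ L), hb] at hprod
  have hE : q₀ ^ b * (∏ i ∈ Finset.univ.erase L, O i) = r * w :=
    Nat.eq_of_mul_eq_mul_right hS0 (by linear_combination hprod)
  have : r ∣ q₀ ^ b * ∏ i ∈ Finset.univ.erase L, O i := ⟨w, hE⟩
  rcases hr.dvd_mul.1 this with h | h
  · exact hne _ h
  obtain ⟨i, hi, hri⟩ := (Prime.dvd_finsetProd_iff (Nat.prime_iff.1 hr) _).1 h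
  refine hOlt i ?_ hri
  have h1 := (Finset.mem_erase.1 hi).1
  have := i.2
  by_contra hge
  exact h1 (Fin.ext (by show (i : ℕ) = n - 1; omega))

end Index

section Frobenius

variable {F : Type*} [Field F] {F₀ : Subfield F} [Finite F₀] (p : ℕ) [Fact p.Prime] [CharP F p] {n : ℕ}

include p in
/-- The eigenvalues of a matrix over the subfield are permuted by its Frobenius. -/
theorem roots_stable {d : Fin n → F} {M : Matrix (Fin n) (Fin n) F₀} (P : GL (Fin n) F)
    (h : M.map F₀.subtype = ((P⁻¹ : GL (Fin n) F) : Matrix (Fin n) (Fin n) F) * Matrix.diagonal d * (P : Matrix (Fin n) (Fin n) F)) :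
    (Finset.univ.val.map fun j => d j ^ Nat.card F₀) = Finset.univ.val.map d := by
  classical
  haveI := Fintype.ofFinite F₀
  haveI : CharP F₀ p := RingHom.charP F₀.subtype Subtype.val_injective p
  obtain ⟨e, -, he⟩ := FiniteField.card F₀ p
  have hch : M.charpoly.map F₀.subtype = (Finset.univ.val.map fun j => Polynomial.X - Polynomial.C (d j)).prod := by
    rw [← Matrix.charpoly_map, h, Matrix.coe_units_inv, Matrix.charpoly_units_conj', Matrix.charpoly_diagonal]
    rfl
  have hσ : (iterateFrobenius F p e).comp F₀.subtype = F₀.subtype := RingHom.ext fun a => by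
    rw [RingHom.comp_apply, iterateFrobenius_def, ← he, ← map_pow, FiniteField.pow_card]
  have h1 := congrArg (Polynomial.map (iterateFrobenius F p e)) hch
  rw [Polynomial.map_map, hσ, hch, Polynomial.map_multiset_prod, Multiset.map_map] at h1
  simp only [Function.comp_def, Polynomial.map_sub, Polynomial.map_X, Polynomial.map_C, iterateFrobenius_def,
    ← he, ← Nat.card_eq_fintype_card] at h1
  have h2 := congrArg Polynomial.roots h1
  rw [← Function.comp_def (fun a => Polynomial.X - Polynomial.C a) d, ← Multiset.map_map,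
    Polynomial.roots_multiset_prod_X_sub_C,
    ← Function.comp_def (fun a => Polynomial.X - Polynomial.C a) (fun j => d j ^ Nat.card F₀), ← Multiset.map_map,
    Polynomial.roots_multiset_prod_X_sub_C] at h2
  exact h2.symm

end Frobenius

section Multisets

variable {r : ℕ} [Fact r.Prime]

theorem natCast_ne {a : ℕ} (ha : 0 < a) (har : ¬ r ∣ a) : (a : ZMod r) ≠ 0 := fun h =>
  har ((ZMod.natCast_eq_zero_iff a r).1 h)

theorem two_ne (hr2 : r ≠ 2) : (2 : ZMod r) ≠ 0 := by
  have := natCast_ne (r := r) (a := 2) (by norm_num) fun h =>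
    hr2 ((Nat.prime_dvd_prime_iff_eq Fact.out Nat.prime_two).1 h)
  exact_mod_cast this

theorem three_ne (hr3 : r ≠ 3) : (3 : ZMod r) ≠ 0 := by
  have := natCast_ne (r := r) (a := 3) (by norm_num) fun h =>
    hr3 ((Nat.prime_dvd_prime_iff_eq Fact.out Nat.prime_three).1 h)
  exact_mod_cast this

theorem ms_three (hr2 : r ≠ 2) {s w : ZMod r} (hs0 : s ≠ 0) (hs1 : s ≠ 1) (hs2 : s ≠ -1) (m : ℕ)
    (h : ((1 : ZMod r) ::ₘ (-1) ::ₘ Multiset.replicate m 0).map (fun a => s * a + w) =
      (1 : ZMod r) ::ₘ (-1) ::ₘ Multiset.replicate m 0) : False := by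
  have h2 := two_ne hr2
  simp only [Multiset.map_cons, Multiset.map_replicate, mul_one, mul_neg, mul_zero, zero_add] at h
  have hmem : ∀ a ∈ ((1 : ZMod r) ::ₘ (-1) ::ₘ Multiset.replicate m (0 : ZMod r)), a = 1 ∨ a = -1 ∨ a = 0 := by
    intro a ha
    simp only [Multiset.mem_cons, Multiset.mem_replicate] at ha
    tauto
  have ha := hmem (s + w) (h ▸ Multiset.mem_cons_self _ _)
  have hb := hmem (-s + w) (h ▸ Multiset.mem_cons_of_mem (Multiset.mem_cons_self _ _))
  by_cases hw : w = 0
  · subst hw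
    simp [hs0, hs1, hs2] at ha
  have hm : m < 2 := by
    by_contra hm
    have hc := congrArg (Multiset.count w) h
    have hle : Multiset.count w ((1 : ZMod r) ::ₘ (-1) ::ₘ Multiset.replicate m (0 : ZMod r)) ≤ 1 := by
      rw [Multiset.count_cons, Multiset.count_cons, Multiset.count_replicate, if_neg (Ne.symm hw)]
      split_ifs with h3 h4 <;> first | omega | exact absurd (by linear_combination h3.symm.trans h4) h2 | exact absurd (by linear_combination h4.symm.trans h3) h2
    rw [← hc] at hle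
    simp [Multiset.count_cons, Multiset.count_replicate] at hle
    omega
  interval_cases m
  · have hab : ∀ a ∈ ((1 : ZMod r) ::ₘ (-1) ::ₘ Multiset.replicate 0 (0 : ZMod r)), a = 1 ∨ a = -1 := by
      intro a ha
      simpa using ha
    have key : 2 * s = 0 ∨ 2 * (s - 1) = 0 ∨ 2 * (s + 1) = 0 := by
      rcases hab (s + w) (h ▸ Multiset.mem_cons_self _ _) with e | e <;>
        rcases hab (-s + w) (h ▸ Multiset.mem_cons_of_mem (Multiset.mem_cons_self _ _)) with e' | e'
      · exact Or.inl (by linear_combination e - e')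
      · exact Or.inr (Or.inl (by linear_combination e - e'))
      · exact Or.inr (Or.inr (by linear_combination e - e'))
      · exact Or.inl (by linear_combination e - e')
    rcases key with e | e | e
    · exact hs0 ((mul_eq_zero.1 e).resolve_left h2)
    · exact hs1 (sub_eq_zero.1 ((mul_eq_zero.1 e).resolve_left h2))
    · exact hs2 (eq_neg_of_add_eq_zero_left ((mul_eq_zero.1 e).resolve_left h2))
  · have hc := hmem w (h ▸ by simp)
    by_cases h3 : r = 3
    · subst h3
      revert hs0 hs1 hs2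
      decide +revert
    have h3' := three_ne h3
    rcases hc with rfl | rfl | rfl
    · rcases ha with e | e | e <;> rcases hb with e' | e' | e'
      all_goals first
        | exact hs0 (by linear_combination e)
        | exact hs1 (by linear_combination -e')
        | exact hs2 (by linear_combination e)
        | exact h2 (by linear_combination e + e')
        | exact h3' (by linear_combination e + e')
        | exact (pow_ne_zero 2 h2) (by linear_combination e + e')
    · rcases ha with e | e | e <;> rcases hb with e' | e' | e'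
      all_goals first
        | exact hs0 (by linear_combination -e')
        | exact hs1 (by linear_combination e)
        | exact hs2 (by linear_combination -e')
        | exact h2 (by linear_combination -(e + e'))
        | exact h3' (by linear_combination -(e + e'))
        | exact (pow_ne_zero 2 h2) (by linear_combination -(e + e'))
    · exact hw rfl

theorem ms_two (hr2 : r ≠ 2) {w : ZMod r} (m : ℕ) (h6 : ¬ (r = 3 ∧ m = 3)) (h33 : ¬ (r = 3 ∧ m = 0))
    (h55 : ¬ (r = 5 ∧ m = 2))
    (h : ((1 : ZMod r) ::ₘ 1 ::ₘ (-2) ::ₘ Multiset.replicate m 0).map (fun a => (-1) * a + w) =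
      (1 : ZMod r) ::ₘ 1 ::ₘ (-2) ::ₘ Multiset.replicate m 0) : False := by
  have h2 := two_ne hr2
  simp only [Multiset.map_cons, Multiset.map_replicate, mul_one, neg_mul, one_mul, neg_neg, neg_zero,
    zero_add] at h
  by_cases h3 : r = 3
  · subst h3
    have h30 : (3 : ZMod 3) = 0 := by exact_mod_cast ZMod.natCast_self 3
    have hm : m ≠ 0 := fun e => h33 ⟨rfl, e⟩
    have hm' : m ≠ 3 := fun e => h6 ⟨rfl, e⟩
    rw [show (-2 : ZMod 3) = 1 by linear_combination -h30] at h
    have hmem : ∀ a ∈ ((1 : ZMod 3) ::ₘ 1 ::ₘ 1 ::ₘ Multiset.replicate m (0 : ZMod 3)), a = 1 ∨ a = 0 := by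
      intro a ha
      simp only [Multiset.mem_cons, Multiset.mem_replicate] at ha
      tauto
    rcases hmem (-1 + w) (h ▸ Multiset.mem_cons_self _ _) with e | e
    · obtain rfl : w = 2 := by linear_combination e
      rcases hmem 2 (h ▸ Multiset.mem_cons_of_mem (Multiset.mem_cons_of_mem (Multiset.mem_cons_of_mem
          (Multiset.mem_replicate.2 ⟨hm, rfl⟩)))) with e' | e'
      · exact one_ne_zero (by linear_combination e' : (1 : ZMod 3) = 0)
      · exact h2 e'
    · obtain rfl : w = 1 := by linear_combination e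
      have c0 := congrArg (Multiset.count (0 : ZMod 3)) h
      simp only [Multiset.count_cons, Multiset.count_replicate, neg_add_cancel,
        show (2 : ZMod 3) + 1 = 0 by linear_combination h30] at c0
      simp at c0
      omega
  have h3' := three_ne h3
  have hc := congrArg (Multiset.count (-1 + w)) h
  have hmem : ∀ a, a ∈ ((1 : ZMod r) ::ₘ 1 ::ₘ (-2) ::ₘ Multiset.replicate m (0 : ZMod r)) ↔
      a = 1 ∨ a = -2 ∨ (m ≠ 0 ∧ a = 0) := by
    intro a
    simp only [Multiset.mem_cons, Multiset.mem_replicate]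
    tauto
  have hd := (hmem (2 + w)).1 (h ▸ by simp)
  simp only [Multiset.count_cons, Multiset.count_replicate, if_pos] at hc
  by_cases e1 : -1 + w = 1
  · obtain rfl : w = 2 := by linear_combination e1
    rcases hd with e | e | ⟨-, e⟩
    · exact h3' (by linear_combination e)
    · exact mul_ne_zero h2 h3' (by linear_combination e)
    · exact mul_ne_zero h2 h2 (by linear_combination e)
  rw [if_neg e1] at hc
  by_cases e0 : -1 + w = 0
  · obtain rfl : w = 1 := by linear_combination e0
    rcases hd with e | e | ⟨-, e⟩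
    · exact h2 (by linear_combination e)
    · have h5 : r = 5 := by
        have : ((5 : ℕ) : ZMod r) = 0 := by push_cast; linear_combination e
        exact (Nat.prime_dvd_prime_iff_eq Fact.out (by norm_num)).1 ((ZMod.natCast_eq_zero_iff 5 r).1 this)
      have c1 := congrArg (Multiset.count (1 : ZMod r)) h
      have n1 : ¬ (1 : ZMod r) = -1 + 1 := by simp
      have n2 : ¬ (1 : ZMod r) = 2 + 1 := fun e' => h2 (by linear_combination -e')
      have n3 : ¬ (1 : ZMod r) = -2 := fun e' => h3' (by linear_combination e')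
      simp only [Multiset.count_cons, Multiset.count_replicate, if_pos, if_neg n1, if_neg n2, if_neg n3] at c1
      have : ¬ (0 : ZMod r) = 1 := zero_ne_one
      simp only [if_neg this] at c1
      exact h55 ⟨h5, by omega⟩
    · exact h3' (by linear_combination e)
  rw [if_neg (Ne.symm e0)] at hc
  split_ifs at hc <;> omega

theorem ms_one (hr2 : r ≠ 2) {w : ZMod r} {m : ℕ} (hm : 2 ≤ m)
    (h : ((1 : ZMod r) ::ₘ Multiset.replicate m 0).map (fun a => (-1) * a + w) =
      (1 : ZMod r) ::ₘ Multiset.replicate m 0) : False := by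
  have h2 := two_ne hr2
  simp only [Multiset.map_cons, Multiset.map_replicate, mul_one, mul_zero, zero_add] at h
  by_cases hw : w = 0
  · subst hw
    have hmem : (-1 + 0 : ZMod r) ∈ (1 : ZMod r) ::ₘ Multiset.replicate m (0 : ZMod r) := h ▸ Multiset.mem_cons_self _ _
    simp only [add_zero, Multiset.mem_cons, Multiset.mem_replicate] at hmem
    rcases hmem with e | ⟨-, e⟩
    · exact h2 (by linear_combination -e)
    · simp at e
  · have hc := congrArg (Multiset.count w) h
    simp only [Multiset.count_cons, Multiset.count_replicate, if_pos, if_neg (Ne.symm hw)] at hc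
    split_ifs at hc <;> omega

theorem sym_three : ∀ a b : ZMod 3, ∃ e ∈ [![0, 1, 2], ![1, 0, 2], ![2, 0, 1]], Function.Bijective (e : Fin 3 → Fin 3) ∧
    ![a, b, -(a + b)] (e 1) + ![a, b, -(a + b)] (e 2) = 2 * ![a, b, -(a + b)] (e 0) := by
  decide +kernel

theorem sym_five : ∀ a b c d : ZMod 5, ∃ e ∈ [![0, 1, 2, 3, 4], ![0, 1, 3, 2, 4], ![0, 1, 4, 2, 3],
      ![1, 0, 2, 3, 4], ![1, 0, 3, 2, 4], ![1, 0, 4, 2, 3], ![2, 0, 1, 3, 4], ![2, 0, 3, 1, 4], ![2, 0, 4, 1, 3],
      ![3, 0, 1, 2, 4], ![3, 0, 2, 1, 4], ![3, 0, 4, 1, 2], ![4, 0, 1, 2, 3], ![4, 0, 2, 1, 3], ![4, 0, 3, 1, 2]],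
    Function.Bijective (e : Fin 5 → Fin 5) ∧
      ![a, b, c, d, -(a + b + c + d)] (e 1) + ![a, b, c, d, -(a + b + c + d)] (e 2) = 2 * ![a, b, c, d, -(a + b + c + d)] (e 0) ∧
      ![a, b, c, d, -(a + b + c + d)] (e 3) + ![a, b, c, d, -(a + b + c + d)] (e 4) = 2 * ![a, b, c, d, -(a + b + c + d)] (e 0) := by
  decide +kernel

end Multisets

end Cfsg.Agent.Lib.Elusive.SubfieldTests
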