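import Cfsg.Agent.Lib.Elusive.SympTI
import Cfsg.Agent.Lib.Elusive.SympModels

/-!
Symplectic elements of odd prime order with few invariant totally isotropic subspaces.
-/

set_option autoImplicit false
set_option maxHeartbeats 1000000

namespace Cfsg.Agent.Lib.Elusive.SympTI

open Module Polynomial Cfsg.Agent.Lib.Forms Cfsg.Agent.Lib.Elusive.SympStep

universe u

variable {F : Type u} [Field F] [Fintype F] [DecidableEq F] {r : ℕ} [Fact r.Prime] {p : ℕ} [Fact p.Prime] [CharP F p]

/-- An element with few invariant totally isotropic subspaces. -/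
theorem exists_bad_elt (hrp : r ≠ p) (hr2 : r ≠ 2) {b : ℕ}
    (hi : orderOf (Fintype.card F : ZMod r) = 2 * b) {d u o s : ℕ} (ho : 1 ≤ o) (hou : o ≤ u)
    (hot : o * (2 * b) ≤ r - 1) (hd : d = u * b + s) :
    ∃ A : Matrix.symplecticGroup (Fin d) F,
      (∀ v, ((Matrix.toLin' (A : Matrix (Fin d ⊕ Fin d) (Fin d ⊕ Fin d) F)) ^ r) v = v) ∧
        finrank F (LinearMap.ker (Matrix.toLin' (A : Matrix (Fin d ⊕ Fin d) (Fin d ⊕ Fin d) F) -
          (1 : F) • LinearMap.id)) = 2 * s ∧
        ∀ W : Submodule F (Fin d ⊕ Fin d → F),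
          Inv (Matrix.toLin' (A : Matrix (Fin d ⊕ Fin d) (Fin d ⊕ Fin d) F)) W → Ti (stdB d F) W →
          W ⊓ LinearMap.ker (Matrix.toLin' (A : Matrix (Fin d ⊕ Fin d) (Fin d ⊕ Fin d) F) - (1 : F) • LinearMap.id) = ⊥ →
            2 * finrank F W ≤ (u - o + 1) * (2 * b) := by
  classical
  have hr : r.Prime := Fact.out
  obtain ⟨hnodup, hcard, -⟩ := factors_facts (F := F) (r := r) hrp
  set fs := UniqueFactorizationMonoid.normalizedFactors (cyclotomic r F) with hfs
  rw [hi] at hcard
  have hbpos : 0 < b := by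
    obtain ⟨g, hg⟩ := UniqueFactorizationMonoid.exists_mem_normalizedFactors (cyclotomic_ne_zero r F)
      fun hu => (degree_cyclotomic_pos r F hr.pos).ne' (degree_eq_zero_of_isUnit hu)
    obtain ⟨-, hirr, hdeg⟩ := factor_cyclotomic hrp hg
    rw [Nat.card_eq_fintype_card, hi] at hdeg
    have := hirr.natDegree_pos
    omega
  have hocard : o ≤ fs.toList.length := by
    rw [Multiset.length_toList]
    exact Nat.le_of_mul_le_mul_right (hot.trans_eq hcard.symm) (by omega)
  let G : Fin o → F[X] := fun c => fs.toList.get (Fin.castLE hocard c)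
  have hG : ∀ c, G c ∈ fs := fun c => Multiset.mem_toList.1 (List.get_mem _ _)
  have hGinj : Function.Injective G := fun c c' h => by
    have hnd : fs.toList.Nodup := by rw [← Multiset.coe_nodup, Multiset.coe_toList]; exact hnodup
    exact Fin.castLE_injective hocard (hnd.injective_get h)
  have hGf : ∀ c, (G c).Monic ∧ Irreducible (G c) ∧ (G c).natDegree = 2 * b := fun c => by
    obtain ⟨h1, h2, h3⟩ := factor_cyclotomic hrp (hG c)
    exact ⟨h1, h2, by rw [h3, Nat.card_eq_fintype_card, hi]⟩
  set c₀ : Fin o := ⟨0, ho⟩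
  haveI : Fact (Irreducible (G c₀)) := ⟨(hGf c₀).2.1⟩
  let pb := AdjoinRoot.powerBasis' (hGf c₀).1
  haveI : FiniteDimensional F (AdjoinRoot (G c₀)) := pb.finite
  haveI : Finite (AdjoinRoot (G c₀)) := Module.finite_of_finite F
  set K := AdjoinRoot (G c₀)
  set ζ : K := AdjoinRoot.root (G c₀) with hζ
  have hKdim : finrank F K = 2 * b := by rw [pb.finrank, AdjoinRoot.powerBasis'_dim, (hGf c₀).2.2]
  have hζr : ζ ^ r = 1 := by
    have hdvd : G c₀ ∣ X ^ r - 1 :=
      (UniqueFactorizationMonoid.dvd_of_mem_normalizedFactors (hG c₀)).trans (cyclotomic.dvd_X_pow_sub_one r F)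
    have h := AdjoinRoot.mk_eq_zero.2 hdvd
    simpa [sub_eq_zero] using h
  have hζ1 : ζ ≠ 1 := fun h => by
    have h' : G c₀ ∣ X - C (1 : F) := AdjoinRoot.mk_eq_zero.1 (by simp [← hζ, h])
    have := natDegree_le_of_dvd h' (X_sub_C_ne_zero 1)
    rw [natDegree_X_sub_C, (hGf c₀).2.2] at this
    omega
  have hζp : IsPrimitiveRoot ζ r := by
    rw [IsPrimitiveRoot.iff_orderOf]
    exact orderOf_eq_prime hζr hζ1
  -- roots of the chosen factors
  have hroot : ∀ c, ∃ μ : K, Polynomial.aeval μ (G c) = 0 ∧ μ ≠ 1 ∧ ∃ a : ℕ, μ = ζ ^ a := by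
    intro c
    have hne : ((X : F[X]) ^ r - 1).map (algebraMap F K) ≠ 0 := by
      simpa using X_pow_sub_C_ne_zero hr.pos (1 : K)
    have hspl : ((X ^ r - 1 : F[X]).map (algebraMap F K)).Splits := by
      have := X_pow_sub_C_splits_of_isPrimitiveRoot hζp (a := (1 : K)) (α := 1) (one_pow r)
      simpa using this
    have hdvd : G c ∣ X ^ r - 1 :=
      (UniqueFactorizationMonoid.dvd_of_mem_normalizedFactors (hG c)).trans (cyclotomic.dvd_X_pow_sub_one r F)
    obtain ⟨μ, hμ⟩ := (hspl.of_dvd hne (Polynomial.map_dvd _ hdvd)).exists_eval_eq_zero (by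
      rw [degree_map]
      exact (natDegree_pos_iff_degree_pos.mp (hGf c).2.1.natDegree_pos).ne')
    rw [eval_map] at hμ
    have hμ' : Polynomial.aeval μ (G c) = 0 := hμ
    have hμr : μ ^ r = 1 := by
      obtain ⟨e, he⟩ := hdvd
      have := congrArg (fun P => Polynomial.aeval μ P) he
      simpa [hμ', sub_eq_zero] using this
    refine ⟨μ, hμ', fun h1 => ?_, ?_⟩
    · have hm : (G c) = minpoly F μ := minpoly.eq_of_irreducible_of_monic (hGf c).2.1 hμ' (hGf c).1
      have := (hGf c).2.2
      rw [hm, h1, minpoly.one, ← C_1, natDegree_X_sub_C] at this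
      omega
    · obtain ⟨a, -, ha⟩ := hζp.eq_pow_of_pow_eq_one hμr
      exact ⟨a, ha.symm⟩
  choose μ hμG hμ1 hμpow using hroot
  have hμr : ∀ c, μ c ^ r = 1 := fun c => by
    obtain ⟨a, ha⟩ := hμpow c
    rw [ha, ← pow_mul, mul_comm, pow_mul, hζr, one_pow]
  have hμ0 : ∀ c, μ c ≠ 0 := fun c h => by
    have := hμr c
    rw [h, zero_pow hr.ne_zero] at this
    exact zero_ne_one this
  have hsep : ∀ c c', c ≠ c' → Polynomial.aeval (μ c) (G c') ≠ 0 := fun c c' hne h => hne (hGinj
    ((minpoly.eq_of_irreducible_of_monic (hGf c).2.1 (hμG c) (hGf c).1).trans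
      (minpoly.eq_of_irreducible_of_monic (hGf c').2.1 h (hGf c').1).symm))
  let σ : K →ₐ[F] K := (FiniteField.frobeniusAlgHom F K) ^ b
  have hfr : ∀ (j : ℕ) (z : K), ((FiniteField.frobeniusAlgHom F K) ^ j) z = z ^ (Fintype.card F ^ j) := by
    intro j
    induction j with
    | zero => intro z; simp
    | succ j ih => intro z; rw [pow_succ', AlgHom.mul_apply, ih, pow_succ, pow_mul]; rfl
  have hσσ : ∀ z, σ (σ z) = z := fun z => by
    have h : σ * σ = 1 := by
      show FiniteField.frobeniusAlgHom F K ^ b * FiniteField.frobeniusAlgHom F K ^ b = 1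
      rw [← pow_add, ← two_mul, show 2 * b = orderOf (FiniteField.frobeniusAlgHom F K) by
        rw [FiniteField.orderOf_frobeniusAlgHom, hKdim]]
      exact pow_orderOf_eq_one _
    exact DFunLike.congr_fun h z
  have hσμ : ∀ c, σ (μ c) = (μ c)⁻¹ := fun c => by
    refine eq_inv_of_mul_eq_one_left ?_
    rw [show σ (μ c) = μ c ^ (Fintype.card F ^ b) from hfr b (μ c), ← pow_succ]
    have hq : (Fintype.card F : ZMod r) ^ b = -1 := by
      refine (sq_eq_one_iff.1 ?_).resolve_left ?_
      · rw [← pow_mul, mul_comm, ← hi, pow_orderOf_eq_one]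
      · intro h
        have := Nat.le_of_dvd hbpos (orderOf_dvd_of_pow_eq_one h)
        omega
    obtain ⟨e, he⟩ : r ∣ Fintype.card F ^ b + 1 := by
      rw [← ZMod.natCast_eq_zero_iff]
      push_cast
      rw [hq, neg_add_cancel]
    rw [he, pow_mul, hμr, one_pow]
  set θ : K := μ c₀ with hθdef
  have hθ : θ - σ θ ≠ 0 := by
    rw [hσμ, sub_ne_zero]
    intro h
    have h2 : θ ^ 2 = 1 := by rw [sq]; nth_rw 2 [h]; exact mul_inv_cancel₀ (hμ0 c₀)
    have := pow_gcd_eq_one.2 ⟨h2, hμr c₀⟩
    rw [((Nat.coprime_primes Nat.prime_two hr).2 hr2.symm).gcd_eq_one, pow_one] at this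
    exact hμ1 c₀ this
  have htr : ∀ z, Algebra.trace F K (σ z) = Algebra.trace F K z := fun z => by
    exact Algebra.trace_eq_of_algEquiv (AlgEquiv.ofBijective σ
      ⟨fun a b h => by rw [← hσσ a, h, hσσ], fun a => ⟨σ a, hσσ a⟩⟩) z
  -- the model
  let cls : Fin u → Fin o := fun k => if h : (k : ℕ) < o then ⟨k, h⟩ else c₀
  let BK : LinearMap.BilinForm F (Fin u → K) := traceAlt σ θ u
  let B : LinearMap.BilinForm F ((Fin u → K) × (Fin s → F × F)) :=
    BK.compl₁₂ (LinearMap.fst F _ _) (LinearMap.fst F _ _) +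
      (planes s).compl₁₂ (LinearMap.snd F _ _) (LinearMap.snd F _ _)
  have hB : ∀ v w, B v w = BK v.1 w.1 + planes s v.2 w.2 := fun v w => rfl
  have hBalt : B.IsAlt := fun v => by
    rw [hB, traceAlt_apply, planes_apply,
      Finset.sum_eq_zero (fun k _ => by rw [mul_comm (v.1 k) (σ (v.1 k)), sub_self, mul_zero, map_zero]),
      Finset.sum_eq_zero (fun k _ => by ring), add_zero]
  have hBK : ∀ (z w : K), Algebra.trace F K (θ * (z * σ w - σ z * w)) =
      Algebra.trace F K ((θ - σ θ) * z * σ w) := by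
    intro z w
    have h := htr (θ * (σ z * w))
    rw [map_mul σ, map_mul σ, hσσ] at h
    rw [mul_sub, map_sub, ← h, ← map_sub]
    congr 1
    ring
  have hblock : ∀ (v : (Fin u → K) × (Fin s → F × F)) (k : Fin u),
      (∀ w : K, B v (Pi.single k w, 0) = 0) → v.1 k = 0 := by
    intro v k hk
    have hk' : ∀ w, Algebra.trace F K ((θ - σ θ) * v.1 k * w) = 0 := fun w => by
      have h := hk (σ w)
      rw [hB, map_zero, add_zero, traceAlt_apply,
        Finset.sum_eq_single k (fun b _ hb => by simp [hb]) (by simp)] at h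
      simp only [Pi.single_eq_same] at h
      rw [hBK, hσσ] at h
      exact h
    have h0 := (traceForm_nondegenerate F K).1 ((θ - σ θ) * v.1 k) (fun w => by
      rw [Algebra.traceForm_apply]; exact hk' w)
    exact (mul_eq_zero.1 h0).resolve_left hθ
  have hBsep : B.SeparatingLeft := fun v hv => by
    refine Prod.ext (funext fun k => hblock v k fun w => hv _) (funext fun k => ?_)
    have h := hv (0, Pi.single k ((0, 1) : F × F))
    have h' := hv (0, Pi.single k ((1, 0) : F × F))
    rw [hB, map_zero, zero_add, planes_apply,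
      Finset.sum_eq_single k (fun b _ hb => by simp [hb]) (by simp)] at h h'
    exact Prod.ext (by simpa using h) (by simpa using h')
  have hfin : finrank F ((Fin u → K) × (Fin s → F × F)) = finrank F (Fin d ⊕ Fin d → F) := by
    rw [Module.finrank_prod, Module.finrank_pi_fintype F, Module.finrank_pi_fintype F, Module.finrank_pi,
      Fintype.card_sum, Fintype.card_fin, Finset.sum_const, Finset.sum_const, Finset.card_univ, Finset.card_univ,
      Fintype.card_fin, Fintype.card_fin, Module.finrank_prod, Module.finrank_self, smul_eq_mul, smul_eq_mul,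
      hKdim, hd]
    ring
  obtain ⟨e, he⟩ := exists_alt_isometry B hBalt hBsep (stdB d F) (stdB_isAlt d)
    (stdB_nondegenerate d).1 hfin
  let a : (Fin u → K) →ₗ[F] (Fin u → K) := LinearMap.pi fun k =>
    (LinearMap.mulLeft F (μ (cls k))).comp (LinearMap.proj k)
  let x : Module.End F ((Fin u → K) × (Fin s → F × F)) := a.prodMap (LinearMap.id : (Fin s → F × F) →ₗ[F] (Fin s → F × F))
  have hxv : ∀ v, x v = (fun k => μ (cls k) * v.1 k, v.2) := fun v => rfl
  have hxpow : ∀ (j : ℕ) v, (x ^ j) v = (fun k => μ (cls k) ^ j * v.1 k, v.2) := by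
    intro j
    induction j with
    | zero => intro v; simp
    | succ j ih =>
      intro v
      rw [pow_succ', Module.End.mul_apply, ih, hxv]
      simp [pow_succ', mul_assoc]
  have hx : ∀ v, (x ^ r) v = v := fun v => by simp [hxpow, hμr]
  have hxB : ∀ v w, B (x v) (x w) = B v w := fun v w => by
    rw [hB, hB, traceAlt_apply, traceAlt_apply, hxv, hxv]
    congr 1
    refine Finset.sum_congr rfl fun k _ => ?_
    congr 1
    have := hμ0 (cls k)
    show θ * (μ (cls k) * v.1 k * σ (μ (cls k) * w.1 k) - σ (μ (cls k) * v.1 k) * (μ (cls k) * w.1 k)) = _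
    rw [map_mul σ, map_mul σ, hσμ]
    rw [mul_mul_mul_comm, mul_inv_cancel₀ this, one_mul, mul_mul_mul_comm (μ (cls k))⁻¹, inv_mul_cancel₀ this, one_mul]
  have haev : ∀ (P : F[X]) v, Polynomial.aeval x P v =
      (fun k => Polynomial.aeval (μ (cls k)) P * v.1 k, P.eval 1 • v.2) := by
    intro P
    induction P using Polynomial.induction_on' with
    | add P Q hP hQ => intro v; simp [hP, hQ, add_mul, add_smul, Prod.ext_iff, funext_iff]
    | monomial j c =>
      intro v
      rw [Polynomial.aeval_monomial, Module.End.mul_apply, Module.algebraMap_end_apply, hxpow]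
      simp [Polynomial.aeval_monomial, mul_assoc, Algebra.smul_def, Prod.ext_iff, funext_iff]
  -- supports
  have hsupp : ∀ {N : ℕ} (emb : Fin N → Fin u), Function.Injective emb →
      ∃ T : Submodule F ((Fin u → K) × (Fin s → F × F)), Nd B T ∧ finrank F T = N * (2 * b) ∧
        (∀ v, (∀ k, k ∉ Set.range emb → v.1 k = 0) → v.2 = 0 → v ∈ T) ∧
        ∀ v ∈ T, ∀ k, k ∉ Set.range emb → v.1 k = 0 := by
    intro N emb hemb
    let L₀ : (Fin N → K) →ₗ[F] (Fin u → K) :=
      { toFun := fun w => Function.extend emb w 0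
        map_add' := fun w w' => funext fun k => by
          by_cases hk : k ∈ Set.range emb
          · obtain ⟨l, rfl⟩ := hk; simp [hemb.extend_apply]
          · simp [Function.extend_apply' _ _ _ hk]
        map_smul' := fun c w => funext fun k => by
          by_cases hk : k ∈ Set.range emb
          · obtain ⟨l, rfl⟩ := hk; simp [hemb.extend_apply]
          · simp [Function.extend_apply' _ _ _ hk] }
    let L : (Fin N → K) →ₗ[F] (Fin u → K) × (Fin s → F × F) :=
      (LinearMap.inl F (Fin u → K) (Fin s → F × F)).comp L₀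
    have hL : ∀ w, (L w).1 = Function.extend emb w 0 := fun w => rfl
    refine ⟨LinearMap.range L, fun z hz hrad => ?_, ?_, fun v hv hv2 => ?_, ?_⟩
    rotate_left 3
    · rintro _ ⟨w, rfl⟩ k hk
      rw [hL, Function.extend_apply' _ _ _ hk, Pi.zero_apply]
    · obtain ⟨w, rfl⟩ := hz
      refine hBsep _ fun v => ?_
      have hsplit : v = L (v.1 ∘ emb) + (v - L (v.1 ∘ emb)) := by abel
      rw [hsplit, map_add, hrad _ ⟨_, rfl⟩, zero_add, hB, traceAlt_apply]
      rw [show (L w).2 = 0 from rfl, map_zero, LinearMap.zero_apply, add_zero]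
      refine Finset.sum_eq_zero fun k _ => ?_
      simp only [hL, Prod.fst_sub, Pi.sub_apply]
      by_cases hk : k ∈ Set.range emb
      · obtain ⟨l, rfl⟩ := hk
        simp [hemb.extend_apply]
      · simp [Function.extend_apply' _ _ _ hk]
    · have hinj : Function.Injective L := fun w w' h => funext fun l => by
        have := congrFun (congrArg Prod.fst h) (emb l)
        simpa [hL, hemb.extend_apply] using this
      rw [LinearMap.finrank_range_of_inj hinj, Module.finrank_pi_fintype F, Finset.sum_const, Finset.card_univ,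
        Fintype.card_fin, smul_eq_mul, hKdim]
    · refine ⟨v.1 ∘ emb, Prod.ext (funext fun k => ?_) hv2.symm⟩
      rw [hL]
      by_cases hk : k ∈ Set.range emb
      · obtain ⟨l, rfl⟩ := hk
        simp [hemb.extend_apply]
      · simp [Function.extend_apply' _ _ _ hk, hv k hk]
  have hrF : (r : F) ≠ 0 := fun h =>
    hrp ((Nat.prime_dvd_prime_iff_eq Fact.out hr).1 ((CharP.cast_eq_zero_iff F p r).1 h)).symm
  have hgood : ∀ W : Submodule F ((Fin u → K) × (Fin s → F × F)), Inv x W → Ti B W →
      W ⊓ LinearMap.ker (x - (1 : F) • LinearMap.id) = ⊥ → 2 * finrank F W ≤ (u - o + 1) * (2 * b) := by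
    intro W hW hWt hWC
    have hsum : ∀ v ∈ W, v.2 = 0 := fun v hv => by
      have hmem : Polynomial.aeval x (cyclotomic r F) v ∈ W ⊓ LinearMap.ker (x - (1 : F) • LinearMap.id) := by
        refine ⟨hW.aeval _ v hv, ?_⟩
        have h : Polynomial.aeval x ((X - 1 : F[X]) * cyclotomic r F) v = 0 := by
          rw [mul_comm, cyclotomic_prime_mul_X_sub_one, map_sub, map_pow, aeval_X, map_one,
            LinearMap.sub_apply, hx, Module.End.one_apply, sub_self]
        rw [map_mul, Module.End.mul_apply, map_sub, aeval_X, map_one, LinearMap.sub_apply,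
          Module.End.one_apply] at h
        rw [SetLike.mem_coe, LinearMap.mem_ker, LinearMap.sub_apply, one_smul, LinearMap.id_apply]
        exact h
      rw [hWC, Submodule.mem_bot, haev] at hmem
      have h2 := congrArg Prod.snd hmem
      simp only [Prod.snd_zero, Polynomial.eval_one_cyclotomic_prime] at h2
      exact (smul_eq_zero.1 h2).resolve_left hrF
    have hsing : ∀ v ∈ W, ∀ k : Fin u, cls k ≠ c₀ → v.1 k = 0 := by
      intro v hv k hk
      have hko : (k : ℕ) < o := by
        by_contra h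
        exact hk (dif_neg h)
      obtain ⟨T, hT, hTd, hTmem, hTsupp⟩ := hsupp (fun _ : Fin 1 => k) fun _ _ _ => Subsingleton.elim _ _
      set P := ∏ c ∈ Finset.univ.erase (cls k), G c with hP
      have hmem : Polynomial.aeval x P v ∈ W ⊓ T := by
        refine ⟨hW.aeval _ v hv, hTmem _ (fun l hl => ?_) (hsum _ (hW.aeval _ v hv))⟩
        have hne : cls l ≠ cls k := fun he => by
          apply hl
          refine ⟨0, ?_⟩
          by_cases hlo : (l : ℕ) < o
          · simp only [cls, dif_pos hlo, dif_pos hko, Fin.mk.injEq] at he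
            exact Fin.ext he.symm
          · exact absurd ((dif_neg hlo).symm.trans he).symm hk
        rw [haev]
        show Polynomial.aeval (μ (cls l)) P * v.1 l = 0
        rw [hP, map_prod, Finset.prod_eq_zero (Finset.mem_erase.2 ⟨hne, Finset.mem_univ _⟩) (hμG _), zero_mul]
      have hWT : W ⊓ T = ⊥ := by
        refine Submodule.finrank_eq_zero.1 ?_
        have h1 := ti_dim hBalt hT inf_le_right (hWt.mono (inf_le_left : W ⊓ T ≤ W))
        rw [hTd, one_mul] at h1
        obtain ⟨R, hR⟩ := step_pow (r := r) (p := p) (x := x) hrp (one_ne_zero : (1 : F) ≠ 0)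
          (fun v => by rw [hx, one_pow, one_smul])
        have hTi : Inv x (W ⊓ T) := fun z hz => by
          refine ⟨hW z hz.1, hTmem _ (fun l hl => ?_) (hsum _ (hW z hz.1))⟩
          rw [hxv]
          show μ (cls l) * z.1 l = 0
          rw [hTsupp z hz.2 l hl, mul_zero]
        have hdvd := hR.dvd _ hTi (eq_bot_iff.2 (hWC ▸ inf_le_inf_right _ inf_le_left))
        rw [Nat.card_eq_fintype_card, hi] at hdvd
        exact Nat.eq_zero_of_dvd_of_lt hdvd (by omega)
      rw [hWT, Submodule.mem_bot, haev] at hmem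
      have h := congrFun (congrArg Prod.fst hmem) k
      refine (mul_eq_zero.1 h).resolve_left ?_
      rw [hP, map_prod]
      exact Finset.prod_ne_zero_iff.2 fun c hc => hsep _ _ (Finset.mem_erase.1 hc).1.symm
    let emb : Fin (u - o + 1) → Fin u := fun j =>
      ⟨if (j : ℕ) = 0 then 0 else o - 1 + j, by have := j.2; split_ifs <;> omega⟩
    have hemb : Function.Injective emb := fun j j' h => by
      have h' := congrArg Fin.val h
      simp only [emb] at h'
      refine Fin.ext ?_
      split_ifs at h' <;> omega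
    obtain ⟨T, hT, hTd, hTmem, -⟩ := hsupp emb hemb
    rw [← hTd]
    refine ti_dim hBalt hT (fun v hv => hTmem v (fun k hk => hsing v hv k fun he => hk ?_) (hsum v hv)) hWt
    by_cases hko : (k : ℕ) < o
    · simp only [cls, dif_pos hko, c₀, Fin.mk.injEq] at he
      exact ⟨⟨0, by omega⟩, Fin.ext (by simp [emb, he])⟩
    · refine ⟨⟨(k : ℕ) - (o - 1), by have := k.2; omega⟩, Fin.ext ?_⟩
      simp only [emb]
      rw [if_neg (by omega)]
      omega
  let Y : Module.End F (Fin d ⊕ Fin d → F) := e.conj x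
  have hYmem : LinearMap.toMatrix' Y ∈ Matrix.symplecticGroup (Fin d) F := by
    refine (stdB_iff_matrix d _).1 fun v w => ?_
    rw [← Matrix.toLin'_apply, ← Matrix.toLin'_apply, Matrix.toLin'_toMatrix']
    show stdB d F (e (x (e.symm v))) (e (x (e.symm w))) = _
    rw [he, hxB, ← he, e.apply_symm_apply, e.apply_symm_apply]
  have hpowY : ∀ (j : ℕ) v, (Y ^ j) v = e ((x ^ j) (e.symm v)) := by
    intro j
    induction j with
    | zero => simp
    | succ j ih =>
      intro v
      rw [pow_succ', pow_succ', Module.End.mul_apply, Module.End.mul_apply, ih]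
      simp [Y, LinearEquiv.conj_apply]
  have hkerY : LinearMap.ker (Y - (1 : F) • LinearMap.id) =
      (LinearMap.ker (x - (1 : F) • LinearMap.id)).map (e : _ →ₗ[F] _) := by
    ext v
    rw [Submodule.mem_map_equiv, LinearMap.mem_ker, LinearMap.mem_ker, ← e.symm.map_eq_zero_iff]
    simp [Y, LinearEquiv.conj_apply]
  refine ⟨⟨_, hYmem⟩, fun v => ?_, ?_, fun W hW hWt hWC => ?_⟩
  · rw [Matrix.toLin'_toMatrix', hpowY, hx, e.apply_symm_apply]
  · rw [Matrix.toLin'_toMatrix', hkerY, LinearEquiv.finrank_map_eq]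
    have hker : LinearMap.ker (x - (1 : F) • LinearMap.id) =
        LinearMap.range (LinearMap.inr F (Fin u → K) (Fin s → F × F)) := by
      ext ⟨v, w⟩
      constructor
      · intro h
        rw [LinearMap.mem_ker, LinearMap.sub_apply, sub_eq_zero] at h
        have h1 : (fun k => μ (cls k) * v k) = v := by simpa [hxv] using congrArg Prod.fst h
        refine ⟨w, Prod.ext ?_ rfl⟩
        funext k
        by_contra hv
        exact hμ1 (cls k) (mul_right_cancel₀ (b := v k) (fun h0 => hv h0.symm)
          (by rw [one_mul]; exact congrFun h1 k))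
      · rintro ⟨w', hw⟩
        rw [← hw, LinearMap.mem_ker, LinearMap.sub_apply, sub_eq_zero]
        simp [hxv]
        rfl
    rw [hker, LinearMap.finrank_range_of_inj LinearMap.inr_injective,
      Module.finrank_pi_fintype F, Finset.sum_const, Finset.card_univ, Fintype.card_fin,
      Module.finrank_prod, Module.finrank_self, smul_eq_mul, mul_comm]
  · rw [Matrix.toLin'_toMatrix'] at hW hWC
    rw [← LinearEquiv.finrank_map_eq e.symm W]
    refine hgood _ (fun z hz => ?_) (fun a ha c hc => ?_) ?_
    · obtain ⟨w, hw, rfl⟩ := hz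
      refine ⟨Y w, hW w hw, ?_⟩
      simp [Y, LinearEquiv.conj_apply]
    · obtain ⟨w, hw, rfl⟩ := ha
      obtain ⟨w', hw', rfl⟩ := hc
      rw [← he]
      simp only [LinearEquiv.coe_coe, LinearEquiv.apply_symm_apply]
      exact hWt w hw w' hw'
    · rw [eq_bot_iff]
      rintro z ⟨⟨w, hw, rfl⟩, hz⟩
      have hw0 : w = 0 := (Submodule.mem_bot F).1 (hWC ▸ ⟨hw, by
        rw [hkerY, SetLike.mem_coe, Submodule.mem_map_equiv]
        exact hz⟩)
      rw [hw0, map_zero]
      exact Submodule.zero_mem _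

end Cfsg.Agent.Lib.Elusive.SympTI
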