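import Cfsg.Agent.Lib.Elusive.Semisimple
import Cfsg.Agent.Lib.Elusive.SLConj
import Cfsg.Agent.Lib.Elusive.SympFieldModels
import Cfsg.Agent.Lib.Forms.Alternating
import Cfsg.Agent.Lib.Forms.SympStd

/-!
Invariant non-degenerate subspaces of semisimple isometries of odd prime order of an alternating form.
-/

set_option autoImplicit false

namespace Cfsg.Agent.Lib.Elusive.SympStep

open Module Polynomial Cfsg.Agent.Lib.Forms

universe u

variable {F : Type u} [Field F] {V : Type u} [AddCommGroup V] [Module F V] [FiniteDimensional F V]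

/-- `B` is non-degenerate on `W`. -/
def Nd (B : LinearMap.BilinForm F V) (W : Submodule F V) : Prop :=
  ∀ u ∈ W, (∀ v ∈ W, B u v = 0) → u = 0

variable {B : LinearMap.BilinForm F V}

theorem Nd.iff {W : Submodule F V} : Nd B W ↔ ∀ u ∈ W, u ≠ 0 → ∃ v ∈ W, B u v ≠ 0 := by
  constructor
  · intro h u hu hu0
    by_contra hcon
    push Not at hcon
    exact hu0 (h u hu hcon)
  · intro h u hu hall
    by_contra hu0
    obtain ⟨v, hv, hne⟩ := h u hu hu0
    exact hne (hall v hv)

theorem nd_bot : Nd B (⊥ : Submodule F V) := fun u hu _ => (Submodule.mem_bot F).1 hu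

theorem nd_top (hB : B.SeparatingLeft) : Nd B (⊤ : Submodule F V) := fun u _ h => hB u fun v => h v trivial

/-- The part of `W` orthogonal to `U`. -/
def perpIn (B : LinearMap.BilinForm F V) (U W : Submodule F V) : Submodule F V := W ⊓ B.orthogonal U

theorem mem_perpIn {U W : Submodule F V} {v : V} : v ∈ perpIn B U W ↔ v ∈ W ∧ ∀ u ∈ U, B u v = 0 := by
  rw [perpIn, Submodule.mem_inf, LinearMap.BilinForm.mem_orthogonal_iff]

theorem perpIn_dim (U W : Submodule F V) :
    finrank F W ≤ finrank F (perpIn B U W) + finrank F U := by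
  let L : W →ₗ[F] Module.Dual F U :=
    { toFun := fun w => (B.flip (w : V)).comp U.subtype
      map_add' := fun a b => LinearMap.ext fun u => map_add (B (u : V)) (a : V) (b : V)
      map_smul' := fun c a => LinearMap.ext fun u => map_smul (B (u : V)) c (a : V) }
  have h := LinearMap.finrank_range_add_finrank_ker L
  have h1 := Submodule.finrank_le (LinearMap.range L)
  rw [Subspace.dual_finrank_eq] at h1
  have hker : (LinearMap.ker L).map W.subtype ≤ perpIn B U W := by
    rintro _ ⟨w, hw, rfl⟩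
    exact mem_perpIn.2 ⟨w.2, fun u hu => LinearMap.congr_fun (LinearMap.mem_ker.1 hw) ⟨u, hu⟩⟩
  have h2 := Submodule.finrank_mono hker
  rw [Submodule.finrank_map_subtype_eq] at h2
  omega

/-- Orthogonal sums of non-degenerate spaces. -/
theorem nd_sup (hA : B.IsAlt) {U W : Submodule F V} (hU : Nd B U) (hW : Nd B W)
    (ho : ∀ u ∈ U, ∀ w ∈ W, B u w = 0) : Nd B (U ⊔ W) := by
  intro z hz h
  obtain ⟨u, hu, w, hw, rfl⟩ := Submodule.mem_sup.1 hz
  have hu0 : u = 0 := hU u hu fun v hv => by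
    have := h v (Submodule.mem_sup_left hv)
    rwa [map_add, LinearMap.add_apply, hA.isRefl v w (ho v hv w hw), add_zero] at this
  rw [hu0, zero_add]
  refine hW w hw fun v hv => ?_
  have := h v (Submodule.mem_sup_right hv)
  rwa [hu0, zero_add] at this

/-- Orthogonal splitting. -/
theorem nd_split (hA : B.IsAlt) {U W : Submodule F V} (hU : Nd B U) (hW : Nd B W) (hUW : U ≤ W) :
    Nd B (perpIn B U W) ∧ U ⊔ perpIn B U W = W ∧
      finrank F U + finrank F (perpIn B U W) = finrank F W := by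
  have hinf : U ⊓ perpIn B U W = ⊥ := eq_bot_iff.2 fun z ⟨hz, hz'⟩ =>
    hU z hz fun v hv => hA.isRefl v z ((mem_perpIn.1 hz').2 v hv)
  have h1 := Submodule.finrank_sup_add_finrank_inf_eq U (perpIn B U W)
  rw [hinf, finrank_bot] at h1
  have hle : U ⊔ perpIn B U W ≤ W := sup_le hUW inf_le_left
  have h2 := Submodule.finrank_mono hle
  have h3 := perpIn_dim (B := B) U W
  have hsup : U ⊔ perpIn B U W = W :=
    Submodule.eq_of_le_of_finrank_le hle (by omega)
  refine ⟨fun z hz h => ?_, hsup, by omega⟩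
  refine hW z (mem_perpIn.1 hz).1 fun v hv => ?_
  rw [← hsup] at hv
  obtain ⟨a, ha, b, hb, rfl⟩ := Submodule.mem_sup.1 hv
  rw [map_add, h b hb, hA.isRefl a z ((mem_perpIn.1 hz).2 a ha), add_zero]

/-- Non-degenerate alternating spaces have even dimension. -/
theorem nd_even (hA : B.IsAlt) {W : Submodule F V} (hW : Nd B W) : Even (finrank F W) := by
  obtain ⟨m, k, b, -, -, -, h4⟩ := exists_altBasis (B.compl₁₂ W.subtype W.subtype) (fun v => hA (v : V))
  obtain rfl : k = 0 := by
    by_contra hk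
    refine b.ne_zero (Sum.inr ⟨0, Nat.pos_of_ne_zero hk⟩) (Subtype.ext ?_)
    exact hW _ (b _).2 fun v hv => h4 _ ⟨v, hv⟩
  exact ⟨m, by rw [finrank_eq_card_basis b]; simp⟩

/-- Non-degenerate subspaces of every even dimension. -/
theorem exists_nd_sub (hA : B.IsAlt) : ∀ (s : ℕ) {W : Submodule F V}, Nd B W → 2 * s ≤ finrank F W →
    ∃ U ≤ W, Nd B U ∧ finrank F U = 2 * s := by
  intro s
  induction s with
  | zero => exact fun {W} _ _ => ⟨⊥, bot_le, nd_bot, by simp⟩
  | succ s ih =>
    intro W hW hs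
    obtain ⟨U, hUW, hU, hUd⟩ := ih hW (by omega)
    obtain ⟨hP, -, hdim⟩ := nd_split hA hU hW hUW
    obtain ⟨u, hu, hu0⟩ := Submodule.exists_mem_ne_zero_of_ne_bot (p := perpIn B U W) fun h => by
      rw [h, finrank_bot] at hdim; omega
    obtain ⟨v, hv, huv⟩ := Nd.iff.1 hP u hu hu0
    let L : (Fin 2 → V) := ![u, v]
    have hT : Nd B (Submodule.span F (Set.range L)) ∧ finrank F (Submodule.span F (Set.range L)) = 2 := by
      have hli : LinearIndependent F L := by
        rw [Fintype.linearIndependent_iff]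
        intro c hc
        rw [Fin.sum_univ_two] at hc
        have h0 := congrArg (fun z => B z v) hc
        have h1 := congrArg (fun z => B u z) hc
        simp [L, hA.self_eq_zero, huv] at h0 h1
        intro i
        fin_cases i <;> assumption
      refine ⟨fun z hz h => ?_, by rw [finrank_span_eq_card hli]; rfl⟩
      obtain ⟨c, rfl⟩ := Submodule.mem_span_range_iff_exists_fun (R := F) |>.1 hz
      have h0 := h v (Submodule.subset_span ⟨1, rfl⟩)
      have h1 := h u (Submodule.subset_span ⟨0, rfl⟩)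
      have huv' : B v u ≠ 0 := fun h => huv (hA.isRefl v u h)
      simp [Fin.sum_univ_two, L, hA.self_eq_zero, huv, huv'] at h0 h1
      simp [Fin.sum_univ_two, L, h0, h1]
    have hTP : Submodule.span F (Set.range L) ≤ perpIn B U W := by
      rw [Submodule.span_le]
      rintro _ ⟨i, rfl⟩
      fin_cases i <;> assumption
    refine ⟨U ⊔ Submodule.span F (Set.range L), sup_le hUW (hTP.trans inf_le_left),
      nd_sup hA hU hT.1 fun a ha b hb => (mem_perpIn.1 (hTP hb)).2 a ha, ?_⟩
    have h5 := Submodule.finrank_sup_add_finrank_inf_eq U (Submodule.span F (Set.range L))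
    have hinf : U ⊓ Submodule.span F (Set.range L) = ⊥ := eq_bot_iff.2 fun z ⟨hz, hz'⟩ =>
      hU z hz fun a ha => hA.isRefl a z ((mem_perpIn.1 (hTP hz')).2 a ha)
    rw [hinf, finrank_bot, hT.2] at h5
    omega

variable [Fintype F] {r : ℕ} [Fact r.Prime] {p : ℕ} [Fact p.Prime] [CharP F p]

/-- The data of a semisimple isometry of odd prime order. -/
structure Setting (B : LinearMap.BilinForm F V) (y : Module.End F V) (r p : ℕ) : Prop where
  alt : B.IsAlt
  sep : B.SeparatingLeft
  iso : ∀ u v, B (y u) (y v) = B u v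
  pow : ∀ v, (y ^ r) v = v
  ne : r ≠ p
  ne_two : r ≠ 2

/-- The fixed space. -/
abbrev fixedSpace (y : Module.End F V) : Submodule F V := LinearMap.ker (y - (1 : F) • LinearMap.id)

variable {y : Module.End F V}

theorem mem_fixed {v : V} : v ∈ fixedSpace y ↔ y v = v := by simp [sub_eq_zero]

theorem fixed_inv : ∀ W ≤ fixedSpace y, Inv y W := fun W hW v hv => by
  rw [mem_fixed.1 (hW hv)]; exact hv

theorem perp_inv (S : Setting B y r p) {U W : Submodule F V} (hU : Inv y U) (hW : Inv y W) :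
    Inv y (perpIn B U W) := fun v hv => by
  rw [mem_perpIn] at hv ⊢
  refine ⟨hW v hv.1, fun u hu => ?_⟩
  have hu' : y ((y ^ (r - 1)) u) = u := by
    rw [← Module.End.mul_apply, ← pow_succ', Nat.sub_add_cancel (Fact.out : r.Prime).one_le, S.pow]
  rw [← hu', S.iso]
  exact hv.2 _ (Inv.pow hU _ u hu)

/-- The fixed space is orthogonal to the fixed-point-free part. -/
theorem fixed_orth (S : Setting B y r p) {W : Submodule F V} (hW : Inv y W) (hWC : W ⊓ fixedSpace y = ⊥)
    {u v : V} (hu : u ∈ fixedSpace y) (hv : v ∈ W) : B u v = 0 := by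
  have hinj : Function.Injective ((y - 1).restrict (p := W) (q := W) fun z hz => W.sub_mem (hW z hz) hz) := by
    refine (injective_iff_map_eq_zero _).2 fun z hz => Subtype.ext ?_
    have h0 : y (z : V) - (z : V) = 0 := congrArg Subtype.val hz
    exact (Submodule.mem_bot F).1 (hWC ▸ ⟨z.2, mem_fixed.2 (sub_eq_zero.1 h0)⟩)
  obtain ⟨⟨w, hw⟩, hw'⟩ := LinearMap.injective_iff_surjective.1 hinj ⟨v, hv⟩
  have hv' : y w - w = v := congrArg Subtype.val hw'
  rw [← hv', map_sub]
  conv_lhs => arg 1; rw [← mem_fixed.1 hu, S.iso]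
  rw [sub_self]

theorem exists_step (S : Setting B y r p) :
    ∃ R, Step y (fixedSpace y) R (orderOf (Fintype.card F : ZMod r)) := by
  obtain ⟨R, h⟩ := step_pow (r := r) (x := y) S.ne (one_ne_zero : (1 : F) ≠ 0)
    (fun v => by rw [S.pow, one_pow, one_smul])
  rw [Nat.card_eq_fintype_card] at h
  exact ⟨R, h⟩

theorem order_pos (S : Setting B y r p) : 0 < orderOf (Fintype.card F : ZMod r) :=
  (exists_step S).choose_spec.pos

/-- A killed vector in a fixed-point-free invariant subspace. -/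
theorem exists_killed (S : Setting B y r p) {W : Submodule F V} (hW : Inv y W)
    (hWC : W ⊓ fixedSpace y = ⊥) (hne : W ≠ ⊥) :
    ∃ g : F[X], g.Monic ∧ g.natDegree = orderOf (Fintype.card F : ZMod r) ∧
      ∃ w ∈ W, w ≠ 0 ∧ Polynomial.aeval y g w = 0 := by
  classical
  have hfix : ∀ v ∈ W, y v = v → v = 0 := fun v hv h =>
    (Submodule.mem_bot F).1 (hWC ▸ ⟨hv, mem_fixed.2 h⟩)
  obtain ⟨v, hv, hv0⟩ := Submodule.exists_mem_ne_zero_of_ne_bot hne
  have hcyc : Polynomial.aeval y (cyclotomic r F) v = 0 := by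
    refine hfix _ (hW.aeval _ v hv) ?_
    have h : Polynomial.aeval y ((X - 1 : F[X]) * cyclotomic r F) v = 0 := by
      rw [mul_comm, cyclotomic_prime_mul_X_sub_one, map_sub, map_pow, aeval_X, map_one,
        LinearMap.sub_apply, S.pow, Module.End.one_apply, sub_self]
    rw [map_mul, Module.End.mul_apply, map_sub, aeval_X, map_one, LinearMap.sub_apply,
      Module.End.one_apply, sub_eq_zero] at h
    exact h
  obtain ⟨u, hu⟩ := UniqueFactorizationMonoid.prod_normalizedFactors
    (cyclotomic_ne_zero r F)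
  have hprod : Polynomial.aeval y (UniqueFactorizationMonoid.normalizedFactors
      (cyclotomic r F)).prod v = 0 := by
    have h : Polynomial.aeval y (((u⁻¹ : (F[X])ˣ) : F[X]) * cyclotomic r F) v = 0 := by
      rw [map_mul, Module.End.mul_apply, hcyc, map_zero]
    rwa [← hu, mul_comm, mul_assoc, Units.mul_inv, mul_one] at h
  have key : ∀ s : Multiset F[X], ∀ v ∈ W, v ≠ 0 → Polynomial.aeval y s.prod v = 0 →
      ∃ g ∈ s, ∃ w ∈ W, w ≠ 0 ∧ Polynomial.aeval y g w = 0 := by
    intro s
    induction s using Multiset.induction with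
    | empty => intro v _ hv0 h; simp at h; exact absurd h hv0
    | cons g s ih =>
      intro v hv hv0 h
      rw [Multiset.prod_cons, map_mul, Module.End.mul_apply] at h
      by_cases hw : Polynomial.aeval y s.prod v = 0
      · obtain ⟨g', hg', rest⟩ := ih v hv hv0 hw
        exact ⟨g', Multiset.mem_cons_of_mem hg', rest⟩
      · exact ⟨g, Multiset.mem_cons_self g s, _, hW.aeval _ v hv, hw, h⟩
  obtain ⟨g, hg, w, hw, hw0, hgw⟩ := key _ v hv hv0 hprod
  obtain ⟨hgm, -, hdeg⟩ := factor_cyclotomic S.ne hg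
  exact ⟨g, hgm, by rw [hdeg, Nat.card_eq_fintype_card], w, hw, hw0, hgw⟩

/-- Some cyclic piece is non-degenerate when the order of `q` is even. -/
theorem exists_cyclic_nd (S : Setting B y r p) (hi : Even (orderOf (Fintype.card F : ZMod r)))
    {W : Submodule F V} (hW : Inv y W) (hnd : Nd B W) (hWC : W ⊓ fixedSpace y = ⊥) (hne : W ≠ ⊥) :
    ∃ U ≤ W, Inv y U ∧ Nd B U ∧ finrank F U = orderOf (Fintype.card F : ZMod r) := by
  obtain ⟨R, h⟩ := exists_step S
  set i := orderOf (Fintype.card F : ZMod r) with hidef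
  obtain ⟨g, hgm, hgd, w₀, hw₀, hw₀0, hgw₀⟩ := exists_killed S hW hWC hne
  let K := W ⊓ LinearMap.ker (Polynomial.aeval y g)
  have hKinv : Inv y K := fun v hv => ⟨hW v hv.1, by
    rw [SetLike.mem_coe, LinearMap.mem_ker]
    have hc : Polynomial.aeval y g * y = y * Polynomial.aeval y g := by
      have := Polynomial.aeval_X (R := F) y
      calc Polynomial.aeval y g * y = Polynomial.aeval y (g * X) := by rw [map_mul, this]
        _ = Polynomial.aeval y (X * g) := by rw [mul_comm]
        _ = _ := by rw [map_mul, this]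
    rw [← Module.End.mul_apply, hc, Module.End.mul_apply, LinearMap.mem_ker.1 hv.2, map_zero]⟩
  by_cases hex : ∃ v ∈ K, B v (y v) ≠ 0
  · obtain ⟨v, hv, hvy⟩ := hex
    have hg1 : g ≠ 1 := fun h1 => by
      have h0 : 0 < i := order_pos S
      rw [h1, natDegree_one] at hgd
      omega
    obtain ⟨U, hUi, hUW, hvU, hUd⟩ := exists_cyclic hW hgm hv.1 (LinearMap.mem_ker.1 hv.2)
    have hUC : U ⊓ fixedSpace y = ⊥ := eq_bot_iff.2 (hWC ▸ inf_le_inf_right _ hUW)
    have hvU' := hvU hg1
    have hv0 : v ≠ 0 := fun h0 => hvy (by rw [h0, map_zero, LinearMap.zero_apply])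
    have hUd' : finrank F U = i := le_antisymm (hUd.trans_eq hgd) (Nat.le_of_dvd (Nat.pos_of_ne_zero fun h0 => hv0 (by
      rwa [Submodule.finrank_eq_zero.1 h0, Submodule.mem_bot] at hvU')) (h.dvd U hUi hUC))
    refine ⟨U, hUW, hUi, fun z hz hrad => ?_, hUd'⟩
    have hT : perpIn B U U = ⊥ := by
      have hlt : perpIn B U U < U := lt_of_le_of_ne inf_le_left fun heq => hvy (by
        have := (mem_perpIn.1 (heq.symm ▸ hUi v hvU' : y v ∈ perpIn B U U)).2 v hvU'
        exact this)
      have hd := h.dvd _ (perp_inv S hUi hUi) (eq_bot_iff.2 (hUC ▸ inf_le_inf_right _ inf_le_left))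
      have := Submodule.finrank_lt_finrank_of_lt hlt
      exact Submodule.finrank_eq_zero.1 (Nat.eq_zero_of_dvd_of_lt hd (by omega))
    refine (Submodule.mem_bot F).1 (hT ▸ mem_perpIn.2 ⟨hz, fun u hu => ?_⟩)
    exact S.alt.isRefl z u (hrad u hu)
  -- otherwise the kernel is orthogonal to everything
  exfalso
  push Not at hex
  obtain ⟨b, hb⟩ := hi.two_dvd
  have hqb : (Fintype.card F : ZMod r) ^ b = -1 := by
    refine (sq_eq_one_iff.1 ?_).resolve_left ?_
    · rw [← pow_mul, mul_comm, ← hb, hidef, pow_orderOf_eq_one]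
    · intro h1
      have hb0 : 0 < b := by have := order_pos S; omega
      have := Nat.le_of_dvd hb0 (orderOf_dvd_of_pow_eq_one h1)
      omega
  set Q := Fintype.card F ^ b with hQdef
  have hQ0 : Q ≠ 0 := (pow_pos Fintype.card_pos b).ne'
  have hyinv : ∀ v, (y ^ Q) (y v) = v := fun v => by
    obtain ⟨c, hc⟩ : r ∣ Fintype.card F ^ b + 1 := by
      rw [← ZMod.natCast_eq_zero_iff]; push_cast; rw [hqb, neg_add_cancel]
    rw [← Module.End.mul_apply, ← pow_succ, hc, pow_mul,
      show y ^ r = 1 from LinearMap.ext S.pow, one_pow, Module.End.one_apply]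
  have hadj : ∀ (j : ℕ) u v, B u ((y ^ j) v) = B (((y ^ Q) ^ j) u) v := by
    intro j
    induction j with
    | zero => intro u v; rfl
    | succ j ih =>
      intro u v
      have e : B u (y ((y ^ j) v)) = B ((y ^ Q) u) ((y ^ j) v) := by
        conv_lhs => rw [show u = y ((y ^ Q) u) by
          rw [← Module.End.mul_apply, ← pow_succ', pow_succ, Module.End.mul_apply, hyinv], S.iso]
      conv_lhs => rw [pow_succ', Module.End.mul_apply, e, ih, ← Module.End.mul_apply, ← pow_succ]
  have hy2 : ∀ v ∈ K, y (y v) = v → v = 0 := fun v hv h2 => by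
    have hev : ∀ j, (y ^ (2 * j)) v = v := by
      intro j
      induction j with
      | zero => simp
      | succ j ih => rw [Nat.mul_succ, pow_add, Module.End.mul_apply, pow_two, Module.End.mul_apply, h2, ih]
    obtain ⟨c, hc⟩ := (Fact.out : r.Prime).odd_of_ne_two S.ne_two
    have h1 := S.pow v
    rw [hc, pow_succ', Module.End.mul_apply, hev] at h1
    exact (Submodule.mem_bot F).1 (hWC ▸ ⟨hv.1, mem_fixed.2 h1⟩)
  have hneg : ∀ u v, B v u = -B u v := fun u v => (S.alt.neg_eq u v).symm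
  have hKK : ∀ u ∈ K, ∀ v ∈ K, B u v = 0 := by
    intro u hu
    let D : Module.End F V := y - y ^ Q
    have hDK : ∀ w ∈ K, D w ∈ K := fun w hw => K.sub_mem (hKinv w hw) (Inv.pow hKinv Q w hw)
    have hinj : Function.Injective (D.restrict (p := K) (q := K) hDK) := by
      refine (injective_iff_map_eq_zero _).2 fun z hz => Subtype.ext (hy2 _ z.2 ?_)
      have h0 : y (z : V) - (y ^ Q) (z : V) = 0 := congrArg Subtype.val hz
      rw [sub_eq_zero] at h0
      conv_lhs => rw [h0, ← Module.End.mul_apply, ← pow_succ']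
      rw [pow_succ, Module.End.mul_apply, hyinv]
    intro v hv
    obtain ⟨⟨w, hw⟩, hw'⟩ := LinearMap.injective_iff_surjective.1 hinj ⟨v, hv⟩
    have hv' : y w - (y ^ Q) w = v := congrArg Subtype.val hw'
    have hpol := hex (u + w) (K.add_mem hu hw)
    simp only [map_add, LinearMap.add_apply, hex u hu, hex w hw, zero_add, add_zero] at hpol
    have e : B ((y ^ Q) w) u = B w (y u) := by
      have := (hadj 1 w u).symm
      simpa using this
    rw [← hv', map_sub, hneg ((y ^ Q) w) u, e]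
    linear_combination hpol
  obtain ⟨K', hK'i, hK'W, hKs, hKd⟩ := h.compl_in hKinv hW inf_le_left
  have hKK' : K ⊓ K' = ⊥ := by
    have := Submodule.finrank_sup_add_finrank_inf_eq K K'
    rw [hKs] at this
    exact Submodule.finrank_eq_zero.1 (by omega)
  have hinj : Function.Injective ((Polynomial.aeval y g).restrict (p := K') (q := K') fun z hz => hK'i.aeval g z hz) := by
    refine (injective_iff_map_eq_zero _).2 fun z hz => Subtype.ext ?_
    exact (Submodule.mem_bot F).1 (hKK' ▸ ⟨⟨hK'W z.2, LinearMap.mem_ker.2 (congrArg Subtype.val hz)⟩, z.2⟩)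
  refine hw₀0 (hnd w₀ hw₀ fun v hv => ?_)
  rw [← hKs] at hv
  obtain ⟨v₁, hv₁, v₂, hv₂, rfl⟩ := Submodule.mem_sup.1 hv
  obtain ⟨⟨w₂, hw₂⟩, hw₂'⟩ := LinearMap.injective_iff_surjective.1 hinj ⟨v₂, hv₂⟩
  have hw₂'' : Polynomial.aeval y g w₂ = v₂ := congrArg Subtype.val hw₂'
  have hadj' : ∀ (h : F[X]) u w, B u (Polynomial.aeval y h w) = B (Polynomial.aeval (y ^ Q) h u) w := by
    intro h
    induction h using Polynomial.induction_on' with
    | add p q hp hq => intro u w; simp only [map_add, LinearMap.add_apply, hp, hq]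
    | monomial j c =>
      intro u w
      simp only [Polynomial.aeval_monomial, Module.End.mul_apply, Module.algebraMap_end_apply,
        map_smul, LinearMap.smul_apply, hadj]
  rw [map_add, hKK w₀ ⟨hw₀, LinearMap.mem_ker.2 hgw₀⟩ v₁ hv₁, zero_add, ← hw₂'', hadj',
    ← Polynomial.expand_aeval, hQdef, SympField.expand_pow_card, map_pow]
  obtain ⟨k, hk⟩ := Nat.exists_eq_succ_of_ne_zero hQ0
  rw [← hQdef, hk, pow_succ, Module.End.mul_apply, hgw₀, map_zero, map_zero, LinearMap.zero_apply]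

/-- The minimal dimension `c` of a non-degenerate fixed-point-free piece. -/
def cOf (i : ℕ) : ℕ := if Even i then i else 2 * i

theorem cOf_even (i : ℕ) : Even (cOf i) := by
  unfold cOf
  split_ifs with h
  · exact h
  · exact even_two_mul i

theorem exists_piece (S : Setting B y r p) {W : Submodule F V} (hW : Inv y W) (hnd : Nd B W)
    (hWC : W ⊓ fixedSpace y = ⊥) (hne : W ≠ ⊥) :
    ∃ U ≤ W, Inv y U ∧ Nd B U ∧ finrank F U = cOf (orderOf (Fintype.card F : ZMod r)) := by
  obtain ⟨R, h⟩ := exists_step S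
  by_cases hi : Even (orderOf (Fintype.card F : ZMod r))
  · rw [cOf, if_pos hi]; exact exists_cyclic_nd S hi hW hnd hWC hne
  rw [cOf, if_neg hi]
  set i := orderOf (Fintype.card F : ZMod r)
  obtain ⟨U, hU, hUW, hUd⟩ := h.small W hW hWC hne
  have hUC : U ⊓ fixedSpace y = ⊥ := eq_bot_iff.2 (hWC ▸ inf_le_inf_right _ hUW)
  have hTI : perpIn B U U = U := by
    have hd := h.dvd _ (perp_inv S hU hU) (eq_bot_iff.2 (hUC ▸ inf_le_inf_right _ inf_le_left))
    have hle := Submodule.finrank_mono (inf_le_left : perpIn B U U ≤ U)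
    rcases Nat.eq_zero_or_pos (finrank F (perpIn B U U)) with h0 | h0
    · refine absurd (hUd ▸ nd_even S.alt (fun z hz hrad => ?_)) hi
      exact (Submodule.mem_bot F).1 (Submodule.finrank_eq_zero.1 h0 ▸
        mem_perpIn.2 ⟨hz, fun u hu => S.alt.isRefl z u (hrad u hu)⟩)
    · exact Submodule.eq_of_le_of_finrank_le inf_le_left (hUd ▸ Nat.le_of_dvd h0 hd)
  have hUP : U ≤ perpIn B U W := fun z hz =>
    mem_perpIn.2 ⟨hUW hz, (mem_perpIn.1 (hTI.symm ▸ hz : z ∈ perpIn B U U)).2⟩
  have hP := perp_inv S hU hW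
  obtain ⟨U', hU', hU'W, hsup, hdim⟩ := h.compl_in hP hW inf_le_left
  have hinf : perpIn B U W ⊓ U' = ⊥ := by
    have := Submodule.finrank_sup_add_finrank_inf_eq (perpIn B U W) U'
    rw [hsup] at this
    exact Submodule.finrank_eq_zero.1 (by omega)
  have hU'd : finrank F U' = i := by
    have h1 := perpIn_dim (B := B) U W
    refine le_antisymm (by omega) (Nat.le_of_dvd (Nat.pos_of_ne_zero fun h0 => ?_)
      (h.dvd U' hU' (eq_bot_iff.2 (hWC ▸ inf_le_inf_right _ hU'W))))
    obtain ⟨u, hu, hu0⟩ := Submodule.exists_mem_ne_zero_of_ne_bot (p := U) fun hb => by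
      rw [hb, finrank_bot] at hUd; have := h.pos; omega
    refine hu0 (hnd u (hUW hu) fun v hv => ?_)
    rw [← hsup, Submodule.finrank_eq_zero.1 h0, sup_bot_eq] at hv
    exact (mem_perpIn.1 hv).2 u hu
  refine ⟨U ⊔ U', sup_le hUW hU'W, hU.sup hU', fun z hz hrad => ?_, ?_⟩
  · obtain ⟨a, ha, b, hb, rfl⟩ := Submodule.mem_sup.1 hz
    have hb0 : b = 0 := (Submodule.mem_bot F).1 (hinf ▸ ⟨mem_perpIn.2 ⟨hU'W hb, fun u hu => by
      have := hrad u (Submodule.mem_sup_left hu)
      rw [map_add, LinearMap.add_apply, (mem_perpIn.1 (hUP hu)).2 a ha, zero_add] at this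
      exact S.alt.isRefl b u this⟩, hb⟩)
    subst hb0
    rw [add_zero] at hrad ⊢
    refine hnd a (hUW ha) fun v hv => ?_
    rw [← hsup] at hv
    obtain ⟨v₁, hv₁, v₂, hv₂, rfl⟩ := Submodule.mem_sup.1 hv
    rw [map_add, (mem_perpIn.1 hv₁).2 a ha, hrad v₂ (Submodule.mem_sup_right hv₂), add_zero]
  · have h5 := Submodule.finrank_sup_add_finrank_inf_eq U U'
    have : U ⊓ U' = ⊥ := eq_bot_iff.2 (hinf ▸ inf_le_inf_right _ hUP)
    rw [this, finrank_bot, hUd, hU'd] at h5
    omega

theorem cOf_pos (S : Setting B y r p) : 0 < cOf (orderOf (Fintype.card F : ZMod r)) := by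
  have := order_pos S
  unfold cOf
  split_ifs <;> omega

/-- Fixed-point-free non-degenerate invariant spaces. -/
theorem exists_take (S : Setting B y r p) : ∀ (u : ℕ) {W : Submodule F V}, Inv y W → Nd B W →
    W ⊓ fixedSpace y = ⊥ → u * cOf (orderOf (Fintype.card F : ZMod r)) ≤ finrank F W →
    ∃ U ≤ W, Inv y U ∧ Nd B U ∧ finrank F U = u * cOf (orderOf (Fintype.card F : ZMod r)) := by
  intro u
  induction u with
  | zero => exact fun {W} _ _ _ _ => ⟨⊥, bot_le, fun v hv => by simp [(Submodule.mem_bot F).1 hv], nd_bot, by simp⟩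
  | succ u ih =>
    intro W hW hnd hWC hle
    rw [Nat.succ_mul] at hle ⊢
    obtain ⟨U, hUW, hU, hUn, hUd⟩ := ih hW hnd hWC (by omega)
    obtain ⟨hP, -, hdim⟩ := nd_split S.alt hUn hnd hUW
    obtain ⟨T, hTP, hT, hTn, hTd⟩ := exists_piece S (perp_inv S hU hW) hP
      (eq_bot_iff.2 (hWC ▸ inf_le_inf_right _ inf_le_left)) fun h => by
        rw [h, finrank_bot] at hdim; have := cOf_pos S; omega
    refine ⟨U ⊔ T, sup_le hUW (hTP.trans inf_le_left), hU.sup hT,
      nd_sup S.alt hUn hTn fun a ha b hb => (mem_perpIn.1 (hTP hb)).2 a ha, ?_⟩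
    have h5 := Submodule.finrank_sup_add_finrank_inf_eq U T
    have : U ⊓ T = ⊥ := eq_bot_iff.2 fun z ⟨hz, hz'⟩ =>
      hUn z hz fun a ha => S.alt.isRefl a z ((mem_perpIn.1 (hTP hz')).2 a ha)
    rw [this, finrank_bot, hUd, hTd] at h5
    omega

theorem nd_dvd (S : Setting B y r p) {W : Submodule F V} (hW : Inv y W) (hnd : Nd B W)
    (hWC : W ⊓ fixedSpace y = ⊥) : cOf (orderOf (Fintype.card F : ZMod r)) ∣ finrank F W := by
  set c := cOf (orderOf (Fintype.card F : ZMod r))
  have hc : 0 < c := cOf_pos S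
  obtain ⟨U, hUW, hU, hUn, hUd⟩ := exists_take S (finrank F W / c) hW hnd hWC (Nat.div_mul_le_self _ _)
  obtain ⟨hP, -, hdim⟩ := nd_split S.alt hUn hnd hUW
  by_cases h : perpIn B U W = ⊥
  · rw [h, finrank_bot, add_zero, hUd] at hdim
    exact Dvd.intro_left _ hdim
  obtain ⟨T, hTP, -, -, hTd⟩ := exists_piece S (perp_inv S hU hW) hP
    (eq_bot_iff.2 (hWC ▸ inf_le_inf_right _ inf_le_left)) h
  have := Submodule.finrank_mono hTP
  have h2 := Nat.div_add_mod (finrank F W) c
  have h3 := Nat.mod_lt (finrank F W) hc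
  rw [mul_comm] at h2
  change finrank F U = finrank F W / c * c at hUd
  change finrank F T = c at hTd
  rw [hUd] at hdim
  omega

/-- A non-degenerate invariant space splits into fixed and fixed-point-free parts. -/
theorem exists_nd_eq (S : Setting B y r p) {W : Submodule F V} (hW : Inv y W) (hnd : Nd B W) :
    Nd B (W ⊓ fixedSpace y) ∧ ∃ X u, Inv y X ∧ X ≤ W ∧ X ⊓ fixedSpace y = ⊥ ∧ Nd B X ∧
      (W ⊓ fixedSpace y) ⊔ X = W ∧ finrank F X = u * cOf (orderOf (Fintype.card F : ZMod r)) ∧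
      finrank F W = finrank F (W ⊓ fixedSpace y : Submodule F V) + finrank F X := by
  obtain ⟨R, h⟩ := exists_step S
  obtain ⟨X, hX, hXW, hsup, hdim⟩ := h.compl_in (fixed_inv (y := y) _ (inf_le_right : W ⊓ fixedSpace y ≤ fixedSpace y)) hW inf_le_left
  have hXC : X ⊓ fixedSpace y = ⊥ := by
    have h1 := Submodule.finrank_sup_add_finrank_inf_eq (W ⊓ fixedSpace y) X
    rw [hsup] at h1
    have h2 : (W ⊓ fixedSpace y) ⊓ X = ⊥ := Submodule.finrank_eq_zero.1 (by omega)
    rw [eq_bot_iff, ← h2]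
    exact le_inf (le_inf (inf_le_left.trans hXW) inf_le_right) inf_le_left
  have ho : ∀ a ∈ W ⊓ fixedSpace y, ∀ b ∈ X, B a b = 0 := fun a ha b hb => fixed_orth S hX hXC ha.2 hb
  have h1 : Nd B (W ⊓ fixedSpace y) := fun z hz hz' => hnd z hz.1 fun v hv => by
    rw [← hsup] at hv
    obtain ⟨a, ha, b, hb, rfl⟩ := Submodule.mem_sup.1 hv
    rw [map_add, hz' a ha, ho z hz b hb, add_zero]
  have h2 : Nd B X := fun z hz hz' => hnd z (hXW hz) fun v hv => by
    rw [← hsup] at hv
    obtain ⟨a, ha, b, hb, rfl⟩ := Submodule.mem_sup.1 hv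
    rw [map_add, hz' b hb, S.alt.isRefl a z (ho a ha z hz), add_zero]
  obtain ⟨u, hu⟩ := nd_dvd S hX h2 hXC
  exact ⟨h1, X, u, hX, hXW, hXC, h2, hsup, by rw [hu, mul_comm], hdim.symm⟩

/-- Orthogonal invariant non-degenerate pieces of dimension `2 a`. -/
theorem exists_blocks (S : Setting B y r p) (a : ℕ) : ∀ (t : ℕ) (C₀ R₀ : Submodule F V) (u : ℕ),
    C₀ ≤ fixedSpace y → Nd B C₀ → Inv y R₀ → Nd B R₀ → R₀ ⊓ fixedSpace y = ⊥ →
    finrank F R₀ = u * cOf (orderOf (Fintype.card F : ZMod r)) →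
    finrank F C₀ + finrank F R₀ = t * (2 * a) → u ≤ t * (2 * a / cOf (orderOf (Fintype.card F : ZMod r))) →
      ∃ D : Fin t → Submodule F V, (∀ j, D j ≤ C₀ ⊔ R₀ ∧ Inv y (D j) ∧ Nd B (D j) ∧ finrank F (D j) = 2 * a) ∧
        (∀ j j', j ≠ j' → ∀ v ∈ D j, ∀ w ∈ D j', B v w = 0) ∧ C₀ ⊔ R₀ ≤ iSup D := by
  intro t
  induction t with
  | zero =>
    intro C₀ R₀ u _ _ _ _ _ _ hsum _
    refine ⟨fun j => j.elim0, fun j => j.elim0, fun j => j.elim0, ?_⟩
    rw [Submodule.finrank_eq_zero.1 (show finrank F C₀ = 0 by omega),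
      Submodule.finrank_eq_zero.1 (show finrank F R₀ = 0 by omega), bot_sup_eq]
    exact bot_le
  | succ t ih =>
    intro C₀ R₀ u hC₀ hC₀n hR₀i hR₀n hR₀C hu hsum hule
    obtain ⟨m, hm⟩ := cOf_even (orderOf (Fintype.card F : ZMod r))
    set c := cOf (orderOf (Fintype.card F : ZMod r))
    rw [Nat.succ_mul] at hule hsum
    set u₁ := min u (2 * a / c) with hu₁
    have h1 : u₁ * c ≤ 2 * a :=
      (Nat.mul_le_mul_right c (min_le_right _ _)).trans (Nat.div_mul_le_self _ c)
    have h2 : 2 * a - u₁ * c ≤ finrank F C₀ := by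
      rcases le_total u (2 * a / c) with hle | hle
      · rw [hu₁, min_eq_left hle]; omega
      · rw [hu₁, min_eq_right hle, Nat.mul_comm (2 * a / c) c]
        have h3 : u * c ≤ (t * (2 * a / c) + 2 * a / c) * c := Nat.mul_le_mul_right c hule
        have h4 : t * (2 * a / c) * c ≤ t * (2 * a) := by
          rw [mul_assoc]; exact Nat.mul_le_mul_left t (Nat.div_mul_le_self _ c)
        rw [add_mul, Nat.mul_comm (2 * a / c) c] at h3
        omega
    obtain ⟨R₁, hR₁, hR₁i, hR₁n, hR₁d⟩ := exists_take S u₁ hR₀i hR₀n hR₀C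
      (hu ▸ Nat.mul_le_mul_right c (min_le_left _ _))
    obtain ⟨hR₂n, hRs, hRd⟩ := nd_split S.alt hR₁n hR₀n hR₁
    have heven : 2 * (a - u₁ * m) = 2 * a - u₁ * c := by
      rw [hm, Nat.mul_add]; omega
    obtain ⟨C₁, hC₁, hC₁n, hC₁d⟩ := exists_nd_sub S.alt (a - u₁ * m) hC₀n (heven ▸ h2)
    obtain ⟨hC₂n, hCs, hCd⟩ := nd_split S.alt hC₁n hC₀n hC₁
    rw [heven] at hC₁d
    have hmin : u₁ ≤ u := min_le_left _ _
    have hR₂C : perpIn B R₁ R₀ ⊓ fixedSpace y = ⊥ := eq_bot_iff.2 (hR₀C ▸ inf_le_inf_right _ inf_le_left)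
    have hR₁C : R₁ ⊓ fixedSpace y = ⊥ := eq_bot_iff.2 (hR₀C ▸ inf_le_inf_right _ hR₁)
    change finrank F R₁ = u₁ * c at hR₁d
    rw [hu, hR₁d] at hRd
    have hR₂d : finrank F (perpIn B R₁ R₀) = (u - u₁) * c := by
      rw [Nat.sub_mul]; omega
    obtain ⟨D, hD, hDo, hDs⟩ := ih (perpIn B C₁ C₀) (perpIn B R₁ R₀) (u - u₁) (inf_le_left.trans hC₀) hC₂n
      (perp_inv S hR₁i hR₀i) hR₂n hR₂C hR₂d (by omega) (by
        rcases le_total u (2 * a / c) with hle | hle
        · rw [hu₁, min_eq_left hle, Nat.sub_self]; exact Nat.zero_le _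
        · rw [hu₁, min_eq_right hle]; omega)
    have ho : ∀ v ∈ C₁ ⊔ R₁, ∀ w ∈ perpIn B C₁ C₀ ⊔ perpIn B R₁ R₀, B v w = 0 := by
      intro v hv w hw
      obtain ⟨v₁, hv₁, v₂, hv₂, rfl⟩ := Submodule.mem_sup.1 hv
      obtain ⟨w₁, hw₁, w₂, hw₂, rfl⟩ := Submodule.mem_sup.1 hw
      simp only [map_add, LinearMap.add_apply]
      rw [(mem_perpIn.1 hw₁).2 v₁ hv₁,
        (mem_perpIn.1 hw₂).2 v₂ hv₂,
        S.alt.isRefl w₁ v₂ (fixed_orth S hR₁i hR₁C (hC₀ (mem_perpIn.1 hw₁).1) hv₂),
        fixed_orth S (perp_inv S hR₁i hR₀i) hR₂C (hC₀ (hC₁ hv₁)) hw₂]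
      simp
    have hdim : finrank F (C₁ ⊔ R₁ : Submodule F V) = 2 * a := by
      have := Submodule.finrank_sup_add_finrank_inf_eq C₁ R₁
      rw [show C₁ ⊓ R₁ = ⊥ from eq_bot_iff.2 (hR₁C ▸ le_inf inf_le_right (inf_le_left.trans (hC₁.trans hC₀))),
        finrank_bot] at this
      omega
    have hsub : perpIn B C₁ C₀ ⊔ perpIn B R₁ R₀ ≤ C₀ ⊔ R₀ := sup_le_sup inf_le_left inf_le_left
    refine ⟨Fin.cons (C₁ ⊔ R₁) D, fun j => ?_, fun j j' hne => ?_, ?_⟩
    · refine Fin.cases ?_ (fun k => ?_) j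
      · rw [Fin.cons_zero]
        exact ⟨sup_le_sup hC₁ hR₁, (fixed_inv (y := y) _ (hC₁.trans hC₀)).sup hR₁i,
          nd_sup S.alt hC₁n hR₁n fun v hv w hw => fixed_orth S hR₁i hR₁C (hC₀ (hC₁ hv)) hw, hdim⟩
      · rw [Fin.cons_succ]
        exact ⟨(hD k).1.trans hsub, (hD k).2⟩
    · refine Fin.cases (fun j' hne => ?_) (fun k j' hne => ?_) j j' hne
      · refine Fin.cases (fun h => absurd rfl h) (fun k' _ => ?_) j' hne
        rw [Fin.cons_zero, Fin.cons_succ]
        exact fun v hv w hw => ho v hv w ((hD k').1 hw)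
      · refine Fin.cases (fun _ => ?_) (fun k' h => ?_) j' hne
        · rw [Fin.cons_zero, Fin.cons_succ]
          exact fun v hv w hw => S.alt.isRefl w v (ho w hw v ((hD k).1 hv))
        · rw [Fin.cons_succ, Fin.cons_succ]
          exact hDo k k' fun e => h (by rw [e])
    · rw [← hCs, ← hRs]
      have h5 : C₁ ⊔ R₁ ≤ iSup (Fin.cons (C₁ ⊔ R₁) D : Fin (t + 1) → Submodule F V) :=
        le_iSup_of_le 0 (by simp)
      have h6 : iSup D ≤ iSup (Fin.cons (C₁ ⊔ R₁) D : Fin (t + 1) → Submodule F V) :=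
        iSup_le fun k => le_iSup_of_le k.succ (by simp)
      exact sup_le (sup_le (le_sup_left.trans h5) ((le_sup_left.trans hDs).trans h6))
        (sup_le (le_sup_right.trans h5) ((le_sup_right.trans hDs).trans h6))

/-- Elements of order `r` with prescribed fixed space. -/
theorem exists_elt [DecidableEq F] (hrp : r ≠ p) (hr2 : r ≠ 2) {d u s : ℕ}
    (hd : 2 * d = u * cOf (orderOf (Fintype.card F : ZMod r)) + 2 * s) :
    ∃ A : Matrix.symplecticGroup (Fin d) F,
      (∀ v, ((Matrix.toLin' (A : Matrix (Fin d ⊕ Fin d) (Fin d ⊕ Fin d) F)) ^ r) v = v) ∧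
        finrank F (LinearMap.ker (Matrix.toLin' (A : Matrix (Fin d ⊕ Fin d) (Fin d ⊕ Fin d) F) -
          (1 : F) • LinearMap.id)) = 2 * s := by
  classical
  have hr : r.Prime := Fact.out
  set i := orderOf (Fintype.card F : ZMod r) with hidef
  by_cases hi : Even i
  · obtain ⟨b, hb⟩ := hi.two_dvd
    rw [cOf, if_pos hi, hb] at hd
    exact exists_symp_elt hrp hr2 (hidef.symm.trans hb) (t := u) (by linarith)
  rw [cOf, if_neg hi] at hd
  have hd' : d = u * i + s := by linarith
  -- a matrix of `GL_d` of order `r` fixing exactly an `s`-space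
  obtain ⟨A, hA, hAk⟩ : ∃ A : Matrix (Fin d) (Fin d) F, A ^ r = 1 ∧
      finrank F (LinearMap.ker (Matrix.toLin' A - (1 : F) • LinearMap.id)) = s := by
    rcases Nat.lt_or_ge 1 i with h1 | h1
    · obtain ⟨A, hA, hAk⟩ := exists_root_elt (F := F) (r := r) hrp h1 (t := u) (k := s) hd'
      refine ⟨A, Matrix.toLin'.injective ?_, hAk⟩
      rw [Matrix.toLin'_pow, Matrix.toLin'_one]
      exact LinearMap.ext hA
    · have hi1 : i = 1 := by
        have : 0 < i := Nat.pos_of_ne_zero fun h0 => hi (by rw [h0]; exact Even.zero)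
        omega
      obtain ⟨a₀, ha₀⟩ := exists_prime_orderOf_dvd_card' (G := Fˣ) r (by
        rw [Nat.card_units, Nat.card_eq_fintype_card]; exact dvd_card_sub_one_iff.2 hi1)
      set a : F := (a₀ : F) with ha
      have hao : orderOf a = r := orderOf_units.trans ha₀
      have ha1 : a ≠ 1 := fun h => by rw [h, orderOf_one] at hao; exact hr.one_lt.ne hao
      have har : a ^ r = 1 := hao ▸ pow_orderOf_eq_one a
      let δ : Fin d → F := fun j => if (j : ℕ) < u then a else 1
      refine ⟨Matrix.diagonal δ, ?_, ?_⟩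
      · rw [Matrix.diagonal_pow, ← Matrix.diagonal_one]
        congr 1
        funext j
        simp only [Pi.pow_apply, δ]
        split_ifs
        · exact har
        · exact one_pow r
      · have hdu : d = u + s := by rw [hd', hi1, mul_one]
        let L : (Fin s → F) →ₗ[F] (Fin d → F) :=
          { toFun := fun w j => if h : (j : ℕ) < u then 0 else w ⟨j - u, by omega⟩
            map_add' := fun a b => funext fun j => by
              simp only [Pi.add_apply]; split_ifs <;> simp
            map_smul' := fun c a => funext fun j => by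
              simp only [Pi.smul_apply, RingHom.id_apply]; split_ifs <;> simp }
        have hL : Function.Injective L := fun v w h => funext fun k => by
          have := congrFun h ⟨u + k, by omega⟩
          simpa [L] using this
        have hker : LinearMap.ker (Matrix.toLin' (Matrix.diagonal δ) - (1 : F) • LinearMap.id) = LinearMap.range L := by
          ext v
          rw [LinearMap.mem_ker, one_smul, LinearMap.sub_apply, LinearMap.id_apply, Matrix.toLin'_apply,
            sub_eq_zero, funext_iff]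
          constructor
          · intro h
            refine ⟨fun k => v ⟨u + k, by omega⟩, funext fun j => ?_⟩
            have hj := h j
            rw [Matrix.mulVec_diagonal] at hj
            show (if h : (j : ℕ) < u then (0 : F) else v ⟨u + ((j : ℕ) - u), _⟩) = v j
            split_ifs with hju
            · simp only [δ, if_pos hju] at hj
              have : (a - 1) * v j = 0 := by linear_combination hj
              exact ((mul_eq_zero.1 this).resolve_left (sub_ne_zero.2 ha1)).symm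
            · exact congrArg v (Fin.ext (by simp; omega))
          · rintro ⟨w, rfl⟩ j
            rw [Matrix.mulVec_diagonal]
            by_cases hju : (j : ℕ) < u <;> simp [L, δ, hju]
        rw [hker, LinearMap.finrank_range_of_inj hL, finrank_fin_fun]
  set A' := A ^ (r - 1) with hA'
  have hAA : A * A' = 1 ∧ A' * A = 1 := by
    rw [hA', ← pow_succ', ← pow_succ, Nat.sub_add_cancel hr.one_le]; exact ⟨hA, hA⟩
  let M : Matrix (Fin d ⊕ Fin d) (Fin d ⊕ Fin d) F := Matrix.fromBlocks A 0 0 A'.transpose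
  have hM : M ∈ Matrix.symplecticGroup (Fin d) F := by
    rw [SymplecticGroup.mem_iff]
    simp [M, Matrix.J, Matrix.fromBlocks_transpose, Matrix.fromBlocks_multiply,
      ← Matrix.transpose_mul, hAA.1, hAA.2]
  have hMr : M ^ r = 1 := by
    rw [Matrix.fromBlocks_diagonal_pow, hA, ← Matrix.transpose_pow, hA', ← pow_mul, mul_comm, pow_mul, hA,
      one_pow, Matrix.transpose_one, Matrix.fromBlocks_one]
  refine ⟨⟨M, hM⟩, fun v => ?_, ?_⟩
  · show (Matrix.toLin' M ^ r) v = v
    rw [← Matrix.toLin'_pow, hMr, Matrix.toLin'_one]; rfl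
  have hker : ∀ T : Matrix (Fin d) (Fin d) F, ∀ v,
      v ∈ LinearMap.ker (Matrix.toLin' T - (1 : F) • LinearMap.id) ↔ T.mulVec v = v := fun T v => by
    simp [sub_eq_zero]
  have hA'k : finrank F (LinearMap.ker (Matrix.toLin' A'.transpose - (1 : F) • LinearMap.id)) = s := by
    have hsame : LinearMap.ker (Matrix.toLin' A' - (1 : F) • LinearMap.id) =
        LinearMap.ker (Matrix.toLin' A - (1 : F) • LinearMap.id) := by
      ext v
      rw [hker, hker]
      constructor <;> intro h
      · conv_lhs => rw [← h, Matrix.mulVec_mulVec, hAA.1, Matrix.one_mulVec]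
      · conv_lhs => rw [← h, Matrix.mulVec_mulVec, hAA.2, Matrix.one_mulVec]
    have e : ∀ T : Matrix (Fin d) (Fin d) F,
        finrank F (LinearMap.ker (Matrix.toLin' T - (1 : F) • LinearMap.id)) + (T - 1).rank = d := by
      intro T
      have h := LinearMap.finrank_range_add_finrank_ker (T - 1).mulVecLin
      rw [finrank_fin_fun] at h
      rw [show Matrix.toLin' T - (1 : F) • LinearMap.id = (T - 1).mulVecLin from LinearMap.ext fun v => by
        simp [Matrix.sub_mulVec]]
      rw [Matrix.rank]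
      omega
    have h1 := e A'.transpose
    rw [← Matrix.transpose_one, ← Matrix.transpose_sub, Matrix.rank_transpose] at h1
    have h2 := e A'
    rw [hsame, hAk] at h2
    omega
  let P := (LinearMap.ker (Matrix.toLin' A - (1 : F) • LinearMap.id)).prod
    (LinearMap.ker (Matrix.toLin' A'.transpose - (1 : F) • LinearMap.id))
  let e := (LinearEquiv.sumArrowLequivProdArrow (Fin d) (Fin d) F F)
  have hmap : LinearMap.ker (Matrix.toLin' M - (1 : F) • LinearMap.id) = P.map (e.symm : _ →ₗ[F] _) := by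
    ext v
    rw [Submodule.mem_map_equiv, LinearEquiv.symm_symm]
    show _ ↔ _ ∈ _ ∧ _ ∈ _
    rw [SetLike.mem_coe, SetLike.mem_coe, hker, hker, LinearMap.mem_ker, one_smul, LinearMap.sub_apply, LinearMap.id_apply, sub_eq_zero,
      Matrix.toLin'_apply, Matrix.fromBlocks_mulVec, funext_iff, Sum.forall, funext_iff, funext_iff]
    simp [e]
    rfl
  show finrank F (LinearMap.ker (Matrix.toLin' M - (1 : F) • LinearMap.id)) = _
  rw [hmap, LinearEquiv.finrank_map_eq, SympField.finrank_submodule_prod, hAk, hA'k]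
  omega

end Cfsg.Agent.Lib.Elusive.SympStep
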