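import Cfsg.Agent.Lib.Elusive.SympStep
import Cfsg.Agent.Lib.Jordan.Symplectic

/-!
Invariant non-degenerate subspaces of unipotent isometries and of isometries of order two.
-/

set_option autoImplicit false
set_option maxHeartbeats 800000

namespace Cfsg.Agent.Lib.Elusive.SympUnip

open Module Cfsg.Agent.Lib.Forms Cfsg.Agent.Lib.Jordan Cfsg.Agent.Lib.Elusive.SympStep

open scoped Matrix

universe u

variable {F : Type u} [Field F] {V : Type u} [AddCommGroup V] [Module F V] [FiniteDimensional F V]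
  {B : LinearMap.BilinForm F V}

/-- The orthogonal of an invariant subspace under an injective isometry is invariant. -/
theorem perp_inv_iso {x : Module.End F V} (hx : ∀ u v, B (x u) (x v) = B u v) (hxi : Function.Injective x)
    {U W : Submodule F V} (hU : Inv x U) (hW : Inv x W) : Inv x (perpIn B U W) := fun v hv => by
  rw [mem_perpIn] at hv ⊢
  refine ⟨hW v hv.1, fun u hu => ?_⟩
  have hinj : Function.Injective (x.restrict (p := U) (q := U) hU) := fun a b h =>
    Subtype.ext (hxi (congrArg Subtype.val h))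
  obtain ⟨⟨u', hu'⟩, he⟩ := LinearMap.injective_iff_surjective.1 hinj ⟨u, hu⟩
  have : x u' = u := congrArg Subtype.val he
  rw [← this, hx]
  exact hv.2 u' hu'

theorem inj_of_pow {x : Module.End F V} {n : ℕ} (hn : 0 < n) {c : F} (hc : c ≠ 0) (h : ∀ v, (x ^ n) v = c • v) :
    Function.Injective x := fun u v e => by
  obtain ⟨k, rfl⟩ := Nat.exists_eq_succ_of_ne_zero hn.ne'
  have h1 := h u
  have h2 := h v
  rw [pow_succ, Module.End.mul_apply] at h1 h2
  rw [e, h2] at h1
  exact (smul_right_injective V hc h1).symm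

/-- All even dimensions from planes. -/
theorem exists_dims (hA : B.IsAlt) {x : Module.End F V} (hx : ∀ u v, B (x u) (x v) = B u v)
    (hxi : Function.Injective x)
    (hplane : ∀ W, Inv x W → Nd B W → W ≠ ⊥ → ∃ U ≤ W, Inv x U ∧ Nd B U ∧ finrank F U = 2) :
    ∀ (j : ℕ) {W : Submodule F V}, Inv x W → Nd B W → 2 * j ≤ finrank F W →
      ∃ U ≤ W, Inv x U ∧ Nd B U ∧ finrank F U = 2 * j := by
  intro j
  induction j with
  | zero => exact fun {W} _ _ _ => ⟨⊥, bot_le, fun v hv => by simp [(Submodule.mem_bot F).1 hv], nd_bot, by simp⟩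
  | succ j ih =>
    intro W hW hn hle
    obtain ⟨U, hUW, hU, hUn, hUd⟩ := hplane W hW hn fun h => by rw [h, finrank_bot] at hle; omega
    obtain ⟨hP, -, hdim⟩ := nd_split hA hUn hn hUW
    obtain ⟨T, hTP, hT, hTn, hTd⟩ := ih (perp_inv_iso hx hxi hU hW) hP (by omega)
    refine ⟨U ⊔ T, sup_le hUW (hTP.trans inf_le_left), hU.sup hT,
      nd_sup hA hUn hTn fun a ha b hb => (mem_perpIn.1 (hTP hb)).2 a ha, ?_⟩
    have h5 := Submodule.finrank_sup_add_finrank_inf_eq U T
    have : U ⊓ T = ⊥ := eq_bot_iff.2 fun z ⟨hz, hz'⟩ =>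
      hUn z hz fun a ha => hA.isRefl a z ((mem_perpIn.1 (hTP hz')).2 a ha)
    rw [this, finrank_bot, hUd, hTd] at h5
    omega

/-- The type of `N` on `W`. -/
def TypeOn (N : Module.End F V) (W : Submodule F V) (μ : Multiset ℕ) : Prop :=
  ∃ h : Inv N W, HasType (N.restrict h) μ

theorem typeOn_add {N : Module.End F V} {U U' : Submodule F V} {μ μ' : Multiset ℕ}
    (h : TypeOn N U μ) (h' : TypeOn N U' μ') (hd : U ⊓ U' = ⊥) : TypeOn N (U ⊔ U') (μ + μ') := by
  obtain ⟨hU, hμ⟩ := h
  obtain ⟨hU', hμ'⟩ := h'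
  refine ⟨hU.sup hU', ?_⟩
  let f : U × U' →ₗ[F] ((U ⊔ U' : Submodule F V)) :=
    (Submodule.inclusion le_sup_left).coprod (Submodule.inclusion le_sup_right)
  have hf : ∀ z, ((f z : ((U ⊔ U' : Submodule F V))) : V) = (z.1 : V) + (z.2 : V) := fun z => rfl
  have hbij : Function.Bijective f := by
    refine ⟨(injective_iff_map_eq_zero f).2 fun z hz => ?_, fun w => ?_⟩
    · have h0 : (z.1 : V) + (z.2 : V) = 0 := by rw [← hf, hz]; rfl
      have h1 : (z.1 : V) = 0 := (Submodule.mem_bot F).1 (hd ▸ ⟨z.1.2, by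
        rw [eq_neg_of_add_eq_zero_left h0]; exact U'.neg_mem z.2.2⟩)
      rw [h1, zero_add] at h0
      exact Prod.ext (Subtype.ext h1) (Subtype.ext h0)
    · obtain ⟨a, ha, b, hb, hab⟩ := Submodule.mem_sup.1 w.2
      exact ⟨(⟨a, ha⟩, ⟨b, hb⟩), Subtype.ext hab⟩
  refine (hμ.prod hμ').transport (LinearEquiv.ofBijective f hbij) fun z => Subtype.ext ?_
  show ((f _ : ((U ⊔ U' : Submodule F V))) : V) = N (f z : V)
  rw [hf, hf, map_add]
  rfl

theorem TypeOn.unique {N : Module.End F V} {W : Submodule F V} {μ μ' : Multiset ℕ}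
    (h : TypeOn N W μ) (h' : TypeOn N W μ') : μ = μ' := by
  obtain ⟨hW, hμ⟩ := h
  obtain ⟨hW', hμ'⟩ := h'
  exact hμ.unique hμ'

theorem exists_typeOn {N : Module.End F V} (hN : IsNilpotent N) {W : Submodule F V} (hW : Inv N W) :
    ∃ μ, TypeOn N W μ := by
  obtain ⟨μ, hμ⟩ := exists_type (Module.End.isNilpotent.restrict hW hN)
  exact ⟨μ, hW, hμ⟩

section Unip

variable {N : Module.End F V}

theorem adj (hiso : ∀ u v, B ((1 + N) u) ((1 + N) v) = B u v) (u v : V) :
    B u (N v) = -B (N u) v - B (N u) (N v) := by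
  have := hiso u v
  simp only [LinearMap.add_apply, Module.End.one_apply, map_add] at this
  linear_combination this

theorem pair_zero (hiso : ∀ u v, B ((1 + N) u) ((1 + N) v) = B u v) {W : Submodule F V} (hW : Inv N W) {a : ℕ}
    (hN : ∀ w ∈ W, (N ^ a) w = 0) :
    ∀ (j i : ℕ) (u v : V), u ∈ W → v ∈ W → a ≤ i + j → B ((N ^ i) u) ((N ^ j) v) = 0 := by
  have hhigh : ∀ i u, u ∈ W → a ≤ i → (N ^ i) u = 0 := fun i u hu h => by
    rw [← Nat.sub_add_cancel h, pow_add, Module.End.mul_apply, hN u hu, map_zero]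
  intro j
  induction j with
  | zero => intro i u v hu _ h; rw [hhigh i u hu (by omega)]; simp
  | succ j ih =>
    suffices ∀ n i u v, u ∈ W → v ∈ W → a ≤ i + (j + 1) → a ≤ i + n → B ((N ^ i) u) ((N ^ (j + 1)) v) = 0 from
      fun i u v hu hv h => this a i u v hu hv h (by omega)
    intro n
    induction n with
    | zero => intro i u v hu _ _ h; rw [hhigh i u hu (by omega)]; simp
    | succ n ih' =>
      intro i u v hu hv h h'
      rw [pow_succ', Module.End.mul_apply, adj hiso, ← Module.End.mul_apply, ← pow_succ',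
        ih (i + 1) u v hu hv (by omega), ← Module.End.mul_apply N (N ^ j), ← pow_succ',
        ih' (i + 1) u v hu hv (by omega) (by omega), neg_zero, sub_zero]

theorem pair_edge (hiso : ∀ u v, B ((1 + N) u) ((1 + N) v) = B u v) {W : Submodule F V} (hW : Inv N W) {a : ℕ}
    (hN : ∀ w ∈ W, (N ^ a) w = 0) :
    ∀ (j i : ℕ) (u v : V), u ∈ W → v ∈ W → i + j + 1 = a →
      B ((N ^ i) u) ((N ^ j) v) = (-1) ^ j * B ((N ^ (a - 1)) u) v := by
  intro j
  induction j with
  | zero => intro i u v _ _ h; rw [show a - 1 = i by omega]; simp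
  | succ j ih =>
    intro i u v hu hv h
    rw [pow_succ' N, Module.End.mul_apply, adj hiso, ← Module.End.mul_apply, ← pow_succ',
      ih (i + 1) u v hu hv (by omega), ← Module.End.mul_apply N (N ^ j), ← pow_succ',
      pair_zero hiso hW hN (j + 1) (i + 1) u v hu hv (by omega), sub_zero, pow_succ]
    ring

theorem phi_symm (hA : B.IsAlt) (hiso : ∀ u v, B ((1 + N) u) ((1 + N) v) = B u v) {W : Submodule F V}
    (hW : Inv N W) {a : ℕ} (hN : ∀ w ∈ W, (N ^ a) w = 0) (ha : 1 ≤ a) {u v : V} (hu : u ∈ W) (hv : v ∈ W) :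
    B ((N ^ (a - 1)) v) u = (-1) ^ a * B ((N ^ (a - 1)) u) v := by
  have h := pair_edge hiso hW hN (a - 1) 0 u v hu hv (by omega)
  rw [pow_zero, Module.End.one_apply] at h
  rw [← hA.neg_eq u ((N ^ (a - 1)) v), h, ← neg_mul, neg_eq_neg_one_mul, ← pow_succ']
  rw [Nat.sub_add_cancel ha]

/-- Chains with non-degenerate top pairing span non-degenerate invariant subspaces. -/
theorem exists_chains (hA : B.IsAlt) (hiso : ∀ u v, B ((1 + N) u) ((1 + N) v) = B u v) {W : Submodule F V}
    (hW : Inv N W) {a : ℕ} (hN : ∀ w ∈ W, (N ^ a) w = 0) (ha : 1 ≤ a) {κ : Type} [Fintype κ] (v : κ → V)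
    (hv : ∀ k, v k ∈ W)
    (hG : ∀ c : κ → F, (∀ k', ∑ k, c k * B ((N ^ (a - 1)) (v k)) (v k') = 0) → c = 0) :
    ∃ U ≤ W, Inv N U ∧ Nd B U ∧ finrank F U = Fintype.card κ * a ∧
      TypeOn N U (Multiset.replicate (Fintype.card κ) a) := by
  classical
  let b : (k : κ) × Fin a → V := fun x => (N ^ (x.2 : ℕ)) (v x.1)
  have hbW : ∀ x, b x ∈ W := fun x => hW.pow _ _ (hv _)
  have hpow : ∀ (j : ℕ) k, a ≤ j → (N ^ j) (v k) = 0 := fun j k h => by
    rw [← Nat.sub_add_cancel h, pow_add, Module.End.mul_apply, hN _ (hv k), map_zero]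
  have hker : ∀ c : (k : κ) × Fin a → F, (∀ y, B (∑ x, c x • b x) (b y) = 0) → c = 0 := by
    intro c hc
    have key : ∀ j (hj : j < a) k, c ⟨k, ⟨j, hj⟩⟩ = 0 := by
      intro j
      induction j using Nat.strong_induction_on with
      | _ j ih =>
        intro hj k
        refine congrFun (hG (fun k => c ⟨k, ⟨j, hj⟩⟩) fun k' => ?_) k
        have h := hc ⟨k', ⟨a - 1 - j, by omega⟩⟩
        rw [map_sum, LinearMap.sum_apply, Fintype.sum_sigma] at h
        have hone : ∀ k'' : κ, ∑ l : Fin a, B (c ⟨k'', l⟩ • b ⟨k'', l⟩) (b ⟨k', ⟨a - 1 - j, by omega⟩⟩) =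
            (-1) ^ (a - 1 - j) * (c ⟨k'', ⟨j, hj⟩⟩ * B ((N ^ (a - 1)) (v k'')) (v k')) := by
          intro k''
          rw [Finset.sum_eq_single (⟨j, hj⟩ : Fin a)]
          · simp only [map_smul, LinearMap.smul_apply, smul_eq_mul, b]
            rw [pair_edge hiso hW hN _ _ _ _ (hv k'') (hv k') (by omega)]
            ring
          · intro l _ hl
            rcases lt_or_gt_of_ne (fun e => hl (Fin.ext e) : (l : ℕ) ≠ j) with hlt | hgt
            · rw [ih l hlt l.2 k'', zero_smul, map_zero, LinearMap.zero_apply]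
            · simp only [map_smul, LinearMap.smul_apply, b]
              rw [pair_zero hiso hW hN _ _ _ _ (hv k'') (hv k') (by omega), smul_zero]
          · simp
        rw [Finset.sum_congr rfl fun k'' _ => hone k'', ← Finset.mul_sum] at h
        exact (mul_eq_zero.1 h).resolve_left (pow_ne_zero _ (neg_ne_zero.2 one_ne_zero))
    funext ⟨k, j, hj⟩
    exact key j hj k
  have hli : LinearIndependent F b := by
    rw [Fintype.linearIndependent_iff]
    intro c hc
    exact congrFun (hker c fun y => by rw [hc, map_zero, LinearMap.zero_apply])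
  set U := Submodule.span F (Set.range b)
  have hUi : Inv N U := fun z hz => by
    induction hz using Submodule.span_induction with
    | mem z hz =>
      obtain ⟨x, rfl⟩ := hz
      show N ((N ^ (x.2 : ℕ)) (v x.1)) ∈ U
      rw [← Module.End.mul_apply, ← pow_succ']
      rcases Nat.lt_or_ge ((x.2 : ℕ) + 1) a with h | h
      · exact Submodule.subset_span ⟨⟨x.1, ⟨_, h⟩⟩, rfl⟩
      · rw [hpow _ _ h]; exact U.zero_mem
    | zero => simp
    | add p q _ _ hp hq => rw [map_add]; exact U.add_mem hp hq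
    | smul e p _ hp => rw [map_smul]; exact U.smul_mem _ hp
  have hcard : Fintype.card ((_ : κ) × Fin a) = Fintype.card κ * a := by simp
  have hdim : finrank F U = Fintype.card κ * a := by rw [finrank_span_eq_card hli, hcard]
  refine ⟨U, Submodule.span_le.2 (by rintro _ ⟨x, rfl⟩; exact hbW x), hUi, fun z hz hrad => ?_, hdim, hUi, ?_⟩
  · obtain ⟨c, rfl⟩ := Submodule.mem_span_range_iff_exists_fun (R := F) |>.1 hz
    rw [hker c fun y => hrad _ (Submodule.subset_span ⟨y, rfl⟩)]
    simp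
  · let v' : κ → U := fun k => ⟨v k, Submodule.subset_span ⟨⟨k, ⟨0, ha⟩⟩, by simp [b]⟩⟩
    refine ⟨κ, inferInstance, fun _ => a, v', fun _ => ha, by simp, fun k => Subtype.ext ?_, ?_⟩
    · rw [Module.End.pow_restrict _ (h := hUi)]
      exact hpow a k le_rfl
    · have hval : ∀ c, ((chainMap (N.restrict hUi) (fun _ => a) v' c : U) : V) = ∑ x, c x • b x := fun c => by
        rw [chainMap, Fintype.linearCombination_apply, Submodule.coe_sum]
        refine Finset.sum_congr rfl fun x _ => ?_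
        rw [Submodule.coe_smul, Module.End.pow_restrict _ (h := hUi)]
        rfl
      refine ⟨fun c c' h => ?_, fun z => ?_⟩
      · have h' := congrArg Subtype.val h
        rw [hval, hval] at h'
        exact funext fun x => sub_eq_zero.1 (Fintype.linearIndependent_iff.1 hli (fun x => c x - c' x)
          (by simp only [_root_.sub_smul, Finset.sum_sub_distrib, h', sub_self]) x)
      · obtain ⟨c, hc⟩ := Submodule.mem_span_range_iff_exists_fun (R := F) |>.1 z.2
        exact ⟨c, Subtype.ext ((hval c).trans hc)⟩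

/-- The nilpotency index on a subspace and a non-zero top pairing. -/
theorem exists_top {W : Submodule F V} (hW : Inv N W) (hnd : Nd B W) (hne : W ≠ ⊥) (hnil : IsNilpotent N) :
    ∃ a, 1 ≤ a ∧ (∀ w ∈ W, (N ^ a) w = 0) ∧ ∃ u ∈ W, ∃ v ∈ W, B ((N ^ (a - 1)) u) v ≠ 0 := by
  classical
  obtain ⟨e, he⟩ := hnil
  have hex : ∃ a, ∀ w ∈ W, (N ^ a) w = 0 := ⟨e, fun w _ => by rw [he]; rfl⟩
  set a := Nat.find hex with ha
  have h1 : 1 ≤ a := Nat.pos_of_ne_zero fun h0 => hne (eq_bot_iff.2 fun w hw => by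
    have := Nat.find_spec hex w hw
    rw [← ha, h0, pow_zero, Module.End.one_apply] at this
    rw [this]; exact Submodule.zero_mem _)
  have h2 := Nat.find_min hex (show a - 1 < a by omega)
  push Not at h2
  obtain ⟨u, hu, hu0⟩ := h2
  obtain ⟨v, hv, hv0⟩ := Nd.iff.1 hnd _ (hW.pow _ u hu) hu0
  exact ⟨a, h1, Nat.find_spec hex, u, hu, v, hv, hv0⟩

/-- Orthogonal pieces in odd characteristic. -/
theorem exists_piece_odd (hA : B.IsAlt) (h2 : (2 : F) ≠ 0) (hiso : ∀ u v, B ((1 + N) u) ((1 + N) v) = B u v)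
    (hnil : IsNilpotent N) {W : Submodule F V} (hW : Inv N W) (hnd : Nd B W) (hne : W ≠ ⊥) :
    ∃ a ν, ∃ U ≤ W, Inv N U ∧ Nd B U ∧ TypeOn N U ν ∧ finrank F U = ν.sum ∧ U ≠ ⊥ ∧
      ((Even a ∧ ν = {a}) ∨ (Odd a ∧ ν = {a, a})) := by
  obtain ⟨a, ha, hN, u, hu, v, hv, huv⟩ := exists_top hW hnd hne hnil
  rcases Nat.even_or_odd a with hae | hao
  · obtain ⟨w, hw, hww⟩ : ∃ w ∈ W, B ((N ^ (a - 1)) w) w ≠ 0 := by
      by_contra hcon
      push Not at hcon
      have h := hcon (u + v) (W.add_mem hu hv)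
      simp only [map_add, LinearMap.add_apply, hcon u hu, hcon v hv, zero_add, add_zero,
        phi_symm hA hiso hW hN ha hu hv, hae.neg_one_pow, one_mul] at h
      exact huv ((mul_eq_zero.1 (by linear_combination h : (2 : F) * B ((N ^ (a - 1)) u) v = 0)).resolve_left h2)
    obtain ⟨U, hUW, hU, hUn, hUd, hUt⟩ := exists_chains hA hiso hW hN ha (fun _ : Unit => w) (fun _ => hw)
      fun c hc => funext fun k => by
        have := hc ()
        simp only [Finset.univ_unique, Finset.sum_singleton] at this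
        exact (mul_eq_zero.1 this).resolve_right hww
    refine ⟨a, _, U, hUW, hU, hUn, hUt, by simp [hUd], fun h => ?_, Or.inl ⟨hae, by simp⟩⟩
    rw [h, finrank_bot] at hUd
    simp at hUd
    omega
  · have halt : ∀ w ∈ W, B ((N ^ (a - 1)) w) w = 0 := fun w hw => by
      have h := phi_symm hA hiso hW hN ha hw hw
      rw [hao.neg_one_pow] at h
      exact (mul_eq_zero.1 (by linear_combination h : (2 : F) * B ((N ^ (a - 1)) w) w = 0)).resolve_left h2
    have hvu : B ((N ^ (a - 1)) v) u ≠ 0 := by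
      rw [phi_symm hA hiso hW hN ha hu hv, hao.neg_one_pow]
      simpa using huv
    obtain ⟨U, hUW, hU, hUn, hUd, hUt⟩ := exists_chains hA hiso hW hN ha ![u, v]
      (fun k => by fin_cases k <;> assumption) fun c hc => by
        have h0 := hc 0
        have h1 := hc 1
        simp [Fin.sum_univ_two, halt u hu, halt v hv] at h0 h1
        funext k
        fin_cases k
        · exact h1.resolve_right huv
        · exact h0.resolve_right hvu
    refine ⟨a, _, U, hUW, hU, hUn, hUt, by simp [hUd, two_mul], fun h => ?_, Or.inr ⟨hao, by simp⟩⟩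
    rw [h, finrank_bot] at hUd
    simp at hUd
    omega

/-- Parity of the type of a non-degenerate invariant subspace. -/
theorem parity (hA : B.IsAlt) (hiso : ∀ u v, B ((1 + N) u) ((1 + N) v) = B u v) {U : Submodule F V}
    (hnd : Nd B U) {ν : Multiset ℕ} (hν : TypeOn N U ν) (j : ℕ) (hj : Odd j) : Even (ν.count j) := by
  classical
  obtain ⟨hU, hν⟩ := hν
  obtain ⟨e, he⟩ := (nd_even hA hnd).two_dvd
  obtain ⟨T, hT⟩ := exists_alt_isometry (B.compl₁₂ U.subtype U.subtype) (fun v => hA (v : V))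
    (fun a ha => Subtype.ext (hnd a a.2 fun v hv => ha ⟨v, hv⟩)) (stdB e F) (stdB_isAlt e)
    (stdB_nondegenerate e).1 (by rw [he, finrank_pi, Fintype.card_sum, Fintype.card_fin, two_mul])
  set M := LinearMap.toMatrix' (T.conj (N.restrict hU)) with hM
  have hM' : ∀ z, M *ᵥ z = T (N.restrict hU (T.symm z)) := fun z => by
    rw [← Matrix.toLin'_apply, hM, Matrix.toLin'_toMatrix']
    rfl
  have hmem : 1 + M ∈ Matrix.symplecticGroup (Fin e) F := by
    refine (stdB_iff_matrix e _).1 fun z w => ?_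
    have key : ∀ z, (1 + M) *ᵥ z = T (T.symm z + N.restrict hU (T.symm z)) := fun z => by
      rw [Matrix.add_mulVec, Matrix.one_mulVec, hM', map_add, T.apply_symm_apply]
    rw [key, key, hT]
    conv_rhs => rw [← T.apply_symm_apply z, ← T.apply_symm_apply w, hT]
    exact hiso _ _
  refine even_count_odd hmem ?_ j hj
  rw [add_sub_cancel_left]
  exact hν.transport T fun z => by rw [Matrix.toLin'_apply, hM', T.symm_apply_apply]

/-- Sub-multisets with the parity condition are realised by non-degenerate invariant subspaces. -/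
theorem exists_sub (hA : B.IsAlt) (h2 : (2 : F) ≠ 0) (hiso : ∀ u v, B ((1 + N) u) ((1 + N) v) = B u v)
    (hxi : Function.Injective (1 + N : Module.End F V)) (hnil : IsNilpotent N) :
    ∀ (W : Submodule F V) (μ ν : Multiset ℕ), Inv N W → Nd B W → TypeOn N W μ → ν ≤ μ →
      (∀ j, Odd j → Even (ν.count j)) → ∃ U ≤ W, Inv N U ∧ Nd B U ∧ finrank F U = ν.sum := by
  intro W
  induction hd : finrank F W using Nat.strong_induction_on generalizing W with
  | _ d ih =>
    intro μ ν hW hnd hμ hle hpar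
    rcases eq_or_ne W ⊥ with rfl | hne
    · obtain ⟨_, hμ'⟩ := hμ
      have h0 := hμ'.sum_eq
      rw [finrank_bot] at h0
      have : ν.sum ≤ μ.sum := by
        obtain ⟨e, rfl⟩ := Multiset.le_iff_exists_add.1 hle
        simp
      exact ⟨⊥, le_rfl, hW, nd_bot, by rw [finrank_bot]; omega⟩
    obtain ⟨a, ν₁, U, hUW, hU, hUn, hUt, hUd, hU0, hcase⟩ := exists_piece_odd hA h2 hiso hnil hW hnd hne
    obtain ⟨hP, hsup, hdim⟩ := nd_split hA hUn hnd hUW
    have hinv1 : ∀ {X : Submodule F V}, Inv N X → Inv (1 + N : Module.End F V) X := fun hX z hz => by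
      simpa using Submodule.add_mem _ hz (hX z hz)
    have hPi : Inv N (perpIn B U W) := fun z hz => by
      have := (perpIn B U W).sub_mem (perp_inv_iso hiso hxi (hinv1 hU) (hinv1 hW) z hz) hz
      simpa using this
    obtain ⟨μ', hμ'⟩ := exists_typeOn hnil hPi
    have hUP : U ⊓ perpIn B U W = ⊥ := eq_bot_iff.2 fun z ⟨hz, hz'⟩ =>
      hUn z hz fun b hb => hA.isRefl b z ((mem_perpIn.1 hz').2 b hb)
    have hμeq : μ = ν₁ + μ' := hμ.unique (hsup ▸ typeOn_add hUt hμ' hUP)
    subst hμeq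
    have hlt : finrank F (perpIn B U W) < d := by
      have : 0 < finrank F U := Nat.pos_of_ne_zero fun h => hU0 (Submodule.finrank_eq_zero.1 h)
      omega
    have hpar1 : ∀ j, Odd j → Even (ν₁.count j) := fun j hj => by
      rcases hcase with ⟨hae, rfl⟩ | ⟨-, rfl⟩
      · have : j ≠ a := fun e => Nat.not_even_iff_odd.2 hj (e ▸ hae)
        simp [Multiset.count_singleton, this]
      · by_cases h : j = a <;> simp [Multiset.count_cons, Multiset.count_singleton, h]
    by_cases hsub : ν₁ ≤ ν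
    · obtain ⟨T, hTP, hT, hTn, hTd⟩ := ih _ hlt (perpIn B U W) rfl μ' (ν - ν₁) hPi hP hμ'
        (Multiset.sub_le_iff_le_add'.2 hle) fun j hj => by
          rw [Multiset.count_sub]
          exact Nat.even_sub' (Multiset.le_iff_count.1 hsub j) |>.2
            ⟨fun h => absurd (hpar j hj) (Nat.not_even_iff_odd.2 h), fun h => absurd (hpar1 j hj) (Nat.not_even_iff_odd.2 h)⟩
      refine ⟨U ⊔ T, sup_le hUW (hTP.trans inf_le_left), hU.sup hT,
        nd_sup hA hUn hTn fun b hb w hw => (mem_perpIn.1 (hTP hw)).2 b hb, ?_⟩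
      have h5 := Submodule.finrank_sup_add_finrank_inf_eq U T
      rw [show U ⊓ T = ⊥ from eq_bot_iff.2 (hUP ▸ inf_le_inf_left _ hTP), finrank_bot, hUd, hTd] at h5
      rw [← add_tsub_cancel_of_le hsub, Multiset.sum_add]
      omega
    · have hzero : ν.count a = 0 := by
        rcases hcase with ⟨-, rfl⟩ | ⟨hao, rfl⟩
        · exact Multiset.count_eq_zero.2 fun h => hsub (Multiset.singleton_le.2 h)
        · by_contra hne'
          obtain ⟨e, he⟩ := hpar a hao
          refine hsub (Multiset.le_iff_count.2 fun j => ?_)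
          by_cases h : j = a
          · subst h; simp; omega
          · simp [Multiset.count_cons, Multiset.count_singleton, h]
      obtain ⟨T, hTP, hT, hTn, hTd⟩ := ih _ hlt (perpIn B U W) rfl μ' ν hPi hP hμ'
        (Multiset.le_iff_count.2 fun j => by
          by_cases h : j = a
          · subst h; omega
          · have := Multiset.le_iff_count.1 hle j
            rw [Multiset.count_add] at this
            have h0 : ν₁.count j = 0 := by
              rcases hcase with ⟨-, rfl⟩ | ⟨-, rfl⟩ <;> simp [Multiset.count_cons, Multiset.count_singleton, h]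
            omega) hpar
      exact ⟨T, hTP.trans inf_le_left, hT, hTn, hTd⟩

section Two

variable [CharP F 2]

/-- A plane, or a four-space on which the pairing is alternating. -/
theorem two_cases (hA : B.IsAlt) (hiso : ∀ u v, B ((1 + N) u) ((1 + N) v) = B u v) (hN2 : ∀ v, N (N v) = 0)
    {W : Submodule F V} (hW : Inv N W) (hnd : Nd B W) (hne : W ≠ ⊥) :
    (∃ U ≤ W, Inv N U ∧ Nd B U ∧ finrank F U = 2) ∨ (∃ U ≤ W, Inv N U ∧ Nd B U ∧ finrank F U = 4) := by
  classical
  have hN : ∀ w ∈ W, (N ^ 2) w = 0 := fun w _ => by rw [pow_two, Module.End.mul_apply, hN2]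
  by_cases hzero : ∀ w ∈ W, N w = 0
  · obtain ⟨U, hUW, hU, hUd⟩ := exists_nd_sub hA 1 hnd (by
      have h1 := nd_even hA hnd
      have h2 : finrank F W ≠ 0 := fun h => hne (Submodule.finrank_eq_zero.1 h)
      obtain ⟨e, he⟩ := h1
      omega)
    exact Or.inl ⟨U, hUW, fun z hz => by rw [hzero z (hUW hz)]; exact U.zero_mem, hU, hUd⟩
  push Not at hzero
  obtain ⟨u, hu, hu0⟩ := hzero
  obtain ⟨v, hv, huv⟩ := Nd.iff.1 hnd _ (hW u hu) hu0
  by_cases hdiag : ∃ w ∈ W, B (N w) w ≠ 0
  · obtain ⟨w, hw, hww⟩ := hdiag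
    obtain ⟨U, hUW, hU, hUn, hUd, -⟩ := exists_chains hA hiso hW hN (by norm_num) (fun _ : Unit => w) (fun _ => hw)
      fun c hc => funext fun k => by
        have := hc ()
        simp only [Finset.univ_unique, Finset.sum_singleton, show 2 - 1 = 1 from rfl, pow_one] at this
        exact (mul_eq_zero.1 this).resolve_right hww
    exact Or.inl ⟨U, hUW, hU, hUn, by simpa using hUd⟩
  push Not at hdiag
  have hvu : B (N v) u ≠ 0 := by
    have := phi_symm hA hiso hW hN (by norm_num) hu hv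
    simp only [show 2 - 1 = 1 from rfl, pow_one] at this
    rw [this]
    simpa using huv
  obtain ⟨U, hUW, hU, hUn, hUd, -⟩ := exists_chains hA hiso hW hN (by norm_num) ![u, v]
    (fun k => by fin_cases k <;> assumption) fun c hc => by
      have h0 := hc 0
      have h1 := hc 1
      simp [Fin.sum_univ_two, hdiag u hu, hdiag v hv] at h0 h1
      funext k
      fin_cases k
      · exact h1.resolve_right huv
      · exact h0.resolve_right hvu
  exact Or.inr ⟨U, hUW, hU, hUn, by simpa using hUd⟩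

variable (hA : B.IsAlt) (hiso : ∀ u v, B ((1 + N) u) ((1 + N) v) = B u v) (hN2 : ∀ v, N (N v) = 0)
include hA hiso hN2

theorem perp_inv_two {U W : Submodule F V} (hU : Inv N U) (hW : Inv N W) : Inv N (perpIn B U W) := by
  have hinj : Function.Injective (1 + N : Module.End F V) := fun a b h => by
    have h' := congrArg (fun z => z + N z) h
    simp only [LinearMap.add_apply, Module.End.one_apply, map_add, hN2, add_zero] at h'
    have e2 : ∀ z : V, N z + N z = 0 := fun z => by
      rw [← two_smul F, CharTwo.two_eq_zero, zero_smul]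
    rwa [add_assoc, e2, add_zero, add_assoc, e2, add_zero] at h'
  intro z hz
  have hinv1 : ∀ {X : Submodule F V}, Inv N X → Inv (1 + N : Module.End F V) X := fun hX z hz => by
    simpa using Submodule.add_mem _ hz (hX z hz)
  have := (perpIn B U W).sub_mem (perp_inv_iso hiso hinj (hinv1 hU) (hinv1 hW) z hz) hz
  simpa using this

theorem sup_pieces {U T W : Submodule F V} {a b : ℕ} (hUW : U ≤ W) (hU : Inv N U) (hUn : Nd B U)
    (hUd : finrank F U = a) (hTP : T ≤ perpIn B U W) (hT : Inv N T) (hTn : Nd B T) (hTd : finrank F T = b) :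
    ∃ X ≤ W, Inv N X ∧ Nd B X ∧ finrank F X = a + b := by
  refine ⟨U ⊔ T, sup_le hUW (hTP.trans inf_le_left), hU.sup hT,
    nd_sup hA hUn hTn fun x hx w hw => (mem_perpIn.1 (hTP hw)).2 x hx, ?_⟩
  have h5 := Submodule.finrank_sup_add_finrank_inf_eq U T
  have : U ⊓ T = ⊥ := eq_bot_iff.2 fun z ⟨hz, hz'⟩ =>
    hUn z hz fun x hx => hA.isRefl x z ((mem_perpIn.1 (hTP hz')).2 x hx)
  rw [this, finrank_bot, hUd, hTd] at h5
  omega

theorem exists_four {W : Submodule F V} (hW : Inv N W) (hnd : Nd B W) (h4 : 4 ≤ finrank F W) :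
    ∃ U ≤ W, Inv N U ∧ Nd B U ∧ finrank F U = 4 := by
  rcases two_cases hA hiso hN2 hW hnd (fun h => by rw [h, finrank_bot] at h4; omega) with
    ⟨U, hUW, hU, hUn, hUd⟩ | h
  swap
  · exact h
  obtain ⟨hP, -, hdim⟩ := nd_split hA hUn hnd hUW
  rcases two_cases hA hiso hN2 (perp_inv_two hA hiso hN2 hU hW) hP (fun h => by rw [h, finrank_bot] at hdim; omega) with
    ⟨T, hTP, hT, hTn, hTd⟩ | ⟨T, hTP, hT, hTn, hTd⟩
  · exact sup_pieces hA hiso hN2 hUW hU hUn hUd hTP hT hTn hTd
  · exact ⟨T, hTP.trans inf_le_left, hT, hTn, hTd⟩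

theorem exists_plane : ∀ {W : Submodule F V}, Inv N W → Nd B W → finrank F W % 4 = 2 →
    ∃ U ≤ W, Inv N U ∧ Nd B U ∧ finrank F U = 2 := by
  intro W
  induction hd : finrank F W using Nat.strong_induction_on generalizing W with
  | _ d ih =>
    intro hW hnd hmod
    rcases two_cases hA hiso hN2 hW hnd (fun h => by rw [h, finrank_bot] at hd; omega) with h | ⟨U, hUW, hU, hUn, hUd⟩
    · exact h
    obtain ⟨hP, -, hdim⟩ := nd_split hA hUn hnd hUW
    obtain ⟨T, hTP, hT⟩ := ih _ (by omega) rfl (perp_inv_two hA hiso hN2 hU hW) hP (by omega)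
    exact ⟨T, hTP.trans inf_le_left, hT⟩

theorem exists_fours : ∀ (j : ℕ) {W : Submodule F V}, Inv N W → Nd B W → 4 * j ≤ finrank F W →
    ∃ U ≤ W, Inv N U ∧ Nd B U ∧ finrank F U = 4 * j := by
  intro j
  induction j with
  | zero => exact fun {W} _ _ _ => ⟨⊥, bot_le, fun v hv => by simp [(Submodule.mem_bot F).1 hv], nd_bot, by simp⟩
  | succ j ih =>
    intro W hW hnd hle
    obtain ⟨U, hUW, hU, hUn, hUd⟩ := exists_four hA hiso hN2 hW hnd (by omega)
    obtain ⟨hP, -, hdim⟩ := nd_split hA hUn hnd hUW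
    obtain ⟨T, hTP, hT, hTn, hTd⟩ := ih (perp_inv_two hA hiso hN2 hU hW) hP (by omega)
    obtain ⟨X, hX, hXi, hXn, hXd⟩ := sup_pieces hA hiso hN2 hUW hU hUn hUd hTP hT hTn hTd
    exact ⟨X, hX, hXi, hXn, by omega⟩

end Two

end Unip

end Cfsg.Agent.Lib.Elusive.SympUnip
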