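import Cfsg.Agent.S5979
import Cfsg.Agent.Lib.Elusive.Decomp
import Cfsg.Agent.Lib.Forms.Alternating
import Cfsg.Agent.Lib.Forms.SympStd
import Cfsg.Agent.Lib.Forms.TensorFrame

/-!
Kronecker products preserving a tensor product of forms: moved spaces, parity, conjugacy of involutions.
-/

set_option autoImplicit false

namespace Cfsg.Agent.Lib.Elusive.TensorSymp

open Module Cfsg.Agent.Lib.Elusive Cfsg.Agent.Lib.Forms Cfsg.Agent.S5979
open scoped Kronecker Matrix

universe u

variable {F : Type u} [Field F] {a b : ℕ}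

/-- The product vector. -/
def tens (p : Fin a → F) (v : Fin b → F) : Fin a × Fin b → F := fun z => p z.1 * v z.2

theorem kron_tens (A : Matrix (Fin a) (Fin a) F) (B : Matrix (Fin b) (Fin b) F) (p : Fin a → F) (v : Fin b → F) :
    (A ⊗ₖ B) *ᵥ tens p v = tens (A *ᵥ p) (B *ᵥ v) := funext fun z => kron_mulVec A B p v z.1 z.2

theorem formOfGram_eq_dot {κ : Type} [Fintype κ] [DecidableEq κ] (G : Matrix κ κ F) (x y : κ → F) :
    Cfsg.Geo.formOfGram id G x y = x ⬝ᵥ (G *ᵥ y) := by
  simp [Cfsg.Geo.formOfGram, dotProduct, Matrix.mulVec, Finset.mul_sum, mul_assoc]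

/-- Matrix criterion for preserving a form given by a Gram matrix. -/
theorem gram_preserve {κ : Type} [Fintype κ] [DecidableEq κ] {G M : Matrix κ κ F} :
    Mᵀ * G * M = G ↔ ∀ x y, Cfsg.Geo.formOfGram id G (M *ᵥ x) (M *ᵥ y) = Cfsg.Geo.formOfGram id G x y := by
  simp only [formOfGram_eq_dot]
  have e : ∀ x y : κ → F, (M *ᵥ x) ⬝ᵥ (G *ᵥ (M *ᵥ y)) = x ⬝ᵥ ((Mᵀ * G * M) *ᵥ y) := fun x y => by
    rw [← Matrix.mulVec_mulVec, ← Matrix.mulVec_mulVec, Matrix.dotProduct_mulVec x Mᵀ, Matrix.vecMul_transpose]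
  simp only [e]
  refine ⟨fun h x y => by rw [h], fun h => ?_⟩
  ext i j
  simpa [Matrix.mulVec_single, single_dotProduct] using h (Pi.single i 1) (Pi.single j 1)

theorem kron_gram {G₁ A : Matrix (Fin a) (Fin a) F} {G₂ B : Matrix (Fin b) (Fin b) F}
    (hA : Aᵀ * G₁ * A = G₁) (hB : Bᵀ * G₂ * B = G₂) :
    (A ⊗ₖ B)ᵀ * (G₁ ⊗ₖ G₂) * (A ⊗ₖ B) = G₁ ⊗ₖ G₂ := by
  rw [← Matrix.kroneckerMap_transpose, ← Matrix.mul_kronecker_mul, ← Matrix.mul_kronecker_mul, hA, hB]

/-- With a scalar first factor the second preserves its form. -/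
theorem preserve_snd {f₁ : (Fin a → F) → (Fin a → F) → F} {f₂ : (Fin b → F) → (Fin b → F) → F}
    (hf₁ : Cfsg.Geo.IsBilinearForm f₁) (hf₂ : Cfsg.Geo.IsBilinearForm f₂) (hne : ∃ p q, f₁ p q ≠ 0)
    {α : F} {B : Matrix (Fin b) (Fin b) F}
    (h : ((α • (1 : Matrix (Fin a) (Fin a) F)) ⊗ₖ B)ᵀ * (Cfsg.Geo.gramMatrix f₁ ⊗ₖ Cfsg.Geo.gramMatrix f₂) *
      ((α • (1 : Matrix (Fin a) (Fin a) F)) ⊗ₖ B) = Cfsg.Geo.gramMatrix f₁ ⊗ₖ Cfsg.Geo.gramMatrix f₂) (v w : Fin b → F) :
    f₂ ((α • B) *ᵥ v) ((α • B) *ᵥ w) = f₂ v w := by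
  have S₁ : Sesq (RingHom.id F) f₁ := ⟨hf₁.add_left, hf₁.smul_left, hf₁.add_right, hf₁.smul_right⟩
  have S₂ : Sesq (RingHom.id F) f₂ := ⟨hf₂.add_left, hf₂.smul_left, hf₂.add_right, hf₂.smul_right⟩
  obtain ⟨p, q, hpq⟩ := hne
  have h' := gram_preserve.1 h (tens p v) (tens q w)
  rw [kron_tens, kron_tens] at h'
  have e : ∀ (p q : Fin a → F) (v w : Fin b → F),
      Cfsg.Geo.formOfGram id (Cfsg.Geo.gramMatrix f₁ ⊗ₖ Cfsg.Geo.gramMatrix f₂) (tens p v) (tens q w) = f₁ p q * f₂ v w := by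
    intro p q v w
    have := formOfGram_kron (RingHom.id F) (Cfsg.Geo.gramMatrix f₁) (Cfsg.Geo.gramMatrix f₂) p q v w
    rw [S₁.formOfGram_eq, S₂.formOfGram_eq] at this
    exact this
  rw [e, e, Matrix.smul_mulVec, Matrix.smul_mulVec, Matrix.one_mulVec, Matrix.one_mulVec, hf₁.smul_left,
    hf₁.smul_right] at h'
  rw [Matrix.smul_mulVec, Matrix.smul_mulVec, hf₂.smul_left, hf₂.smul_right]
  refine mul_left_cancel₀ hpq ?_
  linear_combination h'

/-- An isometry of odd order moves a space of even dimension. -/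
theorem even_moved {V : Type*} [AddCommGroup V] [Module F V] [FiniteDimensional F V] (h2 : (2 : F) ≠ 0)
    {B : LinearMap.BilinForm F V} (hB : B.SeparatingLeft) {X : Module.End F V}
    (hX : ∀ u v, B (X u) (X v) = B u v) {r : ℕ} (hr : Odd r) (hrF : (r : F) ≠ 0) (hXr : X ^ r = 1) :
    Even (finrank F (LinearMap.range (X - (1 : F) • LinearMap.id))) := by
  classical
  set R := LinearMap.range (X - (1 : F) • LinearMap.id) with hR
  have hRmem : ∀ {v}, v ∈ R ↔ ∃ w, X w - w = v := fun {v} => by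
    simp [hR, LinearMap.mem_range, sub_eq_iff_eq_add]
  have hfix : ∀ v ∈ R, X v = v → v = 0 := by
    intro v hv hXv
    obtain ⟨w, rfl⟩ := hRmem.1 hv
    have hpow : ∀ k : ℕ, (X ^ k) w = w + (k : F) • (X w - w) := by
      intro k
      induction k with
      | zero => simp
      | succ k ih =>
        rw [pow_succ', Module.End.mul_apply, ih, map_add, map_smul, hXv, Nat.cast_succ, add_smul, one_smul]
        abel
    have := hpow r
    rw [hXr, Module.End.one_apply, left_eq_add] at this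
    exact (smul_eq_zero.1 this).resolve_left hrF
  have hXR : ∀ v ∈ R, X v ∈ R := fun v hv => by
    obtain ⟨w, rfl⟩ := hRmem.1 hv
    exact hRmem.2 ⟨X w, by rw [map_sub]⟩
  have htop : LinearMap.ker (X - (1 : F) • LinearMap.id) ⊔ R = ⊤ := by
    refine Submodule.eq_top_of_finrank_eq ?_
    have hs := Submodule.finrank_sup_add_finrank_inf_eq (LinearMap.ker (X - (1 : F) • LinearMap.id)) R
    have hinf : LinearMap.ker (X - (1 : F) • LinearMap.id) ⊓ R = ⊥ := eq_bot_iff.2 fun v hv =>
      (Submodule.mem_bot F).2 (hfix v hv.2 (by simpa [sub_eq_zero] using hv.1))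
    rw [hinf, finrank_bot] at hs
    have := LinearMap.finrank_range_add_finrank_ker (X - (1 : F) • LinearMap.id)
    rw [← hR] at this
    omega
  let B' : LinearMap.BilinForm F R := B.compl₁₂ R.subtype R.subtype
  have hB' : B'.SeparatingLeft := fun u hu => Subtype.ext (hB _ fun w => by
    obtain ⟨c, hc, v, hv, rfl⟩ := Submodule.mem_sup.1 (htop ▸ Submodule.mem_top : w ∈ LinearMap.ker _ ⊔ R)
    obtain ⟨u', hu'⟩ := hRmem.1 u.2
    have hc' : X c = c := by simpa [sub_eq_zero] using hc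
    have h0 : B (u : V) c = 0 := by
      rw [← hu', map_sub, LinearMap.sub_apply, sub_eq_zero]
      conv_lhs => rw [← hc']
      exact hX u' c
    rw [map_add, h0, zero_add]
    exact hu ⟨v, hv⟩)
  let bs := Module.finBasis F R
  set k := finrank F R
  set M := LinearMap.toMatrix₂ bs bs B'
  have hM : M.det ≠ 0 := (LinearMap.separatingLeft_iff_det_ne_zero bs).1 hB'
  set Xm := LinearMap.toMatrix bs bs (X.restrict hXR)
  have hinv : Xmᵀ * M * Xm = M := by
    rw [show Xmᵀ * M * Xm = LinearMap.toMatrix₂ bs bs (B'.compl₁₂ (X.restrict hXR) (X.restrict hXR)) from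
      (LinearMap.toMatrix₂_compl₁₂ bs bs bs bs B' _ _).symm]
    exact congrArg _ (LinearMap.ext₂ fun u v => hX u v)
  have hN : (Xm - 1).det ≠ 0 := fun h0 => by
    obtain ⟨v, hv0, hv⟩ := Matrix.exists_mulVec_eq_zero_iff.2 h0
    refine hv0 ?_
    have hfx : X.restrict hXR (bs.equivFun.symm v) = bs.equivFun.symm v := by
      apply bs.equivFun.injective
      rw [Matrix.sub_mulVec, Matrix.one_mulVec, sub_eq_zero] at hv
      rw [LinearEquiv.apply_symm_apply]
      refine Eq.trans ?_ hv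
      have h := LinearMap.toMatrix_mulVec_repr bs bs (X.restrict hXR) (bs.equivFun.symm v)
      rw [show (bs.repr (bs.equivFun.symm v) : Fin k → F) = v from bs.equivFun.apply_symm_apply v] at h
      exact h.symm
    have h0' := hfix _ (bs.equivFun.symm v).2 (congrArg Subtype.val hfx)
    rw [← bs.equivFun.apply_symm_apply v, show bs.equivFun.symm v = 0 from Subtype.ext h0', map_zero]
  have hdX : Xm.det = (-1) ^ k := by
    have h1 : (Xm - 1)ᵀ * M * Xm = -(M * (Xm - 1)) := by
      rw [Matrix.transpose_sub, Matrix.transpose_one, sub_mul, sub_mul, hinv, one_mul, mul_sub, mul_one, neg_sub]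
    have h2 := congrArg Matrix.det h1
    rw [Matrix.det_mul, Matrix.det_mul, Matrix.det_transpose, Matrix.det_neg, Matrix.det_mul,
      Fintype.card_fin] at h2
    refine mul_left_cancel₀ (mul_ne_zero hN hM) ?_
    linear_combination h2
  have hdr : Xm.det ^ r = 1 := by
    have hres : (X.restrict hXR) ^ r = 1 := LinearMap.ext fun v => Subtype.ext (by
      have hp : ∀ (n : ℕ) (v : R), (((X.restrict hXR) ^ n) v : V) = (X ^ n) v := by
        intro n
        induction n with
        | zero => intro v; rfl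
        | succ n ih => intro v; rw [pow_succ, Module.End.mul_apply, ih, pow_succ, Module.End.mul_apply]; rfl
      rw [hp, hXr]; rfl)
    rw [← Matrix.det_pow, show Xm ^ r = LinearMap.toMatrixAlgEquiv bs (X.restrict hXR) ^ r from rfl, ← map_pow,
      hres, map_one, Matrix.det_one]
  rw [hdX, ← pow_mul, mul_comm, pow_mul, hr.neg_one_pow] at hdr
  rcases Nat.even_or_odd k with he | ho
  · exact he
  · exact absurd (by rw [ho.neg_one_pow] at hdr; linear_combination -hdr) h2

section
variable [Fintype F] {p : ℕ} [Fact p.Prime] [CharP F p] {r : ℕ} [Fact r.Prime]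

theorem swap_ker (A : Matrix (Fin a) (Fin a) F) (B : Matrix (Fin b) (Fin b) F) (z : F) :
    finrank F (LinearMap.ker (Matrix.toLin' (A ⊗ₖ B) - z • LinearMap.id)) =
      finrank F (LinearMap.ker (Matrix.toLin' (B ⊗ₖ A) - z • LinearMap.id)) :=
  ker_conj_eq (T := LinearEquiv.funCongrLeft F F (Equiv.prodComm (Fin b) (Fin a))) (fun v => funext fun w => by
    simp only [LinearEquiv.funCongrLeft_apply, LinearMap.funLeft_apply, Matrix.toLin'_apply, Matrix.mulVec,
      dotProduct, Fintype.sum_prod_type, Matrix.kroneckerMap_apply, Equiv.prodComm_apply, Prod.swap_prod_mk,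
      Prod.fst_swap, Prod.snd_swap]
    rw [Finset.sum_comm]
    exact Finset.sum_congr rfl fun i _ => Finset.sum_congr rfl fun j _ => by ring) z

/-- A moved orbit in the second factor makes the moved space large. -/
theorem moved_le {A A' : Matrix (Fin a) (Fin a) F} (hA' : A' * A = 1) {B : Matrix (Fin b) (Fin b) F}
    {C R : Submodule F (Fin b → F)} {i : ℕ} (hS : Step (Matrix.toLin' B) C R i) (hR : R ≠ ⊥) :
    finrank F (LinearMap.ker (Matrix.toLin' (A ⊗ₖ B) - (1 : F) • LinearMap.id)) + a * (i - 1) ≤ a * b := by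
  classical
  have hi := hS.pos
  have hdiv := hS.dvd R hS.invR (by rw [inf_comm]; exact hS.isCompl.inf_eq_bot)
  have hiR := Nat.le_of_dvd (Nat.pos_of_ne_zero fun h => hR (Submodule.finrank_eq_zero.1 h)) hdiv
  obtain ⟨D, hDR, hD⟩ := Decomp.exists_sub R (s := i - 1) (by omega)
  let L : (Fin a → D) →ₗ[F] (Fin a × Fin b → F) :=
    { toFun := fun M z => (M z.1 : Fin b → F) z.2
      map_add' := fun _ _ => rfl
      map_smul' := fun _ _ => rfl }
  have hinj : Function.Injective L := fun M M' h => funext fun k => Subtype.ext (funext fun j => congrFun h (k, j))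
  set W := LinearMap.ker (Matrix.toLin' (A ⊗ₖ B) - (1 : F) • LinearMap.id) with hW
  have hdis : LinearMap.range L ⊓ W = ⊥ := by
    rw [eq_bot_iff]
    rintro _ ⟨⟨M, rfl⟩, hMW⟩
    have hrow : ∀ k, (M k : Fin b → F) = ∑ l, A k l • (B *ᵥ (M l : Fin b → F)) := fun k => funext fun j => by
      have h1 := LinearMap.mem_ker.1 hMW
      rw [LinearMap.sub_apply, sub_eq_zero] at h1
      have h' := (congrFun h1 (k, j)).symm
      simp only [one_smul, LinearMap.id_apply] at h'
      refine h'.trans ?_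
      simp [L, Matrix.mulVec, dotProduct, Fintype.sum_prod_type, Finset.mul_sum, mul_assoc]
    set S := Submodule.span F (Set.range fun k => (M k : Fin b → F))
    have hBM : ∀ l, B *ᵥ (M l : Fin b → F) = ∑ k, A' l k • (M k : Fin b → F) := fun l => by
      calc B *ᵥ (M l : Fin b → F) = ∑ m, (A' * A) l m • (B *ᵥ (M m : Fin b → F)) := by
            simp [hA', Matrix.one_apply, ite_smul]
        _ = _ := by
            simp only [Matrix.mul_apply, Finset.sum_smul]
            rw [Finset.sum_comm]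
            exact Finset.sum_congr rfl fun k _ => by simp [hrow k, Finset.smul_sum, smul_smul]
    have hSi : Inv (Matrix.toLin' B) S := fun v hv => by
      refine Submodule.span_induction (p := fun v _ => Matrix.toLin' B v ∈ S) ?_ (by simp)
        (fun x y _ _ hx hy => by rw [map_add]; exact S.add_mem hx hy)
        (fun c x _ hx => by rw [map_smul]; exact S.smul_mem c hx) hv
      rintro _ ⟨l, rfl⟩
      rw [Matrix.toLin'_apply, hBM]
      exact Submodule.sum_mem _ fun k _ => S.smul_mem _ (Submodule.subset_span ⟨k, rfl⟩)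
    have hSD : S ≤ D := Submodule.span_le.2 (by rintro _ ⟨k, rfl⟩; exact (M k).2)
    have hS0 : S = ⊥ := by
      have hd := hS.dvd S hSi (eq_bot_iff.2 fun v hv => by
        rw [← hS.isCompl.inf_eq_bot]; exact ⟨hv.2, hDR (hSD hv.1)⟩)
      have hle := Submodule.finrank_mono hSD
      by_contra hne
      have := Nat.le_of_dvd (Nat.pos_of_ne_zero fun h => hne (Submodule.finrank_eq_zero.1 h)) hd
      omega
    rw [Submodule.mem_bot]
    funext z
    have : (M z.1 : Fin b → F) ∈ S := Submodule.subset_span ⟨z.1, rfl⟩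
    rw [hS0, Submodule.mem_bot] at this
    exact congrFun this z.2
  have h1 := Submodule.finrank_sup_add_finrank_inf_eq (LinearMap.range L) W
  have h2 := Submodule.finrank_le (LinearMap.range L ⊔ W)
  rw [hdis, finrank_bot, add_zero, LinearMap.finrank_range_of_inj hinj, Module.finrank_pi_fintype,
    Finset.sum_const, Finset.card_univ, Fintype.card_fin, hD, smul_eq_mul] at h1
  rw [Module.finrank_pi, Fintype.card_prod, Fintype.card_fin, Fintype.card_fin] at h2
  omega

/-- A factor with scalar `r`-th power, with a root split off. -/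
theorem step_mat (hrp : r ≠ p) {B : Matrix (Fin b) (Fin b) F} (hB : B ^ r = 1) :
    ∃ C R, Step (Matrix.toLin' B) C R (orderOf (Fintype.card F : ZMod r)) ∧
      C = LinearMap.ker (Matrix.toLin' B - (1 : F) • LinearMap.id) := by
  obtain ⟨R, hS⟩ := step_pow (r := r) (x := Matrix.toLin' B) hrp one_ne_zero fun v => by
    rw [← Matrix.toLin'_pow, hB, one_pow, one_smul, Matrix.toLin'_one, LinearMap.id_apply]
  rw [Nat.card_eq_fintype_card] at hS
  exact ⟨_, R, hS, rfl⟩

theorem step_moved {B : Matrix (Fin b) (Fin b) F} (hrp : r ≠ p) (hB : B ^ r = 1) :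
    ∃ m, finrank F (LinearMap.ker (Matrix.toLin' B - (1 : F) • LinearMap.id)) +
      orderOf (Fintype.card F : ZMod r) * m = b := by
  obtain ⟨C, R, hS, hC⟩ := step_mat hrp hB
  obtain ⟨m, hm⟩ := hS.dvd R hS.invR (by rw [inf_comm]; exact hS.isCompl.inf_eq_bot)
  have := hS.finrank_add
  rw [finrank_fin_fun, hC, hm] at this
  exact ⟨m, this⟩

/-- An element of order `r` moving at most two orbits has no tensor form. -/
theorem no_kron (hr2 : r ≠ 2) (hrp : r ≠ p) (h2 : (2 : F) ≠ 0) (ha : Even a) (ha2 : 2 ≤ a) (hb : 3 ≤ b)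
    {f₁ : (Fin a → F) → (Fin a → F) → F} {f₂ : (Fin b → F) → (Fin b → F) → F}
    (hf₁ : Cfsg.Geo.IsSymplecticForm f₁) (hf₂ : Cfsg.Geo.IsSymmetricForm f₂)
    {A : Matrix (Fin a) (Fin a) F} {B : Matrix (Fin b) (Fin b) F}
    (hgram : (A ⊗ₖ B)ᵀ * (Cfsg.Geo.gramMatrix f₁ ⊗ₖ Cfsg.Geo.gramMatrix f₂) * (A ⊗ₖ B) =
      Cfsg.Geo.gramMatrix f₁ ⊗ₖ Cfsg.Geo.gramMatrix f₂)
    (hpow : (A ⊗ₖ B) ^ r = 1) {c : ℕ} (hc0 : 0 < c)
    (hc : finrank F (LinearMap.ker (Matrix.toLin' (A ⊗ₖ B) - (1 : F) • LinearMap.id)) + c = a * b)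
    (hc2 : c ≤ 2 * orderOf (Fintype.card F : ZMod r))
    (hce : Even (orderOf (Fintype.card F : ZMod r)) → c ≤ orderOf (Fintype.card F : ZMod r)) : False := by
  classical
  have hr : r.Prime := Fact.out
  set i := orderOf (Fintype.card F : ZMod r) with hidef
  have hi0 : 0 < i := by omega
  have hroots : ∀ (i₀ : Fin a) (j₀ : Fin b), (A ^ r) i₀ i₀ * (B ^ r) j₀ j₀ = 1 := fun i₀ j₀ => by
    rw [kron_pow] at hpow
    simpa using congrFun (congrFun hpow (i₀, j₀)) (i₀, j₀)
  have hentry : ∀ i k j l, (A ^ r) i k * (B ^ r) j l = if i = k ∧ j = l then 1 else 0 := fun i k j l => by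
    rw [kron_pow] at hpow
    have := congrFun (congrFun hpow (i, j)) (k, l)
    simpa [Matrix.one_apply, Prod.ext_iff] using this
  let i₀ : Fin a := ⟨0, by omega⟩
  let j₀ : Fin b := ⟨0, by omega⟩
  -- the case of a scalar first factor
  have hscal : ∀ α : F, A = α • 1 → False := by
    rintro α rfl
    rw [finrank_scalar] at hc
    have hY : (α • B) ^ r = 1 := by
      ext j l
      have := hentry i₀ i₀ j l
      simp only [smul_pow, one_pow, Matrix.smul_apply, Matrix.one_apply_eq, smul_eq_mul, mul_one] at this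
      simpa [smul_pow, Matrix.one_apply] using this
    obtain ⟨m, hm⟩ := step_moved hrp hY
    rw [map_smul] at hm
    rw [← hidef] at hm
    set k := finrank F (LinearMap.ker (α • Matrix.toLin' B - (1 : F) • LinearMap.id))
    have hcm : c = a * (i * m) := by
      have : a * b = a * k + a * (i * m) := by rw [← mul_add, hm]
      omega
    have hm0 : 0 < m := Nat.pos_of_ne_zero fun h => by simp [h] at hcm; omega
    have h1 : a * i ≤ a * (i * m) := Nat.mul_le_mul_left a (Nat.le_mul_of_pos_right i hm0)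
    have h1' : 2 * (i * m) ≤ a * (i * m) := Nat.mul_le_mul_right _ ha2
    have h1'' : 2 * i ≤ a * i := Nat.mul_le_mul_right _ ha2
    rcases Nat.even_or_odd i with hev | hodd
    · have := hce hev; omega
    · have him : i * m = i := by
        have : i ≤ i * m := Nat.le_mul_of_pos_right i hm0
        omega
      have S₂ := hf₂.bilinear
      let B₂ : LinearMap.BilinForm F (Fin b → F) := LinearMap.mk₂ F f₂ S₂.add_left S₂.smul_left S₂.add_right S₂.smul_right
      have hne : ∃ p q, f₁ p q ≠ 0 :=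
        ⟨_, ((hf₁.nondegenerate (Pi.single i₀ 1) (Pi.single_ne_zero_iff.2 one_ne_zero)).2)⟩
      have hev := even_moved (X := Matrix.toLin' (α • B)) h2 (B := B₂) (fun v hv => by
          by_contra h0
          obtain ⟨w, hw⟩ := (hf₂.nondegenerate v h0).2
          exact hw (hv w))
        (fun v w => preserve_snd hf₁.bilinear hf₂.bilinear hne hgram v w) (hr.odd_of_ne_two hr2) (fun h =>
          hrp ((Nat.prime_dvd_prime_iff_eq Fact.out hr).1 ((CharP.cast_eq_zero_iff F p r).1 h)).symm)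
        (by rw [← Matrix.toLin'_pow, hY, Matrix.toLin'_one]; rfl)
      rw [map_smul] at hev
      have hrn := LinearMap.finrank_range_add_finrank_ker (α • Matrix.toLin' B - (1 : F) • LinearMap.id)
      rw [finrank_fin_fun] at hrn
      have : finrank F (LinearMap.range (α • Matrix.toLin' B - (1 : F) • LinearMap.id)) = i := by omega
      rw [this] at hev
      exact Nat.not_even_iff_odd.2 hodd hev
  rcases lt_or_ge c b with hcb | hcb
  · obtain ⟨α, hα⟩ := scalar_of_fixed one_ne_zero hc hcb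
    exact hscal α hα
  have hi3 : 3 ≤ i ∨ (i = 2 ∧ c ≤ 2) := by
    rcases Nat.lt_or_ge i 3 with h | h
    · right
      rcases Nat.lt_or_ge i 2 with h' | h'
      · omega
      · have h2' : i = 2 := by omega
        exact ⟨h2', (hce (by rw [h2']; exact even_two)).trans_eq h2'⟩
    · exact Or.inl h
  rcases hi3 with hi3 | ⟨-, hc2'⟩
  swap
  · omega
  -- normalise
  have hndvd : ¬ r ∣ Fintype.card F - 1 := fun h => by rw [dvd_card_sub_one_iff, ← hidef] at h; omega
  have hAB := hroots i₀ j₀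
  set κ := (A ^ r) i₀ i₀
  have hκ0 : κ ≠ 0 := left_ne_zero_of_mul_eq_one hAB
  obtain ⟨l, hl, hlr⟩ := exists_root (r := r) hndvd hκ0
  have hA1 : (l⁻¹ • A) ^ r = 1 := by
    ext u v
    refine mul_right_cancel₀ (right_ne_zero_of_mul_eq_one hAB) ?_
    rw [smul_pow, Matrix.smul_apply, smul_eq_mul, mul_assoc, hentry, Matrix.one_apply, inv_pow, hlr]
    have hBj : (B ^ r) j₀ j₀ = κ⁻¹ := eq_inv_of_mul_eq_one_right hAB
    split_ifs <;> simp_all
  have hB1 : (l • B) ^ r = 1 := by
    ext u v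
    refine mul_left_cancel₀ hκ0 ?_
    rw [smul_pow, Matrix.smul_apply, smul_eq_mul, hlr, Matrix.one_apply]
    have := hentry i₀ i₀ u v
    simp only [true_and] at this
    rw [this]
  have hk : (l⁻¹ • A) ⊗ₖ (l • B) = A ⊗ₖ B := by
    rw [Matrix.smul_kronecker, Matrix.kronecker_smul, smul_smul, inv_mul_cancel₀ hl, one_smul]
  rw [← hk] at hc
  obtain ⟨C, R, hS, hC⟩ := step_mat hrp hB1
  by_cases hR : R = ⊥
  · have hBs : l • B = (1 : F) • (1 : Matrix (Fin b) (Fin b) F) := by
      have hker := hS.isCompl.sup_eq_top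
      rw [hR, sup_bot_eq, hC] at hker
      refine Matrix.toLin'.injective ?_
      rw [sub_eq_zero.1 (LinearMap.ker_eq_top.1 hker), map_smul, Matrix.toLin'_one]
    rw [swap_ker, hBs, finrank_scalar, one_smul] at hc
    obtain ⟨m, hm⟩ := step_moved hrp hA1
    rw [← hidef] at hm
    set k := finrank F (LinearMap.ker (Matrix.toLin' (l⁻¹ • A) - (1 : F) • LinearMap.id))
    have hcm : c = b * (i * m) := by
      have : b * a = b * k + b * (i * m) := by rw [← mul_add, hm]
      have := mul_comm a b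
      omega
    have hm0 : 0 < m := Nat.pos_of_ne_zero fun h => by simp [h] at hcm; omega
    have h1 : b * i ≤ b * (i * m) := Nat.mul_le_mul_left b (Nat.le_mul_of_pos_right i hm0)
    have h2' : 3 * i ≤ b * i := Nat.mul_le_mul_right i hb
    omega
  · have hle := moved_le (A := l⁻¹ • A) (A' := (l⁻¹ • A) ^ (r - 1))
      (by rw [← pow_succ, Nat.sub_add_cancel hr.one_le, hA1]) hS hR
    rw [← hidef] at hle
    have hca : a * (i - 1) ≤ c := by omega
    have h2a : 2 * (i - 1) ≤ a * (i - 1) := Nat.mul_le_mul_right _ ha2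
    rcases Nat.even_or_odd i with hev | hodd
    · have := hce hev; omega
    · obtain ⟨a', ha'⟩ := ha
      have ha4 : a = 2 := by
        by_contra hne
        have : 4 * (i - 1) ≤ a * (i - 1) := Nat.mul_le_mul_right _ (by omega)
        omega
      obtain ⟨m, hm⟩ := step_moved hrp hA1
      rw [← hidef] at hm
      have hm0 : m = 0 := by
        by_contra h0
        have : i ≤ i * m := Nat.le_mul_of_pos_right i (Nat.pos_of_ne_zero h0)
        omega
      rw [hm0, mul_zero, add_zero] at hm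
      refine hscal l ?_
      have htop : LinearMap.ker (Matrix.toLin' (l⁻¹ • A) - (1 : F) • LinearMap.id) = ⊤ :=
        Submodule.eq_top_of_finrank_eq (by rw [hm, finrank_fin_fun])
      have h1 : l⁻¹ • A = 1 := Matrix.toLin'.injective (by
        rw [sub_eq_zero.1 (LinearMap.ker_eq_top.1 htop), one_smul, Matrix.toLin'_one])
      rw [← h1, smul_smul, mul_inv_cancel₀ hl, one_smul]

end

/-- Coordinates of a symplectic space. -/
theorem exists_alt_frame {V : Type u} [AddCommGroup V] [Module F V] [FiniteDimensional F V]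
    {B : LinearMap.BilinForm F V} (hA : B.IsAlt) (hB : B.SeparatingLeft) :
    ∃ m, finrank F V = 2 * m := by
  obtain ⟨m, k, b, -, -, -, h4⟩ := exists_altBasis B hA
  obtain rfl : k = 0 := by
    by_contra hk
    exact b.ne_zero (Sum.inr ⟨0, Nat.pos_of_ne_zero hk⟩) (hB _ fun v => h4 _ v)
  exact ⟨m, by rw [Module.finrank_eq_card_basis b]; simp; omega⟩

/-- Involutive isometries with fixed spaces of equal dimension are conjugate. -/
theorem conj_invol {V : Type u} [AddCommGroup V] [Module F V] [FiniteDimensional F V] (h2 : (2 : F) ≠ 0)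
    {B : LinearMap.BilinForm F V} (hA : B.IsAlt) (hB : B.SeparatingLeft) {X Y : Module.End F V}
    (hX : ∀ u v, B (X u) (X v) = B u v) (hXX : ∀ v, X (X v) = v)
    (hY : ∀ u v, B (Y u) (Y v) = B u v) (hYY : ∀ v, Y (Y v) = v)
    (hdim : finrank F (LinearMap.ker (X - (1 : F) • LinearMap.id)) =
      finrank F (LinearMap.ker (Y - (1 : F) • LinearMap.id))) :
    ∃ G : V ≃ₗ[F] V, (∀ u v, B (G u) (G v) = B u v) ∧ ∀ v, G (Y v) = X (G v) := by
  have hsq : ∀ {Z : Module.End F V}, (∀ v, Z (Z v) = v) → ∀ v, Z (Z v) = ((1 : F) * 1) • v :=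
    fun h v => by rw [h, one_mul, one_smul]
  have horth : ∀ {Z : Module.End F V}, (∀ u v, B (Z u) (Z v) = B u v) →
      ∀ u ∈ LinearMap.ker (Z - (1 : F) • LinearMap.id), ∀ v ∈ LinearMap.ker (Z + (1 : F) • LinearMap.id),
        B u v = 0 ∧ B v u = 0 := by
    intro Z hZ u hu v hv
    have h := hZ u v
    rw [eig_pos hu, eig_neg hv, one_smul, neg_one_smul, map_neg, neg_eq_iff_add_eq_zero, ← two_mul] at h
    have h0 := (mul_eq_zero.1 h).resolve_left h2
    exact ⟨h0, by rw [← hA.neg_eq, h0, neg_zero]⟩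
  have hsep : ∀ {P Q : Submodule F V}, IsCompl P Q → (∀ u ∈ P, ∀ v ∈ Q, B u v = 0) →
      (B.compl₁₂ P.subtype P.subtype).SeparatingLeft := fun {P Q} hPQ ho u hu => Subtype.ext (hB _ fun w => by
    obtain ⟨c, hc, v, hv, rfl⟩ := Submodule.mem_sup.1 (hPQ.sup_eq_top ▸ Submodule.mem_top : w ∈ P ⊔ Q)
    rw [map_add, ho u u.2 v hv, add_zero]
    exact hu ⟨c, hc⟩)
  have hcX := isCompl_eigen h2 one_ne_zero (hsq hXX)
  have hcY := isCompl_eigen h2 one_ne_zero (hsq hYY)
  have hsum1 := Submodule.finrank_add_eq_of_isCompl hcX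
  have hsum2 := Submodule.finrank_add_eq_of_isCompl hcY
  set Pp := LinearMap.ker (Y - (1 : F) • LinearMap.id)
  set Qp := LinearMap.ker (X - (1 : F) • LinearMap.id)
  set Pm := LinearMap.ker (Y + (1 : F) • LinearMap.id)
  set Qm := LinearMap.ker (X + (1 : F) • LinearMap.id)
  have hAl : ∀ P : Submodule F V, (B.compl₁₂ P.subtype P.subtype).IsAlt := fun P u => hA.self_eq_zero _
  have sPp := hsep hcY fun u hu v hv => (horth hY u hu v hv).1
  have sQp := hsep hcX fun u hu v hv => (horth hX u hu v hv).1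
  have sPm := hsep hcY.symm fun u hu v hv => (horth hY v hv u hu).2
  have sQm := hsep hcX.symm fun u hu v hv => (horth hX v hv u hu).2
  have hdm : finrank F Pm = finrank F Qm := by omega
  obtain ⟨e₁, he₁⟩ := exists_alt_isometry (V := Pp) (V' := Qp) (B.compl₁₂ Pp.subtype Pp.subtype) (hAl Pp) sPp
    (B.compl₁₂ Qp.subtype Qp.subtype) (hAl Qp) sQp hdim.symm
  obtain ⟨e₂, he₂⟩ := exists_alt_isometry (V := Pm) (V' := Qm) (B.compl₁₂ Pm.subtype Pm.subtype) (hAl Pm) sPm
    (B.compl₁₂ Qm.subtype Qm.subtype) (hAl Qm) sQm hdm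
  let G := (Submodule.prodEquivOfIsCompl _ _ hcY).symm ≪≫ₗ (e₁.prodCongr e₂) ≪≫ₗ Submodule.prodEquivOfIsCompl _ _ hcX
  have hG : ∀ (u : LinearMap.ker (Y - (1 : F) • LinearMap.id)) (v : LinearMap.ker (Y + (1 : F) • LinearMap.id)),
      G ((u : V) + (v : V)) = (e₁ u : V) + (e₂ v : V) := fun u v => by
    have : (Submodule.prodEquivOfIsCompl _ _ hcY).symm ((u : V) + (v : V)) = (u, v) := by
      rw [LinearEquiv.symm_apply_eq, Submodule.coe_prodEquivOfIsCompl']
    simp only [G, LinearEquiv.trans_apply, this]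
    rw [Submodule.coe_prodEquivOfIsCompl']
    rfl
  have hsplit : ∀ v : V, ∃ (u : LinearMap.ker (Y - (1 : F) • LinearMap.id)) (w : LinearMap.ker (Y + (1 : F) • LinearMap.id)),
      (u : V) + (w : V) = v := fun v => by
    obtain ⟨c, hc, w, hw, rfl⟩ := Submodule.mem_sup.1 (hcY.sup_eq_top ▸ Submodule.mem_top (x := v))
    exact ⟨⟨c, hc⟩, ⟨w, hw⟩, rfl⟩
  refine ⟨G, fun v v' => ?_, fun v => ?_⟩
  · obtain ⟨u, w, rfl⟩ := hsplit v
    obtain ⟨u', w', rfl⟩ := hsplit v'
    rw [hG, hG]
    simp only [map_add, LinearMap.add_apply, (horth hX _ (e₁ u).2 _ (e₂ w').2).1,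
      (horth hX _ (e₁ u').2 _ (e₂ w).2).2, (horth hY _ u.2 _ w'.2).1, (horth hY _ u'.2 _ w.2).2]
    have h1 : B (e₁ u : V) (e₁ u') = B (u : V) u' := he₁ u u'
    have h2 : B (e₂ w : V) (e₂ w') = B (w : V) w' := he₂ w w'
    rw [h1, h2]
  · obtain ⟨u, w, rfl⟩ := hsplit v
    rw [map_add Y, eig_pos u.2, eig_neg w.2, one_smul, neg_one_smul, ← Submodule.coe_neg, hG, hG, map_add X,
      eig_pos (e₁ u).2, eig_neg (e₂ w).2, map_neg, Submodule.coe_neg]
    simp

end Cfsg.Agent.Lib.Elusive.TensorSymp
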