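import Cfsg.Prelude.Def_GeometricClasses
import Cfsg.Agent.Lib.Forms.SymmBasis
import Cfsg.Agent.Lib.Forms.UnitaryStd
import Cfsg.Agent.Lib.Classical.Unitary
import Cfsg.Agent.Lib.Elusive.Involution
import Cfsg.Agent.Lib.Elusive.Criterion

/-!
Conjugates in `SL_n` preserving a unitary form up to a scalar.
-/

set_option autoImplicit false

namespace Cfsg.Agent.Lib.Elusive.UnitSim

open Module
open scoped Matrix
open Cfsg.Agent.Lib.Classical

variable {F : Type*} [Field F] [Fintype F] {q n : ℕ}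

section Basic

variable {f : (Fin n → F) → (Fin n → F) → F}

theorem zero_left (hf : Cfsg.Geo.IsUnitaryFormPow q f) (v : Fin n → F) : f 0 v = 0 := by
  simpa using hf.smul_left 0 0 v

theorem add_right (hF : Fintype.card F = q ^ 2) (hf : Cfsg.Geo.IsUnitaryFormPow q f) (u v w : Fin n → F) :
    f u (v + w) = f u v + f u w := by
  rw [hf.herm, hf.add_left, Herm.conj_add hF, ← hf.herm, ← hf.herm]

theorem smul_right (hf : Cfsg.Geo.IsUnitaryFormPow q f) (c : F) (u v : Fin n → F) :
    f u (c • v) = c ^ q * f u v := by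
  rw [hf.herm, hf.smul_left, mul_pow, ← hf.herm]

theorem zero_right (hF : Fintype.card F = q ^ 2) (hf : Cfsg.Geo.IsUnitaryFormPow q f) (v : Fin n → F) :
    f v 0 = 0 := by
  rw [hf.herm, zero_left hf, Herm.conj_zero hF]

theorem sum_left (hf : Cfsg.Geo.IsUnitaryFormPow q f) {ι : Type*} (s : Finset ι) (a : ι → F)
    (x : ι → Fin n → F) (v : Fin n → F) : f (∑ i ∈ s, a i • x i) v = ∑ i ∈ s, a i * f (x i) v := by
  let L : (Fin n → F) →ₗ[F] F :=
    { toFun := fun x => f x v
      map_add' := fun x y => hf.add_left x y v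
      map_smul' := fun c x => hf.smul_left c x v }
  show L _ = _
  rw [map_sum]
  exact Finset.sum_congr rfl fun i _ => hf.smul_left _ _ _

theorem sum_right (hF : Fintype.card F = q ^ 2) (hf : Cfsg.Geo.IsUnitaryFormPow q f) {ι : Type*} (s : Finset ι)
    (a : ι → F) (x : ι → Fin n → F) (v : Fin n → F) :
    f v (∑ i ∈ s, a i • x i) = ∑ i ∈ s, a i ^ q * f v (x i) := by
  rw [hf.herm, sum_left hf, Herm.conj_sum hF]
  exact Finset.sum_congr rfl fun i _ => by rw [mul_pow, ← hf.herm]

theorem sep (hf : Cfsg.Geo.IsUnitaryFormPow q f) {u : Fin n → F} (h : ∀ v, f u v = 0) : u = 0 := by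
  by_contra h0
  obtain ⟨x, hx⟩ := (hf.nondegenerate u h0).2
  exact hx (h x)

theorem comp (hf : Cfsg.Geo.IsUnitaryFormPow q f) (e : (Fin n → F) ≃ₗ[F] (Fin n → F)) :
    Cfsg.Geo.IsUnitaryFormPow q fun u v => f (e u) (e v) where
  add_left := fun x y v => by rw [map_add, hf.add_left]
  smul_left := fun c x v => by rw [map_smul, hf.smul_left]
  herm := fun v w => hf.herm _ _
  nondegenerate := fun v hv => by
    obtain ⟨⟨x, hx⟩, y, hy⟩ := hf.nondegenerate (e v) fun h => hv (e.injective (h.trans (map_zero e).symm))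
    exact ⟨⟨e.symm x, by simpa using hx⟩, e.symm y, by simpa using hy⟩

/-- Every unitary form is the standard one in suitable coordinates. -/
theorem exists_std (hF : Fintype.card F = q ^ 2) (hf : Cfsg.Geo.IsUnitaryFormPow q f) :
    ∃ e : (Fin n → F) ≃ₗ[F] (Fin n → F), ∀ u v, f (e u) (e v) = Cfsg.hermForm n F q u v := by
  classical
  have H := Cfsg.Agent.Lib.Forms.isUnitary_hermForm hF n
  obtain ⟨b, hb⟩ := Cfsg.Agent.Lib.Forms.exists_orthonormal_family (Cfsg.Agent.Lib.Forms.conjQ hF) H.ne_refl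
    H.involutive n (Fin n → F) f hf.add_left hf.smul_left hf.herm (fun x hx => (hf.nondegenerate x hx).2)
    (finrank_fin_fun F)
  let L := Fintype.linearCombination F b
  have hL : ∀ u, L u = ∑ i, u i • b i := fun u => Fintype.linearCombination_apply F b u
  have hform : ∀ u v, f (L u) (L v) = Cfsg.hermForm n F q u v := fun u v => by
    rw [hL, hL, sum_left hf]
    refine Finset.sum_congr rfl fun i _ => ?_
    rw [sum_right hF hf]
    simp [hb, (show q ≠ 0 by have := Herm.two_le_q hF; omega)]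
  refine ⟨LinearEquiv.ofInjectiveEndo L ((injective_iff_map_eq_zero L).2 fun u hu => funext fun i => ?_), hform⟩
  have := hform u (Pi.single i 1)
  rw [hu, zero_left hf, Herm.herm_single_right hF] at this
  exact this.symm

/-- Any two unitary forms are equivalent. -/
theorem exists_iso (hF : Fintype.card F = q ^ 2) (hf : Cfsg.Geo.IsUnitaryFormPow q f)
    {R : (Fin n → F) → (Fin n → F) → F} (hR : Cfsg.Geo.IsUnitaryFormPow q R) :
    ∃ e : (Fin n → F) ≃ₗ[F] (Fin n → F), ∀ u v, f (e u) (e v) = R u v := by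
  obtain ⟨e, he⟩ := exists_std hF hf
  obtain ⟨e', he'⟩ := exists_std hF hR
  refine ⟨e'.symm.trans e, fun u v => ?_⟩
  rw [LinearEquiv.trans_apply, LinearEquiv.trans_apply, he, ← he']
  simp

/-- An element fixing a point preserves some unitary form up to a scalar. -/
theorem exists_form (hf : Cfsg.Geo.IsUnitaryFormPow q f) {x : GL (Fin n) F}
    (h : ∃ g ∈ Cfsg.Geo.specialLinear (Fin n) F, g⁻¹ * x * g ∈ Cfsg.Geo.similarityGroup f) :
    ∃ (R : (Fin n → F) → (Fin n → F) → F) (c : F), Cfsg.Geo.IsUnitaryFormPow q R ∧ c ≠ 0 ∧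
      ∀ u v, R (Matrix.toLin' (x : Matrix (Fin n) (Fin n) F) u) (Matrix.toLin' (x : Matrix (Fin n) (Fin n) F) v) =
        c * R u v := by
  obtain ⟨g, -, c, hc⟩ := h
  let e : (Fin n → F) ≃ₗ[F] (Fin n → F) :=
    LinearEquiv.ofLinearMap (Matrix.toLin' ((g⁻¹ : GL (Fin n) F) : Matrix (Fin n) (Fin n) F))
      (Matrix.toLin' (g : Matrix (Fin n) (Fin n) F))
      (by rw [← Matrix.toLin'_mul, ← Units.val_mul, inv_mul_cancel, Units.val_one, Matrix.toLin'_one])
      (by rw [← Matrix.toLin'_mul, ← Units.val_mul, mul_inv_cancel, Units.val_one, Matrix.toLin'_one])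
  have he : ∀ v, e v = ((g⁻¹ : GL (Fin n) F) : Matrix (Fin n) (Fin n) F) *ᵥ v := fun v => rfl
  refine ⟨fun u v => f (e u) (e v), c, comp hf e, c.ne_zero, fun u v => ?_⟩
  have h1 : ∀ w, e (Matrix.toLin' (x : Matrix (Fin n) (Fin n) F) w) =
      ((g⁻¹ * x * g : GL (Fin n) F) : Matrix (Fin n) (Fin n) F) *ᵥ (e w) := fun w => by
    rw [he, he, Matrix.toLin'_apply, Matrix.mulVec_mulVec, Matrix.mulVec_mulVec, ← Units.val_mul, ← Units.val_mul,
      mul_inv_cancel_right]
  show f _ _ = _
  rw [h1, h1]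
  exact hc _ _

/-- The multiplier of a map with a scalar power. -/
theorem mult_facts (hF : Fintype.card F = q ^ 2) (hn : n ≠ 0) (hf : Cfsg.Geo.IsUnitaryFormPow q f)
    {X : Module.End F (Fin n → F)} {c : F} (hc : ∀ u v, f (X u) (X v) = c * f u v) {r : ℕ} {z : F}
    (hX : ∀ v, (X ^ r) v = z • v) : c ^ q = c ∧ c ^ r = z ^ (q + 1) := by
  obtain ⟨u, v, huv⟩ : ∃ u v, f u v ≠ 0 := by
    have : (Pi.single (⟨0, by omega⟩ : Fin n) 1 : Fin n → F) ≠ 0 := by simp
    obtain ⟨v, hv⟩ := (hf.nondegenerate _ this).2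
    exact ⟨_, v, hv⟩
  refine ⟨mul_right_cancel₀ huv ?_, mul_right_cancel₀ huv ?_⟩
  · conv_lhs => rw [hf.herm u v, ← mul_pow, ← hc, ← hf.herm, hc]
  · have hpow : ∀ (j : ℕ), f ((X ^ j) u) ((X ^ j) v) = c ^ j * f u v := by
      intro j
      induction j with
      | zero => simp
      | succ j ih => rw [pow_succ' X, Module.End.mul_apply, Module.End.mul_apply, hc, ih, pow_succ', mul_assoc]
    rw [← hpow, hX, hX, hf.smul_left, smul_right hf, pow_succ', mul_assoc]

/-- A conjugate in a prescribed shape gives a fixed point. -/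
theorem exists_mem (hF : Fintype.card F = q ^ 2) (hf : Cfsg.Geo.IsUnitaryFormPow q f)
    {A : Matrix.SpecialLinearGroup (Fin n) F} {R : (Fin n → F) → (Fin n → F) → F}
    (hR : Cfsg.Geo.IsUnitaryFormPow q R) {y : Module.End F (Fin n → F)} {c : F} (hc : c ≠ 0)
    (hy : ∀ u v, R (y u) (y v) = c * R u v)
    (hconj : ∀ e : (Fin n → F) ≃ₗ[F] (Fin n → F), ∃ P : Matrix.SpecialLinearGroup (Fin n) F,
      Matrix.toLin' ((P⁻¹ * A * P : Matrix.SpecialLinearGroup (Fin n) F) : Matrix (Fin n) (Fin n) F) = e.conj y) :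
    ∃ g ∈ Cfsg.Geo.specialLinear (Fin n) F,
      g⁻¹ * Matrix.SpecialLinearGroup.toGL A * g ∈ Cfsg.Geo.similarityGroup f := by
  obtain ⟨e, he⟩ := exists_iso hF hf hR
  obtain ⟨P, hP⟩ := hconj e
  refine ⟨Matrix.SpecialLinearGroup.toGL P, MonoidHom.mem_ker.2 (Units.ext P.2), Units.mk0 c hc, fun u v => ?_⟩
  rw [← map_inv, ← map_mul, ← map_mul]
  show f (((P⁻¹ * A * P : Matrix.SpecialLinearGroup (Fin n) F) : Matrix (Fin n) (Fin n) F) *ᵥ u)
    (((P⁻¹ * A * P : Matrix.SpecialLinearGroup (Fin n) F) : Matrix (Fin n) (Fin n) F) *ᵥ v) = c * f u v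
  rw [← Matrix.toLin'_apply, ← Matrix.toLin'_apply, hP]
  obtain ⟨u, rfl⟩ := e.surjective u
  obtain ⟨v, rfl⟩ := e.surjective v
  simp [LinearEquiv.conj_apply, he, hy]

end Basic

/-- The form of an involutive permutation of the coordinates. -/
def permForm (q : ℕ) (τ : Equiv.Perm (Fin n)) (u v : Fin n → F) : F := ∑ i, u i * v (τ i) ^ q

theorem isUnitary_permForm (hF : Fintype.card F = q ^ 2) {τ : Equiv.Perm (Fin n)} (hτ : ∀ i, τ (τ i) = i) :
    Cfsg.Geo.IsUnitaryFormPow q (permForm (F := F) q τ) where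
  add_left := fun x y v => by simp [permForm, add_mul, Finset.sum_add_distrib]
  smul_left := fun c x v => by simp [permForm, Finset.mul_sum, mul_assoc]
  herm := fun v w => by
    rw [permForm, permForm, Herm.conj_sum hF]
    conv_rhs => rw [← Equiv.sum_comp τ]
    refine Finset.sum_congr rfl fun i _ => ?_
    rw [mul_pow, Herm.conj_conj hF, hτ, mul_comm]
  nondegenerate := fun v hv => by
    obtain ⟨i, hi⟩ := Function.ne_iff.1 hv
    simp only [Pi.zero_apply] at hi
    have hq : q ≠ 0 := by have := Herm.two_le_q hF; omega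
    refine ⟨⟨Pi.single (τ i) 1, ?_⟩, Pi.single (τ i) 1, ?_⟩
    · rw [permForm, Finset.sum_eq_single (τ i) (fun j _ hj => by simp [hj]) (by simp), hτ]
      simp [hi, hq]
    · rw [permForm, Finset.sum_eq_single i (fun j _ hj => by simp [τ.injective.ne hj, hq]) (by simp)]
      simp [hi]

/-- Elements with an eigenbasis whose eigenvalues pair up fix a point. -/
theorem fix_diag (hF : Fintype.card F = q ^ 2) (hn : n ≠ 0) {f : (Fin n → F) → (Fin n → F) → F}
    (hf : Cfsg.Geo.IsUnitaryFormPow q f) {A : Matrix.SpecialLinearGroup (Fin n) F}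
    (b : Basis (Fin n) F (Fin n → F)) {d : Fin n → F}
    (hd : ∀ i, Matrix.toLin' (A : Matrix (Fin n) (Fin n) F) (b i) = d i • b i) {τ : Equiv.Perm (Fin n)}
    (hτ : ∀ i, τ (τ i) = i) {c : F} (hc0 : c ≠ 0) (hc : ∀ i, d i * d (τ i) ^ q = c) :
    ∃ g ∈ Cfsg.Geo.specialLinear (Fin n) F,
      g⁻¹ * Matrix.SpecialLinearGroup.toGL A * g ∈ Cfsg.Geo.similarityGroup f := by
  classical
  refine exists_mem hF hf (isUnitary_permForm hF hτ) (y := Matrix.toLin' (Matrix.diagonal d)) hc0
    (fun u v => ?_) fun e => ?_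
  · simp only [permForm, Matrix.toLin'_apply, Matrix.mulVec_diagonal, Finset.mul_sum]
    refine Finset.sum_congr rfl fun i _ => ?_
    rw [mul_pow, ← hc i]
    ring
  · refine exists_sl_conj (e.symm.trans b.equivFun.symm) (fun v => ?_) fun δ _ => ?_
    · obtain ⟨a, rfl⟩ := e.surjective v
      simp [LinearEquiv.conj_apply, Basis.equivFun_symm_apply, map_sum, hd, smul_smul, mul_comm]
      refine Finset.sum_congr rfl fun i _ => ?_
      rw [Matrix.mulVec_diagonal, mul_comm]
    · let i₀ : Fin n := ⟨0, by omega⟩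
      refine ⟨e.conj (Matrix.toLin' (Matrix.diagonal fun i => if i = i₀ then δ else 1)), fun v => ?_, ?_⟩
      · obtain ⟨a, rfl⟩ := e.surjective v
        simp only [LinearEquiv.conj_apply, LinearMap.comp_apply, LinearEquiv.coe_coe, LinearEquiv.symm_apply_apply]
        congr 1
        ext i
        simp only [Matrix.toLin'_apply, Matrix.mulVec_diagonal]
        ring
      · rw [LinearEquiv.conj_apply, LinearMap.comp_assoc, LinearMap.det_conj, LinearMap.det_toLin',
          Matrix.det_diagonal, Finset.prod_ite_eq' Finset.univ i₀, if_pos (Finset.mem_univ _)]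

/-- In characteristic two every involution fixes a point. -/
theorem fix_char_two (hF : Fintype.card F = q ^ 2) (hn : n ≠ 0) (h2 : (2 : F) = 0)
    {f : (Fin n → F) → (Fin n → F) → F} (hf : Cfsg.Geo.IsUnitaryFormPow q f)
    {A : Matrix.SpecialLinearGroup (Fin n) F} {l : F} {N : Module.End F (Fin n → F)} (hl : l ≠ 0)
    (hA : Matrix.toLin' (A : Matrix (Fin n) (Fin n) F) = l • (1 + N)) (hN : N ^ 2 = 0) :
    ∃ g ∈ Cfsg.Geo.specialLinear (Fin n) F,
      g⁻¹ * Matrix.SpecialLinearGroup.toGL A * g ∈ Cfsg.Geo.similarityGroup f := by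
  classical
  set k := finrank F (LinearMap.range N) with hk
  have hle : LinearMap.range N ≤ LinearMap.ker N := by
    rintro _ ⟨v, rfl⟩
    rw [LinearMap.mem_ker, ← Module.End.mul_apply, ← pow_two, hN, LinearMap.zero_apply]
  have hkn : 2 * k ≤ n := by
    have h1 := Submodule.finrank_mono hle
    have h2' := LinearMap.finrank_range_add_finrank_ker N
    rw [finrank_fin_fun] at h2'
    omega
  let η : (Fin k ⊕ Fin k) ⊕ Fin (n - 2 * k) ≃ Fin n :=
    ((Equiv.sumCongr finSumFinEquiv (Equiv.refl _)).trans finSumFinEquiv).trans (finCongr (by omega))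
  let τ : Equiv.Perm (Fin n) := η.permCongr (Equiv.sumCongr (Equiv.sumComm _ _) (Equiv.refl _))
  have hτη : ∀ a, τ (η a) = η ((Equiv.sumCongr (Equiv.sumComm _ _) (Equiv.refl _)) a) := fun a => by simp [τ]
  have hτ : ∀ i, τ (τ i) = i := fun i => by
    obtain ⟨a, rfl⟩ := η.surjective i
    rw [hτη, hτη]
    rcases a with (a | a) | a <;> simp
  let π : (Fin n → F) →ₗ[F] (Fin k → F) := LinearMap.funLeft F F fun a => η (.inl (.inl a))
  let emb : (Fin k → F) →ₗ[F] (Fin n → F) :=
    (LinearMap.funLeft F F η.symm).comp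
      ({ toFun := fun w => Sum.elim (Sum.elim (0 : Fin k → F) w) (0 : Fin (n - 2 * k) → F)
         map_add' := fun w w' => by ext ((a | a) | a) <;> simp
         map_smul' := fun c w => by ext ((a | a) | a) <;> simp } :
        (Fin k → F) →ₗ[F] ((Fin k ⊕ Fin k) ⊕ Fin (n - 2 * k) → F))
  have hemb : ∀ w a, emb w (η a) = Sum.elim (Sum.elim (0 : Fin k → F) w) (0 : Fin (n - 2 * k) → F) a := fun w a => by simp [emb, LinearMap.funLeft_apply]
  set N' := emb ∘ₗ π with hN'
  have hN'2 : N' ^ 2 = 0 := by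
    refine LinearMap.ext fun v => ?_
    have : ∀ w, π (emb w) = 0 := fun w => funext fun a => hemb w _
    simp [pow_two, Module.End.mul_apply, hN', this]
  have hrk : finrank F (LinearMap.range N') = k := by
    have hπ : LinearMap.range π = ⊤ := LinearMap.range_eq_top.2 fun w =>
      ⟨fun j => Sum.elim (Sum.elim w 0) 0 (η.symm j), funext fun a => by simp [π, LinearMap.funLeft_apply]⟩
    have hinj : Function.Injective emb := fun w w' h => funext fun a => by
      have := congrFun h (η (.inl (.inr a)))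
      simpa [hemb] using this
    rw [hN', LinearMap.range_comp_of_range_eq_top _ hπ, LinearMap.finrank_range_of_inj hinj, finrank_fin_fun]
  have hiso : ∀ u v, permForm q τ (u + N' u) (v + N' v) = permForm q τ u v := fun u v => by
    simp only [permForm]
    rw [← Equiv.sum_comp η, ← Equiv.sum_comp η (fun i => u i * v (τ i) ^ q)]
    simp only [Fintype.sum_sum_type, hτη, Pi.add_apply, hN', LinearMap.comp_apply, hemb]
    simp only [Equiv.sumCongr_apply, Sum.map_inl, Sum.map_inr, Equiv.sumComm_apply, Sum.swap_inl, Sum.swap_inr,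
      Equiv.refl_apply, Sum.elim_inl, Sum.elim_inr, Pi.zero_apply, add_zero, π, LinearMap.funLeft_apply,
      Herm.conj_add hF, mul_add, add_mul, Finset.sum_add_distrib]
    linear_combination (∑ a, u (η (.inl (.inl a))) * v (η (.inl (.inl a))) ^ q) * h2
  refine exists_mem hF hf (isUnitary_permForm hF hτ) (y := l • (1 + N')) (c := l * l ^ q)
    (mul_ne_zero hl (pow_ne_zero _ hl)) (fun u v => ?_) fun e => ?_
  · have hR := isUnitary_permForm (F := F) hF hτ
    simp only [LinearMap.smul_apply, LinearMap.add_apply, Module.End.one_apply, hR.smul_left, smul_right hR, hiso]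
    ring
  · have hrk' : finrank F (LinearMap.range (e.conj N')) = k := by
      have h1 := LinearMap.finrank_range_add_finrank_ker (e.conj N')
      have h1' := LinearMap.finrank_range_add_finrank_ker N'
      rw [finrank_ker_conj] at h1
      omega
    refine sl_conj_char_two hn h2 hA hN (N' := e.conj N') ?_ (hrk'.trans hk) ?_
    · refine LinearMap.ext fun v => ?_
      have := LinearMap.congr_fun hN'2 (e.symm v)
      rw [pow_two, Module.End.mul_apply] at this
      simp [pow_two, Module.End.mul_apply, LinearEquiv.conj_apply, this]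
    · refine LinearMap.ext fun v => ?_
      simp [LinearEquiv.conj_apply]

end Cfsg.Agent.Lib.Elusive.UnitSim
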