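import Cfsg.Agent.Lib.Elusive.UnitTI
import Cfsg.Agent.Lib.Elusive.UnitSim
import Mathlib.FieldTheory.Finite.Trace

/-!
Elements of unitary groups with few invariant totally isotropic subspaces, and the number of such subspaces.
-/

set_option autoImplicit false
set_option maxHeartbeats 1000000

namespace Cfsg.Agent.Lib.Elusive.UnitBad

open Module Polynomial
open scoped Matrix
open Cfsg.Agent.Lib.Forms Cfsg.Agent.Lib.Classical
open Cfsg.Agent.Lib.Elusive.UnitInv (Nd Ti ti_dim)

universe u

variable {F : Type u} [Field F] [Fintype F] {q n : ℕ}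

/-- Prime divisors of the number of totally isotropic `m`-spaces. -/
theorem exists_pow_ti (hF : Fintype.card F = q ^ 2) {r m : ℕ} [Fact r.Prime] (hmn : 2 * m ≤ n)
    (hr : r ∣ Nat.card {W : Submodule F (Fin n → F) // finrank F ↥W = m ∧ ∀ u ∈ W, ∀ v ∈ W, Cfsg.hermForm n F q u v = 0}) :
    ∃ j, n < j + 2 * m ∧ j ≤ n ∧ (-(q : ZMod r)) ^ j = 1 := by
  classical
  have H := hermData hF n
  have hq2 := Herm.two_le_q hF
  have hmul := card_ti_mul (h := Cfsg.hermForm n F q) (fun S hS => H.span_zero S hS) m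
  rw [card_herm_frame hF, Nat.card_eq_fintype_card (α := F), hF] at hmul
  have hfac : ∀ i : Fin m, (q ^ 2) ^ m - (q ^ 2) ^ (i : ℕ) = (q ^ 2) ^ (i : ℕ) * ((q ^ 2) ^ (m - (i : ℕ)) - 1) := fun i => by
    rw [Nat.mul_sub, mul_one, ← pow_add, Nat.add_sub_cancel' i.2.le]
  rw [Finset.prod_congr rfl fun i _ => hfac i, Finset.prod_mul_distrib, Finset.prod_mul_distrib,
    ← Finset.prod_range (f := fun j => (q ^ 2) ^ j), mul_left_comm] at hmul
  simp only [← pow_mul] at hmul
  have hmul' := Nat.eq_of_mul_eq_mul_left (Finset.prod_pos fun j _ => pow_pos (show 0 < q by omega) _) hmul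
  obtain ⟨i, hi, hd⟩ := (Prime.dvd_finsetProd_iff (Nat.prime_iff.1 (Fact.out : r.Prime)) _).1
    (hmul' ▸ dvd_mul_of_dvd_left hr _)
  rw [Finset.mem_range] at hi
  obtain ⟨L, hL⟩ : ∃ L, n - 2 * i = L + 1 := ⟨n - 2 * i - 1, by omega⟩
  rw [Herm.cnt_zero_eq hF, Nat.add_sub_cancel, hL, Nat.add_sub_cancel] at hd
  have h1 : ∀ e, 1 ≤ q ^ e := fun e => Nat.one_le_pow _ _ (by omega)
  split_ifs at hd with he
  · rw [← ZMod.natCast_eq_zero_iff, Nat.cast_mul, Nat.cast_sub (h1 _), Nat.cast_add, Nat.cast_pow, Nat.cast_pow,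
      Nat.cast_one] at hd
    rcases mul_eq_zero.1 hd with h0 | h0
    · exact ⟨L + 1, by omega, by omega, by rw [he.neg_pow, sub_eq_zero.1 h0]⟩
    · refine ⟨L, by omega, by omega, ?_⟩
      rw [(show Odd L by rw [Nat.even_add_one, Nat.not_even_iff_odd] at he; exact he).neg_pow]
      linear_combination -h0
  · rw [← ZMod.natCast_eq_zero_iff, Nat.cast_mul, Nat.cast_sub (h1 _), Nat.cast_add, Nat.cast_pow, Nat.cast_pow,
      Nat.cast_one] at hd
    have he' : Even L := by rwa [Nat.even_add_one, not_not] at he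
    rcases mul_eq_zero.1 hd with h0 | h0
    · refine ⟨L + 1, by omega, by omega, ?_⟩
      rw [(he'.add_one).neg_pow]
      linear_combination -h0
    · exact ⟨L, by omega, by omega, by rw [he'.neg_pow, sub_eq_zero.1 h0]⟩

/-- Diagonal elements: eigenvalues met only once kill coordinates of invariant totally isotropic subspaces. -/
theorem diag_bad (hF : Fintype.card F = q ^ 2) (d : Fin n → F) (hd : ∀ i, d i ^ (q + 1) = 1)
    (hprod : ∏ i, d i = 1) (S : Finset (Fin n)) (hS : ∀ j ∈ S, ∀ k, k ≠ j → d k ≠ d j) :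
    ∃ x : Matrix.SpecialLinearGroup (Fin n) F, x ∈ Cfsg.SU n F q ∧
      (x : Matrix (Fin n) (Fin n) F) = Matrix.diagonal d ∧
      ∀ W : Submodule F (Fin n → F), (∀ u ∈ W, ∀ v ∈ W, Cfsg.hermForm n F q u v = 0) →
        W.map (Matrix.toLin' (x : Matrix (Fin n) (Fin n) F)) ≤ W → 2 * finrank F W + S.card ≤ n := by
  classical
  have H := hermData hF n
  refine ⟨⟨Matrix.diagonal d, by rw [Matrix.det_diagonal]; exact hprod⟩, Herm.mem_SU.2 fun u v => ?_, rfl,
    fun W hW hinv => ?_⟩
  · show Cfsg.hermForm n F q (Matrix.diagonal d *ᵥ u) (Matrix.diagonal d *ᵥ v) = _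
    simp only [Cfsg.hermForm, Matrix.mulVec_diagonal, mul_pow]
    refine Finset.sum_congr rfl fun i _ => ?_
    linear_combination (u i * v i ^ q) * hd i
  set X := Matrix.toLin' (Matrix.diagonal d) with hX
  have hI : Inv X W := inv_iff_map_le.2 hinv
  have hev : ∀ (P : F[X]) (v : Fin n → F), aeval X P v = fun i => P.eval (d i) * v i := by
    intro P
    induction P using Polynomial.induction_on' with
    | add P Q hP hQ => intro v; simp [hP, hQ, add_mul, funext_iff]
    | monomial j c =>
      intro v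
      rw [aeval_monomial, Module.End.mul_apply, Module.algebraMap_end_apply, hX, ← Matrix.toLin'_pow,
        Matrix.diagonal_pow, Matrix.toLin'_apply]
      funext i
      simp [Matrix.mulVec_diagonal, mul_assoc]
  have hzero : ∀ v ∈ W, ∀ j ∈ S, v j = 0 := fun v hv j hj => by
    set P : F[X] := ∏ k ∈ Finset.univ.erase j, (Polynomial.X - Polynomial.C (d k)) with hP
    have hPj : P.eval (d j) ≠ 0 := by
      rw [hP, eval_prod, Finset.prod_ne_zero_iff]
      intro k hk
      simpa [sub_eq_zero] using (hS j hj k (Finset.mem_erase.1 hk).1).symm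
    have hPk : ∀ k, k ≠ j → P.eval (d k) = 0 := fun k hk => by
      rw [hP, eval_prod]
      exact Finset.prod_eq_zero (Finset.mem_erase.2 ⟨hk, Finset.mem_univ k⟩) (by simp)
    have hw := hI.aeval P v hv
    have hww := hW _ hw _ hw
    rw [hev, Cfsg.hermForm, Finset.sum_eq_single j (fun k _ hk => by simp [hPk k hk]) (by simp), ← pow_succ',
      pow_eq_zero_iff (Nat.succ_ne_zero q)] at hww
    exact (mul_eq_zero.1 hww).resolve_left hPj
  let E : Submodule F (Fin n → F) := Submodule.span F (Set.range fun j : S => Pi.basisFun F (Fin n) (j : Fin n))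
  have hEd : finrank F E = S.card := by
    exact (finrank_span_eq_card ((Pi.basisFun F (Fin n)).linearIndependent.comp _ Subtype.val_injective)).trans
      (Fintype.card_coe S)
  have hEs : ∀ v ∈ E, ∀ k, k ∉ S → v k = 0 := fun v hv => by
    induction hv using Submodule.span_induction with
    | mem v hv =>
      obtain ⟨j, rfl⟩ := hv
      intro k hk
      simp [Pi.basisFun_apply, show k ≠ (j : Fin n) from fun e => hk (e ▸ j.2)]
    | zero => simp
    | add a b _ _ ha hb => intro k hk; simp [ha k hk, hb k hk]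
    | smul c a _ ha => intro k hk; simp [ha k hk]
  have hle : W ⊔ E ≤ H.perp' W := sup_le (fun u hu v hv => hW u hu v hv) fun e he v hv => by
    show ∑ k, e k * v k ^ q = 0
    refine Finset.sum_eq_zero fun k _ => ?_
    by_cases hk : k ∈ S
    · rw [hzero v hv k hk, zero_pow (by have := Herm.two_le_q hF; omega), mul_zero]
    · rw [hEs e he k hk, zero_mul]
  have hinf : W ⊓ E = ⊥ := eq_bot_iff.2 fun v ⟨hv, hv'⟩ => (Submodule.mem_bot F).2 (funext fun k => by
    by_cases hk : k ∈ S
    · exact hzero v hv k hk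
    · exact hEs v hv' k hk)
  have h1 := Submodule.finrank_sup_add_finrank_inf_eq W E
  rw [hinf, finrank_bot, hEd] at h1
  have h2 := Submodule.finrank_mono hle
  have h3 := H.finrank_perp'_eq W
  rw [finrank_fin_fun] at h3
  omega

variable {r : ℕ} [Fact r.Prime] {p : ℕ} [Fact p.Prime] [CharP F p]

/-- Elements made of different self-paired blocks. -/
theorem exists_bad_elt (hF : Fintype.card F = q ^ 2) (hrp : r ≠ p) (hsplit : ¬ r ∣ q + 1)
    (hc : orderOf (-(q : ZMod r)) = orderOf (Nat.card F : ZMod r)) {P : ℕ} (hP1 : 1 ≤ P)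
    (hPs : P * orderOf (Nat.card F : ZMod r) ≤ r - 1) (hPn : P * orderOf (Nat.card F : ZMod r) ≤ n) :
    ∃ x : Matrix.SpecialLinearGroup (Fin n) F, x ∈ Cfsg.SU n F q ∧
      (∀ v, ((Matrix.toLin' (x : Matrix (Fin n) (Fin n) F)) ^ r) v = v) ∧
      (∀ w : F, (x : Matrix (Fin n) (Fin n) F) ≠ w • 1) ∧
      ∀ W : Submodule F (Fin n → F), (∀ u ∈ W, ∀ v ∈ W, Cfsg.hermForm n F q u v = 0) →
        W.map (Matrix.toLin' (x : Matrix (Fin n) (Fin n) F)) ≤ W →
        2 * finrank F W + P * orderOf (Nat.card F : ZMod r) ≤ n := by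
  classical
  have hr : r.Prime := Fact.out
  obtain ⟨p', k₀, hp', hc', -, hqk⟩ := Cfsg.Agent.Lib.UnitaryConj.q_eq_pow hF
  obtain rfl : p = p' := CharP.eq F (by assumption) hc'
  have hrq : ¬ r ∣ q := fun hd => hrp ((Nat.prime_dvd_prime_iff_eq hr Fact.out).1 (hr.dvd_of_dvd_pow (hqk ▸ hd)))
  have hq0 : (q : ZMod r) ≠ 0 := fun e => hrq ((ZMod.natCast_eq_zero_iff q r).1 e)
  have hfo : IsOfFinOrder (-(q : ZMod r)) := isOfFinOrder_iff_pow_eq_one.2
    ⟨r - 1, by have := hr.two_le; omega, ZMod.pow_card_sub_one_eq_one (neg_ne_zero.2 hq0)⟩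
  have hcast : (Nat.card F : ZMod r) = (-(q : ZMod r)) ^ 2 := by
    rw [Nat.card_eq_fintype_card, hF, Nat.cast_pow, neg_pow_two]
  set b := orderOf (Nat.card F : ZMod r) with hb
  have hb0 : 0 < b := by rw [← hc]; exact hfo.orderOf_pos
  have hbo : Odd b := by
    rw [← Nat.not_even_iff_odd]
    intro he
    have : b = b / b.gcd 2 := by
      conv_lhs => rw [hb, hcast, hfo.orderOf_pow, hc]
    rw [Nat.gcd_eq_right he.two_dvd] at this
    omega
  have hqb : (q : ZMod r) ^ b = -1 := by
    have := pow_orderOf_eq_one (-(q : ZMod r))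
    rw [hc, hbo.neg_pow] at this
    linear_combination -this
  obtain ⟨hnodup, hcard, -⟩ := SympTI.factors_facts (F := F) (r := r) hrp
  rw [← Nat.card_eq_fintype_card, ← hb] at hcard
  set fs := UniqueFactorizationMonoid.normalizedFactors (cyclotomic r F) with hfs
  have hPcard : P ≤ fs.toList.length := by
    rw [Multiset.length_toList]
    exact Nat.le_of_mul_le_mul_right (hPs.trans_eq hcard.symm) hb0
  let G : Fin P → F[X] := fun c => fs.toList.get (Fin.castLE hPcard c)
  have hGmem : ∀ c, G c ∈ fs := fun c => Multiset.mem_toList.1 (List.get_mem _ _)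
  have hGinj : Function.Injective G := fun c c' h => by
    have hnd : fs.toList.Nodup := by rw [← Multiset.coe_nodup, Multiset.coe_toList]; exact hnodup
    exact Fin.castLE_injective hPcard (hnd.injective_get h)
  have hGf : ∀ c, (G c).Monic ∧ Irreducible (G c) ∧ (G c).natDegree = b := fun c => factor_cyclotomic hrp (hGmem c)
  set c₀ : Fin P := ⟨0, hP1⟩
  haveI : Fact (Irreducible (G c₀)) := ⟨(hGf c₀).2.1⟩
  let pb := AdjoinRoot.powerBasis' (hGf c₀).1
  haveI : FiniteDimensional F (AdjoinRoot (G c₀)) := pb.finite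
  haveI : Finite (AdjoinRoot (G c₀)) := Module.finite_of_finite F
  set K := AdjoinRoot (G c₀)
  haveI : CharP K p := charP_of_injective_algebraMap (FaithfulSMul.algebraMap_injective F K) p
  set ζ : K := AdjoinRoot.root (G c₀) with hζ
  have hKdim : finrank F K = b := by rw [pb.finrank, AdjoinRoot.powerBasis'_dim, (hGf c₀).2.2]
  have hdvdX : ∀ c, G c ∣ Polynomial.X ^ r - 1 := fun c =>
    (UniqueFactorizationMonoid.dvd_of_mem_normalizedFactors (hGmem c)).trans (cyclotomic.dvd_X_pow_sub_one r F)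
  have heval1 : ∀ c, (G c).eval 1 ≠ 0 := fun c h0 => by
    have h1 : (cyclotomic r F).eval 1 = 0 :=
      eval_eq_zero_of_dvd_of_eval_eq_zero (UniqueFactorizationMonoid.dvd_of_mem_normalizedFactors (hGmem c)) h0
    rw [Polynomial.eval_one_cyclotomic_prime] at h1
    exact hrp ((Nat.prime_dvd_prime_iff_eq Fact.out hr).1 ((CharP.cast_eq_zero_iff F p r).1 h1)).symm
  have hζr : ζ ^ r = 1 := by
    have h := AdjoinRoot.mk_eq_zero.2 (hdvdX c₀)
    simpa [sub_eq_zero] using h
  have hζ0 : aeval ζ (G c₀) = 0 := by rw [hζ, AdjoinRoot.aeval_eq, AdjoinRoot.mk_self]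
  have hne1 : ∀ c (μ : K), aeval μ (G c) = 0 → μ ≠ 1 := fun c μ hμ h1 => heval1 c (by
    rw [h1, ← map_one (algebraMap F K), aeval_algebraMap_apply] at hμ
    exact (map_eq_zero_iff _ (FaithfulSMul.algebraMap_injective F K)).1 (by simpa using hμ))
  have hζp : IsPrimitiveRoot ζ r := by
    rw [IsPrimitiveRoot.iff_orderOf]
    exact orderOf_eq_prime hζr (hne1 _ _ hζ0)
  -- roots of the chosen factors
  have hroot : ∀ c, ∃ μ : K, aeval μ (G c) = 0 ∧ μ ^ r = 1 ∧ ∃ a : ℕ, ζ = μ ^ a := by
    intro c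
    have hne : ((Polynomial.X : F[X]) ^ r - 1).map (algebraMap F K) ≠ 0 := by
      simpa using X_pow_sub_C_ne_zero hr.pos (1 : K)
    have hspl : ((Polynomial.X ^ r - 1 : F[X]).map (algebraMap F K)).Splits := by
      have := X_pow_sub_C_splits_of_isPrimitiveRoot hζp (a := (1 : K)) (α := 1) (one_pow r)
      simpa using this
    obtain ⟨μ, hμ⟩ := (hspl.of_dvd hne (Polynomial.map_dvd _ (hdvdX c))).exists_eval_eq_zero (by
      rw [degree_map]
      exact (natDegree_pos_iff_degree_pos.mp (hGf c).2.1.natDegree_pos).ne')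
    rw [eval_map] at hμ
    have hμ' : aeval μ (G c) = 0 := hμ
    have hμr : μ ^ r = 1 := by
      obtain ⟨e, he⟩ := hdvdX c
      have := congrArg (fun P => aeval μ P) he
      simpa [hμ', sub_eq_zero] using this
    refine ⟨μ, hμ', hμr, ?_⟩
    have hμp : IsPrimitiveRoot μ r := by
      rw [IsPrimitiveRoot.iff_orderOf]
      exact orderOf_eq_prime hμr (hne1 c μ hμ')
    obtain ⟨a, -, ha⟩ := hμp.eq_pow_of_pow_eq_one hζr
    exact ⟨a, ha.symm⟩
  choose μ hμG hμr hμpow using hroot
  have hμ0 : ∀ c, μ c ≠ 0 := fun c h => by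
    have := hμr c
    rw [h, zero_pow hr.ne_zero] at this
    exact zero_ne_one this
  have hsep : ∀ c c', c' ≠ c → aeval (μ c) (G c') ≠ 0 := fun c c' hne h => hne (hGinj
    ((minpoly.eq_of_irreducible_of_monic (hGf c').2.1 h (hGf c').1).trans
      (minpoly.eq_of_irreducible_of_monic (hGf c).2.1 (hμG c) (hGf c).1).symm))
  -- the involution
  let σ : K →+* K := iterateFrobenius K p (k₀ * b)
  have hσ : ∀ z, σ z = z ^ (q ^ b) := fun z => by
    show iterateFrobenius K p (k₀ * b) z = _
    rw [iterateFrobenius_def, pow_mul, ← hqk]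
  haveI := Fintype.ofFinite K
  have hKcard : Fintype.card K = q ^ (2 * b) := by
    rw [Module.card_eq_pow_finrank (K := F) (V := K), hKdim, hF, ← pow_mul]
  have hσσ : ∀ z, σ (σ z) = z := fun z => by
    rw [hσ, hσ, ← pow_mul, ← pow_add, ← two_mul, ← hKcard, FiniteField.pow_card]
  have hσa : ∀ a : F, σ (algebraMap F K a) = algebraMap F K (a ^ q) := fun a => by
    rw [hσ, ← map_pow]
    congr 1
    obtain ⟨l, hl⟩ := hbo
    rw [hl, pow_succ' q, pow_mul q 2, pow_mul a, ← hF, FiniteField.pow_card_pow]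
  have htr : ∀ z, Algebra.trace F K (σ z) = Algebra.trace F K z ^ q := fun z => by
    refine FaithfulSMul.algebraMap_injective F K ?_
    rw [← hσa, FiniteField.algebraMap_trace_eq_sum_pow, FiniteField.algebraMap_trace_eq_sum_pow, map_sum]
    simp [map_pow]
  have hσμ : ∀ c, μ c * σ (μ c) = 1 := fun c => by
    obtain ⟨e, he⟩ : r ∣ q ^ b + 1 := by
      rw [← ZMod.natCast_eq_zero_iff]
      push_cast
      rw [hqb, neg_add_cancel]
    rw [hσ, ← pow_succ', he, pow_mul, hμr, one_pow]
  -- the model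
  obtain ⟨k', hk'⟩ : ∃ k', n = P * b + k' := ⟨n - P * b, by omega⟩
  let hV : (Fin P → K) × (Fin k' → F) → (Fin P → K) × (Fin k' → F) → F := fun v w =>
    (∑ c, Algebra.trace F K (v.1 c * σ (w.1 c))) + Cfsg.hermForm k' F q v.2 w.2
  have hfin : finrank F ((Fin P → K) × (Fin k' → F)) = finrank F (Fin n → F) := by
    rw [Module.finrank_prod, Module.finrank_pi_fintype F, finrank_fin_fun, finrank_fin_fun, Finset.sum_const,
      Finset.card_univ, Fintype.card_fin, hKdim, smul_eq_mul, hk']
  let e₀ : ((Fin P → K) × (Fin k' → F)) ≃ₗ[F] (Fin n → F) := LinearEquiv.ofFinrankEq _ _ hfin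
  let R : (Fin n → F) → (Fin n → F) → F := fun u v => hV (e₀.symm u) (e₀.symm v)
  have Hk := Cfsg.Agent.Lib.Forms.isUnitary_hermForm hF k'
  have hadd : ∀ u v w, hV (u + v) w = hV u w + hV v w := fun u v w => by
    simp only [hV, Prod.fst_add, Prod.snd_add, Pi.add_apply, add_mul, map_add, Finset.sum_add_distrib, Hk.add_left]
    ring
  have hsmul : ∀ (a : F) u w, hV (a • u) w = a * hV u w := fun a u w => by
    simp only [hV, Prod.smul_fst, Prod.smul_snd, Pi.smul_apply, smul_mul_assoc, map_smul, smul_eq_mul, Hk.smul_left,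
      Finset.mul_sum, mul_add]
  have hherm : ∀ u v, hV u v = hV v u ^ q := fun u v => by
    simp only [hV]
    rw [Herm.conj_add hF, Herm.conj_sum hF, Herm.hermForm_conj hF]
    congr 1
    refine Finset.sum_congr rfl fun c _ => ?_
    rw [← htr, map_mul σ, hσσ, mul_comm]
  have hblock : ∀ (a : K), (∀ w, Algebra.trace F K (a * w) = 0) → a = 0 := fun a ha =>
    (traceForm_nondegenerate F K).1 a fun w => by rw [Algebra.traceForm_apply]; exact ha w
  have hsepV : ∀ v, (∀ w, hV v w = 0) → v = 0 := fun v hv => by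
    refine Prod.ext (funext fun c => hblock _ fun w => ?_) (funext fun k => ?_)
    · have := hv (Pi.single c (σ w), 0)
      simp only [hV] at this
      rw [Finset.sum_eq_single c (fun d _ hd => by simp [hd]) (by simp), Pi.single_eq_same, hσσ,
        show Cfsg.hermForm k' F q v.2 0 = 0 by simp [Cfsg.hermForm, (show q ≠ 0 by have := Herm.two_le_q hF; omega)],
        add_zero] at this
      exact this
    · have := hv (0, Pi.single k 1)
      simp only [hV, Pi.zero_apply, map_zero, mul_zero, Finset.sum_const_zero, zero_add, Herm.herm_single_right hF] at this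
      exact this
  have hR : Cfsg.Geo.IsUnitaryFormPow q R := by
    refine ⟨fun u w v => by simp [R, hadd], fun a u v => by simp [R, hsmul], fun u v => hherm _ _, fun v hv => ?_⟩
    have hv0 : e₀.symm v ≠ 0 := fun h0 => hv (e₀.symm.injective (h0.trans (map_zero _).symm))
    obtain ⟨w, hw⟩ := not_forall.1 fun h0 => hv0 (hsepV _ h0)
    refine ⟨⟨e₀ w, ?_⟩, e₀ w, by simpa [R] using hw⟩
    show hV (e₀.symm (e₀ w)) (e₀.symm v) ≠ 0
    rw [e₀.symm_apply_apply, hherm]
    exact pow_ne_zero _ hw
  obtain ⟨e₁, he₁⟩ := UnitSim.exists_std hF hR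
  let e : ((Fin P → K) × (Fin k' → F)) ≃ₗ[F] (Fin n → F) := e₀.trans e₁.symm
  have he : ∀ u v, Cfsg.hermForm n F q (e u) (e v) = hV u v := fun u v => by
    show Cfsg.hermForm n F q (e₁.symm (e₀ u)) (e₁.symm (e₀ v)) = _
    rw [← he₁, e₁.apply_symm_apply, e₁.apply_symm_apply]
    simp [R]
  let M : Module.End F ((Fin P → K) × (Fin k' → F)) :=
    (LinearMap.pi fun c => (LinearMap.mulLeft F (μ c)).comp (LinearMap.proj c)).prodMap LinearMap.id
  have hMv : ∀ v, M v = (fun c => μ c * v.1 c, v.2) := fun v => rfl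
  have hMpow : ∀ (j : ℕ) v, (M ^ j) v = (fun c => μ c ^ j * v.1 c, v.2) := by
    intro j
    induction j with
    | zero => intro v; simp
    | succ j ih =>
      intro v
      rw [pow_succ', Module.End.mul_apply, ih, hMv]
      simp [pow_succ', mul_assoc]
  have haev : ∀ (Q : F[X]) v, aeval M Q v = (fun c => aeval (μ c) Q * v.1 c, Q.eval 1 • v.2) := by
    intro Q
    induction Q using Polynomial.induction_on' with
    | add A B hA hB => intro v; simp [hA, hB, add_mul, add_smul, Prod.ext_iff, funext_iff]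
    | monomial j a =>
      intro v
      rw [aeval_monomial, Module.End.mul_apply, Module.algebraMap_end_apply, hMpow]
      simp [aeval_monomial, mul_assoc, Algebra.smul_def, Prod.ext_iff, funext_iff]
  set X := e.conj M with hX
  have hXe : ∀ v, X (e v) = e (M v) := fun v => by simp [X, LinearEquiv.conj_apply]
  have hiso : ∀ u v, Cfsg.hermForm n F q (X u) (X v) = Cfsg.hermForm n F q u v := fun u v => by
    obtain ⟨a, rfl⟩ := e.surjective u
    obtain ⟨a', rfl⟩ := e.surjective v
    rw [hXe, hXe, he, he]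
    simp only [hV, hMv]
    congr 1
    refine Finset.sum_congr rfl fun c _ => ?_
    rw [map_mul σ, mul_mul_mul_comm, hσμ, one_mul]
  have hXpow : ∀ (j : ℕ) v, (X ^ j) (e v) = e ((M ^ j) v) := by
    intro j
    induction j with
    | zero => simp
    | succ j ih => intro v; rw [pow_succ', pow_succ', Module.End.mul_apply, Module.End.mul_apply, ih, hXe]
  have hXr : ∀ v, (X ^ r) v = v := fun v => by
    obtain ⟨a, rfl⟩ := e.surjective v
    rw [hXpow, hMpow]
    simp [hμr]
  have hdetne : (LinearMap.toMatrix' X).det ≠ 0 := fun e0 => by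
    obtain ⟨u, hu0, hu⟩ := Matrix.exists_mulVec_eq_zero_iff.2 e0
    rw [← Matrix.toLin'_apply, Matrix.toLin'_toMatrix'] at hu
    refine hu0 ?_
    have h1 := hXr u
    rwa [← Nat.sub_add_cancel hr.one_le, pow_succ, Module.End.mul_apply, hu, map_zero, eq_comm] at h1
  have hgU : Matrix.GeneralLinearGroup.mkOfDetNeZero _ hdetne ∈ Cfsg.GU n F q := Herm.mem_GU.2 fun u v => by
    show Cfsg.hermForm n F q (LinearMap.toMatrix' X *ᵥ u) (LinearMap.toMatrix' X *ᵥ v) = _
    rw [← Matrix.toLin'_apply, ← Matrix.toLin'_apply, Matrix.toLin'_toMatrix', hiso]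
  have hdet : (LinearMap.toMatrix' X).det = 1 := by
    have h1 : (LinearMap.toMatrix' X).det ^ r = 1 := by
      rw [LinearMap.det_toMatrix', ← map_pow, show X ^ r = LinearMap.id from LinearMap.ext hXr, LinearMap.det_id]
    have h2 : (LinearMap.toMatrix' X).det ^ (q + 1) = 1 := Herm.det_norm hF hgU
    simpa [(hr.coprime_iff_not_dvd.2 hsplit).gcd_eq_one] using pow_gcd_eq_one.2 ⟨h1, h2⟩
  refine ⟨⟨_, hdet⟩, Herm.mem_SU.2 (Herm.mem_GU.1 hgU), fun v => ?_, fun w hw => ?_, fun W hW hinv => ?_⟩
  · show ((Matrix.toLin' (LinearMap.toMatrix' X)) ^ r) v = v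
    rw [Matrix.toLin'_toMatrix', hXr]
  · have h1 : ∀ v, X v = w • v := fun v => by
      have h2 := congrArg (fun A => Matrix.toLin' A v) hw
      simpa using h2
    have h3 : M (Pi.single c₀ 1, 0) = w • (Pi.single c₀ 1, 0) := e.injective (by rw [← hXe, h1, map_smul])
    have h4 : μ c₀ = algebraMap F K w := by
      have := congrFun (congrArg Prod.fst h3) c₀
      simpa [hMv, Algebra.smul_def] using this
    have h5 : (G c₀).natDegree ≤ 1 := by
      rw [minpoly.eq_of_irreducible_of_monic (hGf c₀).2.1 (hμG c₀) (hGf c₀).1, h4, minpoly.eq_X_sub_C]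
      exact (natDegree_X_sub_C w).le
    rw [(hGf c₀).2.2] at h5
    have hb1 : b = 1 := by omega
    have h6 := hqb
    rw [hb1, pow_one] at h6
    exact hsplit ((ZMod.natCast_eq_zero_iff (q + 1) r).1 (by push_cast; rw [h6, neg_add_cancel]))
  · change W.map (Matrix.toLin' (LinearMap.toMatrix' X)) ≤ W at hinv
    rw [Matrix.toLin'_toMatrix'] at hinv
    set W' := W.comap e.toLinearMap
    have hW' : ∀ u ∈ W', ∀ v ∈ W', hV u v = 0 := fun u hu v hv => by rw [← he]; exact hW _ hu _ hv
    have hI : Inv M W' := fun v hv => by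
      show e (M v) ∈ W
      rw [← hXe]
      exact hinv ⟨_, hv, rfl⟩
    have hzero : ∀ v ∈ W', v.1 = 0 := fun v hv => funext fun c => by
      set Q : F[X] := (∏ d ∈ Finset.univ.erase c, G d) * (Polynomial.X - 1) with hQ
      set a := aeval (μ c) Q * v.1 c
      have hQc : aeval (μ c) Q ≠ 0 := by
        rw [hQ, map_mul, map_prod]
        refine mul_ne_zero (Finset.prod_ne_zero_iff.2 fun d hd => hsep _ _ (Finset.mem_erase.1 hd).1) ?_
        rw [map_sub, aeval_X, map_one, sub_ne_zero]
        exact hne1 c _ (hμG c)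
      have hw : aeval M Q v = (Pi.single c a, 0) := by
        rw [haev]
        refine Prod.ext (funext fun d => ?_) ?_
        · rcases eq_or_ne d c with rfl | hdc
          · simp [a]
          · show _ = Pi.single (M := fun _ => K) c a d
            rw [Pi.single_eq_of_ne hdc]
            show aeval (μ d) Q * v.1 d = 0
            rw [hQ, map_mul, map_prod, Finset.prod_eq_zero (Finset.mem_erase.2 ⟨hdc, Finset.mem_univ d⟩) (hμG d),
              zero_mul, zero_mul]
        · simp [hQ]
      have hwW := hI.aeval Q v hv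
      rw [hw] at hwW
      have h0 : a * σ a = 0 := hblock _ fun y => by
        obtain ⟨A, rfl⟩ := AdjoinRoot.mk_surjective y
        obtain ⟨j, hj⟩ := hμpow c
        have hA : aeval (μ c) (A.comp (Polynomial.X ^ j)) = AdjoinRoot.mk (G c₀) A := by
          rw [aeval_comp, map_pow, aeval_X, ← hj, hζ, AdjoinRoot.aeval_eq]
        have h1 := hW' _ (hI.aeval (A.comp (Polynomial.X ^ j)) _ hwW) _ hwW
        rw [haev] at h1
        simp only [hV] at h1
        rw [Finset.sum_eq_single c (fun d _ hd => by simp [hd]) (by simp)] at h1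
        simp only [Pi.single_eq_same, hA, smul_zero] at h1
        rw [show Cfsg.hermForm k' F q (0 : Fin k' → F) 0 = 0 by simp [Cfsg.hermForm], add_zero] at h1
        rw [← h1]
        congr 1
        ring
      rcases mul_eq_zero.1 h0 with h0 | h0
      · exact (mul_eq_zero.1 h0).resolve_left hQc
      · exact (mul_eq_zero.1 (σ.injective (h0.trans (map_zero σ).symm))).resolve_left hQc
    -- the remaining part
    have Hd : HermData (conjQ hF) (Cfsg.hermForm k' F q) := hermData hF k'
    let W₂ : Submodule F (Fin k' → F) := W'.map (LinearMap.snd F _ _)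
    have hd : finrank F W₂ = finrank F W := by
      rw [show finrank F W₂ = finrank F W' from ?_]
      · exact ((e.symm.submoduleMap W).finrank_eq.trans (by rw [Submodule.map_equiv_eq_comap_symm]; rfl)).symm
      · exact (LinearEquiv.ofBijective ((LinearMap.snd F _ _).submoduleMap W')
          ⟨(injective_iff_map_eq_zero _).2 fun z hz => Subtype.ext (Prod.ext (hzero z z.2) (congrArg Subtype.val hz)),
            LinearMap.submoduleMap_surjective _ _⟩).finrank_eq.symm
    have h2 := ti_dim Hd (UnitInv.nd_top Hd) (le_top : W₂ ≤ ⊤) (by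
      rintro _ ⟨u, hu, rfl⟩ _ ⟨v, hv, rfl⟩
      have := hW' u hu v hv
      simpa [hV, hzero u hu] using this)
    rw [finrank_top, finrank_fin_fun, hd] at h2
    omega

end Cfsg.Agent.Lib.Elusive.UnitBad
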