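import Cfsg.Agent.Lib.Elusive.UnitInv

/-!
The primes dividing the number of non-degenerate subspaces of a Hermitian space.
-/

set_option autoImplicit false

namespace Cfsg.Agent.Lib.Elusive.UnitInv

open Module
open Cfsg.Agent.Lib.Forms Cfsg.Agent.Lib.Classical

universe u v

variable {F : Type u} [Field F] [Fintype F] {V : Type v} [AddCommGroup V] [Module F V] [FiniteDimensional F V]
  {σ : F ≃+* F} {h : V → V → F} {q : ℕ}

/-- Orthonormal families in `W`. -/
def OF (h : V → V → F) (W : Submodule F V) (k : ℕ) : Type v :=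
  {f : Fin k → V // (∀ i, f i ∈ W) ∧ ∀ i j, h (f i) (f j) = if i = j then 1 else 0}

theorem span_orth (H : HermData σ h) {k : ℕ} {f : Fin k → V} (hf : ∀ i j, h (f i) (f j) = if i = j then 1 else 0) :
    Nd h (Submodule.span F (Set.range f)) ∧ finrank F (Submodule.span F (Set.range f)) = k := by
  have key : ∀ (a : Fin k → F) i, h (∑ j, a j • f j) (f i) = a i := fun a i => by
    have h1 := H.sum_orthonormal hf a (Pi.single i 1)
    simpa [Pi.single_apply, ite_smul, apply_ite σ] using h1
  refine ⟨fun u hu hall => ?_, ?_⟩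
  · obtain ⟨a, rfl⟩ := (Submodule.mem_span_range_iff_exists_fun F).1 hu
    refine Finset.sum_eq_zero fun i _ => ?_
    rw [← key a i, hall _ (Submodule.subset_span ⟨i, rfl⟩), zero_smul]
  · rw [finrank_span_eq_card (Fintype.linearIndependent_iff.2 fun a ha i => ?_), Fintype.card_fin]
    rw [← key a i, ha, H.zero_left]

theorem card_OF (H : HermData σ h) (hσ : ∀ a, σ a = a ^ q) : ∀ (k : ℕ) {W : Submodule F V}, Nd h W →
    k ≤ finrank F W → Nat.card (OF h W k) = ∏ i ∈ Finset.range k, Herm.cnt (finrank F W - i) F q 1 := by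
  classical
  haveI : Finite V := Module.finite_of_finite F
  intro k
  induction k with
  | zero =>
    intro W _ _
    haveI : Unique (OF h W 0) :=
      ⟨⟨⟨Fin.elim0, fun i => i.elim0, fun i => i.elim0⟩⟩, fun f => Subtype.ext (funext fun i => i.elim0)⟩
    simp
  | succ k ih =>
    intro W hW hk
    let S := {w : W // h (w : V) w = 1}
    haveI := Fintype.ofFinite S
    let P : S → Submodule F V := fun w => perpIn H (Submodule.span F {((w : W) : V)}) W
    have hnd : ∀ w : S, Nd h (Submodule.span F {((w : W) : V)}) := fun w u hu hall => by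
      obtain ⟨a, rfl⟩ := Submodule.mem_span_singleton.1 hu
      have := hall _ (Submodule.mem_span_singleton_self _)
      rw [H.smul_left, w.2, mul_one] at this
      rw [this, zero_smul]
    have hP : ∀ w : S, Nd h (P w) ∧ finrank F (P w) = finrank F W - 1 := fun w => by
      obtain ⟨h1, -, -, h4⟩ := nd_split H (hnd w) hW (by simpa using w.1.2)
      rw [finrank_span_singleton (fun e => by simpa [e, H.zero_left] using w.2)] at h4
      exact ⟨h1, show finrank F ↥(perpIn H (Submodule.span F {((w : W) : V)}) W) = _ by omega⟩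
    have hperp : ∀ (w : S) (v : V), v ∈ P w ↔ v ∈ W ∧ h v ((w : W) : V) = 0 := fun w v => by
      rw [mem_perpIn]
      refine and_congr_right fun _ => ⟨fun hv => hv _ (Submodule.mem_span_singleton_self _), fun hv u hu => ?_⟩
      obtain ⟨a, rfl⟩ := Submodule.mem_span_singleton.1 hu
      rw [H.smul_right, hv, mul_zero]
    let Φ : (Σ w : S, OF h (P w) k) → OF h W (k + 1) := fun z =>
      ⟨Fin.cons ((z.1 : W) : V) z.2.1, fun i => by
        cases i using Fin.cases with
        | zero => exact z.1.1.2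
        | succ i => exact ((hperp z.1 _).1 (z.2.2.1 i)).1, fun i j => by
        cases i using Fin.cases with
        | zero =>
          cases j using Fin.cases with
          | zero => simpa using z.1.2
          | succ j =>
            simp only [Fin.cons_zero, Fin.cons_succ, (Fin.succ_ne_zero j).symm, if_false]
            exact H.eq_zero_comm.1 ((hperp z.1 _).1 (z.2.2.1 j)).2
        | succ i =>
          cases j using Fin.cases with
          | zero =>
            simp only [Fin.cons_zero, Fin.cons_succ, Fin.succ_ne_zero i, if_false]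
            exact ((hperp z.1 _).1 (z.2.2.1 i)).2
          | succ j => simpa using z.2.2.2 i j⟩
    have hΦ : Function.Bijective Φ := by
      refine ⟨fun ⟨w, f⟩ ⟨w', f'⟩ e => ?_, fun g => ?_⟩
      · have e' : (Fin.cons ((w : W) : V) f.1 : Fin (k + 1) → V) = Fin.cons ((w' : W) : V) f'.1 := congrArg Subtype.val e
        obtain ⟨e1, e2⟩ := Fin.cons_inj.1 e'
        obtain rfl : w = w' := Subtype.ext (Subtype.ext e1)
        obtain rfl : f = f' := Subtype.ext e2
        rfl
      · let w : S := ⟨⟨g.1 0, g.2.1 0⟩, by simpa using g.2.2 0 0⟩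
        refine ⟨⟨w, ⟨fun i => g.1 i.succ, fun i => (hperp w _).2 ⟨g.2.1 _, ?_⟩, fun i j => ?_⟩⟩,
          Subtype.ext (Fin.cons_self_tail g.1)⟩
        · show h (g.1 i.succ) (g.1 0) = 0
          rw [g.2.2, if_neg (Fin.succ_ne_zero i)]
        · simpa using g.2.2 i.succ j.succ
    haveI : ∀ w : S, Finite (OF h (P w) k) := fun w => inferInstanceAs (Finite {f : Fin k → V // _})
    rw [← Nat.card_congr (Equiv.ofBijective Φ hΦ), Nat.card_sigma,
      Finset.sum_congr rfl fun w _ => (ih (hP w).1 (by have := (hP w).2; omega)).trans (by rw [(hP w).2]),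
      Finset.sum_const, Finset.card_univ, smul_eq_mul, Finset.prod_range_succ']
    obtain ⟨b, hb⟩ := orth_basis H hW
    have hS : Fintype.card S = Herm.cnt (finrank F W) F q 1 := by
      rw [← Nat.card_eq_fintype_card, Herm.cnt]
      refine Nat.card_congr ((b.equivFun.toEquiv).subtypeEquiv fun w => ?_)
      show _ ↔ Cfsg.hermForm _ F q (b.repr w) (b.repr w) = 1
      rw [hermForm_coords H hσ hb]
    rw [hS, Nat.sub_zero, mul_comm]
    refine congrArg (· * _) (Finset.prod_congr rfl fun i _ => ?_)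
    rw [show finrank F W - 1 - i = finrank F W - (i + 1) by omega]

/-- A prime dividing the number of non-degenerate `m`-spaces. -/
theorem exists_pow_eq_one (H : HermData σ h) (hF : Fintype.card F = q ^ 2) (hσ : ∀ a, σ a = a ^ q) {r m : ℕ}
    [Fact r.Prime] (hrq : ¬ r ∣ q) (hm : m ≤ finrank F V)
    (hr : r ∣ Nat.card {W : Submodule F V // finrank F W = m ∧ Nd h W}) :
    ∃ j, finrank F V - m < j ∧ j ≤ finrank F V ∧ (-(q : ZMod r)) ^ j = 1 := by
  classical
  haveI : Finite V := Module.finite_of_finite F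
  let Ω := {W : Submodule F V // finrank F W = m ∧ Nd h W}
  haveI : Finite Ω := inferInstanceAs (Finite {W : Submodule F V // _})
  haveI := Fintype.ofFinite Ω
  haveI : ∀ W : Ω, Finite (OF h W.1 m) := fun W => inferInstanceAs (Finite {f : Fin m → V // _})
  let Φ : (Σ W : Ω, OF h W.1 m) → OF h (⊤ : Submodule F V) m := fun z => ⟨z.2.1, fun _ => trivial, z.2.2.2⟩
  have hspan : ∀ (W : Ω) (f : OF h W.1 m), Submodule.span F (Set.range f.1) = W.1 := fun W f =>
    Submodule.eq_of_le_of_finrank_le (Submodule.span_le.2 (by rintro _ ⟨i, rfl⟩; exact f.2.1 i))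
      (by rw [(span_orth H f.2.2).2, W.2.1])
  have hΦ : Function.Bijective Φ := by
    refine ⟨fun ⟨W, f⟩ ⟨W', f'⟩ e => ?_, fun f => ?_⟩
    · have e' : f.1 = f'.1 := congrArg Subtype.val e
      obtain rfl : W = W' := Subtype.ext (by rw [← hspan W f, ← hspan W' f', e'])
      obtain rfl : f = f' := Subtype.ext e'
      rfl
    · obtain ⟨h1, h2⟩ := span_orth H f.2.2
      exact ⟨⟨⟨_, h2, h1⟩, ⟨f.1, fun i => Submodule.subset_span ⟨i, rfl⟩, f.2.2⟩⟩, rfl⟩
  have hcard : Nat.card Ω * (∏ i ∈ Finset.range m, Herm.cnt (m - i) F q 1) =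
      ∏ i ∈ Finset.range m, Herm.cnt (finrank F V - i) F q 1 := by
    have h1 := card_OF H hσ m (nd_top H) (by rw [finrank_top]; exact hm)
    rw [finrank_top] at h1
    rw [← h1, ← Nat.card_congr (Equiv.ofBijective Φ hΦ), Nat.card_sigma,
      Finset.sum_congr rfl fun W _ => (card_OF H hσ m W.2.2 W.2.1.ge).trans (by rw [W.2.1]), Finset.sum_const,
      Finset.card_univ, smul_eq_mul, Nat.card_eq_fintype_card]
  obtain ⟨i, hi, hdvd⟩ := (Prime.dvd_finsetProd_iff (Nat.prime_iff.1 Fact.out) _).1
    (hcard ▸ hr.mul_right _ : r ∣ ∏ i ∈ Finset.range m, Herm.cnt (finrank F V - i) F q 1)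
  rw [Finset.mem_range] at hi
  refine ⟨finrank F V - i, by omega, by omega, ?_⟩
  rw [← ZMod.natCast_eq_zero_iff, Herm.cnt_one_eq hF] at hdvd
  have hq0 : (q : ZMod r) ≠ 0 := fun e => hrq ((ZMod.natCast_eq_zero_iff q r).1 e)
  have hq2 := Herm.two_le_q hF
  split_ifs at hdvd with he
  · rw [Nat.cast_mul, Nat.cast_sub (Nat.one_le_pow _ _ (by omega)), Nat.cast_pow, Nat.cast_pow, Nat.cast_one] at hdvd
    rw [he.neg_pow]
    exact sub_eq_zero.1 ((mul_eq_zero.1 hdvd).resolve_left (pow_ne_zero _ hq0))
  · push_cast at hdvd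
    rw [(Nat.not_even_iff_odd.1 he).neg_pow]
    linear_combination -((mul_eq_zero.1 hdvd).resolve_left (pow_ne_zero _ hq0))

end Cfsg.Agent.Lib.Elusive.UnitInv
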