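import Cfsg.Agent.Lib.Elusive.Semisimple
import Cfsg.Agent.Lib.Forms.WittHerm
import Cfsg.Agent.Lib.Forms.UnitaryStd
import Cfsg.Agent.Lib.Classical.Unitary

/-!
Invariant non-degenerate subspaces of semisimple isometries of Hermitian forms over finite fields.
-/

set_option autoImplicit false

namespace Cfsg.Agent.Lib.Elusive.UnitInv

open Module Polynomial
open scoped Matrix
open Cfsg.Agent.Lib.Forms Cfsg.Agent.Lib.Classical

universe u v

variable {F : Type u} [Field F] {V : Type v} [AddCommGroup V] [Module F V] [FiniteDimensional F V]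

/-- `h` is non-degenerate on `W`. -/
def Nd (h : V → V → F) (W : Submodule F V) : Prop := ∀ u ∈ W, (∀ v ∈ W, h u v = 0) → u = 0

theorem nd_iff {h : V → V → F} {W : Submodule F V} : Nd h W ↔ ∀ u ∈ W, u ≠ 0 → ∃ v ∈ W, h u v ≠ 0 := by
  constructor
  · intro hW u hu hu0
    by_contra hcon
    push Not at hcon
    exact hu0 (hW u hu hcon)
  · intro hW u hu hall
    by_contra hu0
    obtain ⟨v, hv, hne⟩ := hW u hu hu0
    exact hne (hall v hv)

variable {σ : F ≃+* F} {h : V → V → F}

theorem restrictData (H : HermData σ h) {W : Submodule F V} (hW : Nd h W) :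
    HermData σ (fun a b : W => h a b) where
  ne_refl := H.ne_refl
  involutive := H.involutive
  add_left := fun _ _ _ => H.add_left _ _ _
  smul_left := fun _ _ _ => H.smul_left _ _ _
  herm := fun _ _ => H.herm _ _
  sep := fun x hx => by
    obtain ⟨v, hv, hne⟩ := nd_iff.1 hW x x.2 (fun e => hx (Subtype.ext e))
    exact ⟨⟨v, hv⟩, hne⟩

theorem nd_top (H : HermData σ h) : Nd h ⊤ := nd_iff.2 fun u _ hu => by
  obtain ⟨v, hv⟩ := H.sep u hu
  exact ⟨v, trivial, hv⟩

theorem nd_bot : Nd h (⊥ : Submodule F V) := fun _ hu _ => (Submodule.mem_bot F).1 hu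

theorem nd_sup (H : HermData σ h) {U W : Submodule F V} (hU : Nd h U) (hW : Nd h W)
    (ho : ∀ u ∈ U, ∀ w ∈ W, h u w = 0) : Nd h (U ⊔ W) := by
  intro z hz hall
  obtain ⟨u, hu, w, hw, rfl⟩ := Submodule.mem_sup.1 hz
  have hu0 : u = 0 := hU u hu fun v hv => by
    have := hall v (Submodule.mem_sup_left hv)
    rwa [H.add_left, H.eq_zero_comm.1 (ho v hv w hw), add_zero] at this
  rw [hu0, zero_add]
  refine hW w hw fun v hv => ?_
  have := hall v (Submodule.mem_sup_right hv)
  rwa [hu0, zero_add] at this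

/-- The part of `W` orthogonal to `U`. -/
def perpIn (H : HermData σ h) (U W : Submodule F V) : Submodule F V := W ⊓ H.perp' U

theorem mem_perpIn (H : HermData σ h) {U W : Submodule F V} {v : V} :
    v ∈ perpIn H U W ↔ v ∈ W ∧ ∀ u ∈ U, h v u = 0 := Iff.rfl

theorem perpIn_dim (H : HermData σ h) (U W : Submodule F V) :
    finrank F W ≤ finrank F (perpIn H U W) + finrank F U := by
  have h1 := Submodule.finrank_sup_add_finrank_inf_eq W (H.perp' U)
  have h2 := H.le_finrank_perp' U
  have h3 := Submodule.finrank_le (W ⊔ H.perp' U)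
  rw [perpIn]
  omega

theorem nd_split (H : HermData σ h) {U W : Submodule F V} (hU : Nd h U) (hW : Nd h W) (hUW : U ≤ W) :
    Nd h (perpIn H U W) ∧ U ⊔ perpIn H U W = W ∧ U ⊓ perpIn H U W = ⊥ ∧
      finrank F U + finrank F (perpIn H U W) = finrank F W := by
  have hinf : U ⊓ perpIn H U W = ⊥ := eq_bot_iff.2 fun z ⟨hz, hz'⟩ =>
    hU z hz fun v hv => ((mem_perpIn H).1 hz').2 v hv
  have h1 := Submodule.finrank_sup_add_finrank_inf_eq U (perpIn H U W)
  rw [hinf, finrank_bot] at h1
  have hle : U ⊔ perpIn H U W ≤ W := sup_le hUW inf_le_left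
  have h2 := Submodule.finrank_mono hle
  have h3 := perpIn_dim H U W
  have hsup : U ⊔ perpIn H U W = W := Submodule.eq_of_le_of_finrank_le hle (by omega)
  refine ⟨fun z hz hall => ?_, hsup, hinf, by omega⟩
  refine hW z ((mem_perpIn H).1 hz).1 fun v hv => ?_
  rw [← hsup] at hv
  obtain ⟨a, ha, b, hb, rfl⟩ := Submodule.mem_sup.1 hv
  rw [H.add_right, hall b hb, ((mem_perpIn H).1 hz).2 a ha, add_zero]

theorem perp_inv (H : HermData σ h) {x : Module.End F V} (hx : ∀ u v, h (x u) (x v) = h u v)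
    (hinj : Function.Injective x) {U W : Submodule F V} (hU : Inv x U) (hW : Inv x W) :
    Inv x (perpIn H U W) := by
  intro v hv
  refine (mem_perpIn H).2 ⟨hW v ((mem_perpIn H).1 hv).1, fun u hu => ?_⟩
  obtain ⟨⟨u', hu'⟩, hu''⟩ := (LinearMap.injective_iff_surjective (f := x.restrict hU)).1
    (fun a b e => Subtype.ext (hinj (congrArg Subtype.val e))) ⟨u, hu⟩
  rw [show u = x u' from (congrArg Subtype.val hu'').symm, hx]
  exact ((mem_perpIn H).1 hv).2 u' hu'

variable [Finite F]

theorem orth_family (H : HermData σ h) {W : Submodule F V} (hW : Nd h W) :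
    ∃ b : Fin (finrank F W) → W, ∀ i j, h (b i : V) (b j) = if i = j then 1 else 0 :=
  have H' := restrictData H hW
  exists_orthonormal_family σ H.ne_refl H.involutive _ W (fun a b => h (a : V) b) H'.add_left H'.smul_left
    H'.herm H'.sep rfl

theorem exists_aniso (H : HermData σ h) {W : Submodule F V} (hW : Nd h W) (hne : W ≠ ⊥) :
    ∃ v ∈ W, h v v ≠ 0 := by
  obtain ⟨b, hb⟩ := orth_family H hW
  have hpos : 0 < finrank F W := Nat.pos_of_ne_zero fun e => hne (Submodule.finrank_eq_zero.1 e)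
  exact ⟨_, (b ⟨0, hpos⟩).2, by rw [hb, if_pos rfl]; exact one_ne_zero⟩

theorem exists_nd_sub (H : HermData σ h) {W : Submodule F V} (hW : Nd h W) : ∀ s ≤ finrank F W,
    ∃ U ≤ W, Nd h U ∧ finrank F U = s := by
  intro s
  induction s with
  | zero => exact fun _ => ⟨⊥, bot_le, nd_bot, finrank_bot F V⟩
  | succ s ih =>
    intro hs
    obtain ⟨U, hUW, hU, hUd⟩ := ih (by omega)
    obtain ⟨hP, -, -, hdim⟩ := nd_split H hU hW hUW
    obtain ⟨v, hv, hvv⟩ := exists_aniso H hP fun e => by rw [e, finrank_bot] at hdim; omega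
    have hv0 : v ≠ 0 := fun e => hvv (by rw [e, H.zero_left])
    have hL : Nd h (Submodule.span F {v}) := fun u hu hall => by
      obtain ⟨a, rfl⟩ := Submodule.mem_span_singleton.1 hu
      have := hall v (Submodule.mem_span_singleton_self v)
      rw [H.smul_left] at this
      rw [(mul_eq_zero.1 this).resolve_right hvv, zero_smul]
    have ho : ∀ u ∈ U, ∀ w ∈ Submodule.span F {v}, h u w = 0 := fun u hu w hw => by
      obtain ⟨a, rfl⟩ := Submodule.mem_span_singleton.1 hw
      rw [H.smul_right, H.eq_zero_comm.1 (((mem_perpIn H).1 hv).2 u hu), mul_zero]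
    refine ⟨U ⊔ Submodule.span F {v}, sup_le hUW (by simpa using ((mem_perpIn H).1 hv).1), nd_sup H hU hL ho, ?_⟩
    have h1 := Submodule.finrank_sup_add_finrank_inf_eq U (Submodule.span F {v})
    have h2 : U ⊓ Submodule.span F {v} = ⊥ := eq_bot_iff.2 fun z ⟨hz, hz'⟩ =>
      hL z hz' fun w hw => ho z hz w hw
    rw [h2, finrank_bot, finrank_span_singleton hv0, hUd] at h1
    omega

section Card

variable [Fintype F] {q : ℕ}

theorem hermForm_coords (H : HermData σ h) (hσ : ∀ a, σ a = a ^ q) {W : Submodule F V}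
    {b : Basis (Fin (finrank F W)) F W} (hb : ∀ i j, h (b i : V) (b j) = if i = j then 1 else 0) (u v : W) :
    Cfsg.hermForm (finrank F W) F q (b.repr u) (b.repr v) = h u v := by
  have hsum : ∀ w : W, (w : V) = ∑ i, b.repr w i • (b i : V) := fun w => by
    conv_lhs => rw [← b.sum_repr w]
    rw [Submodule.coe_sum]
    rfl
  rw [hsum u, hsum v, H.sum_orthonormal hb, Cfsg.hermForm]
  exact Finset.sum_congr rfl fun i _ => by rw [hσ]

theorem orth_basis (H : HermData σ h) {W : Submodule F V} (hW : Nd h W) :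
    ∃ b : Basis (Fin (finrank F W)) F W, ∀ i j, h (b i : V) (b j) = if i = j then 1 else 0 := by
  obtain ⟨b, hb⟩ := orth_family H hW
  have hli : LinearIndependent F b := Fintype.linearIndependent_iff.2 fun a ha i => by
    have e : (∑ j, a j • (b j : V)) = 0 := by
      have := congrArg Subtype.val ha
      rwa [Submodule.coe_sum] at this
    have h1 := H.sum_orthonormal (f := fun j => (b j : V)) hb a (Pi.single i 1)
    rw [e, H.zero_left, Finset.sum_eq_single i (fun j _ hj => by simp [hj]) (by simp)] at h1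
    simpa using h1.symm
  refine ⟨basisOfLinearIndependentOfCardEqFinrank' b hli (Fintype.card_fin _), fun i j => ?_⟩
  simp [hb]

/-- The determinant of an isometry on a non-degenerate invariant subspace has norm one. -/
theorem det_restrict (H : HermData σ h) (hF : Fintype.card F = q ^ 2) (hσ : ∀ a, σ a = a ^ q)
    {x : Module.End F V} (hx : ∀ u v, h (x u) (x v) = h u v) {W : Submodule F V} (hW : Nd h W) (hI : Inv x W) :
    LinearMap.det (x.restrict hI) ^ (q + 1) = 1 := by
  classical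
  obtain ⟨b, hb⟩ := orth_basis H hW
  set M := LinearMap.toMatrix b b (x.restrict hI) with hM
  have hcoord : ∀ u, M *ᵥ u = b.repr (x.restrict hI (b.equivFun.symm u)) := fun u => by
    conv_rhs => rw [← LinearMap.toMatrix_mulVec_repr b b]
    rw [← hM, ← Basis.equivFun_apply, LinearEquiv.apply_symm_apply]
  have hiso : ∀ u v, Cfsg.hermForm (finrank F W) F q (M *ᵥ u) (M *ᵥ v) = Cfsg.hermForm (finrank F W) F q u v := by
    intro u v
    rw [hcoord, hcoord, hermForm_coords H hσ hb]
    show h (x ((b.equivFun.symm u : W) : V)) (x ((b.equivFun.symm v : W) : V)) = _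
    rw [hx, ← hermForm_coords H hσ hb]
    rw [← Basis.equivFun_apply, ← Basis.equivFun_apply, b.equivFun.apply_symm_apply, b.equivFun.apply_symm_apply]
  have hd : M.det ≠ 0 := fun e => by
    obtain ⟨u, hu0, hu⟩ := Matrix.exists_mulVec_eq_zero_iff.2 e
    refine hu0 (funext fun i => ?_)
    have := hiso u (Pi.single i 1)
    rw [hu, Herm.herm_single_right hF] at this
    simp only [Cfsg.hermForm, Pi.zero_apply, zero_mul, Finset.sum_const_zero] at this
    exact this.symm
  have := Herm.det_norm hF (g := Matrix.GeneralLinearGroup.mkOfDetNeZero M hd) (Herm.mem_GU.2 hiso)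
  rwa [show ((Matrix.GeneralLinearGroup.mkOfDetNeZero M hd : GL (Fin (finrank F W)) F) : Matrix _ _ F) = M from rfl,
    hM, LinearMap.det_toMatrix] at this

variable {r : ℕ} [Fact r.Prime] {y : Module.End F V}

/-- Counting vectors of norm one. -/
theorem dvd_finrank (H : HermData σ h) (hF : Fintype.card F = q ^ 2) (hσ : ∀ a, σ a = a ^ q)
    (hrq : ¬ r ∣ q) (hy : ∀ v, (y ^ r) v = v) (hiso : ∀ u v, h (y u) (y v) = h u v)
    {W : Submodule F V} (hW : Nd h W) (hI : Inv y W) (hfix : ∀ v ∈ W, y v = v → v = 0) :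
    orderOf (-(q : ZMod r)) ∣ finrank F W := by
  classical
  obtain ⟨b, hb⟩ := orth_basis H hW
  haveI : Finite V := Module.finite_of_finite F
  let S := {w : W // h (w : V) w = 1}
  haveI := Fintype.ofFinite S
  have hcard : Fintype.card S = Herm.cnt (finrank F W) F q 1 := by
    rw [← Nat.card_eq_fintype_card, Herm.cnt]
    refine Nat.card_congr ((b.equivFun.toEquiv).subtypeEquiv fun w => ?_)
    show _ ↔ Cfsg.hermForm _ F q (b.repr w) (b.repr w) = 1
    rw [hermForm_coords H hσ hb]
  let s : Function.End S := fun w => ⟨⟨y w.1, hI _ w.1.2⟩, by rw [hiso]; exact w.2⟩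
  have hpow : ∀ (l : ℕ) (w : S), ((((s ^ l : Function.End S) w : S) : W) : V) = (y ^ l) (w.1 : V) := by
    intro l
    induction l with
    | zero => intro w; rfl
    | succ l ih =>
      intro w
      rw [pow_succ', pow_succ', Module.End.mul_apply, ← ih]
      rfl
  have hs : s ^ (r ^ 1) = 1 := funext fun w => Subtype.ext (Subtype.ext (by rw [pow_one, hpow, hy]; rfl))
  have h1 := Equiv.Perm.card_fixedPoints_modEq (p := r) (n := 1) hs
  have h2 : Fintype.card (Function.fixedPoints s) = 0 := Fintype.card_eq_zero_iff.2 ⟨fun w => by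
    have h0 := hfix _ w.1.1.2 (congrArg (fun z : S => ((z : W) : V)) w.2)
    have := w.1.2
    rw [h0, H.zero_left] at this
    exact zero_ne_one this⟩
  rw [h2, hcard, ← ZMod.natCast_eq_natCast_iff, Nat.cast_zero, Herm.cnt_one_eq hF] at h1
  have hq0 : (q : ZMod r) ≠ 0 := fun e => hrq ((ZMod.natCast_eq_zero_iff q r).1 e)
  have hq2 := Herm.two_le_q hF
  refine orderOf_dvd_of_pow_eq_one ?_
  split_ifs at h1 with he
  · rw [Nat.cast_mul, Nat.cast_sub (Nat.one_le_pow _ _ (by omega)), Nat.cast_pow, Nat.cast_pow, Nat.cast_one] at h1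
    rw [he.neg_pow]
    exact sub_eq_zero.1 ((mul_eq_zero.1 h1).resolve_left (pow_ne_zero _ hq0))
  · push_cast at h1
    rw [(Nat.not_even_iff_odd.1 he).neg_pow]
    linear_combination -((mul_eq_zero.1 h1).resolve_left (pow_ne_zero _ hq0))

/-- The fixed vectors. -/
def fixSub (y : Module.End F V) : Submodule F V := LinearMap.ker (y - (1 : F) • LinearMap.id)

theorem mem_fixSub {v : V} : v ∈ fixSub y ↔ y v = v := by simp [fixSub, sub_eq_zero]

theorem fixSub_inv {U : Submodule F V} (hU : U ≤ fixSub y) : Inv y U := fun v hv => by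
  rw [mem_fixSub.1 (hU hv)]; exact hv

/-- Fixed and moved parts of a non-degenerate invariant subspace. -/
theorem exists_parts (H : HermData σ h) (hrF : (r : F) ≠ 0) (hy : ∀ v, (y ^ r) v = v)
    (hiso : ∀ u v, h (y u) (y v) = h u v) {W : Submodule F V} (hW : Nd h W) (hI : Inv y W) :
    Nd h (W ⊓ fixSub y) ∧ ∃ M ≤ W, Nd h M ∧ Inv y M ∧ (∀ v ∈ M, y v = v → v = 0) ∧
      (∀ u ∈ W ⊓ fixSub y, ∀ v ∈ M, h u v = 0) ∧
      finrank F ↥(W ⊓ fixSub y) + finrank F M = finrank F W := by
  have hr : r.Prime := Fact.out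
  set Φ : Module.End F V := ∑ j ∈ Finset.range r, y ^ j with hΦ
  have hΦv : ∀ v, Φ v = ∑ j ∈ Finset.range r, (y ^ j) v := fun v => by rw [hΦ, LinearMap.sum_apply]
  have hcyc : ∀ v, y (Φ v) = Φ v := fun v => by
    have h1 : (y - 1) * Φ = 0 := by
      rw [hΦ, mul_geom_sum, show y ^ r = 1 from LinearMap.ext hy, sub_self]
    have := LinearMap.congr_fun h1 v
    rwa [Module.End.mul_apply, LinearMap.sub_apply, Module.End.one_apply, LinearMap.zero_apply, sub_eq_zero] at this
  have hfixΦ : ∀ v, y v = v → Φ v = (r : F) • v := fun v hv => by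
    have : ∀ j : ℕ, (y ^ j) v = v := fun j => by
      induction j with
      | zero => rfl
      | succ j ih => rw [pow_succ, Module.End.mul_apply, hv, ih]
    rw [hΦv, Finset.sum_congr rfl fun j _ => this j, Finset.sum_const, Finset.card_range, Nat.cast_smul_eq_nsmul]
  have hort : ∀ u v, y u = u → h u v = (r : F)⁻¹ * h u (Φ v) := fun u v hu => by
    have hj : ∀ j : ℕ, h u ((y ^ j) v) = h u v := fun j => by
      induction j with
      | zero => rfl
      | succ j ih => rw [pow_succ', Module.End.mul_apply]; conv_lhs => rw [← hu, hiso, ih]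
    have hs : h u (Φ v) = (r : F) * h u v := by
      let A : V →+ F := { toFun := fun z => h u z, map_zero' := H.zero_right _, map_add' := fun a b => H.add_right u a b }
      show A (Φ v) = _
      rw [hΦv, map_sum]
      show ∑ j ∈ Finset.range r, h u ((y ^ j) v) = _
      rw [Finset.sum_congr rfl fun j _ => hj j, Finset.sum_const, Finset.card_range, nsmul_eq_mul]
    rw [hs, ← mul_assoc, inv_mul_cancel₀ hrF, one_mul]
  have hΦW : Inv Φ W := fun v hv => by
    rw [hΦv]
    exact W.sum_mem fun j _ => hI.pow j v hv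
  set C := W ⊓ fixSub y with hC
  set M := W ⊓ LinearMap.ker Φ
  have hdec : ∀ v ∈ W, (r : F)⁻¹ • Φ v ∈ C ∧ v - (r : F)⁻¹ • Φ v ∈ M := fun v hv => by
    refine ⟨⟨W.smul_mem _ (hΦW v hv), mem_fixSub.2 (by rw [map_smul, hcyc])⟩,
      W.sub_mem hv (W.smul_mem _ (hΦW v hv)), ?_⟩
    rw [SetLike.mem_coe, LinearMap.mem_ker, map_sub, map_smul, hfixΦ _ (hcyc v), smul_smul, inv_mul_cancel₀ hrF, one_smul, sub_self]
  have ho : ∀ u ∈ C, ∀ v ∈ M, h u v = 0 := fun u hu v hv => by
    rw [hort u v (mem_fixSub.1 hu.2), LinearMap.mem_ker.1 hv.2, H.zero_right, mul_zero]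
  have hinf : C ⊓ M = ⊥ := eq_bot_iff.2 fun v ⟨hvC, hvM⟩ => by
    have := hfixΦ v (mem_fixSub.1 hvC.2)
    rw [LinearMap.mem_ker.1 hvM.2] at this
    exact (Submodule.mem_bot F).2 ((smul_eq_zero.1 this.symm).resolve_left hrF)
  have hsup : C ⊔ M = W := le_antisymm (sup_le inf_le_left inf_le_left) fun v hv =>
    Submodule.mem_sup.2 ⟨_, (hdec v hv).1, _, (hdec v hv).2, add_sub_cancel _ _⟩
  refine ⟨fun u hu hall => hW u hu.1 fun v hv => ?_, M, inf_le_left, fun u hu hall => hW u hu.1 fun v hv => ?_,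
    fun v hv => ⟨hI v hv.1, ?_⟩, fun v hv hyv => (Submodule.mem_bot F).1 (hinf ▸ ⟨⟨hv.1, mem_fixSub.2 hyv⟩, hv⟩),
    ho, ?_⟩
  · obtain ⟨a, ha, b, hb, rfl⟩ := Submodule.mem_sup.1 (hsup.symm ▸ hv : v ∈ C ⊔ M)
    rw [H.add_right, hall a ha, ho u hu b hb, add_zero]
  · obtain ⟨a, ha, b, hb, rfl⟩ := Submodule.mem_sup.1 (hsup.symm ▸ hv : v ∈ C ⊔ M)
    rw [H.add_right, hall b hb, H.eq_zero_comm.1 (ho a ha u hu), add_zero]
  · rw [SetLike.mem_coe, LinearMap.mem_ker, hΦv, Finset.sum_congr rfl fun j _ => show (y ^ j) (y v) = y ((y ^ j) v) by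
      rw [← Module.End.mul_apply, ← Module.End.mul_apply, ← pow_succ, ← pow_succ'], ← map_sum, ← hΦv,
      LinearMap.mem_ker.1 hv.2, map_zero]
  · have h5 := Submodule.finrank_sup_add_finrank_inf_eq C M
    rw [hinf, hsup, finrank_bot] at h5
    omega

end Card

end Cfsg.Agent.Lib.Elusive.UnitInv
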