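import Cfsg.Agent.Lib.Elusive.UnitInv
import Cfsg.Agent.Lib.Elusive.UnitSim
import Cfsg.Agent.Lib.Elusive.Models
import Cfsg.Agent.Lib.Jordan.Nilpotent
import Cfsg.Agent.Lib.Forms.UnitaryTI

/-!
Test elements of unitary groups built from orthogonal blocks.
-/

set_option autoImplicit false

namespace Cfsg.Agent.Lib.Elusive.UnitModels

open Module
open scoped Matrix
open Cfsg.Agent.Lib.Forms Cfsg.Agent.Lib.Classical Cfsg.Agent.Lib.Elusive

variable {F : Type*} [Field F] [Fintype F] {q : ℕ}

/-- An isometry of some unitary form on `F ^ n`. -/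
def IsModel (q : ℕ) {n : ℕ} (x : Module.End F (Fin n → F)) : Prop :=
  ∃ R : (Fin n → F) → (Fin n → F) → F, Cfsg.Geo.IsUnitaryFormPow q R ∧ ∀ u v, R (x u) (x v) = R u v

/-- Orthogonal sums of models. -/
theorem sum_model (hF : Fintype.card F = q ^ 2) {a b n : ℕ} (h : a + b = n) {x : Module.End F (Fin a → F)}
    {x' : Module.End F (Fin b → F)} (hx : IsModel q x) (hx' : IsModel q x') :
    ∃ e : (Fin n → F) ≃ₗ[F] (Fin a → F) × (Fin b → F), IsModel q (e.symm.conj (x.prodMap x')) ∧
      LinearMap.det (e.symm.conj (x.prodMap x')) = LinearMap.det x * LinearMap.det x' := by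
  let e : (Fin n → F) ≃ₗ[F] (Fin a → F) × (Fin b → F) :=
    LinearEquiv.ofFinrankEq _ _ (by rw [Module.finrank_prod]; simp [h])
  obtain ⟨R, hR, hiso⟩ := hx
  obtain ⟨R', hR', hiso'⟩ := hx'
  refine ⟨e, ⟨fun u v => R (e u).1 (e v).1 + R' (e u).2 (e v).2,
    ⟨fun u w v => ?_, fun c u v => ?_, fun v w => ?_, fun v hv => ?_⟩, fun u v => ?_⟩, ?_⟩
  · simp only [map_add, Prod.fst_add, Prod.snd_add, hR.add_left, hR'.add_left]; ring
  · simp only [map_smul, Prod.smul_fst, Prod.smul_snd, hR.smul_left, hR'.smul_left]; ring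
  · rw [Herm.conj_add hF, ← hR.herm, ← hR'.herm]
  · have hev : e v ≠ 0 := fun h0 => hv (e.injective (h0.trans (map_zero e).symm))
    rcases eq_or_ne (e v).1 0 with h1 | h1
    · have h2 : (e v).2 ≠ 0 := fun h2 => hev (Prod.ext h1 h2)
      obtain ⟨⟨w, hw⟩, w', hw'⟩ := hR'.nondegenerate _ h2
      exact ⟨⟨e.symm (0, w), by simpa [h1, UnitSim.zero_left hR] using hw⟩,
        e.symm (0, w'), by simpa [h1, UnitSim.zero_left hR] using hw'⟩
    · obtain ⟨⟨w, hw⟩, w', hw'⟩ := hR.nondegenerate _ h1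
      exact ⟨⟨e.symm (w, 0), by simpa [UnitSim.zero_left hR'] using hw⟩,
        e.symm (w', 0), by simpa [UnitSim.zero_right hF hR'] using hw'⟩
  · simp [LinearEquiv.conj_apply, hiso, hiso']
  · rw [LinearEquiv.conj_apply, LinearMap.comp_assoc, LinearMap.det_conj, LinearMap.det_prodMap]

theorem one_model (hF : Fintype.card F = q ^ 2) (n : ℕ) : IsModel q (1 : Module.End F (Fin n → F)) :=
  ⟨UnitSim.permForm q (Equiv.refl _), UnitSim.isUnitary_permForm hF fun _ => rfl, fun _ _ => rfl⟩

/-- Models give elements of `SU`. -/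
theorem to_SU (hF : Fintype.card F = q ^ 2) {n : ℕ} {x : Module.End F (Fin n → F)} (hx : IsModel q x)
    (hdet : LinearMap.det x = 1) :
    ∃ (A : Matrix.SpecialLinearGroup (Fin n) F) (e : (Fin n → F) ≃ₗ[F] (Fin n → F)), A ∈ Cfsg.SU n F q ∧
      Matrix.toLin' (A : Matrix (Fin n) (Fin n) F) = e.conj x := by
  obtain ⟨R, hR, hiso⟩ := hx
  obtain ⟨e, he⟩ := UnitSim.exists_std hF hR
  refine ⟨⟨LinearMap.toMatrix' (e.symm.conj x), ?_⟩, e.symm, Herm.mem_SU.2 fun u v => ?_, Matrix.toLin'_toMatrix' _⟩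
  · rw [LinearMap.det_toMatrix', LinearEquiv.conj_apply, LinearMap.comp_assoc, LinearMap.det_conj, hdet]
  · show Cfsg.hermForm n F q (LinearMap.toMatrix' (e.symm.conj x) *ᵥ u) (LinearMap.toMatrix' (e.symm.conj x) *ᵥ v) = _
    rw [← Matrix.toLin'_apply, ← Matrix.toLin'_apply, Matrix.toLin'_toMatrix', ← he, ← he u v]
    simp [LinearEquiv.conj_apply, hiso]

section Blocks

open Fin.NatCast

variable {r : ℕ} [Fact r.Prime] {p : ℕ} [Fact p.Prime] [CharP F p]

/-- Blocks `x ^ r = z`. -/
theorem exists_nonpow_model (hF : Fintype.card F = q ^ 2) (hrp : r ≠ p) {z : F} (hz : z ^ (q + 1) = 1)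
    (hc : r ≠ 2 → ∀ w : F, w ^ r ≠ z) : ∀ t : ℕ, ∃ x : Module.End F (Fin (r * t) → F), IsModel q x ∧
      (∀ v, (x ^ r) v = z • v) ∧ LinearMap.det x = ((-1) ^ (r + 1) * z) ^ t := by
  classical
  have hr : r.Prime := Fact.out
  haveI : NeZero r := ⟨hr.ne_zero⟩
  let coef : Fin r → F := fun i => if i = 0 then z else 1
  let x₁ : Module.End F (Fin r → F) :=
    { toFun := fun u i => coef i * u (i - 1)
      map_add' := fun u v => funext fun i => mul_add _ _ _
      map_smul' := fun c u => funext fun i => mul_left_comm _ _ _ }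
  have hx₁ : ∀ u i, x₁ u i = coef i * u (i - 1) := fun _ _ => rfl
  have hiso : ∀ u v, Cfsg.hermForm r F q (x₁ u) (x₁ v) = Cfsg.hermForm r F q u v := fun u v => by
    simp only [Cfsg.hermForm, hx₁]
    conv_rhs => rw [← Equiv.sum_comp (Equiv.subRight (1 : Fin r))]
    refine Finset.sum_congr rfl fun i _ => ?_
    have hn : coef i * coef i ^ q = 1 := by
      simp only [coef]
      split_ifs
      · rw [← pow_succ', hz]
      · simp
    simp only [Equiv.subRight_apply, mul_pow]
    linear_combination (u (i - 1) * v (i - 1) ^ q) * hn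
  have hM : IsModel q x₁ := ⟨Cfsg.hermForm r F q, ⟨Herm.herm_add_left r, fun c x v => Herm.herm_smul_left r c x v,
    fun v w => (Herm.hermForm_conj hF r w v).symm, fun v hv => (isUnitary_hermForm hF r).nondegenerate v hv⟩, hiso⟩
  have hpow : ∀ (j : ℕ) u i, (x₁ ^ j) u i = (∏ l ∈ Finset.range j, coef (i - l)) * u (i - j) := by
    intro j
    induction j with
    | zero => simp
    | succ j ih =>
      intro u i
      rw [pow_succ, Module.End.mul_apply, ih, hx₁, Finset.prod_range_succ, Nat.cast_succ, sub_sub]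
      ring
  have hxr : ∀ v, (x₁ ^ r) v = z • v := fun v => funext fun i => by
    have e0 : ((r : ℕ) : Fin r) = 0 := Fin.ext (by simp [Fin.val_natCast])
    rw [hpow, e0, sub_zero, Pi.smul_apply, smul_eq_mul]
    congr 1
    rw [← Fin.prod_univ_eq_prod_range (fun l => coef (i - (l : Fin r))) r]
    simp only [Fin.cast_val_eq_self]
    rw [show (∏ l : Fin r, coef (i - l)) = ∏ l : Fin r, coef l from Equiv.prod_comp (Equiv.subLeft i) coef]
    simp [coef]
  have hdet : LinearMap.det x₁ = (-1) ^ (r + 1) * z := by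
    by_cases hr2 : r = 2
    · subst hr2
      rw [← LinearMap.det_toMatrix', Matrix.det_fin_two]
      simp [LinearMap.toMatrix'_apply, hx₁, coef, show (-1 : Fin 2) = 1 from rfl]
      ring
    · obtain ⟨t, ht, hd⟩ := det_nonpow (p := p) hrp (hc hr2) r x₁ (finrank_fin_fun F) hxr
      obtain rfl : t = 1 := Nat.eq_of_mul_eq_mul_left hr.pos (by omega)
      rwa [pow_one] at hd
  intro t
  induction t with
  | zero =>
    refine ⟨1, one_model hF _, fun v => funext fun i => ?_, ?_⟩
    · exact absurd i.2 (by simp)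
    · rw [map_one, pow_zero]
  | succ t ih =>
    obtain ⟨x, hx, hxr', hd⟩ := ih
    obtain ⟨e, he, hde⟩ := sum_model hF (show r + r * t = r * (t + 1) by ring) hM hx
    refine ⟨_, he, fun v => e.injective ?_, by rw [hde, hdet, hd, ← pow_succ']⟩
    rw [pow_eq_of_conj]
    have hp : ∀ (j : ℕ) (w : (Fin r → F) × (Fin (r * t) → F)), ((x₁.prodMap x) ^ j) w = ((x₁ ^ j) w.1, (x ^ j) w.2) := by
      intro j
      induction j with
      | zero => intro w; rfl
      | succ j ih' => intro w; rw [pow_succ', pow_succ', pow_succ', Module.End.mul_apply, ih']; rfl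
    simp [hp, hxr, hxr']
    rfl

/-- Blocks of least dimension of order `r`, and fixed vectors. -/
theorem exists_fix_model (hF : Fintype.card F = q ^ 2) (hrp : r ≠ p) (hsplit : ¬ r ∣ q + 1) (k : ℕ) : ∀ u : ℕ,
    ∃ x : Module.End F (Fin (u * orderOf (-(q : ZMod r)) + k) → F), IsModel q x ∧ (∀ v, (x ^ r) v = v) ∧
      finrank F (UnitInv.fixSub x) ≤ k ∧ LinearMap.det x = 1 := by
  classical
  have hr : r.Prime := Fact.out
  obtain ⟨p', k₀, hp', hc', -, hqk⟩ := Cfsg.Agent.Lib.UnitaryConj.q_eq_pow hF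
  obtain rfl : p = p' := CharP.eq F (by assumption) hc'
  have hrq : ¬ r ∣ q := fun hd => hrp ((Nat.prime_dvd_prime_iff_eq hr Fact.out).1 (hr.dvd_of_dvd_pow (hqk ▸ hd)))
  have hrF : (r : F) ≠ 0 := fun h0 =>
    hrp ((Nat.prime_dvd_prime_iff_eq Fact.out hr).1 ((CharP.cast_eq_zero_iff F p r).1 h0)).symm
  set c := orderOf (-(q : ZMod r)) with hc
  have hc0 : 0 < c := by
    refine orderOf_pos_iff.2 (isOfFinOrder_iff_pow_eq_one.2 ⟨r - 1, by have := hr.two_le; omega,
      ZMod.pow_card_sub_one_eq_one (neg_ne_zero.2 fun e => hrq ((ZMod.natCast_eq_zero_iff q r).1 e))⟩)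
  obtain ⟨g, hg⟩ : ∃ g : Cfsg.GU c F q, orderOf g = r := by
    refine exists_prime_orderOf_dvd_card' r ?_
    rw [Herm.card_GU hF]
    refine (?_ : r ∣ _).trans ((Finset.dvd_prod_of_mem _ (Finset.mem_range.2 (show c - 1 < c by omega))).trans (dvd_mul_left _ _))
    have h1 : (-(q : ZMod r)) ^ (c - 1 + 1) = 1 := by rw [Nat.sub_add_cancel hc0, hc, pow_orderOf_eq_one]
    have hq2 := Herm.two_le_q hF
    rw [← ZMod.natCast_eq_zero_iff]
    split_ifs with he
    · rw [(he.add_one).neg_pow] at h1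
      push_cast
      linear_combination -h1
    · rw [((Nat.not_even_iff_odd.1 he).add_one).neg_pow] at h1
      rw [Nat.cast_sub (Nat.one_le_pow _ _ (by omega)), Nat.cast_pow, Nat.cast_one, h1, sub_self]
  set G := ((g : GL (Fin c) F) : Matrix (Fin c) (Fin c) F) with hG
  set x₁ := Matrix.toLin' G with hx₁
  have hiso : ∀ u v, Cfsg.hermForm c F q (x₁ u) (x₁ v) = Cfsg.hermForm c F q u v := fun u v => by
    rw [hx₁, Matrix.toLin'_apply, Matrix.toLin'_apply]; exact Herm.mem_GU.1 g.2 u v
  have hGr : G ^ r = 1 := by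
    rw [hG, ← Units.val_pow_eq_pow_val, ← SubmonoidClass.coe_pow, ← hg, pow_orderOf_eq_one]; rfl
  have hxr : ∀ v, (x₁ ^ r) v = v := fun v => by
    rw [hx₁, ← Matrix.toLin'_pow, hGr, Matrix.toLin'_one]; rfl
  have hM : IsModel q x₁ := ⟨Cfsg.hermForm c F q, ⟨Herm.herm_add_left c, fun a x v => Herm.herm_smul_left c a x v,
    fun v w => (Herm.hermForm_conj hF c w v).symm, fun v hv => (isUnitary_hermForm hF c).nondegenerate v hv⟩, hiso⟩
  have H : HermData (conjQ hF) (Cfsg.hermForm c F q) := hermData hF c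
  have hfix₁ : ∀ v, x₁ v = v → v = 0 := by
    obtain ⟨-, M, -, hMn, hMi, hMf, -, hMd⟩ :=
      UnitInv.exists_parts H hrF hxr hiso (UnitInv.nd_top H) (fun _ _ => trivial)
    rw [finrank_top, finrank_fin_fun, top_inf_eq] at hMd
    have hdv := UnitInv.dvd_finrank H hF (fun a => rfl) hrq hxr hiso hMn hMi hMf
    rw [← hc] at hdv
    have hM0 : finrank F M ≠ 0 := fun h0 => by
      have htop : UnitInv.fixSub x₁ = ⊤ := Submodule.eq_top_of_finrank_eq (by rw [finrank_fin_fun]; omega)
      have h1 : G = 1 := Matrix.toLin'.injective (by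
        rw [Matrix.toLin'_one, ← hx₁]
        exact LinearMap.ext fun v => UnitInv.mem_fixSub.1 (htop ▸ Submodule.mem_top))
      have : g = 1 := Subtype.ext (Units.ext h1)
      rw [this, orderOf_one] at hg
      exact hr.ne_one hg.symm
    have := Nat.le_of_dvd (Nat.pos_of_ne_zero hM0) hdv
    intro v hv
    exact (Submodule.mem_bot F).1 ((Submodule.finrank_eq_zero.1 (show finrank F (UnitInv.fixSub x₁) = 0 by omega)) ▸
      UnitInv.mem_fixSub.2 hv)
  have hdet : LinearMap.det x₁ = 1 := by
    have h1 : LinearMap.det x₁ ^ r = 1 := by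
      rw [← map_pow, show x₁ ^ r = LinearMap.id from LinearMap.ext hxr, LinearMap.det_id]
    have h2 : LinearMap.det x₁ ^ (q + 1) = 1 := by rw [hx₁, LinearMap.det_toLin']; exact Herm.det_norm hF g.2
    simpa [(hr.coprime_iff_not_dvd.2 hsplit).gcd_eq_one] using pow_gcd_eq_one.2 ⟨h1, h2⟩
  intro u
  induction u with
  | zero =>
    refine ⟨1, one_model hF _, fun v => by rw [one_pow]; rfl, (Submodule.finrank_le _).trans ?_, map_one _⟩
    simp
  | succ u ih =>
    obtain ⟨x, hx, hxr', hxf, hd⟩ := ih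
    obtain ⟨e, he, hde⟩ := sum_model hF (show c + (u * c + k) = (u + 1) * c + k by ring) hM hx
    refine ⟨_, he, fun v => e.injective ?_, ?_, by rw [hde, hdet, hd, one_mul]⟩
    · rw [pow_eq_of_conj]
      have hp : ∀ (j : ℕ) (w : (Fin c → F) × (Fin (u * c + k) → F)), ((x₁.prodMap x) ^ j) w = ((x₁ ^ j) w.1, (x ^ j) w.2) := by
        intro j
        induction j with
        | zero => intro w; rfl
        | succ j ih' => intro w; rw [pow_succ', pow_succ', pow_succ', Module.End.mul_apply, ih']; rfl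
      simp [hp, hxr, hxr']
    · refine le_trans ?_ hxf
      let L : UnitInv.fixSub (e.symm.conj (x₁.prodMap x)) →ₗ[F] UnitInv.fixSub x :=
        LinearMap.codRestrict _ ((LinearMap.snd F _ _).comp (e.toLinearMap.comp (Submodule.subtype _))) fun v => by
          have := congrArg (fun w => (e w).2) (UnitInv.mem_fixSub.1 v.2)
          refine UnitInv.mem_fixSub.2 ?_
          show x (e (v : Fin _ → F)).2 = (e (v : Fin _ → F)).2
          simpa [LinearEquiv.conj_apply] using this
      refine LinearMap.finrank_le_finrank_of_injective (f := L) ((injective_iff_map_eq_zero L).2 fun v hv => ?_)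
      have h2 : (e (v : Fin _ → F)).2 = 0 := congrArg Subtype.val hv
      have h1 : (e (v : Fin _ → F)).1 = 0 := hfix₁ _ (by
        simpa [LinearEquiv.conj_apply] using congrArg (fun w => (e w).1) (UnitInv.mem_fixSub.1 v.2))
      exact Subtype.ext (e.injective ((Prod.ext h1 h2).trans (map_zero e).symm))

end Blocks

section Unipotent

open Cfsg.Agent.Lib.Jordan

variable {p : ℕ} [Fact p.Prime] [CharP F p]

/-- A single Jordan block of size at most `p`. -/
theorem exists_block (hF : Fintype.card F = q ^ 2) {a : ℕ} (ha0 : 0 < a) (hap : a ≤ p) :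
    ∃ N : Module.End F (Fin a → F), HasType N {a} ∧ IsModel q (1 + N) := by
  classical
  obtain ⟨b, rfl⟩ : ∃ b, a = b + 1 := ⟨a - 1, by omega⟩
  obtain ⟨ε, hε0, hε⟩ : ∃ ε : F, ε ≠ 0 ∧ ε ^ q = (-1) ^ b * ε := by
    rcases Nat.even_or_odd b with hb | hb
    · exact ⟨1, one_ne_zero, by rw [hb.neg_one_pow, one_pow, one_mul]⟩
    · obtain ⟨θ, hθ⟩ := Cfsg.Agent.Lib.UnitaryConj.exists_moved hF
      refine ⟨θ ^ q - θ, sub_ne_zero.2 hθ, ?_⟩
      rw [Herm.conj_sub hF, Herm.conj_conj hF, hb.neg_one_pow]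
      ring
  let w : Fin (b + 1) → F := fun i => ε * (-1) ^ (i : ℕ)
  let R : (Fin (b + 1) → F) → (Fin (b + 1) → F) → F := fun u v => ∑ i, w i * (u i * v i.rev ^ q)
  have hw : ∀ i, w i ≠ 0 := fun i => mul_ne_zero hε0 (pow_ne_zero _ (neg_ne_zero.2 one_ne_zero))
  have hq0 : q ≠ 0 := by have := Herm.two_le_q hF; omega
  have hR : Cfsg.Geo.IsUnitaryFormPow q R := by
    refine ⟨fun x y v => by simp [R, add_mul, mul_add, Finset.sum_add_distrib], fun c x v => by
      simp [R, Finset.mul_sum, mul_assoc, mul_left_comm], fun v u => ?_, fun v hv => ?_⟩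
    · simp only [R]
      rw [Herm.conj_sum hF]
      conv_rhs => rw [← Equiv.sum_comp Fin.revPerm]
      refine Finset.sum_congr rfl fun i _ => ?_
      have h1 : w (Fin.revPerm i) ^ q = w i := by
        simp only [w, Fin.revPerm_apply, Fin.val_rev]
        rw [mul_pow, hε, ← pow_mul, mul_comm _ q, pow_mul]
        have h11 : ((-1 : F) ^ q) = -1 := Herm.conj_neg hF 1 |>.trans (by rw [one_pow])
        rw [h11, show b + 1 - ((i : ℕ) + 1) = b - i by omega]
        have h12 : (-1 : F) ^ b * (-1) ^ (b - (i : ℕ)) = (-1) ^ (i : ℕ) := by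
          rw [← pow_add, show b + (b - (i : ℕ)) = (i : ℕ) + 2 * (b - i) by omega, pow_add, pow_mul, neg_one_sq,
            one_pow, mul_one]
        linear_combination ε * h12
      show w i * (v i * u i.rev ^ q) = (w (Fin.revPerm i) * (u (Fin.revPerm i) * v (Fin.revPerm i).rev ^ q)) ^ q
      rw [mul_pow (w (Fin.revPerm i)), h1, mul_pow, Herm.conj_conj hF, Fin.revPerm_apply, Fin.rev_rev, mul_comm (u i.rev ^ q)]
    · obtain ⟨i, hi⟩ := Function.ne_iff.1 hv
      simp only [Pi.zero_apply] at hi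
      refine ⟨⟨Pi.single i.rev 1, ?_⟩, Pi.single i.rev 1, ?_⟩
      · simp only [R]
        rw [Finset.sum_eq_single i.rev (fun j _ hj => by simp [hj]) (by simp), Fin.rev_rev]
        simp [hw, hi, hq0]
      · simp only [R]
        rw [Finset.sum_eq_single i (fun j _ hj => by simp [Fin.rev_injective.ne hj, hq0]) (by simp)]
        simp [hw, hi]
  let S : Module.End F (Fin (b + 1) → F) :=
    { toFun := fun u => Fin.cons 0 fun i => u i.castSucc
      map_add' := fun u v => funext fun i => by cases i using Fin.cases <;> simp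
      map_smul' := fun c u => funext fun i => by cases i using Fin.cases <;> simp }
  have hskew : ∀ u v, R (S u) v + R u (S v) = 0 := fun u v => by
    simp only [R, S, LinearMap.coe_mk, AddHom.coe_mk]
    rw [Fin.sum_univ_succ, Fin.cons_zero, zero_mul, mul_zero, zero_add]
    conv_lhs => arg 2; rw [Fin.sum_univ_castSucc]
    simp only [Fin.rev_last, Fin.cons_zero, zero_pow hq0, mul_zero, add_zero, Fin.rev_castSucc, Fin.cons_succ,
      Fin.rev_succ]
    rw [← Finset.sum_add_distrib]
    refine Finset.sum_eq_zero fun i _ => ?_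
    simp only [w, Fin.val_succ, Fin.val_castSucc, pow_succ]
    ring
  have hSb : (S ^ b) (Pi.single 0 1) ≠ 0 ∧ S ^ (b + 1) = 0 := by
    have hpow : ∀ (j : ℕ) u (i : Fin (b + 1)), (S ^ j) u i = if j ≤ (i : ℕ) then u ⟨i - j, by omega⟩ else 0 := by
      intro j
      induction j with
      | zero => intro u i; simp
      | succ j ih =>
        intro u i
        rw [pow_succ', Module.End.mul_apply]
        simp only [S, LinearMap.coe_mk, AddHom.coe_mk]
        cases i using Fin.cases with
        | zero => simp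
        | succ i =>
          rw [Fin.cons_succ, ih]
          simp only [Fin.val_castSucc, Fin.val_succ, Nat.add_le_add_iff_right]
          split_ifs
          · congr 1; ext; simp
          · rfl
    refine ⟨fun h0 => ?_, LinearMap.ext fun u => funext fun i => ?_⟩
    · have := congrFun h0 (Fin.last b)
      rw [hpow, if_pos (by simp)] at this
      rw [show (⟨((Fin.last b : Fin (b + 1)) : ℕ) - b, by omega⟩ : Fin (b + 1)) = 0 from Fin.ext (by simp),
        Pi.single_eq_same] at this
      exact one_ne_zero this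
    · rw [hpow, if_neg (by omega)]; rfl
  by_cases h2 : (2 : F) = 0
  · have hb1 : b ≤ 1 := by
      have : p ∣ 2 := (CharP.cast_eq_zero_iff F p 2).1 (by exact_mod_cast h2)
      have := Nat.le_of_dvd two_pos this
      omega
    refine ⟨S, type_single hSb.2 hSb.1, R, hR, fun u v => ?_⟩
    have hS2 : ∀ u, S (S u) = 0 := fun u => by
      have h3 : S ^ 2 = 0 := pow_eq_zero_of_le (by omega) hSb.2
      have := LinearMap.congr_fun h3 u
      rwa [pow_two, Module.End.mul_apply] at this
    have hskew' := hskew u (S v)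
    rw [hS2, UnitSim.zero_right hF hR, add_zero] at hskew'
    simp only [LinearMap.add_apply, Module.End.one_apply, hR.add_left, UnitSim.add_right hF hR, hskew']
    linear_combination hskew u v
  · have hu : IsUnit (1 - S) := (IsNilpotent.isUnit_one_sub ⟨_, hSb.2⟩)
    obtain ⟨T, hT⟩ := hu
    refine ⟨(2 : F) • (S * (↑T⁻¹ : Module.End F (Fin (b + 1) → F))), ?_, R, hR, fun u v => ?_⟩
    · have hcomm : Commute S (↑T⁻¹ : Module.End F (Fin (b + 1) → F)) :=
        (show Commute S (T : Module.End F (Fin (b + 1) → F)) by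
          rw [hT]; exact (Commute.one_right S).sub_right (Commute.refl S)).units_inv_right
      refine type_single (v := (↑(T ^ b) : Module.End F (Fin (b + 1) → F)) (Pi.single 0 1)) ?_ ?_
      · rw [_root_.smul_pow, hcomm.mul_pow, hSb.2, zero_mul, smul_zero]
      · rw [_root_.smul_pow, hcomm.mul_pow, LinearMap.smul_apply, Module.End.mul_apply, ← Units.val_pow_eq_pow_val,
          ← Module.End.mul_apply (↑(T⁻¹ ^ b) : Module.End F (Fin (b + 1) → F)), ← Units.val_mul, inv_pow,
          inv_mul_cancel, Units.val_one, Module.End.one_apply]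
        exact smul_ne_zero (pow_ne_zero _ h2) hSb.1
    · have key : ∀ w, (1 + (2 : F) • (S * (↑T⁻¹ : Module.End F (Fin (b + 1) → F)))) ((T : Module.End F (Fin (b + 1) → F)) w) = w + S w := fun w => by
        rw [LinearMap.add_apply, Module.End.one_apply, LinearMap.smul_apply, Module.End.mul_apply,
          ← Module.End.mul_apply (↑T⁻¹ : Module.End F (Fin (b + 1) → F)), Units.inv_mul, Module.End.one_apply, hT,
          LinearMap.sub_apply, Module.End.one_apply, two_smul]
        abel
      obtain ⟨u, rfl⟩ : ∃ u', (T : Module.End F (Fin (b + 1) → F)) u' = u := ⟨(↑T⁻¹ : Module.End F (Fin (b + 1) → F)) u, by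
        rw [← Module.End.mul_apply, Units.mul_inv, Module.End.one_apply]⟩
      obtain ⟨v, rfl⟩ : ∃ v', (T : Module.End F (Fin (b + 1) → F)) v' = v := ⟨(↑T⁻¹ : Module.End F (Fin (b + 1) → F)) v, by
        rw [← Module.End.mul_apply, Units.mul_inv, Module.End.one_apply]⟩
      rw [key, key, hT, LinearMap.sub_apply, LinearMap.sub_apply]
      simp only [LinearMap.sub_apply, Module.End.one_apply, sub_eq_add_neg, hR.add_left, UnitSim.add_right hF hR,
        ← neg_one_smul F (S u), ← neg_one_smul F (S v), hR.smul_left, UnitSim.smul_right hR,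
        Herm.conj_neg hF (1 : F), one_pow]
      linear_combination 2 * hskew u v
where
  type_single {b : ℕ} {N : Module.End F (Fin (b + 1) → F)} {v : Fin (b + 1) → F} (h1 : N ^ (b + 1) = 0)
      (h2 : (N ^ b) v ≠ 0) : HasType N {b + 1} := by
    obtain ⟨μ, hμ⟩ := exists_type (f := N) ⟨_, h1⟩
    obtain ⟨a, ha, hab⟩ : ∃ a ∈ μ, b < a := by
      by_contra hcon
      push Not at hcon
      exact h2 (by rw [(hμ.pow_eq_zero_iff b).2 hcon]; rfl)
    obtain ⟨ν, rfl⟩ := Multiset.exists_cons_of_mem ha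
    have hs := hμ.sum_eq
    have hle := (hμ.pow_eq_zero_iff (b + 1)).1 h1 a ha
    rw [Multiset.sum_cons, finrank_fin_fun] at hs
    have hν : ν = 0 := Multiset.eq_zero_of_forall_notMem fun c hc => by
      have h3 := hμ.pos (Multiset.mem_cons_of_mem hc)
      have h4 := Multiset.le_sum_of_mem hc
      omega
    subst hν
    rw [show a = b + 1 by omega] at hμ
    exact hμ

/-- Unipotent isometries of every Jordan type with parts at most `p`. -/
theorem exists_unip_model (hF : Fintype.card F = q ^ 2) : ∀ μ : Multiset ℕ, (∀ a ∈ μ, 0 < a ∧ a ≤ p) →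
    ∃ N : Module.End F (Fin μ.sum → F), HasType N μ ∧ IsModel q (1 + N) := by
  intro μ
  induction μ using Multiset.induction with
  | empty =>
    intro _
    obtain ⟨ν, hν⟩ := exists_type (f := (0 : Module.End F (Fin (0 : Multiset ℕ).sum → F))) ⟨1, pow_one _⟩
    have hν0 : ν = 0 := Multiset.eq_zero_of_forall_notMem fun c hc => by
      have h3 := hν.pos hc
      have h4 := Multiset.le_sum_of_mem hc
      rw [hν.sum_eq, finrank_fin_fun, Multiset.sum_zero] at h4
      omega
    exact ⟨0, hν0 ▸ hν, by rw [add_zero]; exact one_model hF _⟩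
  | cons a μ ih =>
    intro hμ
    obtain ⟨N, hN, hNM⟩ := exists_block (p := p) hF (hμ a (Multiset.mem_cons_self a μ)).1 (hμ a (Multiset.mem_cons_self a μ)).2
    obtain ⟨N', hN', hNM'⟩ := ih fun b hb => hμ b (Multiset.mem_cons_of_mem hb)
    obtain ⟨e, he, -⟩ := sum_model hF (Multiset.sum_cons a μ).symm hNM hNM'
    refine ⟨e.symm.conj (N.prodMap N'), ?_, ?_⟩
    · have h := (hN.prod hN').transport (f' := e.symm.conj (N.prodMap N')) e.symm fun z => by simp [LinearEquiv.conj_apply]
      rwa [Multiset.singleton_add] at h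
    · have heq : e.symm.conj ((1 + N).prodMap (1 + N')) = 1 + e.symm.conj (N.prodMap N') :=
        LinearMap.ext fun v => e.injective (by simp [LinearEquiv.conj_apply]; rfl)
      rwa [heq] at he

end Unipotent

end Cfsg.Agent.Lib.Elusive.UnitModels
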