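import Cfsg.Agent.Lib.Elusive.UnitInv
import Cfsg.Agent.Lib.UnitaryConj

/-!
Minimal invariant non-degenerate subspaces of isometries of prime order of Hermitian forms.
-/

set_option autoImplicit false

namespace Cfsg.Agent.Lib.Elusive.UnitInv

open Module Polynomial
open Cfsg.Agent.Lib.Forms Cfsg.Agent.Lib.Classical

universe u v

variable {F : Type u} [Field F] [Finite F] {V : Type v} [AddCommGroup V] [Module F V] [FiniteDimensional F V]
  {σ : F ≃+* F} {h : V → V → F} {r : ℕ} [Fact r.Prime] {p : ℕ} [Fact p.Prime] [CharP F p]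
  {y : Module.End F V} {q : ℕ}

/-- Adjoints of polynomials in an isometry. -/
theorem adj_aeval (H : HermData σ h) {z : Module.End F V} (hinv : ∀ u v, h (y u) v = h u (z v)) (g : F[X])
    (u v : V) : h (aeval y g u) v = h u (aeval z (g.map σ.toRingHom) v) := by
  have hpow : ∀ (j : ℕ) u v, h ((y ^ j) u) v = h u ((z ^ j) v) := by
    intro j
    induction j with
    | zero => intro u v; rfl
    | succ j ih =>
      intro u v
      rw [pow_succ, pow_succ', Module.End.mul_apply, Module.End.mul_apply, ih, hinv]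
  induction g using Polynomial.induction_on' generalizing u v with
  | add a b ha hb =>
    simp only [Polynomial.map_add, map_add, LinearMap.add_apply, H.add_left, H.add_right, ha, hb]
  | monomial j a =>
    simp only [Polynomial.map_monomial, aeval_monomial, Module.End.mul_apply, Module.algebraMap_end_apply,
      H.smul_left, H.smul_right, hpow]
    show a * _ = σ (σ a) * _
    rw [H.involutive]

/-- Powers of polynomials in a map with `y ^ r = 1`. -/
theorem aeval_pow_char (hy : ∀ v, (y ^ r) v = v) (g : F[X]) (k a : ℕ) (ha : a ≡ p ^ k [MOD r]) :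
    aeval y g ^ (p ^ k) = aeval (y ^ a) (g.map (iterateFrobenius F p k)) := by
  have hy' : y ^ r = 1 := LinearMap.ext hy
  rw [← map_pow, ← map_iterateFrobenius_expand, map_expand, expand_aeval]
  rw [show y ^ (p ^ k) = y ^ a from
    (pow_eq_pow_mod (p ^ k) hy').trans ((congrArg (y ^ ·) ha.symm).trans (pow_eq_pow_mod a hy').symm)]

variable [Fintype F]

/-- A moved invariant non-degenerate subspace contains one of the least possible dimension. -/
theorem exists_piece (H : HermData σ h) (hF : Fintype.card F = q ^ 2) (hσ : ∀ a, σ a = a ^ q) (hrp : r ≠ p)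
    (hy : ∀ v, (y ^ r) v = v) (hiso : ∀ u v, h (y u) (y v) = h u v) {R : Submodule F V} (hR : Nd h R)
    (hI : Inv y R) (hfix : ∀ v ∈ R, y v = v → v = 0) (hne : R ≠ ⊥) :
    ∃ U ≤ R, Nd h U ∧ Inv y U ∧ finrank F U = orderOf (-(q : ZMod r)) := by
  classical
  have hr : r.Prime := Fact.out
  obtain ⟨p', k₀, hp', hc', hk₀, hqk⟩ := Cfsg.Agent.Lib.UnitaryConj.q_eq_pow hF
  obtain rfl : p = p' := CharP.eq F (by assumption) hc'
  have hrq : ¬ r ∣ q := fun hd => hrp ((Nat.prime_dvd_prime_iff_eq hr Fact.out).1 (hr.dvd_of_dvd_pow (hqk ▸ hd)))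
  have hQ0 : -(q : ZMod r) ≠ 0 := neg_ne_zero.2 fun e => hrq ((ZMod.natCast_eq_zero_iff q r).1 e)
  have hyinj : Function.Injective y := fun a b e => by
    have h' := congrArg (y ^ (r - 1)) e
    rwa [← Module.End.mul_apply, ← Module.End.mul_apply, ← pow_succ, Nat.sub_add_cancel hr.one_le, hy, hy] at h'
  set c := orderOf (-(q : ZMod r)) with hc
  set b := orderOf (Nat.card F : ZMod r) with hb
  have hcast : (Nat.card F : ZMod r) = (-(q : ZMod r)) ^ 2 := by
    rw [Nat.card_eq_fintype_card, hF, Nat.cast_pow, neg_pow_two]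
  have hfo : IsOfFinOrder (-(q : ZMod r)) :=
    isOfFinOrder_iff_pow_eq_one.2 ⟨r - 1, by have := hr.two_le; omega, ZMod.pow_card_sub_one_eq_one hQ0⟩
  have hc0 : 0 < c := hfo.orderOf_pos
  have hbc : b = c / c.gcd 2 := by rw [hb, hcast, hfo.orderOf_pow]
  obtain ⟨R₀, hstep⟩ := step_pow (F := F) (p := p) hrp (x := y) (l := 1) one_ne_zero
    (fun v => by rw [hy, one_pow, one_smul])
  have hirr : ∀ S : Submodule F V, S ≤ R → Inv y S → S ≠ ⊥ → ∃ U, Inv y U ∧ U ≤ S ∧ finrank F U = b := by
    intro S hSR hS hS0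
    refine hstep.small S hS (eq_bot_iff.2 fun z ⟨hz, hz'⟩ => ?_) hS0
    exact (Submodule.mem_bot F).2 (hfix z (hSR hz) (mem_fixSub.1 hz'))
  have hdvd : ∀ S : Submodule F V, S ≤ R → Inv y S → b ∣ finrank F S := fun S hSR hS =>
    orderOf_dvd_finrank hy hS fun v hv => hfix v (hSR hv)
  obtain ⟨U, hU, hUR, hUd⟩ := hirr R le_rfl hI hne
  have hb0 : 0 < b := by
    rw [hbc]
    exact Nat.div_pos (Nat.gcd_le_left 2 hc0) (Nat.gcd_pos_of_pos_left 2 hc0)
  rcases Nat.even_or_odd c with hce | hco
  · -- pairs of totally isotropic pieces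
    have hcb : c = 2 * b := by
      obtain ⟨l, hl⟩ := hce.two_dvd
      rw [hbc, hl, Nat.gcd_mul_right_left, Nat.mul_div_cancel_left l two_pos]
    have hti : ∀ u ∈ U, ∀ v ∈ U, h u v = 0 := by
      have hNinv : Inv y (perpIn H U U) := perp_inv H hiso hyinj hU hU
      have hle : perpIn H U U ≤ U := inf_le_left
      rcases Nat.eq_zero_or_pos (finrank F (perpIn H U U)) with h0 | h0
      · exfalso
        have hnd : Nd h U := fun u hu hall => (Submodule.mem_bot F).1
          (Submodule.finrank_eq_zero.1 h0 ▸ ((mem_perpIn H).2 ⟨hu, hall⟩))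
        have := Nat.le_of_dvd (by omega) (dvd_finrank (q := q) H hF hσ hrq hy hiso hnd hU fun v hv => hfix v (hUR hv))
        omega
      · have h1 := Nat.le_of_dvd h0 (hdvd _ (hle.trans hUR) hNinv)
        have h2 : perpIn H U U = U := Submodule.eq_of_le_of_finrank_le hle (by omega)
        intro u hu v hv
        exact ((mem_perpIn H).1 (h2.symm ▸ hu)).2 v hv
    set P := perpIn H U R with hP
    have hPinv : Inv y P := perp_inv H hiso hyinj hU hI
    have hUP : U ≤ P := fun u hu => (mem_perpIn H).2 ⟨hUR hu, hti u hu⟩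
    have hrF : (r : F) ≠ 0 := fun h0 =>
      hrp ((Nat.prime_dvd_prime_iff_eq Fact.out hr).1 ((CharP.cast_eq_zero_iff F p r).1 h0)).symm
    obtain ⟨W', hW', hPW'⟩ := exists_invariant_compl (c := (1 : F)) one_ne_zero hrF (fun v => by rw [hy, one_smul]) hPinv
    have hdim := perpIn_dim H U R
    rw [← hP] at hdim
    have hne' : R ⊓ W' ≠ ⊥ := fun h0 => by
      have hRP : R ≤ P := fun v hv => by
        obtain ⟨a, ha, w, hw, rfl⟩ := Submodule.mem_sup.1 (hPW'.sup_eq_top ▸ Submodule.mem_top (x := v))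
        have hwR : w ∈ R ⊓ W' := ⟨(R.add_mem_iff_right (inf_le_left (b := H.perp' U) ha)).1 hv, hw⟩
        rw [h0, Submodule.mem_bot] at hwR
        rwa [hwR, add_zero]
      obtain ⟨u, hu, hu0⟩ := Submodule.exists_mem_ne_zero_of_ne_bot (p := U) fun e => by
        rw [e, finrank_bot] at hUd; omega
      exact hu0 (hR u (hUR hu) fun v hv => H.eq_zero_comm.1 (((mem_perpIn H).1 (hRP hv)).2 u hu))
    obtain ⟨U', hU', hU'R, hU'd⟩ := hirr (R ⊓ W') inf_le_left (hI.inf hW') hne'
    have hPU' : P ⊓ U' = ⊥ := eq_bot_iff.2 fun z ⟨hz, hz'⟩ => by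
      have := hPW'.disjoint.le_bot ⟨hz, (hU'R hz').2⟩
      exact this
    have hU'R' : U' ≤ R := hU'R.trans inf_le_left
    have hPsup : P ⊔ U' = R := by
      refine Submodule.eq_of_le_of_finrank_le (sup_le inf_le_left hU'R') ?_
      have h1 := Submodule.finrank_sup_add_finrank_inf_eq P U'
      rw [hPU', finrank_bot] at h1
      omega
    refine ⟨U ⊔ U', sup_le hUR hU'R', fun z hz hall => ?_, hU.sup hU', ?_⟩
    · obtain ⟨u, hu, u', hu', rfl⟩ := Submodule.mem_sup.1 hz
      have hu'0 : u' = 0 := by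
        refine (Submodule.mem_bot F).1 (hPU' ▸ ⟨(mem_perpIn H).2 ⟨hU'R' hu', fun v hv => ?_⟩, hu'⟩)
        have := hall v (Submodule.mem_sup_left hv)
        rwa [H.add_left, hti u hu v hv, zero_add] at this
      rw [hu'0, add_zero] at hall ⊢
      refine hR u (hUR hu) fun v hv => ?_
      obtain ⟨a, ha, w, hw, rfl⟩ := Submodule.mem_sup.1 (hPsup.symm ▸ hv : v ∈ P ⊔ U')
      rw [H.add_right, H.eq_zero_comm.1 (((mem_perpIn H).1 ha).2 u hu), hall w (Submodule.mem_sup_right hw), add_zero]
    · have h1 := Submodule.finrank_sup_add_finrank_inf_eq U U'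
      rw [show U ⊓ U' = ⊥ from eq_bot_iff.2 (hPU' ▸ inf_le_inf_right _ hUP), finrank_bot] at h1
      omega
  · -- self-paired pieces
    have hcb : c = b := by rw [hbc, (Nat.coprime_two_right.2 hco).gcd_eq_one, Nat.div_one]
    set g := (y.restrict hU).charpoly with hg
    have hgm : g.Monic := LinearMap.charpoly_monic _
    have hgd : g.natDegree = b := by rw [hg, LinearMap.charpoly_natDegree, hUd]
    set G := aeval y g with hG
    have hgU : ∀ v ∈ U, G v = 0 := fun v hv => by
      have h1 := LinearMap.congr_fun (LinearMap.aeval_self_charpoly (y.restrict hU)) ⟨v, hv⟩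
      have h2 : ∀ (f : F[X]) (w : U), ((aeval (y.restrict hU) f w : U) : V) = aeval y f w := fun f => by
        induction f using Polynomial.induction_on' with
        | add a b ha hb => intro w; simp [ha, hb]
        | monomial j a =>
          intro w
          simp only [aeval_monomial, Module.End.mul_apply, Module.algebraMap_end_apply]
          rw [Submodule.coe_smul, Module.End.pow_restrict j hU (fun z hz => (Inv.pow hU j) z hz)]
          rfl
      exact (h2 g ⟨v, hv⟩).symm.trans (congrArg Subtype.val h1)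
    have hqc : (q : ZMod r) ^ c = -1 := by
      have := pow_orderOf_eq_one (-(q : ZMod r))
      rw [← hc, hco.neg_pow] at this
      linear_combination -this
    have hGQ : G ^ (q ^ (2 * c)) = G := by
      rw [hqk, ← pow_mul, hG, aeval_pow_char hy g (k₀ * (2 * c)) 1, pow_one]
      · congr 1
        ext j
        rw [coeff_map, iterateFrobenius_def, pow_mul p k₀, ← hqk, pow_mul q 2, ← hF, FiniteField.pow_card_pow]
      · rw [← ZMod.natCast_eq_natCast_iff, pow_mul p k₀, ← hqk, Nat.cast_one, Nat.cast_pow, mul_comm, pow_mul,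
          hqc, neg_one_sq]
    have hGadj : ∀ u v, h (G u) v = h u ((G ^ (q ^ c)) v) := fun u v => by
      rw [hG, adj_aeval H (z := y ^ (r - 1)) (fun u v => ?_) g]
      · rw [hqk, ← pow_mul, aeval_pow_char hy g (k₀ * c) (r - 1)]
        · refine congrArg (fun P => h u (aeval (y ^ (r - 1)) P v)) ?_
          ext j
          rw [coeff_map, coeff_map, iterateFrobenius_def, pow_mul p k₀, ← hqk]
          obtain ⟨l, hl⟩ := hco
          show σ _ = _
          rw [hσ, hl, pow_succ' q, pow_mul q 2, pow_mul _ q, ← hF, FiniteField.pow_card_pow]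
        · rw [← ZMod.natCast_eq_natCast_iff, pow_mul p k₀, ← hqk, Nat.cast_sub hr.one_le, Nat.cast_pow, hqc,
            ZMod.natCast_self, Nat.cast_one, zero_sub]
      · conv_lhs => rw [show v = y ((y ^ (r - 1)) v) by
          rw [← Module.End.mul_apply, ← pow_succ', Nat.sub_add_cancel hr.one_le, hy]]
        rw [hiso]
    have hq2 := Herm.two_le_q hF
    have hker : ∀ v, G v = 0 → ∀ {k : ℕ}, 0 < k → (G ^ k) v = 0 := fun v hv k hk => by
      obtain ⟨l, rfl⟩ : ∃ l, k = l + 1 := ⟨k - 1, by omega⟩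
      rw [pow_succ, Module.End.mul_apply, hv, map_zero]
    set K := R ⊓ LinearMap.ker G with hK
    let G' : R →ₗ[F] R := G.restrict (hI.aeval g)
    have hK' : (LinearMap.ker G').map R.subtype = K := by
      ext v
      constructor
      · rintro ⟨w, hw, rfl⟩
        exact ⟨w.2, congrArg Subtype.val (LinearMap.mem_ker.1 hw)⟩
      · rintro ⟨hv, hv'⟩
        exact ⟨⟨v, hv⟩, LinearMap.mem_ker.2 (Subtype.ext (LinearMap.mem_ker.1 hv')), rfl⟩
    have hKnd : Nd h K := fun u hu hall => hR u hu.1 fun v hv => by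
      have hspan : (LinearMap.ker G') ⊔ (LinearMap.range G') = ⊤ := by
        have hinf : (LinearMap.ker G') ⊓ (LinearMap.range G') = ⊥ := eq_bot_iff.2 fun w ⟨hw, z, hz⟩ => by
          have h1 : G (G z) = 0 := by
            have := congrArg Subtype.val (LinearMap.mem_ker.1 hw)
            rwa [← hz] at this
          have h2 : G z = 0 := by
            have hpos : 2 ≤ q ^ (2 * c) := le_trans hq2 (Nat.le_self_pow (by omega) q)
            rw [← hGQ, show q ^ (2 * c) = (q ^ (2 * c) - 2) + 2 by omega, pow_add, Module.End.mul_apply,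
              pow_two, Module.End.mul_apply, h1, map_zero]
          exact (Submodule.mem_bot F).2 (hz.symm.trans (Subtype.ext h2))
        have h1 := Submodule.finrank_sup_add_finrank_inf_eq (LinearMap.ker G') (LinearMap.range G')
        rw [hinf, finrank_bot] at h1
        have h2 := LinearMap.finrank_range_add_finrank_ker G'
        exact Submodule.eq_top_of_finrank_eq (by omega)
      obtain ⟨a, ha, w, ⟨z, hz⟩, haw⟩ := Submodule.mem_sup.1 (hspan ▸ Submodule.mem_top (x := (⟨v, hv⟩ : R)))
      have hv' : v = (a : V) + G z := by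
        rw [show G z = ((G' z : R) : V) from rfl, hz, ← Submodule.coe_add, haw]
      rw [hv', H.add_right, hall a (hK' ▸ ⟨a, ha, rfl⟩), zero_add]
      refine H.eq_zero_comm.1 ?_
      rw [hGadj, hker u hu.2 (pow_pos (by omega) c), H.zero_right]
    have hUK : U ≤ K := fun v hv => ⟨hUR hv, hgU v hv⟩
    obtain ⟨v, hv, hvv⟩ := exists_aniso H hKnd fun e => by
      rw [e, le_bot_iff] at hUK
      rw [hUK, finrank_bot] at hUd
      omega
    have hg1 : g ≠ 1 := fun e => by rw [e, natDegree_one] at hgd; omega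
    obtain ⟨Z, hZ, hZK, hvZ, hZd⟩ := exists_cyclic (hI.inf (fun w (hw : w ∈ LinearMap.ker G) => show G (y w) = 0 by
      rw [← Module.End.mul_apply, show G * y = y * G by
        simpa [hG] using congrArg (aeval y) (mul_comm g X), Module.End.mul_apply,
        LinearMap.mem_ker.1 hw, map_zero])) hgm hv hv.2
    refine ⟨Z, hZK.trans inf_le_left, fun z hz hall => ?_, hZ, ?_⟩
    · have hNinv : Inv y (perpIn H Z Z) := perp_inv H hiso hyinj hZ hZ
      have hle : perpIn H Z Z ≤ Z := inf_le_left
      rcases Nat.eq_zero_or_pos (finrank F (perpIn H Z Z)) with h0 | h0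
      · exact (Submodule.mem_bot F).1 (Submodule.finrank_eq_zero.1 h0 ▸ ((mem_perpIn H).2 ⟨hz, hall⟩))
      · have h1 := Nat.le_of_dvd h0 (hdvd _ (hle.trans (hZK.trans inf_le_left)) hNinv)
        have h2 : perpIn H Z Z = Z := Submodule.eq_of_le_of_finrank_le hle (by omega)
        exact absurd (((mem_perpIn H).1 (h2.symm ▸ hvZ hg1)).2 v (hvZ hg1)) hvv
    · refine le_antisymm (by omega) ?_
      rw [hcb]
      refine Nat.le_of_dvd (Nat.pos_of_ne_zero fun h0 => hvv ?_) (hdvd _ (hZK.trans inf_le_left) hZ)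
      have := hvZ hg1
      rw [Submodule.finrank_eq_zero.1 h0, Submodule.mem_bot] at this
      rw [this, H.zero_left]

/-- Invariant non-degenerate subspaces of every possible dimension. -/
theorem exists_pieces (H : HermData σ h) (hF : Fintype.card F = q ^ 2) (hσ : ∀ a, σ a = a ^ q) (hrp : r ≠ p)
    (hy : ∀ v, (y ^ r) v = v) (hiso : ∀ u v, h (y u) (y v) = h u v) : ∀ (e : ℕ) {R : Submodule F V}, Nd h R →
      Inv y R → (∀ v ∈ R, y v = v → v = 0) → e * orderOf (-(q : ZMod r)) ≤ finrank F R →
      ∃ U ≤ R, Nd h U ∧ Inv y U ∧ finrank F U = e * orderOf (-(q : ZMod r)) := by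
  intro e
  induction e with
  | zero => exact fun {R} _ _ _ _ => ⟨⊥, bot_le, nd_bot, fun v hv => by simp [(Submodule.mem_bot F).1 hv], by simp⟩
  | succ e ih =>
    intro R hR hI hfix hle
    rw [add_mul, one_mul] at hle ⊢
    rcases Nat.eq_zero_or_pos (orderOf (-(q : ZMod r))) with h0 | h0
    · exact ⟨⊥, bot_le, nd_bot, fun v hv => by simp [(Submodule.mem_bot F).1 hv], by simp [h0]⟩
    obtain ⟨U, hUR, hU, hUI, hUd⟩ := exists_piece H hF hσ hrp hy hiso hR hI hfix fun e' => by
      rw [e', finrank_bot] at hle; omega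
    obtain ⟨hP, -, hinf, hdim⟩ := nd_split H hU hR hUR
    have hyinj : Function.Injective y := fun a b e' => by
      have h' := congrArg (y ^ (r - 1)) e'
      rwa [← Module.End.mul_apply, ← Module.End.mul_apply, ← pow_succ,
        Nat.sub_add_cancel (Fact.out : r.Prime).one_le, hy, hy] at h'
    obtain ⟨T, hTP, hT, hTI, hTd⟩ := ih hP (perp_inv H hiso hyinj hUI hI)
      (fun v hv => hfix v ((mem_perpIn H).1 hv).1) (by omega)
    refine ⟨U ⊔ T, sup_le hUR (hTP.trans inf_le_left), nd_sup H hU hT fun u hu w hw =>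
      H.eq_zero_comm.1 (((mem_perpIn H).1 (hTP hw)).2 u hu), hUI.sup hTI, ?_⟩
    have h1 := Submodule.finrank_sup_add_finrank_inf_eq U T
    rw [show U ⊓ T = ⊥ from eq_bot_iff.2 (hinf ▸ inf_le_inf_left _ hTP), finrank_bot] at h1
    omega

end Cfsg.Agent.Lib.Elusive.UnitInv
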