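import Cfsg.Agent.S2587
import Cfsg.Agent.Lib.Elusive.UnitPieces
import Cfsg.Agent.Lib.Elusive.SympTI
import Cfsg.Agent.Lib.Forms.UnitaryTI
import Cfsg.Agent.Lib.Forms.UnitaryBasic

/-!
Invariant totally isotropic subspaces of isometries of Hermitian forms.
-/

set_option autoImplicit false
set_option maxHeartbeats 1000000

namespace Cfsg.Agent.Lib.Elusive.UnitInv

open Module Polynomial
open scoped Matrix
open Cfsg.Agent.Lib.Forms Cfsg.Agent.Lib.Classical

universe u

variable {F : Type u} [Field F] {V : Type u} [AddCommGroup V] [Module F V] [FiniteDimensional F V]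
  {σ : F ≃+* F} {h : V → V → F}

/-- `h` vanishes on `W`. -/
def Ti (h : V → V → F) (W : Submodule F V) : Prop := ∀ u ∈ W, ∀ v ∈ W, h u v = 0

omit [FiniteDimensional F V] in
theorem Ti.mono {U W : Submodule F V} (hW : Ti h W) (hUW : U ≤ W) : Ti h U :=
  fun u hu v hv => hW u (hUW hu) v (hUW hv)

omit [FiniteDimensional F V] in
theorem ti_bot (H : HermData σ h) : Ti h (⊥ : Submodule F V) := fun u hu v _ => by
  rw [(Submodule.mem_bot F).1 hu, H.zero_left]

omit [FiniteDimensional F V] in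
theorem ti_sup (H : HermData σ h) {U W : Submodule F V} (hU : Ti h U) (hW : Ti h W)
    (ho : ∀ u ∈ U, ∀ w ∈ W, h u w = 0) : Ti h (U ⊔ W) := by
  intro a ha b hb
  obtain ⟨u, hu, w, hw, rfl⟩ := Submodule.mem_sup.1 ha
  obtain ⟨u', hu', w', hw', rfl⟩ := Submodule.mem_sup.1 hb
  simp only [H.add_left, H.add_right, hU u hu u' hu', hW w hw w' hw', ho u hu w' hw',
    H.eq_zero_comm.1 (ho u' hu' w hw), add_zero]

variable [Finite F]

/-- A totally isotropic subspace has at most half the dimension. -/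
theorem ti_dim (H : HermData σ h) {U P : Submodule F V} (hP : Nd h P) (hUP : U ≤ P) (hU : Ti h U) :
    2 * finrank F U ≤ finrank F P := by
  have H' := restrictData H hP
  have h1 := H'.finrank_perp'_eq (U.comap P.subtype)
  have h2 := Submodule.finrank_mono (show U.comap P.subtype ≤ H'.perp' (U.comap P.subtype) from
    fun a ha b hb => hU _ ha _ hb)
  rw [(Submodule.comapSubtypeEquivOfLe hUP).finrank_eq] at h1 h2
  omega

omit [Finite F] in
/-- An invariant subspace splits along orthogonal summands. -/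
theorem finrank_sup_orth (H : HermData σ h) {U W : Submodule F V} (hU : Nd h U) (ho : ∀ u ∈ U, ∀ w ∈ W, h u w = 0) :
    finrank F ↥(U ⊔ W) = finrank F U + finrank F W := by
  have h5 := Submodule.finrank_sup_add_finrank_inf_eq U W
  rw [show U ⊓ W = ⊥ from eq_bot_iff.2 fun z ⟨hz, hz'⟩ => hU z hz fun v hv =>
    H.eq_zero_comm.1 (ho v hv z hz'), finrank_bot] at h5
  omega

/-- Iterating the choice of invariant totally isotropic subspaces. -/
theorem ti_rec (H : HermData σ h) {y : Module.End F V} (hiso : ∀ u v, h (y u) (y v) = h u v)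
    (hinj : Function.Injective y) {b D₀ : ℕ} {P₀ : Submodule F V}
    (hfind : ∀ P ≤ P₀, Nd h P → Inv y P → D₀ ≤ finrank F P → ∃ Q ≤ P, Nd h Q ∧ Inv y Q ∧
      finrank F Q ≤ 2 * b ∧ ∃ U ≤ Q, Inv y U ∧ Ti h U ∧ finrank F U = b) :
    ∀ (e : ℕ) {P : Submodule F V}, P ≤ P₀ → Nd h P → Inv y P → D₀ + 2 * (e * b) ≤ finrank F P + 2 * b →
      ∃ U ≤ P, Inv y U ∧ Ti h U ∧ finrank F U = e * b := by
  intro e
  induction e with
  | zero => exact fun {P} _ _ _ _ => ⟨⊥, bot_le, fun v hv => by simp [(Submodule.mem_bot F).1 hv], ti_bot H, by simp⟩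
  | succ e ih =>
    intro P hP₀ hP hPi hD
    rw [add_mul, one_mul] at hD ⊢
    obtain ⟨Q, hQP, hQ, hQi, hQd, U, hUQ, hUi, hU, hUd⟩ := hfind P hP₀ hP hPi (by omega)
    obtain ⟨hP', -, hinf, hdim⟩ := nd_split H hQ hP hQP
    obtain ⟨T, hTP', hTi, hT, hTd⟩ := ih (P := perpIn H Q P) ((inf_le_left : perpIn H Q P ≤ P).trans hP₀) hP' (perp_inv H hiso hinj hQi hPi) (by omega)
    have ho : ∀ u ∈ U, ∀ w ∈ T, h u w = 0 := fun u hu w hw =>
      H.eq_zero_comm.1 (((mem_perpIn H).1 (hTP' hw)).2 u (hUQ hu))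
    refine ⟨U ⊔ T, sup_le (hUQ.trans hQP) (hTP'.trans inf_le_left), hUi.sup hTi, ti_sup H hU hT ho, ?_⟩
    have h5 := Submodule.finrank_sup_add_finrank_inf_eq U T
    rw [show U ⊓ T = ⊥ from eq_bot_iff.2 (hinf ▸ inf_le_inf hUQ hTP'), finrank_bot] at h5
    omega

section Finite

variable [Fintype F] {q : ℕ}

/-- A scalar of norm `-1`. -/
theorem exists_norm_neg_one (hF : Fintype.card F = q ^ 2) : ∃ ε : F, ε * ε ^ q = -1 :=
  exists_norm_eq (isUnitary_hermForm hF 1) (a := (-1 : F)) (by rw [map_neg, map_one])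

/-- Totally isotropic subspaces of every dimension up to the half. -/
theorem exists_ti_sub (H : HermData σ h) (hF : Fintype.card F = q ^ 2) (hσ : ∀ a, σ a = a ^ q)
    {W : Submodule F V} (hW : Nd h W) {s : ℕ} (hs : 2 * s ≤ finrank F W) :
    ∃ U ≤ W, Ti h U ∧ finrank F U = s := by
  obtain ⟨b, hb⟩ := orth_family H hW
  obtain ⟨ε, hε⟩ := exists_norm_neg_one hF
  let i₀ : Fin s → Fin (finrank F W) := fun j => ⟨2 * j, by have := j.2; omega⟩
  let i₁ : Fin s → Fin (finrank F W) := fun j => ⟨2 * j + 1, by have := j.2; omega⟩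
  let f : Fin s → V := fun j => (b (i₀ j) : V) + ε • (b (i₁ j) : V)
  have e01 : ∀ j k, i₀ j ≠ i₁ k := fun j k e => by have := congrArg Fin.val e; simp [i₀, i₁] at this; omega
  have hff : ∀ j k, h (f j) (f k) = 0 := fun j k => by
    simp only [f, H.add_left, H.add_right, H.smul_left, H.smul_right, hb, hσ, e01 j k, (e01 k j).symm,
      if_false, mul_zero, add_zero, zero_add]
    by_cases e : j = k
    · subst e
      rw [if_pos rfl, if_pos rfl, mul_one, hε, add_neg_cancel]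
    · rw [if_neg (fun e' => e (Fin.ext (by have := congrArg Fin.val e'; simp [i₀] at this; omega))),
        if_neg (fun e' => e (Fin.ext (by have := congrArg Fin.val e'; simp [i₁] at this; omega)))]
      simp
  have hfb : ∀ j k, h (f j) (b (i₀ k) : V) = if j = k then 1 else 0 := fun j k => by
    simp only [f, H.add_left, H.smul_left, hb, (e01 k j).symm, if_false, mul_zero, add_zero]
    exact if_congr ⟨fun e' => Fin.ext (by have := congrArg Fin.val e'; simp [i₀] at this; omega), fun e => by rw [e]⟩ rfl rfl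
  have hli : LinearIndependent F f := Fintype.linearIndependent_iff.2 fun a ha k => by
    let A : V →+ F := { toFun := fun z => h z (b (i₀ k) : V), map_zero' := H.zero_left _, map_add' := fun x y => H.add_left x y _ }
    have h1 : A (∑ j, a j • f j) = a k := by
      rw [map_sum]
      show ∑ j, h (a j • f j) _ = a k
      simp [H.smul_left, hfb]
    rw [ha, map_zero] at h1
    exact h1.symm
  refine ⟨Submodule.span F (Set.range f), ?_, ?_, by rw [finrank_span_eq_card hli, Fintype.card_fin]⟩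
  · rw [Submodule.span_le]
    rintro _ ⟨j, rfl⟩
    exact W.add_mem (b (i₀ j)).2 (W.smul_mem _ (b (i₁ j)).2)
  · exact H.span_zero _ (by rintro _ ⟨j, rfl⟩ _ ⟨k, rfl⟩; exact hff j k)

/-- Coordinates of a non-degenerate subspace. -/
theorem exists_coords (H : HermData σ h) (hσ : ∀ a, σ a = a ^ q) {U : Submodule F V} (hU : Nd h U) {d : ℕ}
    (hd : finrank F U = d) :
    ∃ e : U ≃ₗ[F] (Fin d → F), ∀ u v, Cfsg.hermForm d F q (e u) (e v) = h u v := by
  subst hd
  obtain ⟨b, hb⟩ := orth_basis H hU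
  exact ⟨b.equivFun, fun u v => by rw [Basis.equivFun_apply, Basis.equivFun_apply]; exact hermForm_coords H hσ hb u v⟩

omit [Finite F] [Fintype F] in
/-- Cyclic maps with the same irreducible polynomial are similar. -/
theorem exists_similar {U₁ U₂ : Submodule F V} {y : Module.End F V} (hI₁ : Inv y U₁) (hI₂ : Inv y U₂)
    {g : F[X]} (hgm : g.Monic) (hgi : Irreducible g) (hd₁ : finrank F U₁ = g.natDegree)
    (hd₂ : finrank F U₂ = g.natDegree) (hg₁ : ∀ v ∈ U₁, aeval y g v = 0) (hg₂ : ∀ v ∈ U₂, aeval y g v = 0) :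
    ∃ φ : U₁ ≃ₗ[F] U₂, ∀ u, φ (y.restrict hI₁ u) = y.restrict hI₂ (φ u) := by
  have key : ∀ (U : Submodule F V) (hI : Inv y U), finrank F U = g.natDegree → (∀ v ∈ U, aeval y g v = 0) →
      ∃ L : F[X] →ₗ[F] U, Function.Surjective L ∧ (∀ P, P ∈ LinearMap.ker L ↔ g ∣ P) ∧
        ∀ P, L (Polynomial.X * P) = y.restrict hI (L P) := by
    intro U hI hd hg
    obtain ⟨v, hv, hv0⟩ := Submodule.exists_mem_ne_zero_of_ne_bot (p := U) fun e => by
      rw [e, finrank_bot] at hd; have := hgi.natDegree_pos; omega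
    let L : F[X] →ₗ[F] U :=
      { toFun := fun P => ⟨aeval y P v, hI.aeval P v hv⟩
        map_add' := fun P Q => Subtype.ext (by simp)
        map_smul' := fun a P => Subtype.ext (by simp) }
    have hLv : ∀ P, ((L P : U) : V) = aeval y P v := fun P => rfl
    have hker : ∀ P, P ∈ LinearMap.ker L ↔ g ∣ P := fun P => by
      rw [LinearMap.mem_ker, ← Subtype.coe_inj, hLv, Submodule.coe_zero]
      refine ⟨fun h0 => ?_, fun ⟨Q, hQ⟩ => ?_⟩
      · by_contra hn
        obtain ⟨a, b, hab⟩ := hgi.coprime_iff_not_dvd.2 hn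
        refine hv0 ?_
        have := congrArg (fun R => aeval y R v) hab
        simp only [map_add, map_mul, map_one, LinearMap.add_apply, Module.End.mul_apply, hg v hv, h0, map_zero,
          add_zero, Module.End.one_apply] at this
        exact this.symm
      · rw [hQ, map_mul, Module.End.mul_apply]
        exact hg _ (hI.aeval Q v hv)
    refine ⟨L, ?_, hker, fun P => Subtype.ext (by simp [hLv, map_mul]; rfl)⟩
    let L' : Polynomial.degreeLT F g.natDegree →ₗ[F] U := L.comp (Submodule.subtype _)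
    have hL' : Function.Injective L' := (injective_iff_map_eq_zero L').2 fun P hP => by
      refine Subtype.ext (Polynomial.eq_zero_of_dvd_of_degree_lt ((hker _).1 (LinearMap.mem_ker.2 hP)) ?_)
      rw [Polynomial.degree_eq_natDegree hgm.ne_zero]
      exact Polynomial.mem_degreeLT.1 P.2
    haveI : FiniteDimensional F (Polynomial.degreeLT F g.natDegree) := FiniteDimensional.of_injective L' hL'
    have hs : Function.Surjective L' := (LinearMap.injective_iff_surjective_of_finrank_eq_finrank (by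
      rw [(Polynomial.degreeLTEquiv F g.natDegree).finrank_eq, finrank_fin_fun, hd])).1 hL'
    exact fun u => (hs u).elim fun P hP => ⟨P, hP⟩
  obtain ⟨L₁, hs₁, hk₁, hX₁⟩ := key U₁ hI₁ hd₁ hg₁
  obtain ⟨L₂, hs₂, hk₂, hX₂⟩ := key U₂ hI₂ hd₂ hg₂
  have hk : LinearMap.ker L₁ = LinearMap.ker L₂ := by ext P; rw [hk₁, hk₂]
  let φ := ((L₁.quotKerEquivOfSurjective hs₁).symm.trans (Submodule.quotEquivOfEq _ _ hk)).trans
    (L₂.quotKerEquivOfSurjective hs₂)
  have hφ : ∀ P, φ (L₁ P) = L₂ P := fun P => by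
    have : (L₁.quotKerEquivOfSurjective hs₁).symm (L₁ P) = Submodule.Quotient.mk P :=
      (LinearEquiv.symm_apply_eq _).2 rfl
    simp only [φ, LinearEquiv.trans_apply, this]
    rfl
  refine ⟨φ, fun u => ?_⟩
  obtain ⟨P, rfl⟩ := hs₁ u
  rw [← hX₁, hφ, hφ, hX₂]

/-- Two orthogonal pieces with the same irreducible polynomial contain a totally isotropic one. -/
theorem pair_ti (H : HermData σ h) (hF : Fintype.card F = q ^ 2) (hσ : ∀ a, σ a = a ^ q) {y : Module.End F V}
    (hiso : ∀ u v, h (y u) (y v) = h u v) {U₁ U₂ : Submodule F V} (hn₁ : Nd h U₁) (hn₂ : Nd h U₂)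
    (hI₁ : Inv y U₁) (hI₂ : Inv y U₂) (ho : ∀ u ∈ U₁, ∀ v ∈ U₂, h u v = 0) {g : F[X]} (hgm : g.Monic)
    (hgi : Irreducible g) (hd₁ : finrank F U₁ = g.natDegree)
    (hd₂ : finrank F U₂ = g.natDegree) (hg₁ : ∀ v ∈ U₁, aeval y g v = 0) (hg₂ : ∀ v ∈ U₂, aeval y g v = 0) :
    ∃ U ≤ U₁ ⊔ U₂, Inv y U ∧ Ti h U ∧ finrank F U = g.natDegree := by
  classical
  obtain ⟨φ, hφ⟩ := exists_similar hI₁ hI₂ hgm hgi hd₁ hd₂ hg₁ hg₂
  set d := g.natDegree with hd
  obtain ⟨e₁, he₁⟩ := exists_coords H hσ hn₁ hd₁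
  obtain ⟨e₂, he₂⟩ := exists_coords H hσ hn₂ hd₂
  have mk : ∀ (U : Submodule F V) (hI : Inv y U) (e : U ≃ₗ[F] (Fin d → F)),
      (∀ u v, Cfsg.hermForm d F q (e u) (e v) = h u v) →
      ∃ A : GL (Fin d) F, A ∈ Cfsg.GU d F q ∧ ∀ u, (A : Matrix (Fin d) (Fin d) F) *ᵥ e u = e (y.restrict hI u) := by
    intro U hI e he
    set M := LinearMap.toMatrix' (e.conj (y.restrict hI))
    have hM : ∀ u, M *ᵥ e u = e (y.restrict hI u) := fun u => by
      rw [← Matrix.toLin'_apply, Matrix.toLin'_toMatrix']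
      simp [LinearEquiv.conj_apply]
    have hiso' : ∀ a b, Cfsg.hermForm d F q (M *ᵥ a) (M *ᵥ b) = Cfsg.hermForm d F q a b := fun a b => by
      obtain ⟨u, rfl⟩ := e.surjective a
      obtain ⟨v, rfl⟩ := e.surjective b
      rw [hM, hM, he, he]
      exact hiso _ _
    have hdet : M.det ≠ 0 := fun e0 => by
      obtain ⟨u, hu0, hu⟩ := Matrix.exists_mulVec_eq_zero_iff.2 e0
      refine hu0 (funext fun i => ?_)
      have := hiso' u (Pi.single i 1)
      rw [hu, Herm.herm_single_right hF] at this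
      simp only [Cfsg.hermForm, Pi.zero_apply, zero_mul, Finset.sum_const_zero] at this
      exact this.symm
    exact ⟨Matrix.GeneralLinearGroup.mkOfDetNeZero M hdet, Herm.mem_GU.2 hiso', hM⟩
  obtain ⟨A₁, hA₁, hA₁e⟩ := mk U₁ hI₁ e₁ he₁
  obtain ⟨A₂, hA₂, hA₂e⟩ := mk U₂ hI₂ e₂ he₂
  let T : GL (Fin d) F := Matrix.GeneralLinearGroup.toLin.symm
    (LinearMap.GeneralLinearGroup.ofLinearEquiv ((e₁.symm.trans φ).trans e₂))
  have hT : ∀ a, (T : Matrix (Fin d) (Fin d) F) *ᵥ a = e₂ (φ (e₁.symm a)) := fun a => by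
    have h1 : ((Matrix.GeneralLinearGroup.toLin T : LinearMap.GeneralLinearGroup F _) :
        Module.End F (Fin d → F)) = ((e₁.symm.trans φ).trans e₂).toLinearMap := by rw [MulEquiv.apply_symm_apply]; rfl
    exact LinearMap.congr_fun h1 a
  have hGL : IsConj A₁ A₂ := by
    refine isConj_iff.2 ⟨T, ?_⟩
    rw [mul_inv_eq_iff_eq_mul]
    refine Units.ext (Matrix.ext_of_mulVec_single fun i => ?_)
    rw [Units.val_mul, Units.val_mul, ← Matrix.mulVec_mulVec, ← Matrix.mulVec_mulVec]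
    obtain ⟨u, hu⟩ := e₁.surjective (Pi.single i 1)
    rw [← hu, hA₁e, hT, hT, e₁.symm_apply_apply, e₁.symm_apply_apply, hA₂e, hφ]
  obtain ⟨γ, hγ⟩ := isConj_iff.1 ((Cfsg.Agent.S2587.result hF ⟨A₁, hA₁⟩ ⟨A₂, hA₂⟩).2 hGL)
  set Γ := Matrix.toLin' ((γ : GL (Fin d) F) : Matrix (Fin d) (Fin d) F) with hΓ
  have hγ' : (γ : GL (Fin d) F) * A₁ = A₂ * γ := congrArg Subtype.val (mul_inv_eq_iff_eq_mul.1 hγ)
  let ψ : U₁ →ₗ[F] U₂ := e₂.symm.toLinearMap ∘ₗ Γ ∘ₗ e₁.toLinearMap
  have hψ : ∀ u, e₂ (ψ u) = (γ : GL (Fin d) F).1 *ᵥ e₁ u := fun u => by simp [ψ, hΓ]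
  have hψf : ∀ u v, h (ψ u : V) (ψ v : V) = h (u : V) (v : V) := fun u v => by
    rw [← he₂, hψ, hψ, Herm.mem_GU.1 γ.2, he₁]
  have hψy : ∀ u, ψ (y.restrict hI₁ u) = y.restrict hI₂ (ψ u) := fun u => e₂.injective (by
    rw [hψ, ← hA₁e, ← hA₂e, hψ, Matrix.mulVec_mulVec, Matrix.mulVec_mulVec, ← Units.val_mul, ← Units.val_mul, hγ'])
  obtain ⟨ε, hε⟩ := exists_norm_neg_one hF
  let L : U₁ →ₗ[F] V := U₁.subtype + ε • (U₂.subtype ∘ₗ ψ)
  have hL : ∀ u, L u = (u : V) + ε • (ψ u : V) := fun u => rfl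
  have hLinj : Function.Injective L := (injective_iff_map_eq_zero L).2 fun u hu => Subtype.ext (hn₁ u u.2 fun v hv => by
    have h0 := congrArg (fun z => h z v) hu
    simp only [hL, H.add_left, H.smul_left, H.zero_left, H.eq_zero_comm.1 (ho v hv _ (ψ u).2), mul_zero, add_zero] at h0
    exact h0)
  refine ⟨LinearMap.range L, ?_, ?_, ?_, (LinearMap.finrank_range_of_inj hLinj).trans hd₁⟩
  · rintro _ ⟨u, rfl⟩
    exact Submodule.add_mem_sup u.2 (U₂.smul_mem ε (ψ u).2)
  · rintro _ ⟨u, rfl⟩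
    refine ⟨y.restrict hI₁ u, ?_⟩
    rw [hL, hL, hψy, map_add, map_smul]
    rfl
  · rintro _ ⟨u, rfl⟩ _ ⟨v, rfl⟩
    simp only [hL, H.add_left, H.add_right, H.smul_left, H.smul_right, ho _ u.2 _ (ψ v).2,
      H.eq_zero_comm.1 (ho _ v.2 _ (ψ u).2), hψf, hσ, mul_zero, zero_add, add_zero]
    rw [← mul_assoc, hε]
    ring

variable {r : ℕ} [Fact r.Prime] {p : ℕ} [Fact p.Prime] [CharP F p] {y : Module.End F V}

omit [Finite F] [FiniteDimensional F V] in
theorem inj_of_pow (hy : ∀ v, (y ^ r) v = v) : Function.Injective y := fun a b e => by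
  have h' := congrArg (y ^ (r - 1)) e
  rwa [← Module.End.mul_apply, ← Module.End.mul_apply, ← pow_succ,
    Nat.sub_add_cancel (Fact.out : r.Prime).one_le, hy, hy] at h'

/-- Pieces with a totally isotropic half. -/
theorem find_double (H : HermData σ h) (hF : Fintype.card F = q ^ 2) (hσ : ∀ a, σ a = a ^ q) (hrp : r ≠ p)
    (hy : ∀ v, (y ^ r) v = v) (hiso : ∀ u v, h (y u) (y v) = h u v)
    (hc : orderOf (-(q : ZMod r)) = 2 * orderOf (Nat.card F : ZMod r)) {P : Submodule F V} (hP : Nd h P)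
    (hI : Inv y P) (hfix : ∀ v ∈ P, y v = v → v = 0) (hne : P ≠ ⊥) :
    ∃ Q ≤ P, Nd h Q ∧ Inv y Q ∧ finrank F Q ≤ 2 * orderOf (Nat.card F : ZMod r) ∧
      ∃ U ≤ Q, Inv y U ∧ Ti h U ∧ finrank F U = orderOf (Nat.card F : ZMod r) := by
  obtain ⟨p', k₀, hp', hc', -, hqk⟩ := Cfsg.Agent.Lib.UnitaryConj.q_eq_pow hF
  obtain rfl : p = p' := CharP.eq F (by assumption) hc'
  have hr : r.Prime := Fact.out
  have hrq : ¬ r ∣ q := fun hd => hrp ((Nat.prime_dvd_prime_iff_eq hr Fact.out).1 (hr.dvd_of_dvd_pow (hqk ▸ hd)))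
  obtain ⟨Q, hQP, hQ, hQi, hQd⟩ := exists_piece H hF hσ hrp hy hiso hP hI hfix hne
  obtain ⟨R₀, hstep⟩ := step_pow (F := F) (p := p) hrp (x := y) (l := 1) one_ne_zero
    (fun v => by rw [hy, one_pow, one_smul])
  have hb0 := hstep.pos
  obtain ⟨U, hU, hUQ, hUd⟩ := hstep.small Q hQi
    (eq_bot_iff.2 fun z ⟨hz, hz'⟩ => (Submodule.mem_bot F).2 (hfix z (hQP hz) (mem_fixSub.1 hz')))
    (fun e => by rw [e, finrank_bot] at hQd; omega)
  refine ⟨Q, hQP, hQ, hQi, by omega, U, hUQ, hU, ?_, hUd⟩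
  have hle : perpIn H U U ≤ U := inf_le_left
  rcases Nat.eq_zero_or_pos (finrank F (perpIn H U U)) with h0 | h0
  · exfalso
    have hnd : Nd h U := fun u hu hall => (Submodule.mem_bot F).1
      (Submodule.finrank_eq_zero.1 h0 ▸ ((mem_perpIn H).2 ⟨hu, hall⟩))
    have := Nat.le_of_dvd (by omega) (dvd_finrank (q := q) H hF hσ hrq hy hiso hnd hU
      fun v hv => hfix v (hQP (hUQ hv)))
    omega
  · have h1 := Nat.le_of_dvd h0 (orderOf_dvd_finrank hy (perp_inv H hiso (inj_of_pow hy) hU hU)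
      fun v hv => hfix v (hQP (hUQ (hle hv))))
    have h2 : perpIn H U U = U := Submodule.eq_of_le_of_finrank_le hle (by omega)
    intro u hu v hv
    exact ((mem_perpIn H).1 (h2.symm ▸ hu)).2 v hv

/-- Several orthogonal pieces. -/
theorem exists_family (H : HermData σ h) (hF : Fintype.card F = q ^ 2) (hσ : ∀ a, σ a = a ^ q) (hrp : r ≠ p)
    (hy : ∀ v, (y ^ r) v = v) (hiso : ∀ u v, h (y u) (y v) = h u v) : ∀ (N : ℕ) {P : Submodule F V}, Nd h P →
      Inv y P → (∀ v ∈ P, y v = v → v = 0) → N * orderOf (-(q : ZMod r)) ≤ finrank F P →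
      ∃ f : Fin N → Submodule F V,
        (∀ j, f j ≤ P ∧ Nd h (f j) ∧ Inv y (f j) ∧ finrank F (f j) = orderOf (-(q : ZMod r))) ∧
        ∀ j k, j ≠ k → ∀ u ∈ f j, ∀ v ∈ f k, h u v = 0 := by
  intro N
  induction N with
  | zero => exact fun {P} _ _ _ _ => ⟨Fin.elim0, fun j => j.elim0, fun j => j.elim0⟩
  | succ N ih =>
    intro P hP hI hfix hle
    rw [add_mul, one_mul] at hle
    rcases Nat.eq_zero_or_pos (orderOf (-(q : ZMod r))) with h0 | h0
    · exact ⟨fun _ => ⊥, fun j => ⟨bot_le, nd_bot, fun v hv => by simp [(Submodule.mem_bot F).1 hv],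
        by rw [finrank_bot, h0]⟩, fun j k _ u hu v _ => by rw [(Submodule.mem_bot F).1 hu, H.zero_left]⟩
    obtain ⟨Q, hQP, hQ, hQi, hQd⟩ := exists_piece H hF hσ hrp hy hiso hP hI hfix fun e => by
      rw [e, finrank_bot] at hle; omega
    obtain ⟨hP', -, -, hdim⟩ := nd_split H hQ hP hQP
    obtain ⟨f, hf, hfo⟩ := ih hP' (perp_inv H hiso (inj_of_pow hy) hQi hI) (fun v hv => hfix v hv.1) (by omega)
    have hQf : ∀ k, ∀ u ∈ Q, ∀ v ∈ f k, h u v = 0 := fun k u hu v hv =>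
      H.eq_zero_comm.1 (((mem_perpIn H).1 ((hf k).1 hv)).2 u hu)
    refine ⟨Fin.cons Q f, fun j => ?_, fun j k hjk => ?_⟩
    · cases j using Fin.cases with
      | zero => exact ⟨hQP, hQ, hQi, hQd⟩
      | succ j => exact ⟨(hf j).1.trans inf_le_left, (hf j).2⟩
    · cases j using Fin.cases with
      | zero =>
        cases k using Fin.cases with
        | zero => exact absurd rfl hjk
        | succ k => simpa using hQf k
      | succ j =>
        cases k using Fin.cases with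
        | zero =>
          simp only [Fin.cons_zero, Fin.cons_succ]
          exact fun u hu v hv => H.eq_zero_comm.1 (hQf j v hv u hu)
        | succ k => simpa using hfo j k fun e => hjk (congrArg Fin.succ e)

omit [Finite F] in
theorem exists_factor_ker {U : Submodule F V} (hI : Inv y U) : ∀ (s : Multiset F[X]) {v : V}, v ∈ U → v ≠ 0 →
    aeval y s.prod v = 0 → ∃ g ∈ s, ∃ w ∈ U, w ≠ 0 ∧ aeval y g w = 0 := by
  intro s
  induction s using Multiset.induction with
  | empty => intro v _ hv0 hv; simp at hv; exact absurd hv hv0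
  | cons g s ih =>
    intro v hvU hv0 hv
    rw [Multiset.prod_cons, map_mul, Module.End.mul_apply] at hv
    by_cases h0 : aeval y s.prod v = 0
    · obtain ⟨g', hg', hw⟩ := ih hvU hv0 h0
      exact ⟨g', Multiset.mem_cons_of_mem hg', hw⟩
    · exact ⟨g, Multiset.mem_cons_self g s, _, hI.aeval _ v hvU, h0, hv⟩

/-- Totally isotropic pieces in large spaces. -/
theorem find_self (H : HermData σ h) (hF : Fintype.card F = q ^ 2) (hσ : ∀ a, σ a = a ^ q) (hrp : r ≠ p)
    (hy : ∀ v, (y ^ r) v = v) (hiso : ∀ u v, h (y u) (y v) = h u v)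
    (hc : orderOf (-(q : ZMod r)) = orderOf (Nat.card F : ZMod r)) {P : Submodule F V} (hP : Nd h P)
    (hI : Inv y P) (hfix : ∀ v ∈ P, y v = v → v = 0)
    (hbig : (r - 1) + orderOf (Nat.card F : ZMod r) ≤ finrank F P) :
    ∃ Q ≤ P, Nd h Q ∧ Inv y Q ∧ finrank F Q ≤ 2 * orderOf (Nat.card F : ZMod r) ∧
      ∃ U ≤ Q, Inv y U ∧ Ti h U ∧ finrank F U = orderOf (Nat.card F : ZMod r) := by
  classical
  have hr : r.Prime := Fact.out
  obtain ⟨hnd, hcard, hprod⟩ := SympTI.factors_facts (F := F) (r := r) hrp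
  rw [← Nat.card_eq_fintype_card] at hcard
  set fs := UniqueFactorizationMonoid.normalizedFactors (cyclotomic r F) with hfs
  set b := orderOf (Nat.card F : ZMod r) with hb
  obtain ⟨f, hf, hfo⟩ := exists_family H hF hσ hrp hy hiso (Multiset.card fs + 1) hP hI hfix
    (by rw [hc, add_mul, one_mul, hcard]; exact hbig)
  obtain ⟨R₀, hstep⟩ := step_pow (F := F) (p := p) hrp (x := y) (l := 1) one_ne_zero
    (fun v => by rw [hy, one_pow, one_smul])
  have hb0 := hstep.pos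
  have hg : ∀ j, ∃ g : {g // g ∈ fs.toFinset}, ∀ v ∈ f j, aeval y g.1 v = 0 := fun j => by
    obtain ⟨v, hv, hv0⟩ := Submodule.exists_mem_ne_zero_of_ne_bot (p := f j) fun e => by
      have := (hf j).2.2.2
      rw [e, finrank_bot, hc] at this; omega
    have hkill : aeval y fs.prod v = 0 := by
      rw [hprod]
      refine hfix _ ((hf j).1 ((hf j).2.2.1.aeval _ v hv)) ?_
      have h : aeval y ((Polynomial.X - 1 : F[X]) * cyclotomic r F) v = 0 := by
        rw [mul_comm, cyclotomic_prime_mul_X_sub_one, map_sub, map_pow, aeval_X, map_one,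
          LinearMap.sub_apply, hy, Module.End.one_apply, sub_self]
      rw [map_mul, Module.End.mul_apply, map_sub, aeval_X, map_one, LinearMap.sub_apply,
        Module.End.one_apply, sub_eq_zero] at h
      exact h
    obtain ⟨g, hgs, w, hw, hw0, hgw⟩ := exists_factor_ker (hf j).2.2.1 fs hv hv0 hkill
    refine ⟨⟨g, Multiset.mem_toFinset.2 hgs⟩, ?_⟩
    have hKi : Inv y (f j ⊓ LinearMap.ker (aeval y g)) := SympTI.aeval_inf_inv (hf j).2.2.1 g
    have hd := orderOf_dvd_finrank hy hKi fun v hv => hfix v ((hf j).1 hv.1)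
    have hpos : 0 < finrank F ↥(f j ⊓ LinearMap.ker (aeval y g)) := Nat.pos_of_ne_zero fun h0 => hw0
      ((Submodule.mem_bot F).1 (Submodule.finrank_eq_zero.1 h0 ▸ (⟨hw, hgw⟩ : w ∈ f j ⊓ LinearMap.ker (aeval y g))))
    have heq : f j ⊓ LinearMap.ker (aeval y g) = f j := Submodule.eq_of_le_of_finrank_le inf_le_left (by
      rw [(hf j).2.2.2, hc]; exact Nat.le_of_dvd hpos hd)
    intro v hv
    exact LinearMap.mem_ker.1 (heq.symm ▸ hv : v ∈ f j ⊓ LinearMap.ker (aeval y g)).2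
  choose G hG using hg
  obtain ⟨j, k, hjk, hGjk⟩ := Fintype.exists_ne_map_eq_of_card_lt G (by
    rw [Fintype.card_coe, Fintype.card_fin]; exact Nat.lt_succ_of_le (Multiset.toFinset_card_le fs))
  obtain ⟨hgm, hgi, hgd⟩ := factor_cyclotomic hrp (Multiset.mem_toFinset.1 (G j).2)
  obtain ⟨hjP, hjn, hji, hjd⟩ := hf j
  obtain ⟨hkP, hkn, hki, hkd⟩ := hf k
  obtain ⟨U, hU, hUi, hUt, hUd⟩ := pair_ti H hF hσ hiso hjn hkn hji hki (hfo j k hjk) hgm hgi
    (by rw [hjd, hc, hgd]) (by rw [hkd, hc, hgd]) (hG j) (by rw [hGjk]; exact hG k)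
  refine ⟨f j ⊔ f k, sup_le hjP hkP, nd_sup H hjn hkn (hfo j k hjk), hji.sup hki, ?_, U, hU, hUi, hUt, by rw [hUd, hgd]⟩
  rw [finrank_sup_orth H hjn (hfo j k hjk), hjd, hkd, hc]
  omega

end Finite

end Cfsg.Agent.Lib.Elusive.UnitInv
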