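import Cfsg.Agent.Lib.Elusive.UnitSim
import Cfsg.Agent.Lib.Elusive.NotSimilitude
import Cfsg.Agent.Lib.Classical.Order
import Cfsg.Agent.Lib.Classical.Unitary

/-!
Elements preserving no unitary form up to a scalar, and the primes dividing the index of a unitary group.
-/

set_option autoImplicit false

namespace Cfsg.Agent.Lib.Elusive.UnitTests

open Module Polynomial
open scoped Matrix
open Cfsg.Agent.Lib.Classical
open Cfsg.Agent.Lib.Elusive

variable {F : Type*} [Field F] [Fintype F] {q n : ℕ}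

theorem neg_one_ne {r : ℕ} [hr : Fact r.Prime] (hr2 : r ≠ 2) : (-1 : ZMod r) ≠ 1 :=
  haveI : Fact (2 < r) := ⟨by have := hr.out.two_le; omega⟩
  ZMod.neg_one_ne_one

/-- The primes dividing the index of a unitary group in `SL_n`. -/
theorem index_cases {r : ℕ} [Fact r.Prime] (hF : Fintype.card F = q ^ 2) (hrq : ¬ r ∣ q) (hn : 1 ≤ n)
    {f : (Fin n → F) → (Fin n → F) → F} (hf : Cfsg.Geo.IsUnitaryFormPow q f)
    (hr : r ∣ (Cfsg.Geo.similarityGroup f).relIndex (Cfsg.Geo.specialLinear (Fin n) F)) :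
    ∃ j, 2 ≤ j ∧ j ≤ n ∧ (-(q : ZMod r)) ^ j = -1 := by
  classical
  haveI : Nonempty (Fin n) := ⟨⟨0, by omega⟩⟩
  have hq2 := Herm.two_le_q hF
  have hrp : Prime r := Nat.prime_iff.1 Fact.out
  set H := Cfsg.Geo.similarityGroup f
  set S := Cfsg.Geo.specialLinear (Fin n) F
  obtain ⟨e, he⟩ := UnitSim.exists_std hF hf
  have hSU : Nat.card (Cfsg.SU n F q) ∣ Nat.card ↥(H ⊓ S) := by
    let ψ : GL (Fin n) F →* GL (Fin n) F :=
      Units.map
        { toFun := fun M => LinearMap.toMatrix' (e.conj (Matrix.toLin' M))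
          map_one' := Matrix.toLin'.injective (LinearMap.ext fun v => by simp [LinearEquiv.conj_apply])
          map_mul' := fun M N => Matrix.toLin'.injective (LinearMap.ext fun v => by
            simp [LinearEquiv.conj_apply, Matrix.mulVec_mulVec, ← Matrix.toLin'_apply, Matrix.toLin'_mul]) }
    have hψ : Function.Injective ψ := fun M N h => Units.ext (Matrix.toLin'.injective
      (e.conj.injective (LinearMap.toMatrix'.injective (congrArg Units.val h))))
    have hmem : ∀ g : Cfsg.SU n F q, ψ (Matrix.SpecialLinearGroup.toGL g.1) ∈ H ⊓ S := fun g => by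
      refine ⟨⟨1, fun u v => ?_⟩, MonoidHom.mem_ker.2 (Units.ext ?_)⟩
      · show f (LinearMap.toMatrix' (e.conj (Matrix.toLin' (g.1 : Matrix (Fin n) (Fin n) F))) *ᵥ u)
          (LinearMap.toMatrix' (e.conj (Matrix.toLin' (g.1 : Matrix (Fin n) (Fin n) F))) *ᵥ v) = _
        rw [← Matrix.toLin'_apply, ← Matrix.toLin'_apply, Matrix.toLin'_toMatrix', LinearEquiv.conj_apply,
          LinearMap.comp_apply, LinearMap.comp_apply, LinearMap.comp_apply, LinearMap.comp_apply,
          LinearEquiv.coe_coe, LinearEquiv.coe_coe, he, Matrix.toLin'_apply, Matrix.toLin'_apply,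
          Herm.mem_SU.1 g.2, ← he, Units.val_one, one_mul, e.apply_symm_apply, e.apply_symm_apply]
      · show Matrix.det (LinearMap.toMatrix' (e.conj (Matrix.toLin' (g.1 : Matrix (Fin n) (Fin n) F)))) = 1
        rw [LinearMap.det_toMatrix', LinearEquiv.conj_apply, LinearMap.comp_assoc, LinearMap.det_conj,
          LinearMap.det_toLin', g.1.2]
    exact Subgroup.card_dvd_of_injective
      ((ψ.comp (Matrix.SpecialLinearGroup.toGL.comp (Cfsg.SU n F q).subtype)).codRestrict _ hmem)
      fun a b h => Subtype.ext (toGL_injective (hψ (congrArg Subtype.val h)))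
  have h1 : r * Nat.card (Cfsg.SU n F q) ∣ Nat.card S := by
    have h3 := (H.subgroupOf S).card_mul_index
    rw [← Subgroup.inf_subgroupOf_right, Nat.card_congr (Subgroup.subgroupOfEquivOfLe inf_le_right).toEquiv,
      show ((H ⊓ S).subgroupOf S).index = H.relIndex S by rw [Subgroup.inf_subgroupOf_right]; rfl] at h3
    rw [← h3, mul_comm r]
    exact Nat.mul_dvd_mul hSU hr
  have hGL : Nat.card (GL (Fin n) F) = Nat.card Fˣ * Nat.card S := by
    rw [card_GL_eq_units_mul_card_SL, ← card_det_ker]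
    rfl
  have h2 : r * ((q - 1) * Nat.card (Cfsg.GU n F q)) ∣ Nat.card (GL (Fin n) F) := by
    rw [hGL, Herm.card_units hF, ← Herm.card_SU hF hn,
      show r * ((q - 1) * ((q + 1) * Nat.card (Cfsg.SU n F q))) =
        (q + 1) * (q - 1) * (r * Nat.card (Cfsg.SU n F q)) by ring]
    exact Nat.mul_dvd_mul_left _ h1
  let a : ℕ → ℕ := fun i => if Even i then q ^ (i + 1) + 1 else q ^ (i + 1) - 1
  let b : ℕ → ℕ := fun i => if Even i then q ^ (i + 1) - 1 else q ^ (i + 1) + 1
  have hab : ∀ i, (q ^ 2) ^ (i + 1) - 1 = a i * b i := fun i => by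
    rw [← pow_mul, mul_comm, pow_mul]
    simp only [a, b]
    split_ifs
    · rw [← Nat.sq_sub_sq, one_pow]
    · rw [mul_comm, ← Nat.sq_sub_sq, one_pow]
  have hapos : 0 < ∏ i ∈ Finset.range n, a i := Finset.prod_pos fun i _ => by
    simp only [a]
    split_ifs
    · omega
    · exact Nat.sub_pos_of_lt (Nat.one_lt_pow (by omega) (by omega))
  have hsplit : ∏ i ∈ Finset.range n, ((q ^ 2) ^ n - (q ^ 2) ^ i) =
      (q ^ 2) ^ (∑ i ∈ Finset.range n, i) * ∏ i ∈ Finset.range n, (a i * b i) := by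
    rw [← Finset.prod_pow_eq_pow_sum, Finset.prod_congr rfl (fun i _ => (hab i).symm),
      ← Finset.prod_range_reflect (fun j => (q ^ 2) ^ (j + 1) - 1) n, ← Finset.prod_mul_distrib]
    refine Finset.prod_congr rfl fun i hi => ?_
    rw [Finset.mem_range] at hi
    rw [Nat.mul_sub, mul_one, ← pow_add, show i + (n - 1 - i + 1) = n by omega]
  rw [Matrix.card_GL_field, Fin.prod_univ_eq_prod_range (fun i => Fintype.card F ^ n - Fintype.card F ^ i) n,
    hF, hsplit, Herm.card_GU hF, Finset.prod_mul_distrib] at h2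
  obtain ⟨m, rfl⟩ : ∃ m, n = m + 1 := ⟨n - 1, by omega⟩
  have hb0 : b 0 = q - 1 := by simp [b]
  rw [Finset.prod_range_succ' b, hb0] at h2
  have h3 : r * ((q - 1) * ∏ i ∈ Finset.range (m + 1), a i) ∣
      ((q ^ 2) ^ (∑ i ∈ Finset.range (m + 1), i) * ∏ i ∈ Finset.range m, b (i + 1)) *
        ((q - 1) * ∏ i ∈ Finset.range (m + 1), a i) :=
    (Nat.mul_dvd_mul_left r (Nat.mul_dvd_mul_left _ (dvd_mul_left _ _))).trans (h2.trans (dvd_of_eq (by ring)))
  have h4 := Nat.dvd_of_mul_dvd_mul_right (Nat.mul_pos (by omega) hapos) h3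
  rcases hrp.dvd_mul.1 h4 with h | h
  · exact absurd (hrp.dvd_of_dvd_pow (hrp.dvd_of_dvd_pow h)) hrq
  obtain ⟨i, hi, hdvd⟩ := (Prime.dvd_finsetProd_iff hrp _).1 h
  rw [Finset.mem_range] at hi
  refine ⟨i + 2, by omega, by omega, ?_⟩
  rw [← ZMod.natCast_eq_zero_iff] at hdvd
  simp only [b] at hdvd
  split_ifs at hdvd with hev
  · rw [Nat.cast_sub (Nat.one_le_pow _ _ (by omega)), Nat.cast_pow, Nat.cast_one, sub_eq_zero] at hdvd
    rw [show i + 2 = i + 1 + 1 from rfl, Odd.neg_pow hev.add_one, hdvd]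
  · push_cast at hdvd
    rw [show i + 2 = i + 1 + 1 from rfl, Even.neg_pow (show Even (i + 1 + 1) from (Nat.not_even_iff_odd.1 hev).add_one)]
    linear_combination hdvd

/-- An isometry `x` of a unitary form has no eigen-polynomial `g` with `ḡ (x⁻¹)` onto. -/
theorem not_isometry (hF : Fintype.card F = q ^ 2) {R : (Fin n → F) → (Fin n → F) → F}
    (hR : Cfsg.Geo.IsUnitaryFormPow q R) {x y : Module.End F (Fin n → F)}
    (hinv : ∀ u v, R (x u) v = R u (y v)) {g : F[X]}
    (hsurj : Function.Surjective (aeval y (g.map (Cfsg.Agent.Lib.UnitaryConj.qHom hF))))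
    {u : Fin n → F} (hu : u ≠ 0) (hgu : aeval x g u = 0) : False := by
  have hpow : ∀ (j : ℕ) u v, R ((x ^ j) u) v = R u ((y ^ j) v) := by
    intro j
    induction j with
    | zero => intro u v; rfl
    | succ j ih =>
      intro u v
      rw [pow_succ, pow_succ', Module.End.mul_apply, Module.End.mul_apply, ih, hinv]
  have hadj : ∀ (g : F[X]) (u v : Fin n → F),
      R (aeval x g u) v = R u (aeval y (g.map (Cfsg.Agent.Lib.UnitaryConj.qHom hF)) v) := by
    intro g
    clear hsurj hgu
    induction g using Polynomial.induction_on' with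
    | add a b ha hb =>
      intro u v
      simp only [Polynomial.map_add, map_add, LinearMap.add_apply, hR.add_left, UnitSim.add_right hF hR, ha, hb]
    | monomial j a =>
      intro u v
      simp only [Polynomial.map_monomial, aeval_monomial, Module.End.mul_apply, Module.algebraMap_end_apply,
        hR.smul_left, UnitSim.smul_right hR, hpow]
      rw [show Cfsg.Agent.Lib.UnitaryConj.qHom hF a = a ^ q from rfl, Herm.conj_conj hF]
  refine hu (UnitSim.sep hR fun v => ?_)
  obtain ⟨w, rfl⟩ := hsurj v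
  rw [← hadj, hgu, UnitSim.zero_left hR]

/-- An element of order `r` preserving no unitary form. -/
theorem exists_elt [DecidableEq F] {r : ℕ} [Fact r.Prime] {p : ℕ} [Fact p.Prime] [CharP F p] (hrp : r ≠ p)
    (hr2 : r ≠ 2) (hF : Fintype.card F = q ^ 2) (hi : 2 ≤ orderOf (Fintype.card F : ZMod r))
    (hn : orderOf (Fintype.card F : ZMod r) ≤ n) {j : ℕ} (hj : (-(q : ZMod r)) ^ j = -1) :
    ∃ A : Matrix.SpecialLinearGroup (Fin n) F,
      (∀ v, ((Matrix.toLin' (A : Matrix (Fin n) (Fin n) F)) ^ r) v = v) ∧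
      ∀ R : (Fin n → F) → (Fin n → F) → F, Cfsg.Geo.IsUnitaryFormPow q R →
        ¬ ∀ u v, R (Matrix.toLin' (A : Matrix (Fin n) (Fin n) F) u)
          (Matrix.toLin' (A : Matrix (Fin n) (Fin n) F) v) = R u v := by
  classical
  have hr : r.Prime := Fact.out
  obtain ⟨g, hg⟩ := UniqueFactorizationMonoid.exists_mem_normalizedFactors (cyclotomic_ne_zero r F)
    fun hu => (degree_cyclotomic_pos r F hr.pos).ne' (degree_eq_zero_of_isUnit hu)
  obtain ⟨hgm, hirr, hdeg⟩ := factor_cyclotomic hrp hg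
  rw [Nat.card_eq_fintype_card] at hdeg
  haveI : Fact (Irreducible g) := ⟨hirr⟩
  let pb := AdjoinRoot.powerBasis' hgm
  haveI : FiniteDimensional F (AdjoinRoot g) := pb.finite
  haveI : Finite (AdjoinRoot g) := Module.finite_of_finite F
  set ζ := AdjoinRoot.root g with hζ
  have hfinK : finrank F (AdjoinRoot g) = g.natDegree := by
    rw [pb.finrank, AdjoinRoot.powerBasis'_dim]
  have hζr : ζ ^ r = 1 := by
    have hdvd : g ∣ X ^ r - 1 :=
      (UniqueFactorizationMonoid.dvd_of_mem_normalizedFactors hg).trans (cyclotomic.dvd_X_pow_sub_one r F)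
    have h := AdjoinRoot.mk_eq_zero.2 hdvd
    simpa [sub_eq_zero] using h
  have hg1 : eval 1 g ≠ 0 := fun hev => by
    have hd := eq_of_monic_of_associated hgm (monic_X_sub_C 1)
      ((irreducible_X_sub_C 1).associated_of_dvd hirr (dvd_iff_isRoot.2 hev)).symm
    rw [hd, natDegree_X_sub_C] at hdeg
    omega
  have hζg : aeval ζ g = 0 := by rw [AdjoinRoot.aeval_eq]; exact AdjoinRoot.mk_self
  have hζ1 : ζ ≠ 1 := fun h => by
    rw [h, ← map_one (algebraMap F (AdjoinRoot g)), aeval_algebraMap_apply, map_eq_zero] at hζg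
    exact hg1 hζg
  have hζo : orderOf ζ = r := orderOf_eq_prime hζr hζ1
  have hζ0 : ζ ≠ 0 := fun h => by rw [h, zero_pow hr.ne_zero] at hζr; exact zero_ne_one hζr
  have hζinv : ζ ^ (r - 1) = ζ⁻¹ := eq_inv_of_mul_eq_one_left (by
    rw [← pow_succ, Nat.sub_add_cancel hr.one_le, hζr])
  set σ := Cfsg.Agent.Lib.UnitaryConj.qHom hF
  have hginv : aeval (ζ ^ (r - 1)) (g.map σ) ≠ 0 := fun h => by
    rw [hζinv] at h
    obtain ⟨p', k, hp', hc, -, hqk⟩ := Cfsg.Agent.Lib.UnitaryConj.q_eq_pow hF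
    haveI : Fact p'.Prime := ⟨hp'⟩
    haveI : CharP (AdjoinRoot g) p' := charP_of_injective_algebraMap (algebraMap F (AdjoinRoot g)).injective p'
    let Φ : AdjoinRoot g →+* AdjoinRoot g := iterateFrobenius (AdjoinRoot g) p' k
    have hΦ : ∀ x, Φ x = x ^ q := fun x => by rw [iterateFrobenius_def, hqk]
    have hcomp : (Φ.comp (algebraMap F (AdjoinRoot g))).comp σ = algebraMap F (AdjoinRoot g) := RingHom.ext fun x => by
      rw [RingHom.comp_apply, RingHom.comp_apply, hΦ, ← map_pow]
      exact congrArg _ (Herm.conj_conj hF x)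
    have h' : aeval (Φ ζ⁻¹) g = 0 := by
      have := congrArg Φ h
      rw [map_zero, aeval_def, Polynomial.hom_eval₂, Polynomial.eval₂_map, hcomp] at this
      exact this
    let ρ : AdjoinRoot g →ₐ[F] AdjoinRoot g := AdjoinRoot.liftAlgHom g (Algebra.ofId F _) (Φ ζ⁻¹) h'
    have hρ : ρ ζ = Φ ζ⁻¹ := AdjoinRoot.liftAlgHom_root _ _ _ _
    obtain ⟨⟨t, _⟩, ht⟩ := (FiniteField.bijective_frobeniusAlgHom_pow F (AdjoinRoot g)).2 ρ
    have hfr : ∀ (t : ℕ) (x : AdjoinRoot g), (FiniteField.frobeniusAlgHom F (AdjoinRoot g) ^ t) x =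
        x ^ (Fintype.card F ^ t) := by
      intro t
      induction t with
      | zero => intro x; simp
      | succ t ih => intro x; rw [pow_succ', AlgHom.mul_apply, ih, FiniteField.frobeniusAlgHom_apply,
          ← pow_mul, ← pow_succ]
    have h5 : ζ ^ (Fintype.card F ^ t + q) = 1 := by
      have := DFunLike.congr_fun ht ζ
      simp only [hfr, hρ, hΦ, inv_pow] at this
      rw [pow_add, this, inv_mul_cancel₀ (pow_ne_zero _ hζ0)]
    have h6 := (ZMod.natCast_eq_zero_iff _ _).2 (hζo ▸ orderOf_dvd_of_pow_eq_one h5)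
    push_cast [hF] at h6
    set Q := (q : ZMod r)
    have hQ0 : -Q ≠ 0 := fun h0 => by
      rcases Nat.eq_zero_or_pos j with rfl | hj0
      · rw [pow_zero] at hj
        exact neg_one_ne hr2 hj.symm
      · rw [h0, zero_pow hj0.ne'] at hj
        exact one_ne_zero (neg_eq_zero.1 hj.symm)
    have h7 : (-Q) ^ (2 * t) = -Q := by
      rw [pow_mul, neg_pow_two]
      linear_combination h6
    have hne : (-1 : ZMod r) ≠ 1 := neg_one_ne hr2
    rcases Nat.eq_zero_or_pos t with rfl | ht0
    · rw [mul_zero, pow_zero] at h7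
      rw [← h7, one_pow] at hj
      exact hne hj.symm
    · have h8 : (-Q) ^ (2 * t - 1) = 1 := mul_right_cancel₀ hQ0 (by
        rw [← pow_succ, Nat.sub_add_cancel (by omega), h7, one_mul])
      have h9 : ((-Q) ^ j) ^ (2 * t - 1) = 1 := by rw [← pow_mul, mul_comm, pow_mul, h8, one_pow]
      rw [hj, (Nat.Even.sub_odd (by omega) (even_two_mul t) odd_one).neg_one_pow] at h9
      exact hne h9
  set m := n - g.natDegree with hm
  let W := Fin m → F
  let Φ : AdjoinRoot g × F →ₐ[F] Module.End F (AdjoinRoot g × W) :=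
    (LinearMap.prodMapAlgHom F (AdjoinRoot g) W).comp
      (((Algebra.lsmul F F (AdjoinRoot g)).comp (AlgHom.fst F _ _)).prod
        ((Algebra.lsmul F F W).comp (AlgHom.snd F _ _)))
  have hΦ : ∀ (a : AdjoinRoot g × F) v, Φ a v = (a.1 * v.1, a.2 • v.2) := fun a v => rfl
  set x := Φ (ζ, 1) with hx
  have hxr : x ^ r = 1 := by rw [hx, ← map_pow, Prod.pow_mk, hζr, one_pow]; exact map_one Φ
  have hfin : finrank F (AdjoinRoot g × W) = n := by
    rw [Module.finrank_prod, hfinK, finrank_fin_fun, hm]; omega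
  have hdet : LinearMap.det x = 1 := by
    have hdr : LinearMap.det x ^ r = 1 := by rw [← map_pow, hxr, map_one]
    have hnd : ¬ r ∣ Fintype.card F - 1 := fun h => by
      rw [dvd_card_sub_one_iff.1 h] at hi; omega
    have hne : LinearMap.det x ≠ 0 := fun h => by
      rw [h, zero_pow hr.ne_zero] at hdr; exact zero_ne_one hdr
    have h1 : LinearMap.det x ^ (Fintype.card F - 1) = 1 := FiniteField.pow_card_sub_one_eq_one _ hne
    simpa [(hr.coprime_iff_not_dvd.2 hnd).gcd_eq_one] using pow_gcd_eq_one.2 ⟨hdr, h1⟩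
  obtain ⟨e, A, hA⟩ := exists_sl hfin hdet
  refine ⟨A, fun v => by rw [hA, pow_eq_of_conj, hxr, Module.End.one_apply, e.apply_symm_apply],
    fun R hR hinv => ?_⟩
  let Ψ : AdjoinRoot g × F →ₐ[F] Module.End F (Fin n → F) := (e.conjAlgEquiv F).toAlgHom.comp Φ
  have hΨ : ∀ (a : AdjoinRoot g × F) v, Ψ a v = e (Φ a (e.symm v)) := fun a v => rfl
  set X := Matrix.toLin' (A : Matrix (Fin n) (Fin n) F) with hX
  have hXΨ : X = Ψ (ζ, 1) := LinearMap.ext fun v => by rw [hA, hΨ]; rfl
  have hXr : X ^ r = 1 := by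
    rw [hXΨ, ← map_pow, Prod.pow_mk, hζr, one_pow]
    exact map_one Ψ
  refine not_isometry hF hR (x := X) (y := X ^ (r - 1)) (g := g) (fun u v => ?_) ?_
    (u := e ((1 : AdjoinRoot g), 0)) (fun h => one_ne_zero
      (congrArg Prod.fst (e.injective (h.trans (map_zero e).symm)))) ?_
  · conv_lhs => rw [show v = X ((X ^ (r - 1)) v) by
      rw [← Module.End.mul_apply, ← pow_succ', Nat.sub_add_cancel hr.one_le, hXr, Module.End.one_apply]]
    rw [hinv]
  · rw [hXΨ, ← map_pow, aeval_algHom_apply]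
    refine LinearMap.injective_iff_surjective.1 ((injective_iff_map_eq_zero _).2 fun v hv => ?_)
    rw [hΨ, LinearEquiv.map_eq_zero_iff, hΦ, Prod.pow_mk, one_pow, aeval_prod_apply] at hv
    have h1 : e.symm v = 0 := by
      refine Prod.ext ((mul_eq_zero.1 (congrArg Prod.fst hv)).resolve_left hginv) ?_
      refine (smul_eq_zero.1 (congrArg Prod.snd hv)).resolve_left fun h1 => hg1 ?_
      have h1' : eval 1 (g.map σ) = 0 := by simpa [Polynomial.coe_aeval_eq_eval] using h1
      rw [Polynomial.eval_one_map, map_eq_zero] at h1'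
      exact h1'
    simpa using congrArg e h1
  · rw [hXΨ, aeval_algHom_apply, hΨ, e.symm_apply_apply, hΦ, aeval_prod_apply]
    rw [LinearEquiv.map_eq_zero_iff]
    exact Prod.ext (by simp [hζg]) (by simp)



/-- A similitude scaling a large set of basis vectors by `s` has its eigenvalues pairing up. -/
theorem diag_pairs (hF : Fintype.card F = q ^ 2) {R : (Fin n → F) → (Fin n → F) → F}
    (hR : Cfsg.Geo.IsUnitaryFormPow q R) {d : Fin n → F} {c : F}
    (hd : ∀ i j, d i * d j ^ q * R (Pi.single i 1) (Pi.single j 1) = c * R (Pi.single i 1) (Pi.single j 1))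
    {S : Finset (Fin n)} {s : F} (hS : ∀ j ∈ S, d j = s) (hcard : n < 2 * S.card) :
    ∀ i, ∃ j, d i * d j ^ q = s * s ^ q := by
  classical
  have hexp : ∀ (u v : Fin n → F), R u v = ∑ i, u i * R (Pi.single i 1) v := fun u v => by
    conv_lhs => rw [pi_eq_sum_univ' u]
    exact UnitSim.sum_left hR _ _ _ _
  have hc : c = s * s ^ q := by
    by_contra hne
    have hzero : ∀ i ∈ S, ∀ j ∈ S, R (Pi.single i 1) (Pi.single j 1) = 0 := fun i hi j hj => by
      have := hd i j
      rw [hS i hi, hS j hj, ← sub_eq_zero, ← sub_mul] at this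
      exact (mul_eq_zero.1 this).resolve_left (sub_ne_zero.2 (Ne.symm hne))
    have hli : LinearIndependent F fun i : S => fun j : {j // j ∉ S} => R (Pi.single (i : Fin n) 1) (Pi.single j.1 1) := by
      refine Fintype.linearIndependent_iff.2 fun a ha i => ?_
      have h0 : ∑ i : S, a i • (Pi.single (i : Fin n) (1 : F) : Fin n → F) = 0 := UnitSim.sep hR fun v => by
        rw [pi_eq_sum_univ' v, UnitSim.sum_right hF hR]
        refine Finset.sum_eq_zero fun j _ => ?_
        rw [UnitSim.sum_left hR]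
        refine mul_eq_zero_of_right _ ?_
        by_cases hj : j ∈ S
        · exact Finset.sum_eq_zero fun i _ => by rw [hzero _ i.2 _ hj, mul_zero]
        · simpa using congrFun ha ⟨j, hj⟩
      have := congrFun h0 i
      rw [Finset.sum_apply, Finset.sum_eq_single i (fun b _ hb => by
        simp [Pi.single_eq_of_ne (Subtype.coe_injective.ne hb.symm)]) (by simp)] at this
      simpa using this
    have h1 := hli.fintype_card_le_finrank
    rw [Fintype.card_coe, finrank_pi, Fintype.card_subtype_compl, Fintype.card_fin, Fintype.card_coe] at h1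
    omega
  intro i
  by_contra hcon
  push Not at hcon
  have h0 := UnitSim.sep hR (u := Pi.single i 1) fun v => by
    rw [pi_eq_sum_univ' v, UnitSim.sum_right hF hR]
    refine Finset.sum_eq_zero fun j _ => mul_eq_zero_of_right _ ?_
    have := hd i j
    rw [hc, ← sub_eq_zero, ← sub_mul] at this
    exact (mul_eq_zero.1 this).resolve_left (sub_ne_zero.2 (hcon j))
  simpa using congrFun h0 i

end Cfsg.Agent.Lib.Elusive.UnitTests
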